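import Cfsg.Agent.H950.UHerm
import Cfsg.Agent.S0277
import Cfsg.Agent.H950.LinMain
import Cfsg.Agent.LieClassical.HermBasic
import Cfsg.Statements.S5953
set_option linter.all false

-- part: H950/UDsum
section
/-!
# Orthogonal direct sums of isometries of the standard Hermitian form; elements of prime order of `GU_c(q)`
-/

set_option autoImplicit false
set_option linter.unusedSectionVars false

namespace Cfsg.Agent.H950

open Cfsg Module Polynomial Cfsg.Agent.H951 Cfsg.Agent.LieClassical.HermBasic Cfsg.Agent.ClassicalGeometry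

section DSum

variable {F : Type*} [Field F] {k l q : ℕ}

/-- Splitting off the first `k` coordinates. -/
def spl (F : Type*) [Field F] (k l : ℕ) : (Fin (k + l) → F) ≃ₗ[F] (Fin k → F) × (Fin l → F) :=
  (LinearEquiv.funCongrLeft F F finSumFinEquiv).trans (LinearEquiv.sumArrowLequivProdArrow (Fin k) (Fin l) F F)

lemma spl_fst (v : Fin (k + l) → F) (i : Fin k) : (spl F k l v).1 i = v (Fin.castAdd l i) := rfl

lemma spl_snd (v : Fin (k + l) → F) (i : Fin l) : (spl F k l v).2 i = v (Fin.natAdd k i) := rfl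

/-- The direct sum of two operators. -/
def dsum (y : Module.End F (Fin k → F)) (z : Module.End F (Fin l → F)) : Module.End F (Fin (k + l) → F) :=
  (spl F k l).symm.conj (LinearMap.prodMap y z)

variable {y : Module.End F (Fin k → F)} {z : Module.End F (Fin l → F)}

lemma spl_dsum (v : Fin (k + l) → F) : spl F k l (dsum y z v) = (y (spl F k l v).1, z (spl F k l v).2) := by
  rw [dsum, LinearEquiv.conj_apply_apply, LinearEquiv.apply_symm_apply]
  rfl

lemma dsum_eq_iff {w : Module.End F (Fin (k + l) → F)} :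
    w = dsum y z ↔ ∀ v, spl F k l (w v) = (y (spl F k l v).1, z (spl F k l v).2) := by
  constructor
  · rintro rfl v; exact spl_dsum v
  · intro h
    apply LinearMap.ext
    intro v
    apply (spl F k l).injective
    rw [h, spl_dsum]

lemma dsum_pow (j : ℕ) : dsum y z ^ j = dsum (y ^ j) (z ^ j) := by
  induction j with
  | zero => rw [pow_zero, dsum_eq_iff]; intro v; simp
  | succ j ih =>
    rw [pow_succ, ih, dsum_eq_iff]
    intro v
    rw [Module.End.mul_apply, spl_dsum, spl_dsum, pow_succ, pow_succ, Module.End.mul_apply, Module.End.mul_apply]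

lemma dsum_smul_one (c : F) : dsum (c • (1 : Module.End F (Fin k → F))) (c • (1 : Module.End F (Fin l → F))) = c • 1 := by
  symm
  rw [dsum_eq_iff]
  intro v
  rw [LinearMap.smul_apply, map_smul]
  rfl

lemma dsum_zero : dsum (0 : Module.End F (Fin k → F)) (0 : Module.End F (Fin l → F)) = 0 := by
  symm
  rw [dsum_eq_iff]
  intro v
  rw [LinearMap.zero_apply, map_zero]
  rfl

lemma aeval_dsum (P : F[X]) : aeval (dsum y z) P = dsum (aeval y P) (aeval z P) := by
  rw [dsum_eq_iff]
  intro v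
  induction P using Polynomial.induction_on' with
  | add p q hp hq => simp only [map_add, LinearMap.add_apply, hp, hq]; rfl
  | monomial n a =>
    rw [aeval_monomial, aeval_monomial, aeval_monomial, Module.End.mul_apply, Module.End.mul_apply,
      Module.End.mul_apply, Module.algebraMap_end_apply, Module.algebraMap_end_apply, Module.algebraMap_end_apply,
      dsum_pow, map_smul, spl_dsum]
    rfl

lemma det_dsum : LinearMap.det (dsum y z) = LinearMap.det y * LinearMap.det z := by
  rw [← LinearMap.det_prodMap, ← LinearMap.det_conj (LinearMap.prodMap y z) (spl F k l).symm]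
  rfl

lemma herm_spl (u v : Fin (k + l) → F) : hermForm (k + l) F q u v =
    hermForm k F q (spl F k l u).1 (spl F k l v).1 + hermForm l F q (spl F k l u).2 (spl F k l v).2 := by
  rw [herm_def, herm_def, herm_def, Fin.sum_univ_add]
  rfl

lemma isom_dsum (hy : Isom (hermForm k F q) y) (hz : Isom (hermForm l F q) z) :
    Isom (hermForm (k + l) F q) (dsum y z) := by
  intro u v
  rw [herm_spl, spl_dsum, spl_dsum, hy, hz, ← herm_spl]

lemma mem_fx_dsum {v : Fin (k + l) → F} :
    v ∈ fx (dsum y z) ↔ (spl F k l v).1 ∈ fx y ∧ (spl F k l v).2 ∈ fx z := by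
  rw [mem_fx, mem_fx, mem_fx, ← (spl F k l).injective.eq_iff, spl_dsum, Prod.ext_iff]

lemma finrank_fx_dsum : finrank F (fx (dsum y z)) = finrank F (fx y) + finrank F (fx z) := by
  have e : fx (dsum y z) ≃ₗ[F] fx y × fx z :=
    { toFun := fun v => (⟨(spl F k l v.1).1, (mem_fx_dsum.1 v.2).1⟩, ⟨(spl F k l v.1).2, (mem_fx_dsum.1 v.2).2⟩)
      map_add' := fun u v => by
        refine Prod.ext (Subtype.ext ?_) (Subtype.ext ?_) <;> rfl
      map_smul' := fun c v => by
        refine Prod.ext (Subtype.ext ?_) (Subtype.ext ?_) <;> rfl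
      invFun := fun a => ⟨(spl F k l).symm (a.1.1, a.2.1), mem_fx_dsum.2 (by
        rw [LinearEquiv.apply_symm_apply]; exact ⟨a.1.2, a.2.2⟩)⟩
      left_inv := fun v => Subtype.ext ((spl F k l).symm_apply_apply v.1)
      right_inv := fun a => by
        refine Prod.ext (Subtype.ext ?_) (Subtype.ext ?_)
        · exact congrArg Prod.fst ((spl F k l).apply_symm_apply (a.1.1, a.2.1))
        · exact congrArg Prod.snd ((spl F k l).apply_symm_apply (a.1.1, a.2.1)) }
  rw [e.finrank_eq, finrank_prod]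

/-- No nonzero totally isotropic invariant subspace. -/
def NT (q : ℕ) {n : ℕ} (y : Module.End F (Fin n → F)) : Prop :=
  ∀ W : Submodule F (Fin n → F), Inv y W → TI (hermForm n F q) W → W = ⊥

lemma split_mem {P Q : F[X]} (hPQ : IsCoprime P Q) (hP : aeval y P = 0) (hQ : aeval z Q = 0)
    {W : Submodule F (Fin (k + l) → F)} (hW : Inv (dsum y z) W) {w : Fin (k + l) → F} (hw : w ∈ W) :
    (spl F k l).symm ((spl F k l w).1, 0) ∈ W ∧ (spl F k l).symm (0, (spl F k l w).2) ∈ W := by
  obtain ⟨a, b, hab⟩ := hPQ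
  have h1 := hW.aeval (b * Q) w hw
  have h2 := hW.aeval (a * P) w hw
  have e1 : aeval y (b * Q) = 1 := by
    have := congrArg (aeval y) hab
    rwa [map_add, map_mul _ a P, hP, mul_zero, zero_add, map_one] at this
  have e2 : aeval z (a * P) = 1 := by
    have := congrArg (aeval z) hab
    rwa [map_add, map_mul _ b Q, hQ, mul_zero, add_zero, map_one] at this
  have e3 : aeval z (b * Q) = 0 := by rw [map_mul, hQ, mul_zero]
  have e4 : aeval y (a * P) = 0 := by rw [map_mul, hP, mul_zero]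
  constructor
  · convert h1 using 1
    rw [LinearEquiv.symm_apply_eq, aeval_dsum, spl_dsum, e1, e3]
    rfl
  · convert h2 using 1
    rw [LinearEquiv.symm_apply_eq, aeval_dsum, spl_dsum, e2, e4]
    rfl

lemma fst_eq_zero (hy : NT q y) {P Q : F[X]} (hPQ : IsCoprime P Q) (hP : aeval y P = 0) (hQ : aeval z Q = 0)
    {W : Submodule F (Fin (k + l) → F)} (hW : Inv (dsum y z) W) (hWti : TI (hermForm (k + l) F q) W)
    {w : Fin (k + l) → F} (hw : w ∈ W) : (spl F k l w).1 = 0 := by
  let W₀ : Submodule F (Fin k → F) := W.comap ((spl F k l).symm.toLinearMap ∘ₗ LinearMap.inl F _ _)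
  have hmem : ∀ u, u ∈ W₀ ↔ (spl F k l).symm (u, 0) ∈ W := fun u => Iff.rfl
  have h0 : W₀ = ⊥ := by
    apply hy
    · intro u hu
      rw [hmem] at hu ⊢
      have := hW _ hu
      convert this using 1
      rw [LinearEquiv.symm_apply_eq, spl_dsum, LinearEquiv.apply_symm_apply, map_zero]
    · intro u hu v hv
      have := hWti _ hu _ hv
      rw [herm_spl] at this
      simp only [LinearMap.comp_apply, LinearMap.inl_apply, LinearEquiv.coe_coe, LinearEquiv.apply_symm_apply] at this
      rwa [herm_zero_left, add_zero] at this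
  have h1 := (split_mem hPQ hP hQ hW hw).1
  rw [← hmem, h0] at h1
  exact h1

lemma snd_eq_zero (hz : NT q z) {P Q : F[X]} (hPQ : IsCoprime P Q) (hP : aeval y P = 0) (hQ : aeval z Q = 0)
    {W : Submodule F (Fin (k + l) → F)} (hW : Inv (dsum y z) W) (hWti : TI (hermForm (k + l) F q) W)
    {w : Fin (k + l) → F} (hw : w ∈ W) : (spl F k l w).2 = 0 := by
  let W₀ : Submodule F (Fin l → F) := W.comap ((spl F k l).symm.toLinearMap ∘ₗ LinearMap.inr F _ _)
  have hmem : ∀ u, u ∈ W₀ ↔ (spl F k l).symm (0, u) ∈ W := fun u => Iff.rfl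
  have h0 : W₀ = ⊥ := by
    apply hz
    · intro u hu
      rw [hmem] at hu ⊢
      have := hW _ hu
      convert this using 1
      rw [LinearEquiv.symm_apply_eq, spl_dsum, LinearEquiv.apply_symm_apply, map_zero]
    · intro u hu v hv
      have := hWti _ hu _ hv
      rw [herm_spl] at this
      simp only [LinearMap.comp_apply, LinearMap.inr_apply, LinearEquiv.coe_coe, LinearEquiv.apply_symm_apply] at this
      rwa [herm_zero_left, zero_add] at this
  have h1 := (split_mem hPQ hP hQ hW hw).2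
  rw [← hmem, h0] at h1
  exact h1

lemma NT.dsum (hy : NT q y) (hz : NT q z) {P Q : F[X]} (hPQ : IsCoprime P Q) (hP : aeval y P = 0)
    (hQ : aeval z Q = 0) : NT q (dsum y z) := by
  intro W hW hWti
  rw [eq_bot_iff]
  intro w hw
  rw [Submodule.mem_bot]
  apply (spl F k l).injective
  rw [map_zero]
  exact Prod.ext (fst_eq_zero hy hPQ hP hQ hW hWti hw) (snd_eq_zero hz hPQ hP hQ hW hWti hw)

/-- `y` without totally isotropic invariant subspaces, plus the identity in dimension `l`. -/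
lemma two_mul_finrank_le_of_NT [Fintype F] (hF : Fintype.card F = q ^ 2) (hy : NT q y) {P : F[X]}
    (hP : aeval y P = 0) (hP1 : P.eval 1 ≠ 0) {W : Submodule F (Fin (k + l) → F)}
    (hW : Inv (dsum y 1) W) (hWti : TI (hermForm (k + l) F q) W) : 2 * finrank F W ≤ l := by
  have hco : IsCoprime P (X - C 1) := by
    have h1 : ¬ (X - C 1) ∣ P := fun h => hP1 (dvd_iff_isRoot.1 h)
    exact (((irreducible_X_sub_C (1 : F)).coprime_iff_not_dvd).2 h1).symm
  have h0 : ∀ w ∈ W, (spl F k l w).1 = 0 := fun w hw => fst_eq_zero hy hco hP (by simp) hW hWti hw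
  set W' : Submodule F (Fin l → F) := W.map (LinearMap.snd F _ _ ∘ₗ (spl F k l).toLinearMap) with hW'
  have hd : finrank F W' = finrank F W := by
    have hinj : Function.Injective ((LinearMap.snd F (Fin k → F) (Fin l → F) ∘ₗ (spl F k l).toLinearMap).domRestrict W) := by
      rw [injective_iff_map_eq_zero]
      rintro ⟨w, hw⟩ h
      apply Subtype.ext
      apply (spl F k l).injective
      exact Prod.ext (h0 w hw) h
    rw [hW', ← LinearMap.range_domRestrict, LinearMap.finrank_range_of_inj hinj]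
  rw [← hd]
  have h1 : TI (hermForm l F q) W' := by
    rintro _ ⟨u, hu, rfl⟩ _ ⟨v, hv, rfl⟩
    have := hWti u hu v hv
    rw [herm_spl, h0 u hu, h0 v hv, herm_zero_left, zero_add] at this
    exact this
  have h2 := (frm_herm hF l).two_mul_finrank_le (nd_top hF l) le_top h1
  rwa [finrank_top, finrank_fin_fun] at h2

end DSum

end Cfsg.Agent.H950
end

-- part: H950/UNum
section
/-!
# Orders of `q`, `q²`, `-q` modulo an odd prime; roots in the group of norm one elements
-/

set_option autoImplicit false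

namespace Cfsg.Agent.H950

open Module Polynomial Cfsg.Agent.H951

section orders

variable {r : ℕ} [Fact r.Prime]

/-- The orders `b` of `q²` and `c` of `-q` modulo the odd prime `r` in terms of the order `i` of `q`. -/
theorem orders (hr2 : r ≠ 2) {q : ℕ} (hrq : ¬ r ∣ q) {i b c : ℕ} (hi : i = orderOf (q : ZMod r))
    (hb : b = if Even i then i / 2 else i)
    (hc : c = if i % 4 = 0 then i else if i % 4 = 2 then i / 2 else 2 * i) :
    0 < i ∧ 0 < b ∧ b = orderOf (((q ^ 2 : ℕ) : ZMod r)) ∧ c = orderOf (-(q : ZMod r)) ∧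
      ((c = 2 * b ∧ i % 4 ≠ 2) ∨ (c = b ∧ i % 4 = 2 ∧ Odd b ∧ i = 2 * b ∧ Even ((r - 1) / b))) ∧ b ∣ r - 1 := by
  have hrp : r.Prime := Fact.out
  have hq0 : (q : ZMod r) ≠ 0 := by
    rw [Ne, ZMod.natCast_eq_zero_iff]; exact hrq
  have hneg1 : (-1 : ZMod r) ≠ 1 := by
    have : Fact (2 < r) := ⟨lt_of_le_of_ne hrp.two_le (Ne.symm hr2)⟩
    exact ZMod.neg_one_ne_one
  have hi1 : (q : ZMod r) ^ (r - 1) = 1 := ZMod.pow_card_sub_one_eq_one hq0
  have hi0 : 0 < i := by
    rw [hi]
    exact (isOfFinOrder_iff_pow_eq_one.2 ⟨r - 1, Nat.sub_pos_of_lt hrp.one_lt, hi1⟩).orderOf_pos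
  have hir : i ∣ r - 1 := by rw [hi]; exact orderOf_dvd_of_pow_eq_one hi1
  have hb2 : b = orderOf (((q ^ 2 : ℕ) : ZMod r)) := by
    push_cast
    rw [orderOf_pow' _ (two_ne_zero), ← hi, hb]
    by_cases he : Even i
    · rw [if_pos he, Nat.gcd_eq_right (even_iff_two_dvd.1 he)]
    · rw [if_neg he]
      have h1 : Nat.gcd i 2 = 1 := by
        rw [Nat.not_even_iff_odd] at he
        exact (Nat.coprime_two_right.2 he)
      rw [h1, Nat.div_one]
  have hb0 : 0 < b := by
    rw [hb]
    split_ifs with he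
    · obtain ⟨k, hk⟩ := he; omega
    · exact hi0
  -- the order of `-q` is `b` or `2 b`
  set u : ZMod r := -(q : ZMod r) with hu
  have hu2 : u ^ 2 = ((q ^ 2 : ℕ) : ZMod r) := by rw [hu]; push_cast; ring
  have hu0 : u ≠ 0 := neg_ne_zero.2 hq0
  have huord : orderOf u / Nat.gcd (orderOf u) 2 = b := by
    rw [hb2, ← hu2, orderOf_pow' _ (two_ne_zero)]
  have hupos : 0 < orderOf u :=
    (isOfFinOrder_iff_pow_eq_one.2 ⟨r - 1, Nat.sub_pos_of_lt hrp.one_lt, ZMod.pow_card_sub_one_eq_one hu0⟩).orderOf_pos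
  have hcases : orderOf u = b ∨ orderOf u = 2 * b := by
    rcases Nat.even_or_odd (orderOf u) with he | ho
    · right
      rw [Nat.gcd_eq_right (even_iff_two_dvd.1 he)] at huord
      obtain ⟨k, hk⟩ := he
      omega
    · left
      have h1 : Nat.gcd (orderOf u) 2 = 1 := Nat.coprime_two_right.2 ho
      rw [h1, Nat.div_one] at huord
      exact huord
  have hsq : ∀ a : ZMod r, a * a = 1 → a ≠ 1 → a = -1 := by
    intro a h1 h2
    have h3 : (a - 1) * (a + 1) = 0 := by linear_combination h1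
    rcases mul_eq_zero.1 h3 with h | h
    · exact absurd (sub_eq_zero.1 h) h2
    · exact eq_neg_of_add_eq_zero_left h
  have hqb : Even i → (q : ZMod r) ^ b = -1 := by
    intro he
    have hib : i = 2 * b := by
      rw [hb, if_pos he]; obtain ⟨k, hk⟩ := he; omega
    apply hsq
    · rw [← pow_add, ← two_mul, ← hib, hi]; exact pow_orderOf_eq_one _
    · intro h
      have := orderOf_dvd_of_pow_eq_one h
      rw [← hi, hib] at this
      have := Nat.le_of_dvd hb0 this
      omega
  have hbr : b ∣ r - 1 := by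
    refine Dvd.dvd.trans ?_ hir
    rw [hb]
    split_ifs with he
    · exact Nat.div_dvd_of_dvd (even_iff_two_dvd.1 he)
    · exact dvd_rfl
  refine ⟨hi0, hb0, hb2, ?_, ?_, hbr⟩
  · rw [hc]
    split_ifs with h0 h2
    · have he : Even i := by rw [Nat.even_iff]; omega
      have hib : i = 2 * b := by rw [hb, if_pos he]; omega
      have hbe : Even b := by rw [Nat.even_iff]; omega
      rcases hcases with h | h
      · exfalso
        have h1 : u ^ b = 1 := by rw [← h]; exact pow_orderOf_eq_one _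
        rw [hu, hbe.neg_pow, hqb he] at h1
        exact hneg1 h1
      · rw [h, hib]
    · have he : Even i := by rw [Nat.even_iff]; omega
      have hib : i = 2 * b := by rw [hb, if_pos he]; omega
      have hbo : Odd b := by rw [Nat.odd_iff]; omega
      have h1 : u ^ b = 1 := by rw [hu, hbo.neg_pow, hqb he, neg_neg]
      have h3 := Nat.le_of_dvd hb0 (orderOf_dvd_of_pow_eq_one h1)
      rcases hcases with h | h
      · rw [h]; omega
      · omega
    · have ho : Odd i := by rw [Nat.odd_iff]; omega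
      have hib : b = i := by rw [hb, if_neg (Nat.not_even_iff_odd.2 ho)]
      rcases hcases with h | h
      · exfalso
        have h1 : u ^ b = 1 := by rw [← h]; exact pow_orderOf_eq_one _
        have h4 : (q : ZMod r) ^ i = 1 := by rw [hi]; exact pow_orderOf_eq_one _
        rw [hib, hu, ho.neg_pow, h4] at h1
        exact hneg1 h1
      · rw [h, hib]
  · rw [hc]
    split_ifs with h0 h2
    · have he : Even i := by rw [Nat.even_iff]; omega
      left
      rw [hb, if_pos he]; omega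
    · have he : Even i := by rw [Nat.even_iff]; omega
      right
      have hib : i = 2 * b := by rw [hb, if_pos he]; omega
      have hbo : Odd b := by rw [Nat.odd_iff]; omega
      refine ⟨by omega, h2, hbo, hib, ?_⟩
      obtain ⟨k, hk⟩ := hir
      have h5 : r - 1 = b * (2 * k) := by rw [hk, hib]; ring
      rw [h5, Nat.mul_div_cancel_left _ hb0]
      exact even_two_mul k
    · have ho : Odd i := by rw [Nat.odd_iff]; omega
      left
      have hib : b = i := by rw [hb, if_neg (Nat.not_even_iff_odd.2 ho)]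
      omega

end orders

section norm_one

variable {F : Type*} [Field F] [Fintype F] {q : ℕ}

omit [Fintype F] in
/-- If `r ∤ q + 1`, elements of norm one are `r`-th powers of such elements. -/
lemma exists_norm_root_of_not_dvd {r : ℕ} [Fact r.Prime] (hr : ¬ r ∣ q + 1) {z : F} (hz : z ^ (q + 1) = 1) :
    ∃ w : F, w ^ (q + 1) = 1 ∧ w ^ r = z := by
  have hco : Nat.Coprime r (orderOf z) :=
    Nat.Coprime.coprime_dvd_right (orderOf_dvd_of_pow_eq_one hz)
      ((Nat.Prime.coprime_iff_not_dvd Fact.out).2 hr)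
  obtain ⟨m, hm⟩ := exists_pow_eq_self_of_coprime hco
  exact ⟨z ^ m, by rw [← pow_mul, mul_comm, pow_mul, hz, one_pow], by rw [← pow_mul, mul_comm, pow_mul, hm]⟩

lemma not_dvd_sub_of_dvd_add {r q : ℕ} (hr : r.Prime) (hr2 : r ≠ 2) (hq : 1 ≤ q) (h : r ∣ q + 1) : ¬ r ∣ q - 1 := by
  intro h1
  have h2 : r ∣ 2 := by
    have := Nat.dvd_sub h h1
    rwa [show q + 1 - (q - 1) = 2 by omega] at this
  exact hr2 ((Nat.prime_dvd_prime_iff_eq hr Nat.prime_two).1 h2)

/-- If `r ∤ q - 1` then every `r`-th root of an element of norm one has norm one. -/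
lemma norm_root {r : ℕ} [Fact r.Prime] (hF : Fintype.card F = q ^ 2) (hr : ¬ r ∣ q - 1) {z d : F}
    (hz : z ^ (q + 1) = 1) (hd : d ^ r = z) : d ^ (q + 1) = 1 := by
  have hrp : r.Prime := Fact.out
  have hq2 : 2 ≤ q := LieClassical.HermBasic.two_le hF
  have hd0 : d ≠ 0 := by
    rintro rfl
    rw [zero_pow hrp.ne_zero] at hd
    rw [← hd, zero_pow (by omega)] at hz
    exact zero_ne_one hz
  have h1 : (d ^ (q + 1)) ^ r = 1 := by rw [← pow_mul, mul_comm, pow_mul, hd, hz]
  have h2 : (d ^ (q + 1)) ^ (q - 1) = 1 := by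
    rw [← pow_mul, show (q + 1) * (q - 1) = Fintype.card F - 1 by
      rw [hF]; obtain ⟨t, rfl⟩ : ∃ t, q = t + 1 := ⟨q - 1, by omega⟩
      rw [Nat.add_sub_cancel]
      have : (t + 1) ^ 2 = (t + 1 + 1) * t + 1 := by ring
      omega]
    exact FiniteField.pow_card_sub_one_eq_one d hd0
  rcases (Nat.dvd_prime hrp).1 (orderOf_dvd_of_pow_eq_one h1) with h | h
  · exact orderOf_eq_one_iff.1 h
  · exact absurd (h ▸ orderOf_dvd_of_pow_eq_one h2) hr

/-- A non-`r`-th power of order the `r`-part of `|F| - 1`. -/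
lemma exists_nonpower {r : ℕ} [Fact r.Prime] (h : r ∣ Fintype.card F - 1) :
    ∃ a : F, (∀ d : F, d ^ r ≠ a) ∧ orderOf a = r ^ padicValNat r (Fintype.card F - 1) := by
  have hrp : r.Prime := Fact.out
  have hq1 : Fintype.card F - 1 ≠ 0 := (Nat.sub_pos_of_lt Fintype.one_lt_card).ne'
  obtain ⟨g, hg⟩ := IsCyclic.exists_generator (α := Fˣ)
  have hord : orderOf g = Fintype.card F - 1 := by
    rw [orderOf_eq_card_of_forall_mem_zpowers hg, Nat.card_units, Nat.card_eq_fintype_card]
  obtain ⟨s, hs⟩ := pow_padicValNat_dvd (p := r) (n := Fintype.card F - 1)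
  set k := padicValNat r (Fintype.card F - 1) with hk
  have hs0 : s ≠ 0 := by rintro rfl; rw [mul_zero] at hs; exact hq1 hs
  have hgs : orderOf (g ^ s) = r ^ k := by
    rw [orderOf_pow' g hs0, hord, hs, Nat.gcd_eq_right (dvd_mul_left _ _), Nat.mul_div_cancel _ (Nat.pos_of_ne_zero hs0)]
  have hordF : orderOf ((g ^ s : Fˣ) : F) = r ^ k := by rw [orderOf_units, hgs]
  refine ⟨((g ^ s : Fˣ) : F), ?_, hordF⟩
  intro d hd
  have h1 := (exists_pow_eq_iff h (Units.ne_zero (g ^ s))).1 ⟨d, hd⟩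
  rw [← orderOf_dvd_iff_pow_eq_one, hordF] at h1
  have h3 : r ^ (k + 1) ∣ Fintype.card F - 1 := by
    obtain ⟨u, hu⟩ := h1
    refine ⟨u, ?_⟩
    rw [pow_succ, mul_right_comm, ← hu, Nat.div_mul_cancel h]
  have := (padicValNat_dvd_iff_le hq1).1 h3
  omega

lemma padic_card {r : ℕ} [Fact r.Prime] (hF : Fintype.card F = q ^ 2) (hr2 : r ≠ 2) (h : r ∣ q + 1) :
    r ∣ Fintype.card F - 1 ∧ padicValNat r (Fintype.card F - 1) = padicValNat r (q + 1) := by
  have hrp : r.Prime := Fact.out
  have hq2 : 2 ≤ q := LieClassical.HermBasic.two_le hF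
  have h1 : Fintype.card F - 1 = (q + 1) * (q - 1) := by
    rw [hF]; obtain ⟨t, rfl⟩ : ∃ t, q = t + 1 := ⟨q - 1, by omega⟩
    rw [Nat.add_sub_cancel]
    have : (t + 1) ^ 2 = (t + 1 + 1) * t + 1 := by ring
    omega
  have h2 := not_dvd_sub_of_dvd_add hrp hr2 (by omega) h
  refine ⟨by rw [h1]; exact h.mul_right _, ?_⟩
  rw [h1, padicValNat.mul (by omega) (by omega), padicValNat.eq_zero_of_not_dvd h2, add_zero]

/-- Case `r ∣ q + 1`: a norm one non-`r`-th power `z` with `z^{n/r} = 1` exists iff `v_r(q+1) < v_r(n)`. -/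
lemma exists_norm_nonpower {r n : ℕ} [Fact r.Prime] (hF : Fintype.card F = q ^ 2) (hr2 : r ≠ 2) (h : r ∣ q + 1)
    (hn : n ≠ 0) (hlt : padicValNat r (q + 1) < padicValNat r n) :
    r ∣ n ∧ ∃ z : F, z ^ (q + 1) = 1 ∧ (∀ d : F, d ^ r ≠ z) ∧ z ^ (n / r) = 1 := by
  have hrp : r.Prime := Fact.out
  obtain ⟨h1, h2⟩ := padic_card hF hr2 h
  have hrn : r ∣ n := dvd_of_one_le_padicValNat (by omega)
  obtain ⟨z, hz, hzo⟩ := exists_nonpower h1
  rw [h2] at hzo
  refine ⟨hrn, z, ?_, hz, ?_⟩
  · rw [← orderOf_dvd_iff_pow_eq_one, hzo]; exact pow_padicValNat_dvd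
  · rw [← orderOf_dvd_iff_pow_eq_one, hzo]
    obtain ⟨e, he⟩ := hrn
    have he0 : e ≠ 0 := by rintro rfl; simp at he; exact hn he
    have hv : padicValNat r n = padicValNat r e + 1 := by
      rw [he, padicValNat.mul hrp.ne_zero he0, padicValNat_self, add_comm]
    rw [he, Nat.mul_div_cancel_left _ hrp.pos]
    exact (padicValNat_dvd_iff_le he0).2 (by omega)

lemma padic_lt_of_nonpower {r n : ℕ} [Fact r.Prime] (hF : Fintype.card F = q ^ 2) (hr2 : r ≠ 2) (h : r ∣ q + 1)
    (hn : n ≠ 0) (hrn : r ∣ n) {z : F} (hz : ∀ d : F, d ^ r ≠ z) (hzn : z ^ (n / r) = 1) :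
    padicValNat r (q + 1) < padicValNat r n := by
  obtain ⟨h1, h2⟩ := padic_card hF hr2 h
  rw [← h2]
  exact (exists_nonpower_iff h1 hn hrn).1 ⟨z, hz, hzn⟩

end norm_one

end Cfsg.Agent.H950
end

-- part: H950/USuff
section
/-!
# Isometries of odd prime order (modulo scalars) of a Hermitian space fixing a totally isotropic `m`-space
-/

set_option autoImplicit false
set_option linter.unusedSectionVars false

namespace Cfsg.Agent.H950

open Cfsg Module Polynomial Cfsg.Agent.H951 Cfsg.Agent.LieClassical.HermBasic Cfsg.Agent.ClassicalGeometry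

variable {F : Type*} [Field F] [Fintype F] {q n : ℕ}

lemma isom_smul {x : Module.End F (Fin n → F)} (hx : Isom (hermForm n F q) x)
    {w : F} (hw : w ^ (q + 1) = 1) : Isom (hermForm n F q) (w⁻¹ • x) := by
  intro u v
  rw [LinearMap.smul_apply, LinearMap.smul_apply, herm_smul_left, herm_smul_right, hx, ← mul_assoc, ← pow_succ',
    inv_pow, hw, inv_one, one_mul]

lemma norm_of_scalar (hF : Fintype.card F = q ^ 2) (hn : 0 < n) {x : Module.End F (Fin n → F)}
    (hx : Isom (hermForm n F q) x) {r : ℕ} {z : F} (hz : x ^ r = z • 1) : z ^ (q + 1) = 1 := by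
  have hne : (Pi.single ⟨0, hn⟩ 1 : Fin n → F) ≠ 0 := by
    intro h
    have := congrFun h ⟨0, hn⟩
    simp at this
  obtain ⟨v, hv⟩ := exists_herm_ne_zero hF hne
  have h1 := hx.pow r (Pi.single ⟨0, hn⟩ 1) v
  rw [hz, LinearMap.smul_apply, LinearMap.smul_apply, Module.End.one_apply, Module.End.one_apply, herm_smul_left,
    herm_smul_right, ← mul_assoc, ← pow_succ'] at h1
  exact mul_right_cancel₀ hv (by rw [h1, one_mul])

/-- Elements `y` with `y ^ r = 1`. -/
theorem suff_A (hF : Fintype.card F = q ^ 2) {r : ℕ} [Fact r.Prime] (hr : (r : F) ≠ 0) (hr2 : r ≠ 2)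
    (hrq : ¬ r ∣ q) {y : Module.End F (Fin n → F)} (hy : Isom (hermForm n F q) y) (hyr : y ^ r = 1)
    {b c m : ℕ} (hb : b = orderOf (Fintype.card F : ZMod r)) (hc : c = orderOf (-(q : ZMod r))) (hb0 : 0 < b)
    (hbr : b ∣ r - 1) (hmn : 2 * m ≤ n) (hmod : 2 * (m % b) ≤ n % c)
    (hcase : c = 2 * b ∨ (c = b ∧ (r - 1) / b + 2 * (m / b) ≤ n / b)) :
    ∃ W : Submodule F (Fin n → F), finrank F W = m ∧ TI (hermForm n F q) W ∧ Inv y W := by
  have hrp : r.Prime := Fact.out
  have hodd : Odd r := hrp.odd_of_ne_two hr2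
  have hB := frm_herm hF n
  have hinj := injective_of_pow hyr hrp.pos
  have hss := semisimple_of_pow hr hyr
  have hDn : Nd (hermForm n F q) (cm y) := by
    have := hy.nd_inf_cm hB hr hyr inv_top (nd_top hF n)
    rwa [top_inf_eq] at this
  have hCn : Nd (hermForm n F q) (fx y) := by
    have := hy.nd_inf_fx hB hr hyr inv_top (nd_top hF n)
    rwa [top_inf_eq] at this
  have hdiv : ∀ W' : Submodule F (Fin n → F), Inv y W' → Nd (hermForm n F q) W' → W' ≤ cm y → c ∣ finrank F W' := by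
    intro W' h1 h2 h3
    rw [hc]
    exact ord_neg_dvd hF hrq hy hyr h1 h2 (inf_fx_of_le_cm hr hyr h3)
  obtain ⟨t, ht⟩ := hdiv (cm y) inv_cm hDn le_rfl
  have hsum := finrank_fx_add_cm hr hyr
  rw [finrank_fin_fun] at hsum
  -- the totally isotropic part of `[V, y]`
  obtain ⟨T, τ, hTD, hTi, hTti, hTd, hτ⟩ : ∃ (T : Submodule F (Fin n → F)) (τ : ℕ), T ≤ cm y ∧ Inv y T ∧
      TI (hermForm n F q) T ∧ finrank F T = b * τ ∧
      ((c = 2 * b ∧ τ = t) ∨ (c = b ∧ b * t ≤ 2 * (b * τ) + (r - 1))) := by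
    rcases hcase with h | ⟨h, -⟩
    · obtain ⟨T, hT, hTi, hTti, hTd⟩ := exists_ti_half hr hB hy hyr (fun W' h1 h2 h3 => by
        rw [← hb, ← h]; exact hdiv W' h1 h2 h3) inv_cm hDn le_rfl
      refine ⟨T, t, hT, hTi, hTti, ?_, Or.inl ⟨h, rfl⟩⟩
      rw [ht, h, mul_assoc] at hTd
      omega
    · obtain ⟨T, W₁, hT, hW₁, hTi, hTti, hW₁i, -, hd, han⟩ := exists_witt hB
        (fun W hW => hy.inv_perp hB hinj hW) hss inv_cm hDn
      obtain ⟨τ, hτ⟩ := ord_dvd_finrank hyr hTi (inf_fx_of_le_cm hr hyr hT)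
      have h1 := finrank_le_conj hF (cj_apply hF) hodd hB hy hyr hW₁i hW₁ han
      rw [← hb] at hτ
      refine ⟨T, τ, hT, hTi, hTti, hτ, Or.inr ⟨h, ?_⟩⟩
      rw [ht, h] at hd
      omega
  -- numbers
  set w₁ := min (m / b) τ with hw₁
  have hw₁m : b * w₁ ≤ m := (Nat.mul_le_mul_left b (min_le_left _ _)).trans (Nat.mul_div_le m b)
  have hw₁τ : b * w₁ ≤ finrank F T := by rw [hTd]; exact Nat.mul_le_mul_left b (min_le_right _ _)
  have hdc : n % c ≤ finrank F (fx y) := by
    have key : ∀ N d : ℕ, N = d + c * t → N % c ≤ d := by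
      rintro N d rfl
      rw [Nat.add_mul_mod_self_left]
      exact Nat.mod_le _ _
    exact key _ _ (by rw [← ht]; exact hsum.symm)
  have hrest : 2 * (m - b * w₁) ≤ finrank F (fx y) := by
    rcases le_total (m / b) τ with h1 | h1
    · rw [hw₁, min_eq_left h1]
      have h2 := Nat.div_add_mod m b
      have h3 : m - b * (m / b) = m % b := by omega
      rw [h3]; exact hmod.trans hdc
    · rw [hw₁, min_eq_right h1]
      rcases hτ with ⟨h2, h3⟩ | ⟨h2, h3⟩
      · rw [h3]
        have h4 : c * t = 2 * (b * t) := by rw [h2]; ring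
        omega
      · have h4 : c * t = b * t := by rw [h2]
        have h5 : (r - 1) / b + 2 * (m / b) ≤ n / b := by
          rcases hcase with h | ⟨-, h⟩
          · exact absurd (h.symm.trans h2) (by omega)
          · exact h
        have h6 : r - 1 = b * ((r - 1) / b) := (Nat.mul_div_cancel' hbr).symm
        have h7 : b * ((r - 1) / b) + 2 * (b * (m / b)) ≤ b * (n / b) := by
          have := Nat.mul_le_mul_left b h5
          rw [mul_add] at this
          calc _ = b * ((r - 1) / b) + b * (2 * (m / b)) := by ring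
            _ ≤ _ := this
        have h8 := Nat.div_add_mod m b
        have h9 := Nat.div_add_mod n b
        rw [h2] at hmod
        have h10 : b * τ ≤ m := by
          have := hw₁m
          rwa [hw₁, min_eq_right h1] at this
        omega
  obtain ⟨T', hT', hT'i, hT'd⟩ := exists_inv_finrank hr hyr hTi hTD (j := w₁) (by rw [← hb]; exact hw₁τ)
  rw [← hb] at hT'd
  obtain ⟨C', hC', hC'ti, hC'd⟩ := exists_ti_plain hF hCn hrest
  have hperp : ∀ u ∈ C', ∀ v ∈ T', hermForm n F q u v = 0 := fun u hu v hv =>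
    hy.fx_cm hB (hC' hu) (hTD (hT' hv))
  have hdis : C' ⊓ T' = ⊥ := by
    rw [eq_bot_iff, ← (isCompl_fx_cm hr hyr).inf_eq_bot]
    exact inf_le_inf hC' (hT'.trans hTD)
  refine ⟨C' ⊔ T', ?_, ?_, (inv_of_le_fx hC').sup hT'i⟩
  · rw [finrank_sup_of_disj hdis, hC'd, hT'd]
    omega
  · intro u hu v hv
    obtain ⟨a, ha, b', hb', rfl⟩ := Submodule.mem_sup.1 hu
    obtain ⟨c', hc', d', hd', rfl⟩ := Submodule.mem_sup.1 hv
    rw [hB.add_left, hB.add_right, hB.add_right, hC'ti a ha c' hc', hperp a ha d' hd',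
      hB.eq_zero_comm.1 (hperp c' hc' b' hb'), hTti b' (hT' hb') d' (hT' hd')]
    simp

/-- Elements with `x ^ r = z`, `X ^ r - z` irreducible, `r ∣ m`. -/
theorem suff_B (hF : Fintype.card F = q ^ 2) {r : ℕ} (hodd : Odd r)
    {x : Module.End F (Fin n → F)} (hx : Isom (hermForm n F q) x) {z : F} (hxr : x ^ r = z • 1)
    (hP : Irreducible (X ^ r - C z : F[X])) {m : ℕ} (hrm : r ∣ m) (hmn : 2 * m ≤ n) :
    ∃ W : Submodule F (Fin n → F), finrank F W = m ∧ TI (hermForm n F q) W ∧ Inv x W := by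
  have hB := frm_herm hF n
  have hae : aeval x (X ^ r - C z : F[X]) = 0 := by
    rw [map_sub, map_pow, aeval_X, aeval_C, hxr, Algebra.algebraMap_eq_smul_one, sub_self]
  have hss := semisimple_of_irred hP hae
  have hinj : Function.Injective x := by
    rw [injective_iff_map_eq_zero]
    intro u hu
    by_contra hne
    obtain ⟨v, hv⟩ := exists_herm_ne_zero hF hne
    rw [← hx, hu, herm_zero_left] at hv
    exact hv rfl
  obtain ⟨T, W₁, -, -, hTi, hTti, hW₁i, -, hd, han⟩ := exists_witt hB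
    (fun W hW => hx.inv_perp hB hinj hW) hss inv_top (nd_top hF n)
  rw [finrank_top, finrank_fin_fun] at hd
  have h1 := finrank_le_conj' hF (cj_apply hF) hodd hB hx hxr hW₁i han
  have h2 := natDegree_dvd_of_inv hP hae hTi
  have h3 := natDegree_dvd_of_inv hP hae (inv_top (x := x))
  rw [natDegree_X_pow_sub_C] at h2 h3
  rw [finrank_top, finrank_fin_fun] at h3
  obtain ⟨τ, hτ⟩ := h2
  obtain ⟨n₁, hn₁⟩ := h3
  obtain ⟨m₁, hm₁⟩ := hrm
  have hr0 : 0 < r := hodd.pos
  have h4 : m₁ ≤ τ := by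
    by_contra hlt
    have h5 : τ + 1 ≤ m₁ := by omega
    have h6 : r * (τ + 1) ≤ r * m₁ := Nat.mul_le_mul_left r h5
    rw [mul_add, mul_one] at h6
    omega
  obtain ⟨U, hU, hUi, hUd⟩ := exists_inv_natDegree hP hae hTi (j := m₁) (by
    rw [natDegree_X_pow_sub_C, hτ]; exact Nat.mul_le_mul_left r h4)
  rw [natDegree_X_pow_sub_C, ← hm₁] at hUd
  exact ⟨U, hUd, fun u hu v hv => hTti u (hU hu) v (hU hv), hUi⟩

end Cfsg.Agent.H950
end

-- part: H950/UEx
section
/-!
# Unitary elements of odd prime order (modulo scalars) with few invariant totally isotropic subspaces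
-/

set_option autoImplicit false
set_option linter.unusedSectionVars false

namespace Cfsg.Agent.H950

open Cfsg Module Polynomial Cfsg.Agent.H951 Cfsg.Agent.LieClassical.HermBasic Cfsg.Agent.ClassicalGeometry

variable {F : Type*} [Field F] [Fintype F] {q n : ℕ}

/-- An element of order `r` of `GU_c(q)` without fixed vectors, `c` the order of `-q` modulo `r`. -/
lemma exists_gu_elt (hF : Fintype.card F = q ^ 2) {r : ℕ} [Fact r.Prime] (hr : (r : F) ≠ 0) (hrq : ¬ r ∣ q)
    {c : ℕ} (hc : c = orderOf (-(q : ZMod r))) (hc0 : 0 < c) :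
    ∃ g : Module.End F (Fin c → F), Isom (hermForm c F q) g ∧ g ^ r = 1 ∧ fx g = ⊥ := by
  have hrp : r.Prime := Fact.out
  have hq1 : 1 ≤ q := q_pos hF
  have hpow : (-(q : ZMod r)) ^ c = 1 := by rw [hc]; exact pow_orderOf_eq_one _
  have hdvd : r ∣ Nat.card (GU c F q) := by
    rw [Cfsg.Agent.S0277.result hF c]
    apply Dvd.dvd.mul_left
    refine dvd_trans ?_ (Finset.dvd_prod_of_mem _ (Finset.mem_range.2 (show c - 1 < c by omega)))
    rw [Nat.sub_add_cancel hc0]
    split_ifs with he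
    · have ho : Odd c := by
        obtain ⟨k, hk⟩ := he
        exact ⟨k, by omega⟩
      rw [ho.neg_pow] at hpow
      rw [← ZMod.natCast_eq_zero_iff]
      push_cast
      rw [← hpow]; ring
    · have ho : Even c := by
        rw [Nat.not_even_iff_odd] at he
        obtain ⟨k, hk⟩ := he
        exact ⟨k + 1, by omega⟩
      rw [ho.neg_pow] at hpow
      rw [← ZMod.natCast_eq_zero_iff, Nat.cast_sub (Nat.one_le_pow _ _ hq1)]
      push_cast
      rw [hpow, sub_self]
  obtain ⟨x, hx⟩ := exists_prime_orderOf_dvd_card' r hdvd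
  set M : Matrix (Fin c) (Fin c) F := ((x : GL (Fin c) F) : Matrix (Fin c) (Fin c) F) with hM
  have hMr : M ^ r = 1 := by
    have h1 : x ^ r = 1 := by rw [← hx]; exact pow_orderOf_eq_one x
    have h2 : (((x ^ r : GU c F q) : GL (Fin c) F) : Matrix (Fin c) (Fin c) F) = 1 := by rw [h1]; rfl
    rw [← h2, hM]
    simp
  have hM1 : M ≠ 1 := by
    intro h
    have h1 : x = 1 := Subtype.ext (Units.ext h)
    rw [h1, orderOf_one] at hx
    exact hrp.one_lt.ne hx
  have hg : Isom (hermForm c F q) (Matrix.toLin' M) := by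
    intro u v
    rw [Matrix.toLin'_apply, Matrix.toLin'_apply]
    exact (mem_GU_iff (x : GL (Fin c) F)).1 x.2 u v
  have hgr : (Matrix.toLin' M) ^ r = (1 : Module.End F (Fin c → F)) := by
    rw [← Matrix.toLin'_pow, hMr, Matrix.toLin'_one]; rfl
  refine ⟨Matrix.toLin' M, hg, hgr, ?_⟩
  have hDn : Nd (hermForm c F q) (cm (Matrix.toLin' M)) := by
    have := hg.nd_inf_cm (frm_herm hF c) hr hgr inv_top (nd_top hF c)
    rwa [top_inf_eq] at this
  obtain ⟨t, ht⟩ := ord_neg_dvd hF hrq hg hgr inv_cm hDn (inf_fx_of_le_cm hr hgr le_rfl)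
  have hsum := finrank_fx_add_cm hr hgr
  rw [finrank_fin_fun, ht, ← hc] at hsum
  have ht0 : t ≠ 0 := by
    rintro rfl
    rw [mul_zero, Submodule.finrank_eq_zero] at ht
    apply hM1
    have h1 : Matrix.toLin' M - 1 = (0 : Module.End F (Fin c → F)) := LinearMap.range_eq_bot.1 ht
    have h2 : Matrix.toLin' M = Matrix.toLin' (1 : Matrix (Fin c) (Fin c) F) := by
      rw [Matrix.toLin'_one]; exact sub_eq_zero.1 h1
    exact Matrix.toLin'.injective h2
  rw [← Submodule.finrank_eq_zero (R := F)]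
  have : c ≤ c * t := Nat.le_mul_of_pos_right c (Nat.pos_of_ne_zero ht0)
  omega

lemma isom_one {q n : ℕ} : Isom (hermForm n F q) (1 : Module.End F (Fin n → F)) := fun _ _ => rfl

lemma fx_one' {V : Type*} [AddCommGroup V] [Module F V] : fx (1 : Module.End F V) = ⊤ := by
  rw [eq_top_iff]; intro v _; exact mem_fx.2 rfl

/-- Isometries `y` with `y ^ r = 1` and `dim C_V(y) = n mod c`. -/
lemma exists_fix_mod (hF : Fintype.card F = q ^ 2) {r : ℕ} [Fact r.Prime] (hr : (r : F) ≠ 0) (hrq : ¬ r ∣ q)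
    {c : ℕ} (hc : c = orderOf (-(q : ZMod r))) (hc0 : 0 < c) (n : ℕ) :
    ∃ y : Module.End F (Fin n → F), Isom (hermForm n F q) y ∧ y ^ r = 1 ∧ finrank F (fx y) = n % c := by
  obtain ⟨g, hg, hgr, hgf⟩ := exists_gu_elt hF hr hrq hc hc0
  induction n using Nat.strong_induction_on with
  | _ n ih =>
    rcases Nat.lt_or_ge n c with h | h
    · refine ⟨1, isom_one, one_pow r, ?_⟩
      rw [fx_one', finrank_top, finrank_fin_fun, Nat.mod_eq_of_lt h]
    · obtain ⟨k, rfl⟩ : ∃ k, n = k + c := ⟨n - c, by omega⟩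
      obtain ⟨y, hy, hyr, hyf⟩ := ih k (by omega)
      refine ⟨dsum y g, isom_dsum hy hg, ?_, ?_⟩
      · rw [dsum_pow, hyr, hgr]
        have := dsum_smul_one (k := k) (l := c) (1 : F)
        rwa [one_smul, one_smul, one_smul] at this
      · rw [finrank_fx_dsum, hyf, hgf, finrank_bot, add_zero, Nat.add_mod_right]

/-- From operators to matrices. -/
lemma exists_SL {n r : ℕ} {y : Module.End F (Fin n → F)} (hy : Isom (hermForm n F q) y) {z : F}
    (hyr : y ^ r = z • 1) (hdet : LinearMap.det y = 1) :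
    ∃ x : Matrix.SpecialLinearGroup (Fin n) F, x ∈ SU n F q ∧
      Matrix.toLin' (x : Matrix (Fin n) (Fin n) F) = y ∧
      (x : Matrix (Fin n) (Fin n) F) ^ r = z • (1 : Matrix (Fin n) (Fin n) F) := by
  have h1 : (LinearMap.toMatrix' y).det = 1 := by rw [LinearMap.det_toMatrix']; exact hdet
  have h2 : Matrix.toLin' (LinearMap.toMatrix' y) = y := Matrix.toLin'_toMatrix' y
  refine ⟨⟨LinearMap.toMatrix' y, h1⟩, ?_, h2, ?_⟩
  · apply mem_SU_of_isom
    change Isom _ (Matrix.toLin' (LinearMap.toMatrix' y))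
    rw [h2]; exact hy
  · apply Matrix.toLin'.injective
    change Matrix.toLin' ((LinearMap.toMatrix' y) ^ r) = _
    rw [Matrix.toLin'_pow, h2, hyr, map_smul, Matrix.toLin'_one]
    rfl

lemma det_isom (hF : Fintype.card F = q ^ 2) {n : ℕ} {y : Module.End F (Fin n → F)}
    (hy : Isom (hermForm n F q) y) : (LinearMap.det y) ^ (q + 1) = 1 := by
  rw [← LinearMap.det_toMatrix']
  apply Cfsg.Agent.LieClassical.GUOrder.det_mul_frob_det hF
  intro u v
  rw [← Matrix.toLin'_apply, ← Matrix.toLin'_apply, Matrix.toLin'_toMatrix']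
  exact hy u v

lemma det_eq_one (hF : Fintype.card F = q ^ 2) {n r : ℕ} [Fact r.Prime] (hrq : ¬ r ∣ q + 1)
    {y : Module.End F (Fin n → F)} (hy : Isom (hermForm n F q) y) (hyr : y ^ r = 1) : LinearMap.det y = 1 := by
  have h1 := det_isom hF hy
  have h2 : (LinearMap.det y) ^ r = 1 := by rw [← map_pow, hyr, map_one]
  have h3 := Nat.dvd_gcd (orderOf_dvd_of_pow_eq_one h1) (orderOf_dvd_of_pow_eq_one h2)
  have h4 : Nat.gcd (q + 1) r = 1 := (Nat.coprime_comm.1 ((Nat.Prime.coprime_iff_not_dvd Fact.out).2 hrq))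
  rw [h4, Nat.dvd_one, orderOf_eq_one_iff] at h3
  exact h3

/-- For every irreducible factor `P` of `Φ_r` there is an isometry of the space of dimension
`b = ord(-q) = ord(q²)` killed by `P`. -/
lemma exists_factor_elt (hF : Fintype.card F = q ^ 2) {r : ℕ} [Fact r.Prime] (hr : (r : F) ≠ 0) (hrq : ¬ r ∣ q)
    {b : ℕ} (hb : b = orderOf (Fintype.card F : ZMod r)) (hb' : b = orderOf (-(q : ZMod r))) (hb0 : 0 < b)
    {P : F[X]} (hP : Irreducible P) (hPr : P ∣ cyclotomic r F) :
    ∃ M : Module.End F (Fin b → F), Isom (hermForm b F q) M ∧ M ^ r = 1 ∧ aeval M P = 0 ∧ NT q M := by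
  have hrp : r.Prime := Fact.out
  have : NeZero (r : F) := ⟨hr⟩
  obtain ⟨g, hg, hgr, hgf⟩ := exists_gu_elt hF hr hrq hb' hb0
  -- `g` is irreducible
  have hirr : Irr g ⊤ := by
    refine ⟨?_, inv_top, ?_⟩
    · intro h
      have h1 : finrank F (⊤ : Submodule F (Fin b → F)) = 0 := by rw [h, finrank_bot]
      rw [finrank_top, finrank_fin_fun] at h1
      omega
    · intro U _ hU
      have h1 := ord_dvd_finrank hgr hU (by rw [hgf, inf_bot_eq])
      rw [← hb] at h1
      rcases Nat.eq_zero_or_pos (finrank F U) with h2 | h2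
      · left; exact Submodule.finrank_eq_zero.1 h2
      · right
        apply Submodule.eq_top_of_finrank_eq
        rw [finrank_fin_fun]
        apply le_antisymm _ (Nat.le_of_dvd h2 h1)
        have := Submodule.finrank_le U
        rwa [finrank_fin_fun] at this
  have hcm : ∀ v, v ∈ cm g := by
    intro v
    have h1 := (isCompl_fx_cm hr hgr).sup_eq_top
    rw [hgf, bot_sup_eq] at h1
    rw [h1]; exact Submodule.mem_top
  obtain ⟨f, hf, hfr, hfg⟩ := hirr.exists_factor (cyclotomic r F) (cyclotomic_ne_zero r F)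
    fun v _ => cyclotomic_apply_of_mem_cm hgr (hcm v)
  have hfg' : aeval g f = 0 := LinearMap.ext fun v => hfg v Submodule.mem_top
  -- roots
  have : Fact (Irreducible f) := ⟨hf⟩
  let K := AdjoinRoot f
  have : NeZero (r : K) := ⟨by
    have h1 := (map_ne_zero (algebraMap F K)).2 hr
    rwa [map_natCast] at h1⟩
  have hα : IsPrimitiveRoot (AdjoinRoot.root f) r := by
    rw [← isRoot_cyclotomic_iff (R := K), ← map_cyclotomic r (algebraMap F K)]
    obtain ⟨f', hf'⟩ := hfr
    rw [hf', Polynomial.map_mul, IsRoot, eval_mul, eval_map_algebraMap]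
    rw [AdjoinRoot.aeval_eq, AdjoinRoot.mk_self, zero_mul]
  have hPr' : P ∣ X ^ r - 1 := hPr.trans (cyclotomic.dvd_X_pow_sub_one r F)
  have hPK : (P.map (algebraMap F K)) ∣ X ^ r - 1 := by
    have := Polynomial.map_dvd (algebraMap F K) hPr'
    simpa using this
  have hne : (X ^ r - 1 : K[X]) ≠ 0 := by
    have := X_pow_sub_C_ne_zero hrp.pos (1 : K)
    rwa [map_one] at this
  have hspl : (P.map (algebraMap F K)).Splits := (X_pow_sub_one_splits hα).of_dvd hne hPK
  obtain ⟨β, hβ⟩ := hspl.exists_eval_eq_zero (by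
    rw [degree_map]; exact (degree_pos_of_irreducible hP).ne')
  have hβr : β ^ r = 1 := by
    obtain ⟨P', hP'⟩ := hPK
    have h1 := congrArg (eval β) hP'
    rw [eval_mul, hβ, zero_mul, eval_sub, eval_pow, eval_X, eval_one] at h1
    exact sub_eq_zero.1 h1
  have : NeZero r := ⟨hrp.ne_zero⟩
  obtain ⟨k, -, hk⟩ := hα.eq_pow_of_pow_eq_one hβr
  have hdvd : f ∣ P.comp (X ^ k) := by
    rw [← AdjoinRoot.mk_eq_zero, ← AdjoinRoot.aeval_eq, aeval_comp]
    simp only [map_pow, aeval_X]
    rw [hk, ← eval_map_algebraMap]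
    exact hβ
  have hPk : aeval (g ^ k) P = 0 := by
    have h1 : aeval g (P.comp (X ^ k)) = 0 := by
      obtain ⟨f', hf'⟩ := hdvd
      rw [hf', map_mul, hfg', zero_mul]
    rw [aeval_comp] at h1
    simpa using h1
  have hMr : (g ^ k) ^ r = 1 := by rw [← pow_mul, mul_comm, pow_mul, hgr, one_pow]
  refine ⟨g ^ k, hg.pow k, hMr, hPk, ?_⟩
  intro W hW hWti
  have hP1 : P.eval 1 ≠ 0 := by
    intro h
    obtain ⟨P', hP'⟩ := hPr
    have h1 := congrArg (eval 1) hP'
    rw [eval_mul, h, zero_mul, eval_one_cyclotomic_prime] at h1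
    exact hr h1
  have hfx : fx (g ^ k) = ⊥ := by
    rw [eq_bot_iff]
    intro v hv
    rw [Submodule.mem_bot]
    by_contra hv0
    have h1 : aeval (g ^ k) P v = P.eval 1 • v := by
      have h2 : (g ^ k) v = (1 : F) • v := by rw [one_smul]; exact mem_fx.1 hv
      rw [Module.End.aeval_apply_of_hasEigenvector (μ := 1) ⟨Module.End.mem_eigenspace_iff.2 h2, hv0⟩]
    rw [hPk, LinearMap.zero_apply] at h1
    exact (smul_ne_zero hP1 hv0) h1.symm
  have h1 := ord_dvd_finrank hMr hW (by rw [hfx, inf_bot_eq])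
  rw [← hb] at h1
  have h2 := (frm_herm hF b).two_mul_finrank_le (nd_top hF b) le_top hWti
  rw [finrank_top, finrank_fin_fun] at h2
  rcases Nat.eq_zero_or_pos (finrank F W) with h3 | h3
  · exact Submodule.finrank_eq_zero.1 h3
  · have := Nat.le_of_dvd h3 h1
    omega

/-- Sums of pairwise different irreducible modules. -/
lemma exists_multfree (hF : Fintype.card F = q ^ 2) {r : ℕ} [Fact r.Prime] (hr : (r : F) ≠ 0) (hrq : ¬ r ∣ q)
    {b : ℕ} (hb : b = orderOf (Fintype.card F : ZMod r)) (hb' : b = orderOf (-(q : ZMod r))) (hb0 : 0 < b)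
    (A : ℕ) (hA : b * A ≤ r - 1) :
    ∃ (y : Module.End F (Fin (b * A) → F)) (Q : F[X]), Isom (hermForm (b * A) F q) y ∧ y ^ r = 1 ∧ NT q y ∧
      aeval y Q = 0 ∧ Q ∣ cyclotomic r F ∧ Q.natDegree = b * A := by
  have hrp : r.Prime := Fact.out
  induction A with
  | zero =>
    refine ⟨1, 1, isom_one, one_pow r, ?_, ?_, one_dvd _, by simp⟩
    · intro W _ _
      apply Submodule.finrank_eq_zero.1
      have := Submodule.finrank_le W
      rw [finrank_fin_fun] at this
      omega
    · rw [map_one]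
      apply LinearMap.ext
      intro v
      funext i
      exact i.elim0
  | succ A ih =>
    have hA' : b * A + b ≤ r - 1 := hA
    obtain ⟨y, Q, hy, hyr, hyn, hyQ, hQd, hQn⟩ := ih (by omega)
    obtain ⟨R, hR⟩ := hQd
    have hcn : (cyclotomic r F).natDegree = r - 1 := by rw [natDegree_cyclotomic, Nat.totient_prime hrp]
    have hc0 : cyclotomic r F ≠ 0 := cyclotomic_ne_zero r F
    have hQ0 : Q ≠ 0 := by rintro rfl; rw [zero_mul] at hR; exact hc0 hR
    have hR0 : R ≠ 0 := by rintro rfl; rw [mul_zero] at hR; exact hc0 hR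
    have hRn : ¬ IsUnit R := by
      intro h
      have h1 := natDegree_mul hQ0 hR0
      rw [← hR, hcn, hQn, natDegree_eq_zero_of_isUnit h] at h1
      omega
    obtain ⟨P, hP, hPR⟩ := WfDvdMonoid.exists_irreducible_factor hRn hR0
    have hPc : P ∣ cyclotomic r F := by rw [hR]; exact hPR.mul_left Q
    obtain ⟨M, hM, hMr, hMP, hMn⟩ := exists_factor_elt hF hr hrq hb hb' hb0 hP hPc
    have hsq : Squarefree (cyclotomic r F) := by
      have : NeZero (r : F) := ⟨hr⟩
      exact squarefree_cyclotomic r F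
    have hPQ : ¬ P ∣ Q := by
      intro h
      have h1 : P * P ∣ cyclotomic r F := by rw [hR]; exact mul_dvd_mul h hPR
      exact hP.not_isUnit (hsq P h1)
    have hco : IsCoprime Q P := ((hP.coprime_iff_not_dvd).2 hPQ).symm
    refine ⟨(dsum y M : Module.End F (Fin (b * A + b) → F)), Q * P, isom_dsum hy hM, ?_, hyn.dsum hMn hco hyQ hMP,
      ?_, ?_, ?_⟩
    · rw [dsum_pow, hyr, hMr]
      have := dsum_smul_one (k := b * A) (l := b) (1 : F)
      rwa [one_smul, one_smul, one_smul] at this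
    · rw [aeval_dsum, map_mul, map_mul, hyQ, hMP, zero_mul, mul_zero, dsum_zero]
    · rw [hR]; exact mul_dvd_mul_left Q hPR
    · rw [natDegree_mul hQ0 hP.ne_zero, hQn, natDegree_factor hr hP hPc, ← hb]
      rfl

end Cfsg.Agent.H950
end

-- part: H950/UEx2
section
/-!
# Unitary elements of odd prime order (modulo scalars) with few invariant totally isotropic subspaces, continued
-/

set_option autoImplicit false
set_option linter.unusedSectionVars false

namespace Cfsg.Agent.H950

open Cfsg Module Polynomial Cfsg.Agent.H951 Cfsg.Agent.LieClassical.HermBasic Cfsg.Agent.ClassicalGeometry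

variable {F : Type*} [Field F] [Fintype F] {q n : ℕ}

/-- (N1) -/
theorem nec_one (hF : Fintype.card F = q ^ 2) {r : ℕ} [Fact r.Prime] (hr : (r : F) ≠ 0) (hrq : ¬ r ∣ q)
    (hrq1 : ¬ r ∣ q + 1) {c : ℕ} (hc : c = orderOf (-(q : ZMod r))) (hc0 : 0 < c) (n : ℕ) :
    ∃ x : Matrix.SpecialLinearGroup (Fin n) F, x ∈ SU n F q ∧
      (x : Matrix (Fin n) (Fin n) F) ^ r = (1 : F) • (1 : Matrix (Fin n) (Fin n) F) ∧
      finrank F (fx (Matrix.toLin' (x : Matrix (Fin n) (Fin n) F))) = n % c := by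
  obtain ⟨y, hy, hyr, hyf⟩ := exists_fix_mod hF hr hrq hc hc0 n
  obtain ⟨x, hx, hxy, hxr⟩ := exists_SL hy (r := r) (z := 1) (by rw [hyr, one_smul]) (det_eq_one hF hrq1 hy hyr)
  exact ⟨x, hx, hxr, by rw [hxy]; exact hyf⟩

lemma eval_one_ne {r : ℕ} [Fact r.Prime] (hr : (r : F) ≠ 0) {Q : F[X]} (hQ : Q ∣ cyclotomic r F) : Q.eval 1 ≠ 0 := by
  intro h
  obtain ⟨P', hP'⟩ := hQ
  have h1 := congrArg (eval 1) hP'
  rw [eval_mul, h, zero_mul, eval_one_cyclotomic_prime] at h1
  exact hr h1

/-- (N2), `i > 2` -/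
theorem nec_two (hF : Fintype.card F = q ^ 2) {r : ℕ} [Fact r.Prime] (hr : (r : F) ≠ 0) (hrq : ¬ r ∣ q)
    (hrq1 : ¬ r ∣ q + 1) {b : ℕ} (hb : b = orderOf (Fintype.card F : ZMod r)) (hb' : b = orderOf (-(q : ZMod r)))
    (hb0 : 0 < b) {A : ℕ} (hA : b * A ≤ r - 1) (hAn : b * A ≤ n) :
    ∃ x : Matrix.SpecialLinearGroup (Fin n) F, x ∈ SU n F q ∧
      (x : Matrix (Fin n) (Fin n) F) ^ r = (1 : F) • (1 : Matrix (Fin n) (Fin n) F) ∧
      ∀ W : Submodule F (Fin n → F), TI (hermForm n F q) W →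
        Inv (Matrix.toLin' (x : Matrix (Fin n) (Fin n) F)) W → 2 * finrank F W ≤ n - b * A := by
  obtain ⟨l, rfl⟩ : ∃ l, n = b * A + l := ⟨n - b * A, by omega⟩
  obtain ⟨y, Q, hy, hyr, hyn, hyQ, hQd, hQn⟩ := exists_multfree hF hr hrq hb hb' hb0 A hA
  have h1 : Isom (hermForm (b * A + l) F q) (dsum y (1 : Module.End F (Fin l → F))) := isom_dsum hy isom_one
  have h2 : (dsum y (1 : Module.End F (Fin l → F))) ^ r = 1 := by
    rw [dsum_pow, hyr, one_pow]
    have := dsum_smul_one (k := b * A) (l := l) (1 : F)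
    rwa [one_smul, one_smul, one_smul] at this
  obtain ⟨x, hx, hxy, hxr⟩ := exists_SL h1 (r := r) (z := 1) (by rw [h2, one_smul]) (det_eq_one hF hrq1 h1 h2)
  refine ⟨x, hx, hxr, fun W hWti hW => ?_⟩
  rw [hxy] at hW
  have := two_mul_finrank_le_of_NT hF hyn hyQ (eval_one_ne hr hQd) hW hWti
  omega

/-- Adding one more eigenvalue. -/
lemma nt_add_one (hF : Fintype.card F = q ^ 2) {k : ℕ} {y : Module.End F (Fin k → F)} (hy : NT q y) {Q : F[X]}
    (hQ : aeval y Q = 0) {a : F} (ha : Q.eval a ≠ 0) :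
    NT q (dsum y (a • (1 : Module.End F (Fin 1 → F)))) ∧
      aeval (dsum y (a • (1 : Module.End F (Fin 1 → F)))) (Q * (X - C a)) = 0 := by
  have h1 : aeval (a • (1 : Module.End F (Fin 1 → F))) (X - C a) = 0 := by
    rw [map_sub, aeval_X, aeval_C, Algebra.algebraMap_eq_smul_one, sub_self]
  have hco : IsCoprime Q (X - C a) := by
    have h1 : ¬ (X - C a) ∣ Q := fun h => ha (dvd_iff_isRoot.1 h)
    exact (((irreducible_X_sub_C a).coprime_iff_not_dvd).2 h1).symm
  constructor
  · refine hy.dsum ?_ hco hQ h1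
    intro W _ hWti
    have h2 := (frm_herm hF 1).two_mul_finrank_le (nd_top hF 1) le_top hWti
    rw [finrank_top, finrank_fin_fun] at h2
    exact Submodule.finrank_eq_zero.1 (by omega)
  · rw [aeval_dsum, map_mul, map_mul, hQ, h1, zero_mul, mul_zero, dsum_zero]

lemma isom_scalar {a : F} (ha : a ^ (q + 1) = 1) : Isom (hermForm n F q) (a • (1 : Module.End F (Fin n → F))) := by
  intro u v
  rw [LinearMap.smul_apply, LinearMap.smul_apply, herm_smul_left, herm_smul_right, ← mul_assoc, ← pow_succ', ha,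
    one_mul]
  rfl

lemma exists_multfree_one (hF : Fintype.card F = q ^ 2) {r : ℕ} [Fact r.Prime] (hrq1 : r ∣ q + 1) {ζ : F}
    (hζ : orderOf ζ = r) (t : ℕ) (ht : 2 * t ≤ r - 1) (N : ℕ) (hN : N = 2 * t) :
    ∃ (y : Module.End F (Fin N → F)) (Q : F[X]), Isom (hermForm N F q) y ∧ y ^ r = 1 ∧ NT q y ∧
      aeval y Q = 0 ∧ LinearMap.det y = 1 ∧ ∀ u, Q.eval u = 0 → ∃ j, 1 ≤ j ∧ j ≤ t ∧ (u = ζ ^ j ∨ u = (ζ ^ j)⁻¹) := by
  have hrp : r.Prime := Fact.out
  have hζr : ζ ^ r = 1 := by rw [← hζ]; exact pow_orderOf_eq_one ζ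
  have hζ0 : ζ ≠ 0 := by
    rintro rfl
    rw [zero_pow hrp.ne_zero] at hζr
    exact zero_ne_one hζr
  have hζq : ζ ^ (q + 1) = 1 := orderOf_dvd_iff_pow_eq_one.1 (hζ ▸ hrq1)
  have hne : ∀ a, 0 < a → a < r → ζ ^ a ≠ 1 := by
    intro a ha har h
    have := Nat.le_of_dvd ha (orderOf_dvd_of_pow_eq_one h)
    omega
  induction t generalizing N with
  | zero =>
    obtain rfl : N = 0 := by omega
    refine ⟨1, 1, isom_one, one_pow r, ?_, ?_, ?_, ?_⟩
    · intro W _ _
      apply Submodule.finrank_eq_zero.1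
      have := Submodule.finrank_le W
      rw [finrank_fin_fun] at this
      omega
    · rw [map_one]
      apply LinearMap.ext
      intro v
      funext i
      exact i.elim0
    · exact map_one _
    · intro u hu
      simp at hu
  | succ t ih =>
    obtain ⟨k, hk⟩ : ∃ k, k = 2 * t := ⟨_, rfl⟩
    obtain rfl : N = k + 1 + 1 := by omega
    obtain ⟨y, Q, hy, hyr, hyn, hyQ, hdet, hroots⟩ := ih (by omega) k hk
    set a := ζ ^ (t + 1) with ha
    have ha0 : a ≠ 0 := pow_ne_zero _ hζ0
    have hinv : ∀ j, 1 ≤ j → j ≤ t → a ≠ (ζ ^ j)⁻¹ := by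
      intro j h1 h2 h
      apply hne (t + 1 + j) (by omega) (by omega)
      rw [pow_add, ← ha, h, inv_mul_cancel₀ (pow_ne_zero _ hζ0)]
    have hpow : ∀ j, 1 ≤ j → j ≤ t → a ≠ ζ ^ j := by
      intro j h1 h2 h
      have h3 : ζ ^ j * ζ ^ (t + 1 - j) = ζ ^ j * 1 := by
        rw [← pow_add, show j + (t + 1 - j) = t + 1 by omega, ← ha, h, mul_one]
      exact hne (t + 1 - j) (by omega) (by omega) (mul_left_cancel₀ (pow_ne_zero _ hζ0) h3)
    have haQ : Q.eval a ≠ 0 := by
      intro h
      obtain ⟨j, h1, h2, h3 | h3⟩ := hroots a h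
      · exact hpow j h1 h2 h3
      · exact hinv j h1 h2 h3
    have haQ' : Q.eval a⁻¹ ≠ 0 := by
      intro h
      obtain ⟨j, h1, h2, h3 | h3⟩ := hroots _ h
      · exact hinv j h1 h2 (by rw [← h3, inv_inv])
      · exact hpow j h1 h2 (inv_injective h3)
    have haa : a⁻¹ ≠ a := by
      intro h
      apply hne (t + 1 + (t + 1)) (by omega) (by omega)
      rw [pow_add, ← ha]
      nth_rewrite 1 [← h]
      exact inv_mul_cancel₀ ha0
    obtain ⟨h1, h2⟩ := nt_add_one hF hyn hyQ haQ
    obtain ⟨h3, h4⟩ := nt_add_one hF h1 h2 (a := a⁻¹) (by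
      rw [eval_mul, eval_sub, eval_X, eval_C]
      exact mul_ne_zero haQ' (sub_ne_zero.2 haa))
    have har : a ^ r = 1 := by rw [ha, ← pow_mul, mul_comm, pow_mul, hζr, one_pow]
    have haq : a ^ (q + 1) = 1 := by rw [ha, ← pow_mul, mul_comm, pow_mul, hζq, one_pow]
    have hi : ∀ u : F, u ^ (q + 1) = 1 → Isom (hermForm 1 F q) (u • (1 : Module.End F (Fin 1 → F))) :=
      fun u hu => isom_scalar hu
    have hs : ∀ u : F, u ^ r = 1 → (u • (1 : Module.End F (Fin 1 → F))) ^ r = 1 := by
      intro u hu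
      rw [_root_.smul_pow, hu, one_pow, one_smul]
    have hd1 : ∀ {k l : ℕ}, dsum (1 : Module.End F (Fin k → F)) (1 : Module.End F (Fin l → F)) = 1 := by
      intro k l
      have := dsum_smul_one (k := k) (l := l) (1 : F)
      rwa [one_smul, one_smul, one_smul] at this
    refine ⟨dsum (dsum y (a • (1 : Module.End F (Fin 1 → F)))) (a⁻¹ • (1 : Module.End F (Fin 1 → F))), Q * (X - C a) * (X - C a⁻¹), ?_, ?_, h3, h4, ?_, ?_⟩
    · exact isom_dsum (isom_dsum hy (hi a haq)) (hi _ (by rw [inv_pow, haq, inv_one]))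
    · rw [dsum_pow, dsum_pow, hyr, hs a har, hs _ (by rw [inv_pow, har, inv_one]), hd1, hd1]
    · rw [det_dsum, det_dsum, hdet, LinearMap.det_smul, LinearMap.det_smul, finrank_fin_fun, pow_one, pow_one, one_mul,
        map_one, mul_one, mul_one, mul_inv_cancel₀ ha0]
    · intro u hu
      rw [eval_mul, eval_mul, eval_sub, eval_sub, eval_X, eval_C, eval_C] at hu
      rcases mul_eq_zero.1 hu with hu | hu
      · rcases mul_eq_zero.1 hu with hu | hu
        · obtain ⟨j, h5, h6, h7⟩ := hroots u hu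
          exact ⟨j, h5, by omega, h7⟩
        · exact ⟨t + 1, by omega, le_rfl, Or.inl (by rw [← ha]; exact sub_eq_zero.1 hu)⟩
      · exact ⟨t + 1, by omega, le_rfl, Or.inr (by rw [← ha]; exact sub_eq_zero.1 hu)⟩

/-- (N2), `i = 2` -/
theorem nec_two' (hF : Fintype.card F = q ^ 2) {r : ℕ} [Fact r.Prime] (hrq1 : r ∣ q + 1) {t : ℕ}
    (ht : 2 * t ≤ r - 1) (htn : 2 * t ≤ n) :
    ∃ x : Matrix.SpecialLinearGroup (Fin n) F, x ∈ SU n F q ∧
      (x : Matrix (Fin n) (Fin n) F) ^ r = (1 : F) • (1 : Matrix (Fin n) (Fin n) F) ∧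
      ∀ W : Submodule F (Fin n → F), TI (hermForm n F q) W →
        Inv (Matrix.toLin' (x : Matrix (Fin n) (Fin n) F)) W → 2 * finrank F W ≤ n - 2 * t := by
  have hrp : r.Prime := Fact.out
  obtain ⟨l, rfl⟩ : ∃ l, n = 2 * t + l := ⟨n - 2 * t, by omega⟩
  obtain ⟨ζ, hζ⟩ : ∃ ζ : F, orderOf ζ = r := by
    have h1 : r ∣ Nat.card Fˣ := by
      rw [Nat.card_units, Nat.card_eq_fintype_card, hF]
      have hq2 := two_le hF
      have : q ^ 2 - 1 = (q + 1) * (q - 1) := by
        have := Nat.sq_sub_sq q 1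
        simpa using this
      rw [this]
      exact hrq1.mul_right _
    obtain ⟨u, hu⟩ := exists_prime_orderOf_dvd_card' r h1
    exact ⟨u, by rw [orderOf_units]; exact hu⟩
  obtain ⟨y, Q, hy, hyr, hyn, hyQ, hdet, hroots⟩ := exists_multfree_one hF hrq1 hζ t ht _ rfl
  have h1 : Isom (hermForm (2 * t + l) F q) (dsum y (1 : Module.End F (Fin l → F))) := isom_dsum hy isom_one
  have h2 : (dsum y (1 : Module.End F (Fin l → F))) ^ r = 1 := by
    rw [dsum_pow, hyr, one_pow]
    have := dsum_smul_one (k := 2 * t) (l := l) (1 : F)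
    rwa [one_smul, one_smul, one_smul] at this
  obtain ⟨x, hx, hxy, hxr⟩ := exists_SL h1 (r := r) (z := 1) (by rw [h2, one_smul]) (by
    rw [det_dsum, hdet, map_one, mul_one])
  refine ⟨x, hx, hxr, fun W hWti hW => ?_⟩
  rw [hxy] at hW
  have hζ1 : ∀ j, 1 ≤ j → j ≤ t → ζ ^ j ≠ 1 := by
    intro j hj1 hj2 h
    have := Nat.le_of_dvd hj1 (orderOf_dvd_of_pow_eq_one h)
    omega
  have := two_mul_finrank_le_of_NT hF hyn hyQ (by
    intro h
    obtain ⟨j, h5, h6, h7 | h7⟩ := hroots 1 h
    · exact hζ1 j h5 h6 h7.symm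
    · exact hζ1 j h5 h6 (inv_eq_one.1 h7.symm)) hW hWti
  omega

open scoped Fin.CommRing Fin.NatCast in
/-- The monomial isometry `y` of the space of dimension `r` with `y ^ r = z`. -/
lemma exists_root_isom {r : ℕ} (hr : 0 < r) {z : F} (hz : z ^ (q + 1) = 1) :
    ∃ y : Module.End F (Fin r → F), Isom (hermForm r F q) y ∧ y ^ r = z • 1 := by
  have : NeZero r := ⟨hr.ne'⟩
  let d : Fin r → F := fun i => if i = 0 then z else 1
  let y : Module.End F (Fin r → F) :=
    { toFun := fun v i => d i * v (i - 1)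
      map_add' := fun u v => by funext i; simp [mul_add]
      map_smul' := fun c v => by funext i; simp; ring }
  have hy : ∀ v i, y v i = d i * v (i - 1) := fun v i => rfl
  have hpow : ∀ j : ℕ, ∀ v i, (y ^ j) v i = (∏ t ∈ Finset.range j, d (i - (t : Fin r))) * v (i - (j : Fin r)) := by
    intro j
    induction j with
    | zero => intro v i; simp
    | succ j ih =>
      intro v i
      rw [pow_succ, Module.End.mul_apply, ih, hy, Finset.prod_range_succ, mul_assoc]
      congr 3
      push_cast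
      ring
  refine ⟨y, ?_, ?_⟩
  · intro u v
    rw [herm_def, herm_def]
    have h1 : ∀ i, y u i * y v i ^ q = u (i - 1) * v (i - 1) ^ q := by
      intro i
      rw [hy, hy]
      have h2 : (d i) ^ (q + 1) = 1 := by
        change (if i = 0 then z else 1) ^ (q + 1) = 1
        split_ifs
        · exact hz
        · exact one_pow _
      calc _ = (d i) ^ (q + 1) * (u (i - 1) * v (i - 1) ^ q) := by ring
        _ = _ := by rw [h2, one_mul]
    rw [Finset.sum_congr rfl fun i _ => h1 i]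
    exact Equiv.sum_comp (Equiv.subRight (1 : Fin r)) fun i => u i * v i ^ q
  · apply LinearMap.ext
    intro v
    funext i
    rw [hpow, LinearMap.smul_apply, Module.End.one_apply, Pi.smul_apply, smul_eq_mul, Fin.natCast_self, sub_zero]
    congr 1
    rw [Finset.prod_range]
    have h1 : ∀ t : Fin r, d (i - ((t : ℕ) : Fin r)) = d (Equiv.subLeft i t) := fun t => by
      rw [Fin.cast_val_eq_self]; rfl
    rw [Finset.prod_congr rfl fun t _ => h1 t, Equiv.prod_comp (Equiv.subLeft i) d]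
    simp [d]

lemma exists_root_isom_mul {r : ℕ} (hr : 0 < r) {z : F} (hz : z ^ (q + 1) = 1) (A : ℕ) :
    ∃ y : Module.End F (Fin (r * A) → F), Isom (hermForm (r * A) F q) y ∧ y ^ r = z • 1 := by
  obtain ⟨g, hg, hgr⟩ := exists_root_isom (F := F) hr hz
  induction A with
  | zero =>
    refine ⟨1, isom_one, ?_⟩
    apply LinearMap.ext
    intro v
    funext i
    exact i.elim0
  | succ A ih =>
    obtain ⟨y, hy, hyr⟩ := ih
    refine ⟨(dsum y g : Module.End F (Fin (r * A + r) → F)), isom_dsum hy hg, ?_⟩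
    rw [dsum_pow, hyr, hgr, dsum_smul_one]

/-- (N3) -/
theorem nec_three (hF : Fintype.card F = q ^ 2) {r : ℕ} [Fact r.Prime] (hr2 : r ≠ 2) (h : r ∣ q + 1)
    (hn : n ≠ 0) (hlt : padicValNat r (q + 1) < padicValNat r n) :
    ∃ (x : Matrix.SpecialLinearGroup (Fin n) F) (z : F), x ∈ SU n F q ∧
      (x : Matrix (Fin n) (Fin n) F) ^ r = z • (1 : Matrix (Fin n) (Fin n) F) ∧
      (∀ d : F, d ^ r ≠ z) ∧ Irreducible (X ^ r - C z : F[X]) := by
  have hrp : r.Prime := Fact.out
  obtain ⟨hrn, z, hzq, hz, hzn⟩ := exists_norm_nonpower hF hr2 h hn hlt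
  have hirr : Irreducible (X ^ r - C z : F[X]) := X_pow_sub_C_irreducible_of_prime hrp hz
  obtain ⟨A, rfl⟩ := hrn
  obtain ⟨y, hy, hyr⟩ := exists_root_isom_mul (F := F) hrp.pos hzq A
  have hM : (LinearMap.toMatrix' y) ^ r = z • (1 : Matrix (Fin (r * A)) (Fin (r * A)) F) := by
    apply Matrix.toLin'.injective
    rw [Matrix.toLin'_pow, Matrix.toLin'_toMatrix', hyr, map_smul, Matrix.toLin'_one]
    rfl
  have hdet := (det_of_irred _ hM hirr hrp.pos).2
  rw [((hrp.odd_of_ne_two hr2).add_one).neg_one_pow, one_mul, hzn, LinearMap.det_toMatrix'] at hdet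
  obtain ⟨x, hx, -, hxr⟩ := exists_SL hy (r := r) hyr hdet
  exact ⟨x, z, hx, hxr, hz, hirr⟩

end Cfsg.Agent.H950
end

-- part: H950/UTwo
section
/-!
# The case `r = 2`, `q` odd: totally isotropic `m`-spaces fixed by involutions of `PSU_n(q)`
-/

set_option autoImplicit false
set_option linter.unusedSectionVars false

namespace Cfsg.Agent.H950

open Cfsg Module Polynomial Cfsg.Agent.H951 Cfsg.Agent.LieClassical.HermBasic Cfsg.Agent.ClassicalGeometry

variable {F : Type*} [Field F] [Fintype F] {q n : ℕ}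

/-- The determinant of an involution. -/
lemma det_invol {V : Type*} [AddCommGroup V] [Module F V] [FiniteDimensional F V] (h2 : ((2 : ℕ) : F) ≠ 0)
    {y : Module.End F V} (hy : y ^ 2 = 1) : LinearMap.det y = (-1) ^ finrank F (cm y) := by
  have hcm : ∀ v ∈ cm y, y v = -v := by
    intro v hv
    obtain ⟨u, rfl⟩ := mem_cm.1 hv
    have h3 : y (y u) = u := by
      have := LinearMap.congr_fun hy u
      rwa [pow_two, Module.End.mul_apply] at this
    rw [map_sub, h3]; abel
  let e := Submodule.prodEquivOfIsCompl (fx y) (cm y) (isCompl_fx_cm h2 hy)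
  have h1 : y = (e : (fx y × cm y) →ₗ[F] V) ∘ₗ
      (LinearMap.prodMap (LinearMap.id : fx y →ₗ[F] fx y) ((-1 : F) • (LinearMap.id : cm y →ₗ[F] cm y))) ∘ₗ
      (e.symm : V →ₗ[F] (fx y × cm y)) := by
    refine LinearMap.ext fun v => ?_
    obtain ⟨p, rfl⟩ := e.surjective v
    rw [LinearMap.comp_apply, LinearMap.comp_apply, LinearEquiv.coe_coe, LinearEquiv.coe_coe, e.symm_apply_apply]
    obtain ⟨a, b⟩ := p
    rw [LinearMap.prodMap_apply]
    simp only [LinearMap.id_apply, LinearMap.smul_apply, e, Submodule.coe_prodEquivOfIsCompl']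
    rw [map_add, mem_fx.1 a.2, hcm _ b.2]
    simp
  have h3 : LinearMap.det y = LinearMap.det (LinearMap.prodMap (LinearMap.id : fx y →ₗ[F] fx y)
      ((-1 : F) • (LinearMap.id : cm y →ₗ[F] cm y))) := by
    conv_lhs => rw [h1]
    exact LinearMap.det_conj _ e
  rw [h3, LinearMap.det_prodMap, LinearMap.det_id, one_mul, LinearMap.det_smul, LinearMap.det_id, mul_one]

theorem two_suff (hF : Fintype.card F = q ^ 2) (h2 : ((2 : ℕ) : F) ≠ 0) (hqo : Odd q) {m : ℕ} (hn : 0 < n)
    (hmn : 2 * m ≤ n) (hcond : 2 * m < n ∨ padicValNat 2 (q + 1) ≤ padicValNat 2 n)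
    {x : Matrix.SpecialLinearGroup (Fin n) F} (hx : x ∈ SU n F q) {z : F}
    (hz : (x : Matrix (Fin n) (Fin n) F) ^ 2 = z • (1 : Matrix (Fin n) (Fin n) F)) :
    ∃ W : Submodule F (Fin n → F), finrank F W = m ∧ TI (hermForm n F q) W ∧
      Inv (Matrix.toLin' (x : Matrix (Fin n) (Fin n) F)) W := by
  have : Fact (Nat.Prime 2) := ⟨Nat.prime_two⟩
  have hB := frm_herm hF n
  have hq2 : 2 ≤ q := two_le hF
  obtain ⟨t, ht⟩ := hqo
  have hxi := isom_of_SU hx
  have hz' := toLin'_pow_eq hz
  have hzn := norm_of_scalar hF hn hxi hz'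
  have hcard : Fintype.card F - 1 = (q + 1) * (2 * t) := by
    rw [hF, ht]
    have : (2 * t + 1) ^ 2 = (2 * t + 1 + 1) * (2 * t) + 1 := by ring
    omega
  have hz0 : z ≠ 0 := by
    rintro rfl
    rw [zero_pow (by omega)] at hzn
    exact zero_ne_one hzn
  obtain ⟨w, hw⟩ : ∃ w : F, w ^ 2 = z := by
    rw [exists_pow_eq_iff (by rw [hcard]; exact ⟨(q + 1) * t, by ring⟩) hz0, hcard,
      show (q + 1) * (2 * t) / 2 = (q + 1) * t by
        rw [show (q + 1) * (2 * t) = 2 * ((q + 1) * t) by ring, Nat.mul_div_cancel_left _ (by norm_num)],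
      pow_mul, hzn, one_pow]
  have hw0 : w ≠ 0 := by
    rintro rfl
    exact hz0 (by rw [← hw]; simp)
  have hws : (w ^ (q + 1)) * (w ^ (q + 1)) = 1 := by
    rw [← pow_add, ← two_mul, pow_mul, hw, hzn]
  set X := Matrix.toLin' (x : Matrix (Fin n) (Fin n) F) with hX
  set y := w⁻¹ • X with hy
  have hy2 : y ^ 2 = 1 := rescale_pow hz' hw hw0
  have hcm : ∀ v ∈ cm y, y v = -v := by
    intro v hv
    obtain ⟨u, rfl⟩ := mem_cm.1 hv
    have h3 : y (y u) = u := by
      have := LinearMap.congr_fun hy2 u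
      rwa [pow_two, Module.End.mul_apply] at this
    rw [map_sub, h3]; abel
  have hsum := finrank_fx_add_cm h2 hy2
  rw [finrank_fin_fun] at hsum
  have hinvX : ∀ {Z : Submodule F (Fin n → F)}, Inv y Z → Inv X Z := fun h => (inv_smul_iff (inv_ne_zero hw0)).1 h
  have hinvcm : ∀ Z ≤ cm y, Inv y Z := fun Z hZ v hv => by rw [hcm v (hZ hv)]; exact Z.neg_mem hv
  have hcases : w ^ (q + 1) = 1 ∨ w ^ (q + 1) = -1 := by
    have h3 : (w ^ (q + 1) - 1) * (w ^ (q + 1) + 1) = 0 := by linear_combination hws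
    rcases mul_eq_zero.1 h3 with h | h
    · exact Or.inl (sub_eq_zero.1 h)
    · exact Or.inr (eq_neg_of_add_eq_zero_left h)
  rcases hcases with hw1 | hw1
  · have hyi : Isom (hermForm n F q) y := isom_smul hxi hw1
    have hDn : Nd (hermForm n F q) (cm y) := by
      have := hyi.nd_inf_cm hB h2 hy2 inv_top (nd_top hF n)
      rwa [top_inf_eq] at this
    have hCn : Nd (hermForm n F q) (fx y) := by
      have := hyi.nd_inf_fx hB h2 hy2 inv_top (nd_top hF n)
      rwa [top_inf_eq] at this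
    have hpar : m ≤ finrank F (fx y) / 2 + finrank F (cm y) / 2 := by
      rcases Nat.lt_or_ge (2 * m) n with h | h
      · omega
      · have hmn' : 2 * m = n := le_antisymm hmn h
        rcases Nat.even_or_odd (finrank F (cm y)) with he | ho
        · obtain ⟨k, hk⟩ := he; omega
        · exfalso
          have hcond' : padicValNat 2 (q + 1) ≤ padicValNat 2 n := hcond.resolve_left (by omega)
          have hdet : LinearMap.det X = 1 := by
            rw [hX, LinearMap.det_toLin']; exact x.det_coe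
          have hXy : X = w • y := by rw [hy, smul_smul, mul_inv_cancel₀ hw0, one_smul]
          rw [hXy, LinearMap.det_smul, finrank_fin_fun, det_invol h2 hy2, ho.neg_one_pow, mul_neg_one] at hdet
          have hwn : w ^ n = -1 := by rw [← hdet, neg_neg]
          have h5 : w ^ (2 * n) = 1 := by rw [two_mul, pow_add, hwn]; ring
          have h6 : orderOf w ∣ 2 * n := orderOf_dvd_of_pow_eq_one h5
          have h7 : orderOf w ∣ q + 1 := orderOf_dvd_of_pow_eq_one hw1
          have h8 : padicValNat 2 (orderOf w) ≤ padicValNat 2 (q + 1) :=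
            (padicValNat_dvd_iff_le (by omega)).1 (pow_padicValNat_dvd.trans h7)
          have h9 : padicValNat 2 (2 * n) = padicValNat 2 n + 1 := by
            rw [padicValNat.mul (by norm_num) hn.ne', padicValNat_self, add_comm]
          have h10 := dvd_div_of_padic_lt (r := 2) (by omega) h6 (by omega)
          rw [Nat.mul_div_cancel_left _ (by norm_num : 0 < 2)] at h10
          have h11 : w ^ n = 1 := orderOf_dvd_iff_pow_eq_one.1 h10
          rw [h11] at hwn
          apply h2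
          have : (1 : F) + 1 = 0 := by nth_rewrite 1 [hwn]; ring
          rw [← this]; norm_num
    obtain ⟨a, b, hab, ha, hb⟩ : ∃ a b, m = a + b ∧ 2 * a ≤ finrank F (fx y) ∧ 2 * b ≤ finrank F (cm y) := by
      rcases le_total m (finrank F (fx y) / 2) with h | h
      · exact ⟨m, 0, by omega, by omega, by omega⟩
      · exact ⟨finrank F (fx y) / 2, m - finrank F (fx y) / 2, by omega, by omega, by omega⟩
    obtain ⟨C', hC', hC'ti, hC'd⟩ := exists_ti_plain hF hCn ha
    obtain ⟨D', hD', hD'ti, hD'd⟩ := exists_ti_plain hF hDn hb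
    have hperp : ∀ u ∈ C', ∀ v ∈ D', hermForm n F q u v = 0 := fun u hu v hv =>
      hyi.fx_cm hB (hC' hu) (hD' hv)
    have hdis : C' ⊓ D' = ⊥ := by
      rw [eq_bot_iff, ← (isCompl_fx_cm h2 hy2).inf_eq_bot]
      exact inf_le_inf hC' hD'
    refine ⟨C' ⊔ D', ?_, ?_, hinvX ((inv_of_le_fx hC').sup (hinvcm D' hD'))⟩
    · rw [finrank_sup_of_disj hdis, hC'd, hD'd, hab]
    · intro u hu v hv
      obtain ⟨a, ha, b', hb', rfl⟩ := Submodule.mem_sup.1 hu
      obtain ⟨c', hc', d', hd', rfl⟩ := Submodule.mem_sup.1 hv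
      rw [hB.add_left, hB.add_right, hB.add_right, hC'ti a ha c' hc', hperp a ha d' hd',
        hB.eq_zero_comm.1 (hperp c' hc' b' hb'), hD'ti b' hb' d' hd']
      simp
  · -- totally isotropic eigenspaces
    have hyy : ∀ u v, hermForm n F q (y u) (y v) = - hermForm n F q u v := by
      intro u v
      rw [hy, LinearMap.smul_apply, LinearMap.smul_apply, herm_smul_left, herm_smul_right, hxi, ← mul_assoc,
        ← pow_succ', inv_pow, hw1]
      rw [inv_neg, inv_one, neg_one_mul]
    have h20 : ∀ a : F, a = -a → a = 0 := by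
      intro a ha
      have h3 : ((2 : ℕ) : F) * a = 0 := by
        push_cast
        linear_combination ha
      exact (mul_eq_zero.1 h3).resolve_left h2
    have hCti : TI (hermForm n F q) (fx y) := by
      intro u hu v hv
      apply h20
      have := hyy u v
      rwa [mem_fx.1 hu, mem_fx.1 hv] at this
    have hDti : TI (hermForm n F q) (cm y) := by
      intro u hu v hv
      apply h20
      have := hyy u v
      rwa [hcm u hu, hcm v hv, hB.neg_left, hB.neg_right, neg_neg] at this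
    have h3 := hB.two_mul_finrank_le (nd_top hF n) le_top hCti
    have h4 := hB.two_mul_finrank_le (nd_top hF n) le_top hDti
    rw [finrank_top, finrank_fin_fun] at h3 h4
    obtain ⟨W, hW, hWd⟩ := exists_sub (fx y) (a := m) (by omega)
    exact ⟨W, hWd, fun u hu v hv => hCti u (hW hu) v (hW hv), hinvX (inv_of_le_fx hW)⟩

/-- An element `w` of norm one with `w ^ n = -1`. -/
lemma exists_norm_neg (hF : Fintype.card F = q ^ 2) (h2 : ((2 : ℕ) : F) ≠ 0) (hn : 0 < n)
    (hlt : padicValNat 2 n < padicValNat 2 (q + 1)) : ∃ w : F, w ^ (q + 1) = 1 ∧ w ^ n = -1 := by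
  have : Fact (Nat.Prime 2) := ⟨Nat.prime_two⟩
  have hq2 : 2 ≤ q := two_le hF
  obtain ⟨g, hg⟩ := IsCyclic.exists_generator (α := Fˣ)
  have hord : orderOf g = Fintype.card F - 1 := by
    rw [orderOf_eq_card_of_forall_mem_zpowers hg, Nat.card_units, Nat.card_eq_fintype_card]
  have hcard : Fintype.card F - 1 = (q + 1) * (q - 1) := by
    rw [hF]; obtain ⟨t, rfl⟩ : ∃ t, q = t + 1 := ⟨q - 1, by omega⟩
    rw [Nat.add_sub_cancel]
    have : (t + 1) ^ 2 = (t + 1 + 1) * t + 1 := by ring
    omega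
  set k := padicValNat 2 n with hk
  obtain ⟨e, he⟩ : 2 ^ (k + 1) ∣ q + 1 := (padicValNat_dvd_iff_le (by omega)).2 hlt
  obtain ⟨o, ho⟩ : 2 ^ k ∣ n := pow_padicValNat_dvd
  have hodd : Odd o := by
    rw [← Nat.not_even_iff_odd]
    rintro ⟨o', ho'⟩
    have h3 : 2 ^ (k + 1) ∣ n := ⟨o', by rw [ho, ho', pow_succ]; ring⟩
    have := (padicValNat_dvd_iff_le hn.ne').1 h3
    omega
  have hs0 : e * (q - 1) ≠ 0 := by
    have : e ≠ 0 := by rintro rfl; simp at he
    exact Nat.mul_ne_zero this (by omega)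
  have hgs : orderOf (g ^ (e * (q - 1))) = 2 ^ (k + 1) := by
    rw [orderOf_pow' g hs0, hord, hcard, he, mul_assoc, Nat.gcd_eq_right (dvd_mul_left _ _),
      Nat.mul_div_cancel _ (Nat.pos_of_ne_zero hs0)]
  set w : F := ((g ^ (e * (q - 1)) : Fˣ) : F) with hw
  have hwo : orderOf w = 2 ^ (k + 1) := by rw [hw, orderOf_units, hgs]
  refine ⟨w, by rw [← orderOf_dvd_iff_pow_eq_one, hwo]; exact ⟨e, he⟩, ?_⟩
  have h3 : w ^ 2 ^ k = -1 := by
    have h4 : (w ^ 2 ^ k) * (w ^ 2 ^ k) = 1 := by
      rw [← pow_add, ← two_mul, ← pow_succ', ← hwo]; exact pow_orderOf_eq_one _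
    have h5 : (w ^ 2 ^ k) ≠ 1 := by
      intro h
      have := orderOf_dvd_of_pow_eq_one h
      rw [hwo] at this
      have := Nat.le_of_dvd (by positivity) this
      rw [pow_succ] at this
      have : 0 < 2 ^ k := by positivity
      omega
    have h6 : (w ^ 2 ^ k - 1) * (w ^ 2 ^ k + 1) = 0 := by linear_combination h4
    rcases mul_eq_zero.1 h6 with h | h
    · exact absurd (sub_eq_zero.1 h) h5
    · exact eq_neg_of_add_eq_zero_left h
  rw [ho, pow_mul, h3, hodd.neg_one_pow]

theorem two_nec (hF : Fintype.card F = q ^ 2) (h2 : ((2 : ℕ) : F) ≠ 0) (hqo : Odd q) (hn : 2 ≤ n)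
    (hlt : padicValNat 2 n < padicValNat 2 (q + 1)) :
    ∃ x : Matrix.SpecialLinearGroup (Fin n) F, x ∈ SU n F q ∧
      (∃ z : F, (x : Matrix (Fin n) (Fin n) F) ^ 2 = z • (1 : Matrix (Fin n) (Fin n) F)) ∧
      (∀ z : F, (x : Matrix (Fin n) (Fin n) F) ≠ z • (1 : Matrix (Fin n) (Fin n) F)) ∧
      ∀ W : Submodule F (Fin n → F), TI (hermForm n F q) W →
        Inv (Matrix.toLin' (x : Matrix (Fin n) (Fin n) F)) W → 2 * finrank F W < n := by
  obtain ⟨w, hw, hwn⟩ := exists_norm_neg hF h2 (show 0 < n by omega) hlt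
  obtain ⟨n', rfl⟩ : ∃ n', n = n' + 1 := ⟨n - 1, by omega⟩
  have hw0 : w ≠ 0 := by
    rintro rfl
    rw [zero_pow (by omega)] at hw
    exact zero_ne_one hw
  have hB := frm_herm hF (n' + 1)
  set D : Matrix (Fin (n' + 1)) (Fin (n' + 1)) F := Matrix.diagonal (Fin.cons (-w) fun _ => w) with hD
  have hdet : D.det = 1 := by
    rw [hD, Matrix.det_diagonal, Fin.prod_univ_succ]
    simp only [Fin.cons_zero, Fin.cons_succ, Finset.prod_const, Finset.card_univ, Fintype.card_fin]
    rw [neg_mul, ← pow_succ', hwn, neg_neg]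
  have hDv : ∀ v : Fin (n' + 1) → F, ∀ i, (D.mulVec v) i = (Fin.cons (-w) fun _ => w : Fin (n' + 1) → F) i * v i :=
    fun v i => by rw [hD, Matrix.mulVec_diagonal]
  have hnorm : ∀ i, ((Fin.cons (-w) fun _ => w : Fin (n' + 1) → F) i) ^ (q + 1) = 1 := by
    intro i
    refine Fin.cases ?_ (fun j => ?_) i
    · rw [Fin.cons_zero, (hqo.add_one).neg_pow, hw]
    · rw [Fin.cons_succ, hw]
  refine ⟨(⟨D, hdet⟩ : Matrix.SpecialLinearGroup (Fin (n' + 1)) F), (mem_SU_iff _).2 ?_, ⟨w ^ 2, ?_⟩, ?_, ?_⟩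
  · intro u v
    change hermForm (n' + 1) F q (D.mulVec u) (D.mulVec v) = _
    rw [herm_def, herm_def]
    refine Finset.sum_congr rfl fun i _ => ?_
    rw [hDv, hDv, mul_pow]
    calc _ = ((Fin.cons (-w) fun _ => w : Fin (n' + 1) → F) i) ^ (q + 1) * (u i * v i ^ q) := by ring
      _ = _ := by rw [hnorm, one_mul]
  · change D ^ 2 = _
    rw [hD, Matrix.diagonal_pow, ← Matrix.diagonal_one, ← Matrix.diagonal_smul]
    congr 1
    funext i
    refine Fin.cases ?_ (fun j => ?_) i
    · simp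
    · simp
  · intro z hz
    change D = z • 1 at hz
    have h3 := congrFun (congrFun hz 0) 0
    have h4 := congrFun (congrFun hz (Fin.last n')) (Fin.last n')
    have hl : Fin.last n' ≠ 0 := by
      intro h
      have := congrArg Fin.val h
      simp at this
      omega
    obtain ⟨j, hj⟩ := Fin.exists_succ_eq.2 hl
    rw [← hj] at h4
    simp only [hD, Matrix.diagonal_apply_eq, Fin.cons_zero, Fin.cons_succ, Matrix.smul_apply, Matrix.one_apply_eq,
      smul_eq_mul, mul_one] at h3 h4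
    rw [← h4] at h3
    apply hw0
    have h5 : ((2 : ℕ) : F) * w = 0 := by push_cast; linear_combination -h3
    exact (mul_eq_zero.1 h5).resolve_left h2
  · intro W hWti hWi
    set e₀ : Fin (n' + 1) → F := Pi.single 0 1 with he₀
    have he : hermForm (n' + 1) F q e₀ e₀ = 1 := by
      rw [he₀, herm_single_left]; simp
    have hv0 : ∀ v ∈ W, v 0 = 0 := by
      intro v hv
      by_contra hne
      have h3 := hWi v hv
      rw [Matrix.toLin'_apply] at h3
      have h4 : w • v - D.mulVec v ∈ W := W.sub_mem (W.smul_mem w hv) h3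
      have h5 : w • v - D.mulVec v = (((2 : ℕ) : F) * w * v 0) • e₀ := by
        funext i
        rw [Pi.sub_apply, hDv, Pi.smul_apply, Pi.smul_apply]
        refine Fin.cases ?_ (fun j => ?_) i
        · simp [he₀]; ring
        · simp [he₀]
      rw [h5] at h4
      have h6 := hWti _ h4 _ h4
      rw [herm_smul_left, herm_smul_right, he, mul_one] at h6
      have h7 : (((2 : ℕ) : F) * w * v 0) ≠ 0 := mul_ne_zero (mul_ne_zero h2 hw0) hne
      exact (mul_ne_zero h7 (pow_ne_zero _ h7)) h6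
    set S : Submodule F (Fin (n' + 1) → F) := Submodule.span F {e₀} with hS
    have he0 : e₀ ≠ 0 := by
      intro h
      rw [h, herm_zero_left] at he
      exact zero_ne_one he
    have hSd : finrank F S = 1 := finrank_span_singleton he0
    have hSn : Nd (hermForm (n' + 1) F q) S := by
      intro u hu hu0
      obtain ⟨a, rfl⟩ := Submodule.mem_span_singleton.1 hu
      refine ⟨e₀, Submodule.mem_span_singleton_self _, ?_⟩
      rw [herm_smul_left, he, mul_one]
      rintro rfl
      exact hu0 (zero_smul _ _)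
    have h8 := hB.finrank_perp_inf hSn (U := ⊤) le_top
    have h9 := hB.nd_perp_inf (nd_top hF _) hSn (U := ⊤) le_top
    have hWS : W ≤ hB.perp S ⊓ ⊤ := by
      intro v hv
      refine ⟨fun u hu => ?_, Submodule.mem_top⟩
      obtain ⟨a, rfl⟩ := Submodule.mem_span_singleton.1 hu
      rw [herm_smul_right, he₀, herm_single_right hF, hv0 v hv]
      simp
    have h10 := hB.two_mul_finrank_le h9 hWS hWti
    rw [hSd, finrank_top, finrank_fin_fun] at h8
    omega

end Cfsg.Agent.H950
end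

-- part: S5953
section
set_option autoImplicit false
open scoped MatrixGroups
open Cfsg

namespace Cfsg.Agent.S5953

open Module Polynomial Cfsg.Agent.H951 Cfsg.Agent.H950 Cfsg.Agent.LieClassical.HermBasic

/-- Elements of prime order of PSU_n(q) with no fixed totally isotropic `m`-space. Here `T = PSU_n(q)` (`n ≥ 3`, `(n, q) ≠ (3, 2)`), realised through the matrices of determinant 1 over the field `F` with `q²` elements preserving the Hermitian form `h(u, v) = Σ u_i v_i^q`; an element of `T` of prime order `r` is such a matrix `x` with `x^r` scalar and `x` not scalar. For `r ≠ p` let `i` be the multiplicative order of `q` modulo `r`, `b = i/2` for `i` even and `b = i` for `i` odd, `c = i, i/2, 2i` according as `i ≡ 0, 2 (mod 4)` or `i` odd, and write `k = n mod c`, `ℓ = m mod b`, `ℓ' = m mod c`, `n' = ⌊n/b⌋`, `m' = ⌊m/b⌋`, `s = (r−1)/b`; `(a)_r` is the `r`-part of `a`. Let `1 ≤ m ≤ n/2` and let `r` be a prime dividing the number of totally isotropic `m`-spaces. Then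 every element of `T` of order `r` fixes a totally isotropic `m`-space if and only if either (i) `r = 2`, `p ≠ 2`, and `m < n/2` or `(q+1)_2 ≤ (n)_2`; or (ii) `r ≠ p`, `r > 2`, `b ≤ m`, `k ≥ 2ℓ`, and either `i ≢ 2 (mod 4)`, or `i ≡ 2 (mod 4)`, `n' − 2m' ≥ s` and (`i > 2`, or `i = 2` and `r ∣ m` or `(q+1)_r ≥ (n)_r`). -/
theorem result {F : Type*} [Field F] [Fintype F] {p : ℕ} [Fact p.Prime] [CharP F p] {q : ℕ} (hq : Fintype.card F = q ^ 2)
    (n m : ℕ) (hn : 3 ≤ n) (hT : (n, q) ≠ (3, 2)) (hm : 1 ≤ m) (hmn : 2 * m ≤ n)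
    (r : ℕ) [Fact r.Prime]
    (hrΩ : r ∣ Nat.card {W : Submodule F (Fin n → F) // Module.finrank F ↥W = m ∧ (∀ u ∈ W, ∀ v ∈ W, Cfsg.hermForm n F q u v = 0)})
    (i b c : ℕ) (hi : i = orderOf (q : ZMod r)) (hb : b = if Even i then i / 2 else i)
    (hc : c = if i % 4 = 0 then i else if i % 4 = 2 then i / 2 else 2 * i) :
    (∀ x : Matrix.SpecialLinearGroup (Fin n) F, x ∈ Cfsg.SU n F q →
      (∃ z : F, ((x ^ r : Matrix.SpecialLinearGroup (Fin n) F) : Matrix (Fin n) (Fin n) F) = z • (1 : Matrix (Fin n) (Fin n) F)) →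
      (∀ z : F, (x : Matrix (Fin n) (Fin n) F) ≠ z • (1 : Matrix (Fin n) (Fin n) F)) →
      ∃ W : Submodule F (Fin n → F), Module.finrank F ↥W = m ∧ (∀ u ∈ W, ∀ v ∈ W, Cfsg.hermForm n F q u v = 0) ∧
        W.map (Matrix.toLin' (x : Matrix (Fin n) (Fin n) F)) ≤ W) ↔
    ((r = 2 ∧ p ≠ 2 ∧ (2 * m < n ∨ padicValNat 2 (q + 1) ≤ padicValNat 2 n)) ∨
     (r ≠ p ∧ 2 < r ∧ b ≤ m ∧ 2 * (m % b) ≤ n % c ∧
       (i % 4 ≠ 2 ∨ (i % 4 = 2 ∧ (r - 1) / b + 2 * (m / b) ≤ n / b ∧
         (2 < i ∨ (i = 2 ∧ (r ∣ m ∨ padicValNat r n ≤ padicValNat r (q + 1)))))))) := by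
  classical
  have hF := hq
  have hrp : r.Prime := Fact.out
  have hpp : p.Prime := Fact.out
  have hq2 : 2 ≤ q := two_le hF
  have hpq : p ∣ q := by
    obtain ⟨e, -, he⟩ := FiniteField.card F p
    have h1 : p ∣ q ^ 2 := by rw [← hF, he]; exact dvd_pow_self p e.2.ne'
    exact hpp.dvd_of_dvd_pow h1
  obtain ⟨j, hj, hjq⟩ := exists_of_dvd_card_ti hF hmn hrp hrΩ
  have hnj : 0 < n - j := by omega
  have hrq : ¬ r ∣ q := by
    intro h
    rw [(ZMod.natCast_eq_zero_iff q r).2 h, neg_zero, zero_pow hnj.ne'] at hjq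
    exact zero_ne_one hjq
  have hr : (r : F) ≠ 0 := by
    intro h
    rw [CharP.cast_eq_zero_iff F p] at h
    rw [(Nat.prime_dvd_prime_iff_eq hpp hrp).1 h] at hpq
    exact hrq hpq
  have hrp' : r ≠ p := by rintro rfl; exact hrq hpq
  have hinj0 : ∀ {x : Matrix.SpecialLinearGroup (Fin n) F} {W : Submodule F (Fin n → F)},
      W.map (Matrix.toLin' (x : Matrix (Fin n) (Fin n) F)) ≤ W ↔
        Inv (Matrix.toLin' (x : Matrix (Fin n) (Fin n) F)) W := fun {x W} => inv_iff_map.symm
  -- a scalar fixes everything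
  have hscal : ∀ {x : Matrix.SpecialLinearGroup (Fin n) F}, (∀ W : Submodule F (Fin n → F),
      TI (hermForm n F q) W → Inv (Matrix.toLin' (x : Matrix (Fin n) (Fin n) F)) W → finrank F W ≠ m) →
      ∀ z : F, (x : Matrix (Fin n) (Fin n) F) ≠ z • (1 : Matrix (Fin n) (Fin n) F) := by
    intro x hx z hz
    obtain ⟨W, -, hWti, hWd⟩ := exists_ti_plain hF (nd_top hF n) (k := m) (by
      rw [finrank_top, finrank_fin_fun]; exact hmn)
    refine hx W hWti ?_ hWd
    intro w hw
    rw [hz, map_smul, Matrix.toLin'_one, LinearMap.smul_apply]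
    exact W.smul_mem z hw
  have hpow : ∀ {x : Matrix.SpecialLinearGroup (Fin n) F} {z : F},
      ((x ^ r : Matrix.SpecialLinearGroup (Fin n) F) : Matrix (Fin n) (Fin n) F) = z • (1 : Matrix (Fin n) (Fin n) F) ↔
      (x : Matrix (Fin n) (Fin n) F) ^ r = z • (1 : Matrix (Fin n) (Fin n) F) := by
    intro x z
    rw [Matrix.SpecialLinearGroup.coe_pow]
  by_cases hr2 : r = 2
  · -- `r = 2`
    subst hr2
    have h2 : ((2 : ℕ) : F) ≠ 0 := hr
    have hqo : Odd q := by
      rw [← Nat.not_even_iff_odd, even_iff_two_dvd]; exact hrq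
    constructor
    · intro H
      left
      refine ⟨rfl, hrp'.symm, ?_⟩
      by_contra hcon
      push Not at hcon
      obtain ⟨x, hx, ⟨z, hz⟩, hns, hW⟩ := two_nec hF h2 hqo (n := n) (by omega) hcon.2
      obtain ⟨W, hWd, hWti, hWi⟩ := H x hx ⟨z, hpow.2 hz⟩ hns
      have := hW W hWti (hinj0.1 hWi)
      omega
    · rintro (⟨-, -, hcond⟩ | ⟨-, h, -⟩)
      · intro x hx ⟨z, hz⟩ _
        obtain ⟨W, hWd, hWti, hWi⟩ := two_suff hF h2 hqo (by omega) hmn hcond hx (hpow.1 hz)
        exact ⟨W, hWd, hWti, hinj0.2 hWi⟩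
      · omega
  -- `r` odd
  have hodd : Odd r := hrp.odd_of_ne_two hr2
  have hr3 : 2 < r := lt_of_le_of_ne hrp.two_le (Ne.symm hr2)
  obtain ⟨hi0, hb0, hbo, hco, hcase, hbr⟩ := orders hr2 hrq hi hb hc
  have hbo' : b = orderOf (Fintype.card F : ZMod r) := by rw [hbo, hF]
  have hc0 : 0 < c := by
    rcases hcase with ⟨h, -⟩ | ⟨h, -⟩ <;> omega
  -- `i = 2` iff `r ∣ q + 1`
  have hi2 : r ∣ q + 1 → i = 2 := by
    intro h
    have h1 : (q : ZMod r) = -1 := by
      rw [← ZMod.natCast_eq_zero_iff] at h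
      push_cast at h
      exact eq_neg_of_add_eq_zero_left h
    rw [hi, h1, orderOf_neg_one, ZMod.ringChar_zmod_n, if_neg hr2]
  have hi2' : i = 2 → r ∣ q + 1 := by
    intro h
    have h1 : (q : ZMod r) ^ 2 = 1 := by rw [← h, hi]; exact pow_orderOf_eq_one _
    have h2 : (q : ZMod r) ≠ 1 := by
      intro h3
      rw [h3, orderOf_one] at hi
      omega
    have h3 : ((q : ZMod r) - 1) * ((q : ZMod r) + 1) = 0 := by linear_combination h1
    have h4 := (mul_eq_zero.1 h3).resolve_left (sub_ne_zero.2 h2)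
    rw [← ZMod.natCast_eq_zero_iff]
    push_cast
    exact h4
  have hcnj : c ∣ n - j := by rw [hco]; exact orderOf_dvd_of_pow_eq_one hjq
  have hnc : n % c ≤ j := by
    obtain ⟨t, ht⟩ := hcnj
    have : n = j + c * t := by omega
    rw [this, Nat.add_mul_mod_self_left]
    exact Nat.mod_le _ _
  constructor
  · intro H
    right
    refine ⟨hrp', hr3, ?_⟩
    have hfirst : b ≤ m ∧ 2 * (m % b) ≤ n % c := by
      by_cases h2 : i = 2
      · have hb1 : b = 1 := by rw [hb, if_pos (by rw [h2]; exact even_two), h2]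
        rw [hb1]
        refine ⟨hm, ?_⟩
        rw [Nat.mod_one, mul_zero]; exact Nat.zero_le _
      · have hrq1 : ¬ r ∣ q + 1 := fun h => h2 (hi2 h)
        obtain ⟨x, hx, hxr, hxf⟩ := nec_one hF hr hrq hrq1 hco hc0 n
        have hxi := isom_of_SU hx
        have hxr' : (Matrix.toLin' (x : Matrix (Fin n) (Fin n) F)) ^ r = 1 := by rw [toLin'_pow_eq hxr, one_smul]
        have hns : ∀ z : F, (x : Matrix (Fin n) (Fin n) F) ≠ z • (1 : Matrix (Fin n) (Fin n) F) := by
          intro z hz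
          have h3 : Matrix.toLin' (x : Matrix (Fin n) (Fin n) F) = z • (1 : Module.End F (Fin n → F)) := by
            rw [hz, map_smul, Matrix.toLin'_one]; rfl
          have h4 := norm_of_scalar hF (show 0 < n by omega) hxi (r := 1) (z := z) (by rw [pow_one, h3])
          have h5 : z ^ r = 1 := by
            have h6 := hxr'
            rw [h3, _root_.smul_pow, one_pow] at h6
            have h7 := LinearMap.congr_fun h6 (Pi.single ⟨0, by omega⟩ 1)
            have h8 := congrFun h7 ⟨0, by omega⟩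
            simpa using h8
          have h6 := Nat.dvd_gcd (orderOf_dvd_of_pow_eq_one h4) (orderOf_dvd_of_pow_eq_one h5)
          have h7 : Nat.gcd (q + 1) r = 1 := (Nat.coprime_comm.1 ((Nat.Prime.coprime_iff_not_dvd hrp).2 hrq1))
          rw [h7, Nat.dvd_one, orderOf_eq_one_iff] at h6
          rw [h6, one_smul] at h3
          rw [h3, fx_one', finrank_top, finrank_fin_fun] at hxf
          have h8 : c ≤ n := (Nat.le_of_dvd hnj hcnj).trans (Nat.sub_le _ _)
          have h9 := Nat.mod_lt n hc0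
          omega
        obtain ⟨W, hWd, hWti, hWi⟩ := H x hx ⟨1, hpow.2 hxr⟩ hns
        have hWi' := hinj0.1 hWi
        have h3 := mod_le_of_inv hr hxr' hWi'
        rw [hWd, ← hbo'] at h3
        have hCn : Nd (hermForm n F q) (fx (Matrix.toLin' (x : Matrix (Fin n) (Fin n) F))) := by
          have := hxi.nd_inf_fx (frm_herm hF n) hr hxr' inv_top (nd_top hF n)
          rwa [top_inf_eq] at this
        have h4 := (frm_herm hF n).two_mul_finrank_le hCn (inf_le_right : W ⊓ fx _ ≤ _)
          (fun u hu v hv => hWti u hu.1 v hv.1)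
        rw [hxf] at h4
        have h5 : 2 * (m % b) ≤ n % c := by omega
        refine ⟨?_, h5⟩
        by_contra hlt
        rw [Nat.mod_eq_of_lt (by omega)] at h5
        omega
    refine ⟨hfirst.1, hfirst.2, ?_⟩
    by_cases hi4 : i % 4 = 2
    · right
      refine ⟨hi4, ?_, ?_⟩
      · -- (N2)
        obtain ⟨hcb, -, hbodd, hib, hev⟩ := hcase.resolve_left (fun h => h.2 hi4)
        by_contra hlt
        push Not at hlt
        have hmb : 1 ≤ m / b := (Nat.one_le_div_iff hb0).2 hfirst.1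
        have hmn' : 2 * (m / b) ≤ n / b := by
          rw [Nat.le_div_iff_mul_le hb0]
          have := Nat.div_mul_le_self m b
          calc 2 * (m / b) * b = 2 * (m / b * b) := by ring
            _ ≤ 2 * m := Nat.mul_le_mul_left 2 this
            _ ≤ n := hmn
        have hfin : ∀ A : ℕ, n / b + 1 ≤ A + 2 * (m / b) →
            ∀ x : Matrix.SpecialLinearGroup (Fin n) F, x ∈ SU n F q →
            (x : Matrix (Fin n) (Fin n) F) ^ r = (1 : F) • (1 : Matrix (Fin n) (Fin n) F) →
            (∀ W : Submodule F (Fin n → F), TI (hermForm n F q) W →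
              Inv (Matrix.toLin' (x : Matrix (Fin n) (Fin n) F)) W → 2 * finrank F W ≤ n - b * A) → False := by
          intro A hA x hx hxr hW
          have hlt' : n - b * A < 2 * m := by
            have h3 := Nat.div_add_mod n b
            have h4 := Nat.mod_lt n hb0
            have h5 := Nat.div_mul_le_self m b
            have h6 : b * (n / b + 1) ≤ b * (A + 2 * (m / b)) := Nat.mul_le_mul_left b hA
            rw [mul_add, mul_add, mul_one] at h6
            have h7 : b * (2 * (m / b)) = 2 * (m / b * b) := by ring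
            omega
          have hne : ∀ W : Submodule F (Fin n → F), TI (hermForm n F q) W →
              Inv (Matrix.toLin' (x : Matrix (Fin n) (Fin n) F)) W → finrank F W ≠ m := by
            intro W h3 h4 h5
            have := hW W h3 h4
            omega
          obtain ⟨W, hWd, hWti, hWi⟩ := H x hx ⟨1, hpow.2 hxr⟩ (hscal hne)
          exact hne W hWti (hinj0.1 hWi) hWd
        have hbs : b * ((r - 1) / b) = r - 1 := Nat.mul_div_cancel' hbr
        by_cases h2 : i = 2
        · have hb1 : b = 1 := by omega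
          subst hb1
          rw [Nat.div_one] at hev hlt hmb hmn'
          rw [Nat.div_one] at hlt hmn'
          rw [Nat.div_one] at hlt
          obtain ⟨e, he⟩ := hev
          -- A even in {n-2m+1, n-2m+2}
          obtain ⟨t, ht1, ht2, ht3⟩ : ∃ t, n + 1 ≤ 2 * t + 2 * m ∧ 2 * t ≤ r - 1 ∧ 2 * t ≤ n :=
            ⟨(n - 2 * m + 2) / 2, by omega, by omega, by omega⟩
          obtain ⟨x, hx, hxr, hW⟩ := nec_two' (n := n) hF (hi2' h2) ht2 ht3
          exact hfin (2 * t) (by simpa using ht1) x hx hxr (by rw [one_mul]; exact hW)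
        · have hrq1 : ¬ r ∣ q + 1 := fun h => h2 (hi2 h)
          have hA1 : n / b + 1 - 2 * (m / b) ≤ (r - 1) / b := by omega
          have hA2 : b * (n / b + 1 - 2 * (m / b)) ≤ r - 1 := by
            rw [← hbs]; exact Nat.mul_le_mul_left b hA1
          have hA3 : b * (n / b + 1 - 2 * (m / b)) ≤ n := by
            refine (Nat.mul_le_mul_left b (show n / b + 1 - 2 * (m / b) ≤ n / b by omega)).trans ?_
            exact Nat.mul_div_le n b
          obtain ⟨x, hx, hxr, hW⟩ := nec_two hF hr hrq hrq1 hbo' (hcb ▸ hco) hb0 hA2 hA3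
          exact hfin _ (by omega) x hx hxr hW
      · rcases Nat.lt_or_ge 2 i with h2 | h2
        · exact Or.inl h2
        · right
          have h2' : i = 2 := by omega
          refine ⟨h2', ?_⟩
          by_contra hcon
          push Not at hcon
          obtain ⟨x, z, hx, hxr, hz, hirr⟩ := nec_three hF hr2 (hi2' h2') (show n ≠ 0 by omega) hcon.2
          have hns : ∀ z' : F, (x : Matrix (Fin n) (Fin n) F) ≠ z' • (1 : Matrix (Fin n) (Fin n) F) := by
            intro z' hz'
            apply hz z'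
            rw [hz', _root_.smul_pow, one_pow] at hxr
            have h3 := congrFun (congrFun hxr ⟨0, by omega⟩) ⟨0, by omega⟩
            simpa using h3
          obtain ⟨W, hWd, hWti, hWi⟩ := H x hx ⟨z, hpow.2 hxr⟩ hns
          have h3 := natDegree_dvd_of_inv hirr (aeval_toLin'_eq hxr) (hinj0.1 hWi)
          rw [natDegree_X_pow_sub_C, hWd] at h3
          exact hcon.1 h3
    · exact Or.inl hi4
  · rintro (⟨h, -⟩ | ⟨-, -, hbm, hmod, hcond⟩)
    · exact absurd h hr2
    intro x hx ⟨z, hz⟩ _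
    rw [hpow] at hz
    have hxi := isom_of_SU hx
    have hz' := toLin'_pow_eq hz
    have hzn := norm_of_scalar hF (show 0 < n by omega) hxi hz'
    suffices hgoal : ∃ W : Submodule F (Fin n → F), finrank F W = m ∧ TI (hermForm n F q) W ∧
        Inv (Matrix.toLin' (x : Matrix (Fin n) (Fin n) F)) W by
      obtain ⟨W, h1, h2, h3⟩ := hgoal
      exact ⟨W, h1, h2, hinj0.2 h3⟩
    by_cases hw : ∃ w : F, w ^ (q + 1) = 1 ∧ w ^ r = z
    · obtain ⟨w, hw1, hw2⟩ := hw
      have hw0 : w ≠ 0 := by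
        rintro rfl
        rw [zero_pow (by omega)] at hw1
        exact zero_ne_one hw1
      have hyr := rescale_pow hz' hw2 hw0
      have hyi := isom_smul hxi hw1
      obtain ⟨W, h1, h2, h3⟩ := suff_A hF hr hr2 hrq hyi hyr hbo' hco hb0 hbr hmn hmod (by
        rcases hcase with ⟨h1, -⟩ | ⟨h1, h2, -⟩
        · exact Or.inl h1
        · refine Or.inr ⟨h1, ?_⟩
          rcases hcond with h3 | ⟨-, h3, -⟩
          · exact absurd h2 h3
          · exact h3)
      exact ⟨W, h1, h2, (inv_smul_iff (inv_ne_zero hw0)).1 h3⟩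
    · have hrq1 : r ∣ q + 1 := by
        by_contra h
        exact hw (exists_norm_root_of_not_dvd h hzn)
      have hznp : ∀ d : F, d ^ r ≠ z := by
        intro d hd
        exact hw ⟨d, norm_root hF (not_dvd_sub_of_dvd_add hrp hr2 (by omega) hrq1) hzn hd, hd⟩
      have hirr : Irreducible (X ^ r - C z : F[X]) := X_pow_sub_C_irreducible_of_prime hrp hznp
      have hdet := det_of_irred _ hz hirr hrp.pos
      have hd1 : (x : Matrix (Fin n) (Fin n) F).det = 1 := x.det_coe
      rw [hd1, ((hodd).add_one).neg_one_pow, one_mul] at hdet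
      have hlt := padic_lt_of_nonpower hF hr2 hrq1 (show n ≠ 0 by omega) hdet.1 hznp hdet.2.symm
      have hi2'' := hi2 hrq1
      have hrm : r ∣ m := by
        rcases hcond with h3 | ⟨-, -, h3 | ⟨-, h3 | h3⟩⟩
        · rw [hi2''] at h3; exact absurd rfl h3
        · omega
        · exact h3
        · omega
      exact suff_B hF hodd hxi hz' hirr hrm hmn

end Cfsg.Agent.S5953
end
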