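import Cfsg.Statements.S5954
import Cfsg.Agent.H951.UUnip
set_option linter.all false

set_option autoImplicit false
open scoped MatrixGroups
open Cfsg

namespace Cfsg.Agent.S5954

/-- Multisets of ones and twos. -/
lemma two_parts {n m : ℕ} (hmn : 2 * m < n) :
    (∀ μ : Multiset ℕ, (∀ a ∈ μ, 0 < a ∧ a ≤ 2) → μ.sum = n → ∃ ν : Multiset ℕ, ν ≤ μ ∧ ν.sum = m) ↔
      (Odd n ∨ Even m) := by
  constructor
  · intro h
    by_contra hno
    push Not at hno
    obtain ⟨h1, h2⟩ := hno
    rw [Nat.not_odd_iff_even] at h1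
    obtain ⟨k, hk⟩ := h1
    obtain ⟨ν, hν, hs⟩ := h (Multiset.replicate k 2) (by
      intro a ha
      rw [Multiset.eq_of_mem_replicate ha]; omega) (by
      rw [Multiset.sum_replicate, smul_eq_mul]; omega)
    obtain ⟨j, -, rfl⟩ := Multiset.le_replicate_iff.1 hν
    apply h2
    rw [← hs, Multiset.sum_replicate, smul_eq_mul]
    exact even_iff_two_dvd.2 (Dvd.intro_left j rfl)
  · intro h μ hμ hs
    set a := μ.count 2 with ha
    set b := μ.count 1 with hb
    have hμ' : μ = Multiset.replicate a 2 + Multiset.replicate b 1 := by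
      ext x
      rw [Multiset.count_add, Multiset.count_replicate, Multiset.count_replicate]
      by_cases h2 : x = 2
      · subst h2; simp [ha]
      by_cases h1 : x = 1
      · subst h1; simp [hb]
      · rw [if_neg (Ne.symm h2), if_neg (Ne.symm h1)]
        apply Multiset.count_eq_zero_of_notMem
        intro hx
        have := hμ x hx
        omega
    have hs' : 2 * a + b = n := by
      rw [hμ', Multiset.sum_add, Multiset.sum_replicate, Multiset.sum_replicate] at hs
      simp only [smul_eq_mul] at hs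
      omega
    refine ⟨Multiset.replicate (min a (m / 2)) 2 + Multiset.replicate (m - 2 * min a (m / 2)) 1, ?_, ?_⟩
    · conv_rhs => rw [hμ']
      apply add_le_add
      · exact (Multiset.replicate_le_replicate _).2 (min_le_left _ _)
      · apply (Multiset.replicate_le_replicate _).2
        rcases le_total a (m / 2) with h3 | h3
        · rw [min_eq_left h3]; omega
        · rw [min_eq_right h3]
          rcases h with h | h
          · rw [Nat.odd_iff] at h; omega
          · rw [Nat.even_iff] at h; omega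
    · rw [Multiset.sum_add, Multiset.sum_replicate, Multiset.sum_replicate]
      simp only [smul_eq_mul]
      have : 2 * min a (m / 2) ≤ m := by
        have := min_le_right a (m / 2)
        omega
      omega

/-- Elements of prime order of PSU_n(q) with no fixed nondegenerate `m`-space. Here `T = PSU_n(q)` (`n ≥ 3`, `(n, q) ≠ (3, 2)`), realised through the matrices of determinant 1 over the field `F` with `q²` elements preserving the Hermitian form `h(u, v) = Σ u_i v_i^q`; an element of `T` of prime order `r` is such a matrix `x` with `x^r` scalar and `x` not scalar. For `r ≠ p` let `i` be the multiplicative order of `q` modulo `r`, `b = i/2` for `i` even and `b = i` for `i` odd, `c = i, i/2, 2i` according as `i ≡ 0, 2 (mod 4)` or `i` odd, and write `k = n mod c`, `ℓ = m mod b`, `ℓ' = m mod c`, `n' = ⌊n/b⌋`, `m' = ⌊m/b⌋`, `s = (r−1)/b`; `(a)_r` is the `r`-part of `a`. Let `1 ≤ m < n/2` and let `r` be a prime dividing the number of nondegenerate `m`-spaces. Then every element of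 `T` of order `r` fixes a nondegenerate `m`-space if and only if one of: (i) `r = p > 2` and every partition of `n` into parts of size at most `p` contains (as a sub-multiset) a partition of `m`; (ii) `r = p = 2` and `n` is odd or `m` is even; (iii) `r = 2 ≠ p` and `n` is odd, or `m` is even, or `(q+1)_2 ≥ (n)_2` and `q ≡ 3 (mod 4)`; (iv) `r ≠ p`, `r > 2`, and either `i ≠ 2`, `c ≤ m` and `k ≥ ℓ'`, or `i = 2` and `r ∣ m` or `(q+1)_r ≥ (n)_r`. -/
theorem result {F : Type*} [Field F] [Fintype F] {p : ℕ} [Fact p.Prime] [CharP F p] {q : ℕ} (hq : Fintype.card F = q ^ 2)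
    (n m : ℕ) (hn : 3 ≤ n) (hT : (n, q) ≠ (3, 2)) (hm : 1 ≤ m) (hmn : 2 * m < n)
    (r : ℕ) [Fact r.Prime]
    (hrΩ : r ∣ Nat.card {W : Submodule F (Fin n → F) // Module.finrank F ↥W = m ∧ (∀ u ∈ W, u ≠ 0 → ∃ v ∈ W, Cfsg.hermForm n F q u v ≠ 0)})
    (i b c : ℕ) (hi : i = orderOf (q : ZMod r)) (hb : b = if Even i then i / 2 else i)
    (hc : c = if i % 4 = 0 then i else if i % 4 = 2 then i / 2 else 2 * i) :
    (∀ x : Matrix.SpecialLinearGroup (Fin n) F, x ∈ Cfsg.SU n F q →
      (∃ z : F, ((x ^ r : Matrix.SpecialLinearGroup (Fin n) F) : Matrix (Fin n) (Fin n) F) = z • (1 : Matrix (Fin n) (Fin n) F)) →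
      (∀ z : F, (x : Matrix (Fin n) (Fin n) F) ≠ z • (1 : Matrix (Fin n) (Fin n) F)) →
      ∃ W : Submodule F (Fin n → F), Module.finrank F ↥W = m ∧ (∀ u ∈ W, u ≠ 0 → ∃ v ∈ W, Cfsg.hermForm n F q u v ≠ 0) ∧
        W.map (Matrix.toLin' (x : Matrix (Fin n) (Fin n) F)) ≤ W) ↔
    ((r = p ∧ 2 < p ∧ (∀ μ : Multiset ℕ, (∀ a ∈ μ, 0 < a ∧ a ≤ p) → μ.sum = n → ∃ ν : Multiset ℕ, ν ≤ μ ∧ ν.sum = m)) ∨
     (r = p ∧ p = 2 ∧ (Odd n ∨ Even m)) ∨
     (r = 2 ∧ p ≠ 2 ∧ (Odd n ∨ Even m ∨ (padicValNat 2 n ≤ padicValNat 2 (q + 1) ∧ q % 4 = 3))) ∨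
     (r ≠ p ∧ 2 < r ∧ ((i ≠ 2 ∧ c ≤ m ∧ m % c ≤ n % c) ∨ (i = 2 ∧ (r ∣ m ∨ padicValNat r n ≤ padicValNat r (q + 1)))))) := by
  have hF : Fintype.card F = q ^ 2 := hq
  have hrP : r.Prime := Fact.out
  have hpP : p.Prime := Fact.out
  change H951.UStat F n q m r ↔ _
  by_cases hrp : r = p
  · subst hrp
    rw [H951.ustat_p hF hn hm hmn]
    by_cases h2 : r = 2
    · subst h2
      rw [two_parts hmn]
      constructor
      · intro h; exact Or.inr (Or.inl ⟨rfl, rfl, h⟩)
      · rintro (⟨-, h, -⟩ | ⟨-, -, h⟩ | ⟨-, h, -⟩ | ⟨h, -⟩)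
        · exact absurd h (lt_irrefl 2)
        · exact h
        · exact absurd rfl h
        · exact absurd rfl h
    · have h3 : 2 < r := lt_of_le_of_ne hrP.two_le (Ne.symm h2)
      constructor
      · intro h; exact Or.inl ⟨rfl, h3, h⟩
      · rintro (⟨-, -, h⟩ | ⟨-, h, -⟩ | ⟨h, -⟩ | ⟨h, -⟩)
        · exact h
        · exact absurd h h2
        · exact absurd h h2
        · exact absurd rfl h
  · have hrF : (r : F) ≠ 0 := by
      intro h
      rw [CharP.cast_eq_zero_iff F p] at h
      exact hrp ((Nat.prime_dvd_prime_iff_eq hpP hrP).1 h).symm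
    by_cases h2 : r = 2
    · subst h2
      have h2F : (2 : F) ≠ 0 := by exact_mod_cast hrF
      rw [H951.ustat_two hF h2F hn hm hmn]
      constructor
      · intro h; exact Or.inr (Or.inr (Or.inl ⟨rfl, Ne.symm hrp, h⟩))
      · rintro (⟨h, -⟩ | ⟨h, -⟩ | ⟨-, -, h⟩ | ⟨-, h, -⟩)
        · exact absurd h hrp
        · exact absurd h hrp
        · exact h
        · exact absurd h (lt_irrefl 2)
    · have h3 : 2 < r := lt_of_le_of_ne hrP.two_le (Ne.symm h2)
      have key : H951.UStat F n q m r ↔ ((i ≠ 2 ∧ c ≤ m ∧ m % c ≤ n % c) ∨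
          (i = 2 ∧ (r ∣ m ∨ padicValNat r n ≤ padicValNat r (q + 1)))) := by
        by_cases hi2 : i = 2
        · rw [H951.ustat_eq2 (p := p) hF hn hm hmn h2 hrF hi hc hi2]
          constructor
          · intro h; exact Or.inr ⟨hi2, h⟩
          · rintro (⟨h, -⟩ | ⟨-, h⟩)
            · exact absurd hi2 h
            · exact h
        · have h4 : H951.UStat F n q m r ↔ _ := H951.nd_unitary_ne2 (p := p) hF m hn hm hmn h2 hrF hrΩ hi hc hi2
          rw [h4]
          constructor
          · intro h; exact Or.inl ⟨hi2, h⟩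
          · rintro (⟨-, h⟩ | ⟨h, -⟩)
            · exact h
            · exact absurd h hi2
      rw [key]
      constructor
      · intro h; exact Or.inr (Or.inr (Or.inr ⟨hrp, h3, h⟩))
      · rintro (⟨h, -⟩ | ⟨h, -⟩ | ⟨h, -⟩ | ⟨-, -, h⟩)
        · exact absurd h hrp
        · exact absurd h hrp
        · exact absurd h h2
        · exact h

end Cfsg.Agent.S5954
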