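import Cfsg.Agent.H951.Step_mg
import Cfsg.Agent.H951.SBridge
import Cfsg.Agent.S0775
import Cfsg.Agent.S0749
import Cfsg.Statements.S5955
set_option linter.all false

-- part: H951/TI
section
/-!
# Totally isotropic invariant subspaces (symplectic case) via Chevalley–Warning
-/

set_option autoImplicit false
set_option linter.unusedSectionVars false
set_option linter.unusedVariables false

namespace Cfsg.Agent.H951

open Module Polynomial

variable {F V : Type*} [Field F] [AddCommGroup V] [Module F V] [FiniteDimensional F V]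
variable {σ : F →+* F} {ε : F} {B : V → V → F} {U W : Submodule F V} {x : Module.End F V} {r : ℕ}

/-- Common isotropic vectors of few quadratic forms `v ↦ B(v, g v)`. -/
theorem exists_common_isotropic [Fintype F] (hB : Frm (RingHom.id F) ε B) {n : ℕ} (hn : 2 * n < finrank F U)
    (g : Fin n → Module.End F V) : ∃ v ∈ U, v ≠ 0 ∧ ∀ k, B v (g k v) = 0 := by
  classical
  obtain ⟨p, hp⟩ := CharP.exists F
  have hpP : p.Prime := (FiniteField.card F p).choose_spec.1
  set N := finrank F U with hN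
  let b := finBasis F U
  let f : Fin n → MvPolynomial (Fin N) F := fun k =>
    ∑ a, ∑ c, MvPolynomial.C (B (b a : V) (g k (b c : V))) * (MvPolynomial.X a * MvPolynomial.X c)
  let vec : (Fin N → F) → V := fun t => ∑ a, t a • (b a : V)
  have hvec : ∀ t, vec t ∈ U := fun t => U.sum_mem fun a _ => U.smul_mem _ (b a).2
  have heval : ∀ k t, MvPolynomial.eval t (f k) = B (vec t) (g k (vec t)) := by
    intro k t
    show MvPolynomial.eval t (∑ a, ∑ c, MvPolynomial.C (B (b a : V) (g k (b c : V))) *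
      (MvPolynomial.X a * MvPolynomial.X c)) = B (∑ a, t a • (b a : V)) (g k (∑ a, t a • (b a : V)))
    rw [map_sum, hB.sum_left]
    refine Finset.sum_congr rfl fun a _ => ?_
    rw [map_sum, map_sum, hB.sum_right]
    refine Finset.sum_congr rfl fun c _ => ?_
    rw [map_smul, hB.smul_left, hB.smul_right, RingHom.id_apply, map_mul, map_mul, MvPolynomial.eval_C,
      MvPolynomial.eval_X, MvPolynomial.eval_X]
    ring
  have hdeg : ∀ k, (f k).totalDegree ≤ 2 := by
    intro k
    refine MvPolynomial.totalDegree_finsetSum_le fun a _ => MvPolynomial.totalDegree_finsetSum_le fun c _ => ?_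
    refine (MvPolynomial.totalDegree_mul _ _).trans ?_
    rw [MvPolynomial.totalDegree_C, zero_add]
    refine (MvPolynomial.totalDegree_mul _ _).trans ?_
    rw [MvPolynomial.totalDegree_X, MvPolynomial.totalDegree_X]
  have hsum : (∑ k ∈ (Finset.univ : Finset (Fin n)), (f k).totalDegree) < Fintype.card (Fin N) := by
    calc (∑ k ∈ (Finset.univ : Finset (Fin n)), (f k).totalDegree) ≤ ∑ k ∈ (Finset.univ : Finset (Fin n)), 2 :=
          Finset.sum_le_sum fun k _ => hdeg k
      _ = 2 * n := by simp [mul_comm]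
      _ < Fintype.card (Fin N) := by rw [Fintype.card_fin]; exact hn
  have hdvd := char_dvd_card_solutions_of_sum_lt p hsum
  have h0 : ∀ k ∈ (Finset.univ : Finset (Fin n)), MvPolynomial.eval (0 : Fin N → F) (f k) = 0 := by
    intro k _
    rw [heval]
    have : vec 0 = 0 := by simp [vec]
    rw [this, map_zero, hB.zero_left]
  let z : {t : Fin N → F // ∀ k ∈ (Finset.univ : Finset (Fin n)), MvPolynomial.eval t (f k) = 0} := ⟨0, h0⟩
  have hcard : 1 < Fintype.card {t : Fin N → F // ∀ k ∈ (Finset.univ : Finset (Fin n)), MvPolynomial.eval t (f k) = 0} := by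
    have hpos : 0 < Fintype.card {t : Fin N → F // ∀ k ∈ (Finset.univ : Finset (Fin n)), MvPolynomial.eval t (f k) = 0} :=
      Fintype.card_pos_iff.2 ⟨z⟩
    exact lt_of_lt_of_le hpP.one_lt (Nat.le_of_dvd hpos (by convert hdvd))
  obtain ⟨t, ht⟩ := Fintype.exists_ne_of_one_lt_card hcard z
  refine ⟨vec t.1, hvec _, ?_, fun k => ?_⟩
  · intro h
    apply ht
    apply Subtype.ext
    have h1 : ((∑ a, t.1 a • b a : U) : V) = 0 := by
      rw [Submodule.coe_sum]
      exact h
    have h2 : ∑ a, t.1 a • b a = 0 := Subtype.ext h1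
    funext a
    exact Fintype.linearIndependent_iff.1 b.linearIndependent t.1 h2 a
  · rw [← heval]
    exact t.2 k (Finset.mem_univ k)

/-- The cyclic subspace of `v` is totally isotropic if `B(v, x^k v) = 0` for all `k`. -/
lemma exists_ti_cyc (hB : Frm σ ε B) (hx : Isom B x) (hU : Inv x U) {v : V} (hv : v ∈ U) (hv0 : v ≠ 0)
    (h : ∀ k : ℕ, B v ((x ^ k) v) = 0) : ∃ C ≤ U, Inv x C ∧ C ≠ ⊥ ∧ TI B C := by
  refine ⟨Submodule.span F (Set.range fun k : ℕ => (x ^ k) v), ?_, ?_, ?_, ?_⟩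
  · rw [Submodule.span_le]
    rintro _ ⟨k, rfl⟩
    exact hU.pow k v hv
  · intro w hw
    induction hw using Submodule.span_induction with
    | mem w hw =>
      obtain ⟨k, rfl⟩ := hw
      apply Submodule.subset_span
      exact ⟨k + 1, by simp only; rw [pow_succ', Module.End.mul_apply]⟩
    | zero => rw [map_zero]; exact Submodule.zero_mem _
    | add a b _ _ ha hb => rw [map_add]; exact Submodule.add_mem _ ha hb
    | smul t a _ ha => rw [map_smul]; exact Submodule.smul_mem _ t ha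
  · intro h0
    have h1 : v ∈ Submodule.span F (Set.range fun k : ℕ => (x ^ k) v) := Submodule.subset_span ⟨0, by simp⟩
    rw [h0, Submodule.mem_bot] at h1
    exact hv0 h1
  · have key : ∀ a b : ℕ, B ((x ^ a) v) ((x ^ b) v) = 0 := by
      intro a b
      rcases le_total a b with hab | hab
      · obtain ⟨c, rfl⟩ := Nat.exists_eq_add_of_le hab
        rw [pow_add, Module.End.mul_apply, hx.pow a]
        exact h c
      · obtain ⟨c, rfl⟩ := Nat.exists_eq_add_of_le hab
        rw [pow_add, Module.End.mul_apply, hx.pow b]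
        exact hB.eq_zero_comm.1 (h c)
    intro w hw w' hw'
    induction hw using Submodule.span_induction with
    | mem w hw =>
      obtain ⟨a, rfl⟩ := hw
      induction hw' using Submodule.span_induction with
      | mem w' hw' => obtain ⟨b, rfl⟩ := hw'; exact key a b
      | zero => exact hB.zero_right _
      | add s t _ _ hs ht => rw [hB.add_right, hs, ht, add_zero]
      | smul c t _ ht => rw [hB.smul_right, ht, mul_zero]
    | zero => exact hB.zero_left _
    | add s t _ _ hs ht => rw [hB.add_left, hs, ht, add_zero]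
    | smul c t _ ht => rw [hB.smul_left, ht, mul_zero]

/-- Extension of totally isotropic invariant subspaces. -/
theorem exists_ti_of_step (hB : Frm σ ε B) (hss : x.IsSemisimple) (hperp : ∀ W, Inv x W → Inv x (hB.perp W)) {D : ℕ}
    {T : Submodule F V} (step : ∀ U ≤ T, Inv x U → Nd B U → D < finrank F U → ∃ C ≤ U, Inv x C ∧ C ≠ ⊥ ∧ TI B C)
    (hUT : U ≤ T) (hU : Inv x U) (hUn : Nd B U) : ∃ W ≤ U, Inv x W ∧ TI B W ∧ finrank F U ≤ 2 * finrank F W + D := by
  induction hn : finrank F U using Nat.strong_induction_on generalizing U with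
  | _ n ih =>
    by_cases hD : n ≤ D
    · exact ⟨⊥, bot_le, inv_bot, ti_bot hB, by omega⟩
    obtain ⟨C, hCU, hC, hC0, hCt⟩ := step U hUT hU hUn (by omega)
    have hCle : C ≤ hB.perp C ⊓ U := le_inf (hB.ti_iff.1 hCt) hCU
    obtain ⟨U', hU', hU'le, h1, h2⟩ := exists_rel_compl hss hC ((hperp C hC).inf hU) hCle
    obtain ⟨hn1, hn2, hn3, hn4⟩ := nd_compl_ti hB hUn hCU hCt h1 h2
    have hCpos : 0 < finrank F C := by
      rw [Nat.pos_iff_ne_zero]
      exact fun h => hC0 (Submodule.finrank_eq_zero.1 h)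
    obtain ⟨W', hW'U, hW', hW't, hd⟩ := ih (finrank F U') (by omega) (hn3.trans hUT) hU' hn1 rfl
    refine ⟨W' ⊔ C, sup_le (hW'U.trans hn3) hCU, hW'.sup hC, ti_sup hB hW't hCt (hW'U.trans hn2), ?_⟩
    have h3 : W' ⊓ C = ⊥ := by
      rw [eq_bot_iff, ← h1]
      exact fun v hv => ⟨hv.2, hW'U hv.1⟩
    rw [finrank_sup_of_disj h3]
    omega

/-- The Chevalley–Warning step for `x^r = 1`, `r` odd. -/
lemma step_cw [Fintype F] (hB : Frm (RingHom.id F) ε B) (ha : ∀ v, B v v = 0) (hx : Isom B x) (hr : Odd r)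
    (hxr : x ^ r = 1) (U : Submodule F V) (hU : Inv x U) (h : r - 1 < finrank F U) :
    ∃ C ≤ U, Inv x C ∧ C ≠ ⊥ ∧ TI B C := by
  obtain ⟨s, hs⟩ := hr
  obtain ⟨v, hv, hv0, hk⟩ := exists_common_isotropic hB (U := U) (n := s) (by omega) (fun k => x ^ ((k : ℕ) + 1))
  refine exists_ti_cyc hB hx hU hv hv0 ?_
  have hmod : ∀ k : ℕ, (x ^ k) v = (x ^ (k % r)) v := by
    intro k
    conv_lhs => rw [← Nat.div_add_mod k r, pow_add, pow_mul, hxr, one_pow, one_mul]
  intro k
  rw [hmod]
  have hlt : k % r < r := Nat.mod_lt _ (by omega)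
  set l := k % r with hl
  rcases Nat.eq_zero_or_pos l with h0 | hpos
  · rw [h0]; exact ha v
  by_cases hle : l ≤ s
  · have := hk ⟨l - 1, by omega⟩
    simp only at this
    rwa [Nat.sub_add_cancel hpos] at this
  · have h1 := hk ⟨r - l - 1, by omega⟩
    simp only at h1
    have h2 : r - l - 1 + 1 = r - l := by omega
    rw [h2] at h1
    -- B v (x^l v) = B (x^{r-l} v) v
    have h3 := hx.pow (r - l) v ((x ^ l) v)
    rw [← Module.End.mul_apply (x ^ (r - l)) (x ^ l), ← pow_add, Nat.sub_add_cancel hlt.le, hxr] at h3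
    change B ((x ^ (r - l)) v) v = _ at h3
    rw [← h3]
    exact hB.eq_zero_comm.1 h1

end Cfsg.Agent.H951
end

-- part: H951/SNd
section
/-!
# Nondegenerate `m`-spaces of the symplectic space: `r ≠ p`
-/

set_option autoImplicit false
set_option linter.unusedSectionVars false
set_option linter.unusedVariables false

namespace Cfsg.Agent.H951

open Module Polynomial Cfsg

variable {F : Type*} [Field F] [Fintype F] {q d r m : ℕ}

/-- All elements of order `r` modulo scalars fix a subspace with property `P`. -/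
def SStat (F : Type*) [Field F] (d r : ℕ) (P : Submodule F (Fin d ⊕ Fin d → F) → Prop) : Prop :=
  ∀ T : Module.End F (Fin d ⊕ Fin d → F), Isom (sympForm d F) T → (∃ z : F, T ^ r = z • 1) →
      (∀ z : F, T ≠ z • 1) → ∃ W : Submodule F (Fin d ⊕ Fin d → F), P W ∧ Inv T W

/-- The factor `q^{2(k+1)} - 1` of the order of `Sp`. -/
def sf (q k : ℕ) : ℕ := q ^ (2 * (k + 1)) - 1

lemma sf_pos (hq : 2 ≤ q) (k : ℕ) : 0 < sf q k := by
  unfold sf
  have : 2 ^ 1 ≤ q ^ (2 * (k + 1)) := (Nat.pow_le_pow_left hq 1).trans (Nat.pow_le_pow_right (by omega) (by omega))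
  omega

lemma two_le_card (hF : Fintype.card F = q) : 2 ≤ q := by
  have : 1 < Fintype.card F := Fintype.one_lt_card
  omega

/-- From `r ∣ N`, `N * A * |Sp_{d-k}| = |Sp_d|`. -/
theorem exists_dvd_sf_of (hq : 2 ≤ q) {k N A : ℕ} (hk : k ≤ d) (hr : r.Prime) (hrq : ¬ r ∣ q) (hN : r ∣ N)
    (h : N * (A * (q ^ ((d - k) ^ 2) * ∏ i ∈ Finset.range (d - k), (q ^ (2 * (i + 1)) - 1))) =
      q ^ (d ^ 2) * ∏ i ∈ Finset.range d, (q ^ (2 * (i + 1)) - 1)) :
    ∃ j, r ∣ sf q j ∧ d - k ≤ j ∧ j < d := by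
  change N * (A * (_ * ∏ i ∈ Finset.range (d - k), sf q i)) = _ * ∏ i ∈ Finset.range d, sf q i at h
  rw [← Finset.prod_range_mul_prod_Ico _ (Nat.sub_le d k)] at h
  have hpos : 0 < ∏ i ∈ Finset.range (d - k), sf q i := Finset.prod_pos fun i _ => sf_pos hq i
  have h2 : (N * A * q ^ ((d - k) ^ 2)) * (∏ i ∈ Finset.range (d - k), sf q i) =
      (q ^ (d ^ 2) * ∏ i ∈ Finset.Ico (d - k) d, sf q i) * (∏ i ∈ Finset.range (d - k), sf q i) := by
    calc _ = N * (A * (q ^ ((d - k) ^ 2) * ∏ i ∈ Finset.range (d - k), sf q i)) := by ring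
      _ = _ := h
      _ = _ := by ring
  have h3 := Nat.eq_of_mul_eq_mul_right hpos h2
  have h4 : r ∣ q ^ (d ^ 2) * ∏ i ∈ Finset.Ico (d - k) d, sf q i := by
    rw [← h3, mul_assoc]
    exact hN.mul_right _
  have h5 : r ∣ ∏ i ∈ Finset.Ico (d - k) d, sf q i :=
    (hr.dvd_mul.1 h4).resolve_left fun h => hrq (hr.dvd_of_dvd_pow h)
  obtain ⟨j, hj, hj2⟩ := (hr.prime.dvd_finsetProd_iff _).1 h5
  rw [Finset.mem_Ico] at hj
  exact ⟨j, hj2, hj.1, hj.2⟩

lemma not_dvd_q [Fact r.Prime] (hF : Fintype.card F = q) (hr : (r : F) ≠ 0) : ¬ r ∣ q := by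
  intro h
  have h1 := ord_pos' hF hr rfl
  rw [(ZMod.natCast_eq_zero_iff q r).2 h, orderOf_zero] at h1
  exact lt_irrefl 0 h1

/-- The multiples of `c` in `(2d - m, 2d]`. -/
theorem mod_lt_of_sf [Fact r.Prime] (hq : 0 < q) {i c j k : ℕ} (hi : i = orderOf (q : ZMod r)) (hi0 : 0 < i)
    (hc : c = if Even i then i else 2 * i) (hj : r ∣ sf q j) (h1 : d - k ≤ j) (h2 : j < d) :
    c ≤ 2 * d ∧ 2 * d % c < 2 * k := by
  rw [sf, dvd_pow_sub_iff hq hi hc] at hj
  obtain ⟨t, ht⟩ := hj
  have hc0 : 0 < c := by rw [hc]; split_ifs <;> omega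
  have h3 := Nat.div_add_mod (2 * d) c
  have ht0 : t ≠ 0 := by rintro rfl; omega
  have h4 : c * 1 ≤ c * t := Nat.mul_le_mul_left _ (Nat.pos_of_ne_zero ht0)
  refine ⟨by omega, ?_⟩
  have h5 : t ≤ 2 * d / c := (Nat.le_div_iff_mul_le hc0).2 (by rw [mul_comm]; omega)
  have h6 : c * t ≤ c * (2 * d / c) := Nat.mul_le_mul_left _ h5
  omega

/-- Removing the scalar: `r` odd. -/
lemma normalize_odd {V : Type*} [AddCommGroup V] [Module F V] {ε : F} {B : V → V → F} (hB : Frm (RingHom.id F) ε B)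
    (hV : Nd B (⊤ : Submodule F V)) (hne : ∃ v : V, v ≠ 0) {T : Module.End F V} (hT : Isom B T) (hr : Odd r) {z : F}
    (hz : T ^ r = z • 1) : z ≠ 0 ∧ Isom B (z • T) ∧ (z • T) ^ r = 1 := by
  have h1 := scalar_sq hB hV hne hT hz
  have hz0 : z ≠ 0 := by rintro rfl; rw [zero_pow two_ne_zero] at h1; exact zero_ne_one h1
  refine ⟨hz0, ?_, ?_⟩
  · intro u v
    rw [LinearMap.smul_apply, LinearMap.smul_apply, hB.smul_left, hB.smul_right, hT, RingHom.id_apply]
    linear_combination (B u v) * h1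
  · have h2 : z ^ r = z := by
      obtain ⟨k, hk⟩ := hr
      rw [hk, pow_add, pow_mul, h1, one_pow, one_mul, pow_one]
    rw [_root_.smul_pow z T r, hz, h2, smul_smul, ← pow_two, h1, one_smul]

lemma inv_smul_iff' {V : Type*} [AddCommGroup V] [Module F V] {T : Module.End F V} {w : F} (hw : w ≠ 0)
    {W : Submodule F V} : Inv (w • T) W ↔ Inv T W := by
  constructor
  · intro h v hv
    have := W.smul_mem w⁻¹ (h v hv)
    rw [LinearMap.smul_apply, smul_smul, inv_mul_cancel₀ hw, one_smul] at this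
    exact this
  · intro h v hv
    exact W.smul_mem _ (h v hv)

/-- A scalar isometry `y` with `y^r = 1`, `r` odd, is trivial. -/
lemma eq_one_of_scalar {V : Type*} [AddCommGroup V] [Module F V] {ε : F} {B : V → V → F} (hB : Frm (RingHom.id F) ε B)
    (hV : Nd B (⊤ : Submodule F V)) (hne : ∃ v : V, v ≠ 0) {y : Module.End F V} (hy : Isom B y) (hr : Odd r) {z : F}
    (hyr : y ^ r = 1) (hz : y = z • 1) : y = 1 := by
  have h1 : z ^ 2 = 1 := scalar_sq hB hV hne (r := 1) hy (by rw [pow_one, hz])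
  obtain ⟨v, hv⟩ := hne
  have h2 : z ^ r = 1 := by
    have h3 : (y ^ r) v = z ^ r • v := by rw [hz, _root_.smul_pow z _ r, one_pow]; rfl
    rw [hyr] at h3
    change v = z ^ r • v at h3
    have h4 : (z ^ r - 1) • v = 0 := by rw [sub_smul, ← h3, one_smul, sub_self]
    rcases smul_eq_zero.1 h4 with h | h
    · linear_combination h
    · exact absurd h hv
  have h3 : z = 1 := by
    obtain ⟨k, hk⟩ := hr
    rw [hk, pow_add, pow_mul, h1, one_pow, one_mul, pow_one] at h2
    exact h2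
  rw [hz, h3, one_smul]

theorem snd_odd {p : ℕ} [Fact p.Prime] [CharP F p] (hF : Fintype.card F = q) (hd : 2 ≤ d) (hm : 2 ≤ m) (hme : Even m)
    (hmd : m < d) [Fact r.Prime] (hr2 : r ≠ 2) (hr : (r : F) ≠ 0)
    (hΩ : r ∣ Nat.card {W : Submodule F (Fin d ⊕ Fin d → F) // finrank F ↥W = m ∧ Nd (sympForm d F) W}) {i c : ℕ}
    (hi : i = orderOf (q : ZMod r)) (hc : c = if Even i then i else 2 * i) :
    SStat F d r (fun W => finrank F ↥W = m ∧ Nd (sympForm d F) W) ↔ (c ≤ m ∧ m % c ≤ 2 * d % c) := by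
  have hrP : r.Prime := Fact.out
  have hq := two_le_card hF
  have hi0 := ord_pos' hF hr hi
  have hc0 : 0 < c := by rw [hc]; split_ifs <;> omega
  have hB := frm_symp (F := F) d
  have hK := kind_symp (F := F) d
  have hV := nd_symp (F := F) d
  have hfr : finrank F (Fin d ⊕ Fin d → F) = 2 * d := by simp [two_mul]
  have hodd := hrP.odd_of_ne_two hr2
  have hdiv : ∀ y : Module.End F (Fin d ⊕ Fin d → F), y ^ r = 1 → ∀ W' : Submodule F (Fin d ⊕ Fin d → F),
      Inv y W' → Nd (sympForm d F) W' → W' ≤ cm y → c ∣ finrank F W' := fun y hyr W' h1 h2 h3 =>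
    dvd_finrank_symp hr hF hB hK hi hc hyr W' h1 h2 h3
  obtain ⟨k, hk⟩ := hme
  have hk' : m = 2 * k := by omega
  obtain ⟨hcn, hmod⟩ : c ≤ 2 * d ∧ 2 * d % c < m := by
    have h1 := card_nd_symp (F := F) (d := d) (k := k) (by omega)
    rw [Cfsg.Agent.S0245.result hF d, Cfsg.Agent.S0245.result hF (d - k)] at h1
    subst hk'
    obtain ⟨j, h2, h3, h4⟩ := exists_dvd_sf_of hq (by omega : k ≤ d) hrP (not_dvd_q hF hr) hΩ h1
    exact mod_lt_of_sf (by omega) hi hi0 hc h2 h3 h4
  constructor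
  · intro h
    obtain ⟨y, hy, hyr, hyd⟩ := exists_elt_symp hr hF hB hK hV hi hi0 hc (M := 2 * d / c)
      (by rw [hfr]; exact Nat.mul_div_le _ c)
    obtain ⟨W, ⟨hWm, hW⟩, hWi⟩ := h y hy ⟨1, by rw [hyr, one_smul]⟩ (by
      intro z hz
      have h1 := eq_one_of_scalar hB hV (exists_ne_zero' (by omega)) hy hodd hyr hz
      have h4 : cm y = ⊥ := by
        rw [eq_bot_iff]
        intro v hv
        obtain ⟨w, rfl⟩ := mem_cm.1 hv
        rw [h1]
        simp
      rw [h4, finrank_bot] at hyd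
      have h5 : 1 ≤ 2 * d / c := (Nat.one_le_div_iff hc0).2 hcn
      have : c * 1 ≤ c * (2 * d / c) := Nat.mul_le_mul_left _ h5
      omega)
    have := le_of_inv_nd hB hV hc0 hr hy hyr (hdiv y hyr) (by rw [hfr]; exact hyd) (by rw [hfr]; exact hmod)
      hWi hW hWm
    rwa [hfr] at this
  · rintro ⟨hcm, hmc⟩ T hT ⟨z, hz⟩ hns
    obtain ⟨hz0, hy, hyr⟩ := normalize_odd hB hV (exists_ne_zero' (by omega)) hT hodd hz
    obtain ⟨W, hWi, hW, hWm⟩ := exists_inv_nd hr hr2 hB hK hV hy hyr (hdiv _ hyr)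
      (blockNum_symp hr2 (p := p) hF hi hi0 hc) (m := m)
      (by rw [hfr]; omega) (fun _ => ⟨⟨k, hk⟩, even_cs hc⟩) (by rw [hfr]; exact hmc)
    exact ⟨W, ⟨hWm, hW⟩, (inv_smul_iff' hz0).1 hWi⟩

/-- `T² = -1`: nondegenerate invariant planes. -/
lemma step_of_sq_neg_one {V : Type*} [AddCommGroup V] [Module F V] [FiniteDimensional F V] {B : V → V → F}
    (h2 : (2 : F) ≠ 0) (hB : Frm (RingHom.id F) (-1) B) (hK : Kind (RingHom.id F) (-1) B) {T : Module.End F V}
    (hT : Isom B T) (hT2 : T ^ 2 = (-1 : F) • 1) (W : Submodule F V) (hW : Inv T W) (hWn : Nd B W) (h0 : W ≠ ⊥) :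
    ∃ W' ≤ W, Inv T W' ∧ Nd B W' ∧ finrank F W' = 2 := by
  have hTT : ∀ v, T (T v) = -v := by
    intro v
    rw [← Module.End.mul_apply, ← pow_two, hT2]
    simp
  have ha : ∀ v, B v v = 0 := by
    rcases hK with ⟨h, -⟩ | ⟨-, -, h⟩
    · exact absurd rfl h
    · exact h
  have hsw : ∀ u v, B v u = - B u v := by
    intro u v; rw [hB.herm u v]; simp
  have h1 : ∃ u ∈ W, B u (T u) ≠ 0 := by
    by_contra hno
    push Not at hno
    obtain ⟨u, hu, hu0⟩ := (Submodule.ne_bot_iff _).1 h0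
    obtain ⟨v, hv, huv⟩ := hWn u hu hu0
    -- B(u, T v) + B(v, T u) = 0 and B(v, T u) = B(u, T v)
    have key : ∀ a ∈ W, ∀ b ∈ W, B a (T b) = 0 := by
      intro a ha' b hb
      have e1 := hno (a + b) (W.add_mem ha' hb)
      rw [map_add, hB.add_left, hB.add_right, hB.add_right, hno a ha', hno b hb, zero_add, add_zero] at e1
      have e2 : B b (T a) = B a (T b) := by
        have := hT b (T a)
        rw [hTT, hB.neg_right] at this
        rw [← this, hsw a (T b)]
        ring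
      rw [e2] at e1
      have e3 : 2 * B a (T b) = 0 := by linear_combination e1
      exact (mul_eq_zero.1 e3).resolve_left h2
    have e4 := key u hu (T v) (hW v hv)
    rw [hTT, hB.neg_right] at e4
    exact huv (by linear_combination -e4)
  obtain ⟨u, hu, huu⟩ := h1
  have hu0 : u ≠ 0 := by rintro rfl; exact huu (hB.zero_left _)
  have hTu0 : T u ≠ 0 := by intro h; rw [h, hB.zero_right] at huu; exact huu rfl
  refine ⟨F ∙ u ⊔ F ∙ T u, sup_le ((Submodule.span_singleton_le_iff_mem _ _).2 hu)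
      ((Submodule.span_singleton_le_iff_mem _ _).2 (hW u hu)), ?_, ?_, ?_⟩
  · intro w hw
    obtain ⟨w₁, hw₁, w₂, hw₂, rfl⟩ := Submodule.mem_sup.1 hw
    obtain ⟨s, rfl⟩ := Submodule.mem_span_singleton.1 hw₁
    obtain ⟨t, rfl⟩ := Submodule.mem_span_singleton.1 hw₂
    rw [map_add, map_smul, map_smul, hTT, add_comm]
    refine Submodule.add_mem_sup ?_ ?_
    · rw [smul_neg]; exact Submodule.neg_mem _ (Submodule.smul_mem _ t (Submodule.mem_span_singleton_self u))
    · exact Submodule.smul_mem _ s (Submodule.mem_span_singleton_self _)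
  · intro w hw hw0
    obtain ⟨w₁, hw₁, w₂, hw₂, rfl⟩ := Submodule.mem_sup.1 hw
    obtain ⟨s, rfl⟩ := Submodule.mem_span_singleton.1 hw₁
    obtain ⟨t, rfl⟩ := Submodule.mem_span_singleton.1 hw₂
    by_cases hs : s = 0
    · refine ⟨u, Submodule.mem_sup_left (Submodule.mem_span_singleton_self u), ?_⟩
      subst hs
      have ht : t ≠ 0 := by rintro rfl; apply hw0; simp
      rw [zero_smul, zero_add, hB.smul_left, hsw u (T u)]
      exact mul_ne_zero ht (neg_ne_zero.2 huu)
    · refine ⟨T u, Submodule.mem_sup_right (Submodule.mem_span_singleton_self _), ?_⟩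
      rw [hB.add_left, hB.smul_left, hB.smul_left, ha (T u), mul_zero, add_zero]
      exact mul_ne_zero hs huu
  · have hd : F ∙ u ⊓ F ∙ T u = ⊥ := by
      rw [eq_bot_iff]
      intro w hw
      obtain ⟨s, rfl⟩ := Submodule.mem_span_singleton.1 hw.1
      obtain ⟨t, ht⟩ := Submodule.mem_span_singleton.1 hw.2
      have h6 : B u (t • T u) = 0 := by
        rw [ht, hB.smul_right, ha u, mul_zero]
      rw [hB.smul_right, RingHom.id_apply] at h6
      have ht0 : t = 0 := (mul_eq_zero.1 h6).resolve_right huu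
      rw [← ht, ht0, zero_smul]
      exact Submodule.zero_mem _
    rw [finrank_sup_of_disj hd, finrank_span_singleton hu0, finrank_span_singleton hTu0]

theorem snd_two (hd : 2 ≤ d) (h2 : (2 : F) ≠ 0) (hme : Even m) (hmd : m < d) :
    SStat F d 2 (fun W => finrank F ↥W = m ∧ Nd (sympForm d F) W) := by
  rintro T hT ⟨z, hz⟩ hns
  have hB := frm_symp (F := F) d
  have hK := kind_symp (F := F) d
  have hV := nd_symp (F := F) d
  have hfr : finrank F (Fin d ⊕ Fin d → F) = 2 * d := by simp [two_mul]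
  have h1 := scalar_sq hB hV (exists_ne_zero' (by omega)) hT hz
  have h3 : (z - 1) * (z + 1) = 0 := by linear_combination h1
  rcases mul_eq_zero.1 h3 with h | h
  · have hz1 : z = 1 := by linear_combination h
    rw [hz1, one_smul] at hz
    obtain ⟨W, hWi, hW, hWm⟩ := exists_nd_of_invol h2 hz hT hB hK hV (m := m) (fun _ => hme) (by rw [hfr]; omega)
    exact ⟨W, ⟨hWm, hW⟩, hWi⟩
  · have hz1 : z = -1 := by linear_combination h
    rw [hz1] at hz
    have hinj : Function.Injective T := by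
      intro u v huv
      have hTT : ∀ v, T (T v) = -v := by
        intro v
        rw [← Module.End.mul_apply, ← pow_two, hz]
        simp
      have := hTT u
      rw [huv, hTT] at this
      exact (neg_injective this).symm
    obtain ⟨k, hk⟩ := hme
    obtain ⟨W, -, hWi, hW, hWm⟩ := exists_nd_of_step (x := T) hB (fun W hW => hT.inv_perp hB hinj hW) two_pos
      (step_of_sq_neg_one h2 hB hK hT hz) (W := ⊤) (fun _ _ => trivial) hV (j := k) (by
        rw [finrank_top, hfr]; omega)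
    exact ⟨W, ⟨by rw [hWm]; omega, hW⟩, hWi⟩

end Cfsg.Agent.H951
end

-- part: H951/Types
section
/-!
# Isometries of prime order with prescribed eigenvalue types
-/

set_option autoImplicit false
set_option linter.unusedSectionVars false
set_option linter.unusedVariables false

namespace Cfsg.Agent.H951

open Module Polynomial

section poly

variable {F : Type*} [Field F] {r : ℕ}

/-- For irreducible factors `f₀, f` of the `r`-th cyclotomic polynomial, some `f(X^k)` is divisible by `f₀`. -/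
theorem exists_pow_dvd [Fact r.Prime] (hr : (r : F) ≠ 0) {f₀ f : F[X]} (hf₀ : Irreducible f₀)
    (hd₀ : f₀ ∣ cyclotomic r F) (hf : Irreducible f) (hd : f ∣ cyclotomic r F) :
    ∃ k, ¬ r ∣ k ∧ f₀ ∣ f.comp (X ^ k) := by
  have hrP : r.Prime := Fact.out
  have : Fact (Irreducible f₀) := ⟨hf₀⟩
  have hrE : ((r : ℕ) : AdjoinRoot f₀) ≠ 0 := by
    intro h
    apply hr
    have h1 : algebraMap F (AdjoinRoot f₀) (r : F) = 0 := by rw [map_natCast]; exact h
    exact (map_eq_zero _).1 h1
  have : NeZero ((r : ℕ) : AdjoinRoot f₀) := ⟨hrE⟩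
  set ζ := AdjoinRoot.root f₀ with hζ
  have hroot : ∀ g : F[X], f₀ ∣ g → aeval ζ g = 0 := by
    rintro g ⟨t, rfl⟩
    rw [map_mul, AdjoinRoot.aeval_eq, AdjoinRoot.mk_self, zero_mul]
  have hprim : IsPrimitiveRoot ζ r := by
    rw [← isRoot_cyclotomic_iff, IsRoot.def, ← map_cyclotomic r (algebraMap F (AdjoinRoot f₀)), eval_map_algebraMap]
    exact hroot _ hd₀
  have hdE : f.map (algebraMap F (AdjoinRoot f₀)) ∣ ∏ μ ∈ primitiveRoots r (AdjoinRoot f₀), (X - C μ) := by
    rw [← cyclotomic_eq_prod_X_sub_primitiveRoots hprim, ← map_cyclotomic r (algebraMap F (AdjoinRoot f₀))]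
    exact Polynomial.map_dvd _ hd
  have hnu : ¬ IsUnit (f.map (algebraMap F (AdjoinRoot f₀))) := by
    rw [Polynomial.isUnit_map]
    exact hf.not_isUnit
  have hne : f.map (algebraMap F (AdjoinRoot f₀)) ≠ 0 := (Polynomial.map_ne_zero_iff (algebraMap F _).injective).2 hf.ne_zero
  obtain ⟨g, hg, hgf⟩ := WfDvdMonoid.exists_irreducible_factor hnu hne
  obtain ⟨μ, hμ, hgμ⟩ := (hg.prime.dvd_finsetProd_iff _).1 (hgf.trans hdE)
  have hassoc : Associated g (X - C μ) := hg.associated_of_dvd (irreducible_X_sub_C μ) hgμ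
  have hμf : aeval μ f = 0 := by
    rw [← eval_map_algebraMap, ← IsRoot.def, ← dvd_iff_isRoot]
    exact hassoc.symm.dvd.trans hgf
  rw [mem_primitiveRoots hrP.pos] at hμ
  obtain ⟨k, hk, hkμ⟩ := hprim.eq_pow_of_pow_eq_one hμ.pow_eq_one
  refine ⟨k, ?_, ?_⟩
  · intro hdk
    rw [← hkμ] at hμ
    have h1 : ζ ^ k = 1 := by
      obtain ⟨t, rfl⟩ := hdk
      rw [pow_mul, hprim.pow_eq_one, one_pow]
    rw [h1] at hμ
    exact hrP.one_lt.ne (hμ.unique IsPrimitiveRoot.one).symm
  · rw [← AdjoinRoot.mk_eq_zero, ← AdjoinRoot.aeval_eq, aeval_comp, map_pow, aeval_X, hkμ]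
    exact hμf

end poly

variable {F V : Type*} [Field F] [AddCommGroup V] [Module F V] [FiniteDimensional F V]
variable {σ : F →+* F} {ε : F} {B : V → V → F} {U W : Submodule F V} {x y : Module.End F V} {r : ℕ}

lemma aeval_comp_pow (f : F[X]) (k : ℕ) : aeval y (f.comp (X ^ k)) = aeval (y ^ k) f := by
  rw [aeval_comp, map_pow, aeval_X]

lemma fx_le_fx_pow (k : ℕ) : fx y ≤ fx (y ^ k) := by
  intro v hv
  rw [mem_fx] at *
  induction k with
  | zero => simp
  | succ k ih => rw [pow_succ, Module.End.mul_apply, hv, ih]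

lemma cm_pow_le (k : ℕ) : cm (y ^ k) ≤ cm y := by
  intro v hv
  obtain ⟨w, rfl⟩ := mem_cm.1 hv
  induction k with
  | zero => simp
  | succ k ih =>
    have h1 : (y ^ (k + 1)) w - w = (y ((y ^ k) w) - (y ^ k) w) + ((y ^ k) w - w) := by
      rw [pow_succ', Module.End.mul_apply]; abel
    rw [h1]
    exact Submodule.add_mem _ (mem_cm.2 ⟨_, rfl⟩) (ih (mem_cm.2 ⟨w, rfl⟩))

lemma cm_pow_eq [Fact r.Prime] (hyr : y ^ r = 1) {k : ℕ} (hk : ¬ r ∣ k) : cm (y ^ k) = cm y := by
  have hrP : r.Prime := Fact.out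
  apply le_antisymm (cm_pow_le k)
  have hco : Nat.Coprime k r := (Nat.coprime_comm.1 ((hrP.coprime_iff_not_dvd).2 hk))
  obtain ⟨l, -, hl⟩ := Nat.exists_mul_mod_eq_one_of_coprime hco hrP.one_lt
  have h1 : (y ^ k) ^ l = y := by
    rw [← pow_mul, ← Nat.div_add_mod (k * l) r, hl, pow_add, pow_mul, hyr, one_pow, one_mul, pow_one]
  conv_lhs => rw [← h1]
  exact cm_pow_le l

/-! ### polynomials in a glued isometry -/

section glue

/-- `y` is supported on `U`, `x` is trivial on `U`. -/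
lemma glue_pow_U (hxU : U ≤ fx x) (hyc : cm y ≤ U) (n : ℕ) {u : V} (hu : u ∈ U) : ((x * y) ^ n) u = (y ^ n) u ∧ (y ^ n) u ∈ U := by
  induction n with
  | zero => exact ⟨rfl, hu⟩
  | succ n ih =>
    have h1 : (y ^ (n + 1)) u ∈ U := by
      rw [pow_succ', Module.End.mul_apply]
      have h2 : y ((y ^ n) u) - (y ^ n) u ∈ U := hyc (mem_cm.2 ⟨_, rfl⟩)
      have := U.add_mem h2 ih.2
      rwa [sub_add_cancel] at this
    refine ⟨?_, h1⟩
    rw [pow_succ', Module.End.mul_apply, ih.1, Module.End.mul_apply, ← Module.End.mul_apply y, ← pow_succ',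
      mem_fx.1 (hxU h1)]

lemma glue_pow_C {W : Submodule F V} (hxW : Inv x W) (hyW : W ≤ fx y) (n : ℕ) {v : V} (hv : v ∈ W) :
    ((x * y) ^ n) v = (x ^ n) v := by
  induction n with
  | zero => rfl
  | succ n ih =>
    rw [pow_succ', Module.End.mul_apply, ih, Module.End.mul_apply, mem_fx.1 (hyW (hxW.pow n v hv)), pow_succ',
      Module.End.mul_apply]

lemma aeval_congr {x y : Module.End F V} {v : V} (h : ∀ n : ℕ, (x ^ n) v = (y ^ n) v) (f : F[X]) :
    aeval x f v = aeval y f v := by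
  induction f using Polynomial.induction_on' with
  | add p q hp hq => rw [map_add, map_add, LinearMap.add_apply, LinearMap.add_apply, hp, hq]
  | monomial n a =>
    rw [aeval_monomial, aeval_monomial, Module.End.mul_apply, Module.End.mul_apply, h n]

end glue

/-- Elements with all eigenvalues of one type. -/
theorem exists_elt_kill (hB : Frm σ ε B) (hK : Kind σ ε B) (hV : Nd B (⊤ : Submodule F V)) (hr : (r : F) ≠ 0) {c : ℕ}
    (hce : σ = RingHom.id F → Even c) {f : F[X]}
    (hblk : ∀ U : Submodule F V, Nd B U → finrank F U = c →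
      ∃ y : Module.End F V, Isom B y ∧ y ^ r = 1 ∧ hB.perp U ≤ fx y ∧ cm y = U ∧ ∀ u ∈ U, aeval y f u = 0) (M : ℕ)
    (hM : c * M ≤ finrank F V) : ∃ x : Module.End F V, Isom B x ∧ x ^ r = 1 ∧ finrank F ↥(cm x) = c * M ∧
      ∀ u ∈ cm x, aeval x f u = 0 := by
  induction M with
  | zero =>
    have : cm (1 : Module.End F V) = ⊥ := by
      rw [eq_bot_iff]
      intro v hv
      obtain ⟨w, rfl⟩ := mem_cm.1 hv
      simp
    refine ⟨1, fun u v => rfl, one_pow _, ?_, ?_⟩
    · rw [this]; simp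
    · intro u hu
      rw [this, Submodule.mem_bot] at hu
      rw [hu, map_zero]
  | succ M ih =>
    rw [mul_add, mul_one] at hM
    obtain ⟨x, hx, hxr, hxd, hxk⟩ := ih (by omega)
    have h1 := hx.nd_fx hB hr hxr hV
    have h2 := finrank_fx_cm hr hxr
    obtain ⟨U, hUx, hU, hUc⟩ := exists_nd_sub hB hK h1 (k := c) (by omega) hce
    obtain ⟨y, hy, hyr, hyp, hyc, hyk⟩ := hblk U hU hUc
    have h3 := glue_comm hB hU hx hUx hyc.le hyp
    have h4 := glue_cm hB hU hx hUx hyc.le hyp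
    refine ⟨x * y, isom_mul hx hy, ?_, ?_, ?_⟩
    · rw [(show Commute x y from h3).mul_pow, hxr, hyr, one_mul]
    · rw [h4.1, finrank_sup_of_disj h4.2, hxd, hyc, hUc, mul_add, mul_one]
    · intro v hv
      rw [h4.1] at hv
      obtain ⟨a, ha, b, hb, rfl⟩ := Submodule.mem_sup.1 hv
      rw [hyc] at hb
      rw [map_add, aeval_congr (fun n => glue_pow_C inv_cm ((glue_fx hB hU hx hUx hyc.le hyp).trans hyp) n ha) f,
        aeval_congr (fun n => (glue_pow_U hUx hyc.le n hb).1) f, hxk a ha, hyk b hb, add_zero]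

/-- Adding a block of a new type. -/
theorem glue_types (hB : Frm σ ε B) (hV : Nd B (⊤ : Submodule F V)) (hU : Nd B U) (hx : Isom B x) (hUx : U ≤ fx x)
    (hyp : hB.perp U ≤ fx y) (hyc : cm y = U) {f g : F[X]} (hfg : IsCoprime f g)
    (hxk : ∀ u ∈ cm x, aeval x f u = 0) (hyk : ∀ u ∈ U, aeval y g u = 0)
    (hirr : ∀ W ≤ U, Inv y W → TI B W → W = ⊥) {D : ℕ}
    (hD : ∀ W ≤ cm x, Inv x W → TI B W → 2 * finrank F W ≤ D) :
    (∀ u ∈ cm (x * y), aeval (x * y) (f * g) u = 0) ∧
    ∀ W ≤ cm (x * y), Inv (x * y) W → TI B W → 2 * finrank F W ≤ D := by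
  have h4 := glue_cm hB hU hx hUx hyc.le hyp
  have hxC : ∀ (h : F[X]) (v : V), v ∈ cm x → aeval (x * y) h v = aeval x h v := fun h v hv =>
    aeval_congr (fun n => glue_pow_C inv_cm ((glue_fx hB hU hx hUx hyc.le hyp).trans hyp) n hv) h
  have hyU : ∀ (h : F[X]) (v : V), v ∈ U → aeval (x * y) h v = aeval y h v := fun h v hv =>
    aeval_congr (fun n => (glue_pow_U hUx hyc.le n hv).1) h
  have hyi : Inv y U := by rw [← hyc]; exact inv_cm
  have hk : ∀ u ∈ cm (x * y), aeval (x * y) (f * g) u = 0 := by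
    intro v hv
    rw [h4.1] at hv
    obtain ⟨a, ha, b, hb, rfl⟩ := Submodule.mem_sup.1 hv
    rw [hyc] at hb
    rw [map_add, hxC _ a ha, hyU _ b hb]
    have e1 : aeval x (f * g) a = 0 := by
      rw [mul_comm, map_mul, Module.End.mul_apply, hxk a ha, map_zero]
    have e2 : aeval y (f * g) b = 0 := by
      rw [map_mul, Module.End.mul_apply, hyk b hb, map_zero]
    rw [e1, e2, add_zero]
  refine ⟨hk, ?_⟩
  intro W hWc hWi hWt
  obtain ⟨s, t, hst⟩ := hfg
  have hWx : W ≤ cm x := by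
    intro w hw
    -- the part killed by g
    have hg0 : ∀ v ∈ W, aeval (x * y) g v = 0 → v = 0 := by
      intro v hv hgv
      have hvU : v ∈ U := by
        have hv' := hWc hv
        rw [h4.1] at hv'
        obtain ⟨a, ha, b, hb, rfl⟩ := Submodule.mem_sup.1 hv'
        rw [hyc] at hb
        rw [map_add, hxC _ a ha, hyU _ b hb, hyk b hb, add_zero] at hgv
        have ha0 : a = 0 := by
          have e1 : aeval x (s * f + t * g) a = a := by rw [hst]; simp
          rw [← e1, map_add, map_mul, map_mul, LinearMap.add_apply, Module.End.mul_apply, Module.End.mul_apply,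
            hxk a ha, hgv, map_zero, map_zero, add_zero]
        rw [ha0, zero_add]
        exact hb
      have h5 : W ⊓ U = ⊥ := by
        apply hirr _ inf_le_right
        · intro u hu
          refine ⟨?_, hyi u hu.2⟩
          have h6 := hWi u hu.1
          rw [Module.End.mul_apply, mem_fx.1 (hUx (hyi u hu.2))] at h6
          exact h6
        · exact hWt.mono inf_le_left
      rw [← Submodule.mem_bot F, ← h5]
      exact ⟨hv, hvU⟩
    have h6 : aeval (x * y) (s * f) w = 0 := by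
      apply hg0
      · exact hWi.aeval _ w hw
      · rw [← Module.End.mul_apply, ← map_mul]
        have : g * (s * f) = s * (f * g) := by ring
        rw [this, map_mul, Module.End.mul_apply, hk w (hWc hw), map_zero]
    have hw' := hWc hw
    rw [h4.1] at hw'
    obtain ⟨a, ha, b, hb, rfl⟩ := Submodule.mem_sup.1 hw'
    rw [hyc] at hb
    rw [map_add, hxC _ a ha, hyU _ b hb] at h6
    have e1 : aeval x (s * f) a = 0 := by rw [map_mul, Module.End.mul_apply, hxk a ha, map_zero]
    rw [e1, zero_add] at h6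
    have hb0 : b = 0 := by
      have e2 : aeval y (s * f + t * g) b = b := by rw [hst]; simp
      rw [← e2, map_add, LinearMap.add_apply, h6, map_mul, Module.End.mul_apply, hyk b hb, map_zero, add_zero]
    rw [hb0, add_zero]
    exact ha
  apply hD W hWx _ hWt
  intro w hw
  have h5 := hWi w hw
  have h6 : w ∈ fx y := ((glue_fx hB hU hx hUx hyc.le hyp).trans hyp) (hWx hw)
  rw [Module.End.mul_apply, mem_fx.1 h6] at h5
  exact h5

end Cfsg.Agent.H951
end

-- part: H951/STI
section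
/-!
# Totally isotropic `m`-spaces of the symplectic space
-/

set_option autoImplicit false
set_option linter.unusedSectionVars false
set_option linter.unusedVariables false

namespace Cfsg.Agent.H951

open Module Polynomial Cfsg

variable {F : Type*} [Field F] [Fintype F] {q d r m : ℕ}

/-- The number of totally isotropic `m`-spaces. -/
theorem card_ti_symp (hF : Fintype.card F = q) (hm : m ≤ d) :
    Nat.card {W : Submodule F (Fin d ⊕ Fin d → F) // finrank F ↥W = m ∧ TI (sympForm d F) W} *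
      (q ^ (m * (m + 1) / 2 + 2 * m * (d - m)) * (q ^ ((d - m) ^ 2) * ∏ i ∈ Finset.range (d - m), (q ^ (2 * (i + 1)) - 1)) *
        ∏ i : Fin m, (q ^ m - q ^ (i : ℕ))) =
      q ^ (d ^ 2) * ∏ i ∈ Finset.range d, (q ^ (2 * (i + 1)) - 1) := by
  have hB := frm_symp (F := F) d
  have hK := kind_symp (F := F) d
  have hV := nd_symp (F := F) d
  have hfr : finrank F (Fin d ⊕ Fin d → F) = 2 * d := by simp [two_mul]
  obtain ⟨W₀, -, hW₀, hW₀m⟩ := exists_ti_sub hB hK hV (k := m) (by rw [finrank_top, hfr]; omega)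
  have h3 := Cfsg.Agent.S0775.result hF d m hm W₀ hW₀m hW₀
  rw [← h3, ← Cfsg.Agent.S0245.result hF d]
  refine card_orbit_Sp W₀ Subtype.val Subtype.val_injective ?_ ?_
  · intro g
    refine ⟨⟨W₀.map (Matrix.toLin' (g : Matrix (Fin d ⊕ Fin d) (Fin d ⊕ Fin d) F)), ?_, ?_⟩, rfl⟩
    · rw [← hW₀m]
      exact (Submodule.equivMapOfInjective _ (toLin'_inj_Sp g) W₀).finrank_eq.symm
    · rintro _ ⟨u, hu, rfl⟩ _ ⟨v, hv, rfl⟩
      rw [isom_Sp g]
      exact hW₀ u hu v hv
  · rintro ⟨W, hWm, hW⟩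
    obtain ⟨φ⟩ : Nonempty (W₀ ≃ₗ[F] W) := FiniteDimensional.nonempty_linearEquiv_of_finrank_eq (by rw [hW₀m, hWm])
    obtain ⟨T, hT, hTφ⟩ := Cfsg.Agent.S0749.result (ClassicalGeometry.SympBasic.sympBilin d F)
      ClassicalGeometry.SympBasic.sympBilin_nondegenerate ClassicalGeometry.SympBasic.sympBilin_isAlt W₀ W φ
      (fun x x' => by
        rw [ClassicalGeometry.SympBasic.sympBilin_apply, ClassicalGeometry.SympBasic.sympBilin_apply,
          hW _ (φ x).2 _ (φ x').2, hW₀ _ x.2 _ x'.2])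
    obtain ⟨g, hg⟩ := exists_Sp_of_equiv T hT
    refine ⟨g, ?_⟩
    rw [hg]
    apply le_antisymm
    · rintro _ ⟨u, hu, rfl⟩
      have : (T : (Fin d ⊕ Fin d → F) →ₗ[F] (Fin d ⊕ Fin d → F)) u = φ ⟨u, hu⟩ := hTφ ⟨u, hu⟩
      rw [this]
      exact (φ _).2
    · intro w hw
      refine ⟨φ.symm ⟨w, hw⟩, (φ.symm ⟨w, hw⟩).2, ?_⟩
      have : (T : (Fin d ⊕ Fin d → F) →ₗ[F] (Fin d ⊕ Fin d → F)) (φ.symm ⟨w, hw⟩ : W₀) = φ (φ.symm ⟨w, hw⟩) := hTφ _
      rw [this, φ.apply_symm_apply]

/-- The number of totally isotropic `m`-spaces is prime to `p`. -/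
theorem not_dvd_card_ti {p : ℕ} [Fact p.Prime] [CharP F p] (hF : Fintype.card F = q) (hm : m ≤ d) :
    ¬ p ∣ Nat.card {W : Submodule F (Fin d ⊕ Fin d → F) // finrank F ↥W = m ∧ TI (sympForm d F) W} := by
  have hpP : p.Prime := Fact.out
  have hq := two_le_card hF
  intro hp
  have h1 := card_ti_symp hF hm
  set Nn := Nat.card {W : Submodule F (Fin d ⊕ Fin d → F) // finrank F ↥W = m ∧ TI (sympForm d F) W} with hN
  have hpq : p ∣ q := by
    obtain ⟨k, -, hk⟩ := FiniteField.card F p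
    rw [hF] at hk
    rw [hk]
    exact dvd_pow_self p k.2.ne'
  have h2 : ∏ i : Fin m, (q ^ m - q ^ (i : ℕ)) = q ^ (m * (m - 1) / 2) * ∏ i : Fin m, (q ^ (m - (i : ℕ)) - 1) := by
    have h3 : ∀ i : Fin m, q ^ m - q ^ (i : ℕ) = q ^ (i : ℕ) * (q ^ (m - (i : ℕ)) - 1) := by
      intro i
      rw [Nat.mul_sub, mul_one, ← pow_add, Nat.add_sub_cancel' i.2.le]
    rw [Finset.prod_congr rfl fun i _ => h3 i, Finset.prod_mul_distrib]
    congr 1
    rw [Finset.prod_pow_eq_pow_sum, Fin.sum_univ_eq_sum_range (fun i => i), Finset.sum_range_id]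
  rw [h2] at h1
  have hexp : m * (m + 1) / 2 + 2 * m * (d - m) + (d - m) ^ 2 + m * (m - 1) / 2 = d ^ 2 := by
    obtain ⟨e, rfl⟩ := Nat.exists_eq_add_of_le hm
    rw [Nat.add_sub_cancel_left]
    have e1 : m * (m + 1) / 2 + m * (m - 1) / 2 = m ^ 2 := by
      rcases Nat.eq_zero_or_pos m with rfl | hm0
      · rfl
      obtain ⟨s, rfl⟩ : ∃ s, m = s + 1 := ⟨m - 1, by omega⟩
      rw [Nat.add_sub_cancel]
      have e2 : (s + 1) * (s + 1 + 1) = 2 * (s + 1) + (s + 1) * s := by ring
      rw [e2, Nat.mul_add_div two_pos]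
      have e3 : (s + 1) * s % 2 = 0 := by
        have := Nat.even_mul_succ_self s
        rw [mul_comm]
        exact Nat.even_iff.1 this
      have e4 : (s + 1) ^ 2 = (s + 1) + (s + 1) * s := by ring
      omega
    have e5 : (m + e) ^ 2 = m ^ 2 + 2 * m * e + e ^ 2 := by ring
    omega
  have h4 : (Nn * ((∏ i ∈ Finset.range (d - m), (q ^ (2 * (i + 1)) - 1)) * ∏ i : Fin m, (q ^ (m - (i : ℕ)) - 1))) *
      q ^ (d ^ 2) = (∏ i ∈ Finset.range d, (q ^ (2 * (i + 1)) - 1)) * q ^ (d ^ 2) := by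
    rw [mul_comm (∏ i ∈ Finset.range d, (q ^ (2 * (i + 1)) - 1)), ← h1, ← hexp, pow_add, pow_add, pow_add]
    ring
  have h5 := Nat.eq_of_mul_eq_mul_right (pow_pos (by omega) _) h4
  have h6 : p ∣ ∏ i ∈ Finset.range d, (q ^ (2 * (i + 1)) - 1) := by
    rw [← h5]; exact hp.mul_right _
  obtain ⟨j, hj, hj2⟩ := (hpP.prime.dvd_finsetProd_iff _).1 h6
  have h7 : p ∣ q ^ (2 * (j + 1)) := dvd_pow hpq (by omega)
  have h8 : 1 ≤ q ^ (2 * (j + 1)) := Nat.one_le_pow _ _ (by omega)
  have h9 := Nat.dvd_sub h7 hj2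
  rw [Nat.sub_sub_self h8] at h9
  exact hpP.one_lt.ne' (Nat.dvd_one.1 h9)

/-- If `r ≠ p` divides the number: a multiple of `c` in `(2d - 2m, 2d]`. -/
theorem exists_dvd_sf_ti (hF : Fintype.card F = q) (hm : m ≤ d) (hr : r.Prime) (hrq : ¬ r ∣ q)
    (hΩ : r ∣ Nat.card {W : Submodule F (Fin d ⊕ Fin d → F) // finrank F ↥W = m ∧ TI (sympForm d F) W}) :
    ∃ j, r ∣ sf q j ∧ d - m ≤ j ∧ j < d := by
  have h1 := card_ti_symp hF hm
  refine exists_dvd_sf_of (A := q ^ (m * (m + 1) / 2 + 2 * m * (d - m)) * ∏ i : Fin m, (q ^ m - q ^ (i : ℕ)))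
    (two_le_card hF) hm hr hrq hΩ ?_
  rw [← h1]
  ring

/-! ### involutions -/

section invol

variable {V : Type*} [AddCommGroup V] [Module F V] [FiniteDimensional F V] {B : V → V → F} {σ : F →+* F} {ε : F}

lemma sup_ti_invariant {x : Module.End F V} (hB : Frm σ ε B) (hx : Isom B x) {W₁ W₂ : Submodule F V}
    (h1 : W₁ ≤ cm x) (h2 : W₂ ≤ fx x) (hi : Inv x W₁) (ht1 : TI B W₁) (ht2 : TI B W₂) (hr : (r : F) ≠ 0)
    (hxr : x ^ r = 1) :
    Inv x (W₁ ⊔ W₂) ∧ TI B (W₁ ⊔ W₂) ∧ finrank F ↥(W₁ ⊔ W₂) = finrank F W₁ + finrank F W₂ := by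
  refine ⟨hi.sup (inv_of_le_fx h2), ti_sup hB ht1 ht2 ?_, ?_⟩
  · rw [hB.le_perp_iff]
    exact fun v hv w hw => hx.fx_cm hB (h2 hv) (h1 hw)
  · apply finrank_sup_of_disj
    rw [eq_bot_iff, ← (isCompl_fx_cm hr hxr).inf_eq_bot]
    exact fun v hv => ⟨h2 hv.2, h1 hv.1⟩

/-- `x² = 1`. -/
theorem exists_ti_of_invol {x : Module.End F V} (h2 : (2 : F) ≠ 0) (hB : Frm (RingHom.id F) (-1) B)
    (hK : Kind (RingHom.id F) (-1) B) (hV : Nd B (⊤ : Submodule F V)) (hx : Isom B x) (hx2 : x ^ 2 = 1) {m : ℕ}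
    (hm : 2 * m ≤ finrank F V) : ∃ W : Submodule F V, Inv x W ∧ TI B W ∧ finrank F W = m := by
  have hr := two_ne_zero_cast h2
  have hc := hx.nd_cm hB hr hx2 hV
  have hf := hx.nd_fx hB hr hx2 hV
  have hd := finrank_fx_cm hr hx2
  obtain ⟨a, ha⟩ := even_of_kind hB hK hc rfl
  obtain ⟨b, hb⟩ := even_of_kind hB hK hf rfl
  obtain ⟨W₁, hW₁, ht₁, hd₁⟩ := exists_ti_sub hB hK hc (k := min m a) (by omega)
  obtain ⟨W₂, hW₂, ht₂, hd₂⟩ := exists_ti_sub hB hK hf (k := m - min m a) (by omega)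
  have hi₁ : Inv x W₁ := by
    intro v hv
    rw [apply_cm_of_sq hx2 (hW₁ hv)]
    exact W₁.neg_mem hv
  obtain ⟨g1, g2, g3⟩ := sup_ti_invariant hB hx hW₁ hW₂ hi₁ ht₁ ht₂ hr hx2
  exact ⟨_, g1, g2, by rw [g3, hd₁, hd₂]; omega⟩

end invol

theorem sti_two (hF : Fintype.card F = q) (hd : 2 ≤ d) (h2 : (2 : F) ≠ 0) (hmd : m ≤ d) (hqo : q % 2 = 1) :
    SStat F d 2 (fun W => finrank F ↥W = m ∧ TI (sympForm d F) W) ↔ (Even m ∨ q % 4 = 1) := by
  have hB := frm_symp (F := F) d
  have hK := kind_symp (F := F) d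
  have hV := nd_symp (F := F) d
  have hfr : finrank F (Fin d ⊕ Fin d → F) = 2 * d := by simp [two_mul]
  have hm1 : (-1 : F) ≠ 1 := by
    intro h; apply h2; linear_combination -h
  have hsq : (∃ b : F, b ^ 2 = -1) ↔ q % 4 ≠ 3 := by
    have := FiniteField.isSquare_neg_one_iff (F := F)
    rw [hF] at this
    rw [← this]
    constructor
    · rintro ⟨b, hb⟩; exact ⟨b, by rw [← hb, pow_two]⟩
    · rintro ⟨b, hb⟩; exact ⟨b, by rw [hb, pow_two]⟩
  constructor
  · intro h
    by_contra hno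
    push Not at hno
    obtain ⟨hmo, hq1⟩ := hno
    have hq3 : q % 4 = 3 := by omega
    have hnsq : ∀ b : F, b ^ 2 ≠ -1 := fun b hb => (hsq.1 ⟨b, hb⟩) hq3
    let J : ↥(Matrix.symplecticGroup (Fin d) F) := ⟨Matrix.J (Fin d) F, SymplecticGroup.J_mem _ _⟩
    set T := Matrix.toLin' (Matrix.J (Fin d) F) with hT
    have hTi : Isom (sympForm d F) T := isom_Sp J
    have hT2 : T ^ 2 = (-1 : F) • 1 := by
      rw [hT, pow_toLin'', pow_two, Matrix.J_squared, ← toLin'_smul_one']
      congr 1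
      simp
    obtain ⟨W, ⟨hWm, hW⟩, hWi⟩ := h T hTi ⟨-1, hT2⟩ (by
      intro z hz
      apply hnsq z
      obtain ⟨v, hv⟩ := exists_ne_zero' (F := F) (d := d) (by omega)
      have h3 : (T ^ 2) v = z ^ 2 • v := by rw [hz, _root_.smul_pow z _ 2, one_pow]; rfl
      rw [hT2] at h3
      change (-1 : F) • v = z ^ 2 • v at h3
      have h4 : (z ^ 2 - -1) • v = 0 := by rw [sub_smul, ← h3, sub_self]
      rcases smul_eq_zero.1 h4 with h | h
      · linear_combination h
      · exact absurd h hv)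
    have := dvd_finrank_of_pow_eq Nat.prime_two hnsq hT2 hWi
    rw [hWm] at this
    exact hmo (even_iff_two_dvd.2 this)
  · rintro h T hT ⟨z, hz⟩ hns
    have h1 := scalar_sq hB hV (exists_ne_zero' (by omega)) hT hz
    have h3 : (z - 1) * (z + 1) = 0 := by linear_combination h1
    rcases mul_eq_zero.1 h3 with h4 | h4
    · have hz1 : z = 1 := by linear_combination h4
      rw [hz1, one_smul] at hz
      obtain ⟨W, hWi, hW, hWm⟩ := exists_ti_of_invol h2 hB hK hV hT hz (m := m) (by rw [hfr]; omega)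
      exact ⟨W, ⟨hWm, hW⟩, hWi⟩
    · have hz1 : z = -1 := by linear_combination h4
      rw [hz1] at hz
      by_cases hq3 : q % 4 = 3
      · -- X^2 + 1 irreducible, m even
        have hme : Even m := h.resolve_right (by omega)
        have hnsq : ∀ b : F, b ^ 2 ≠ -1 := fun b hb => (hsq.1 ⟨b, hb⟩) hq3
        have hirr : Irreducible (X ^ 2 - C (-1) : F[X]) := X_pow_sub_C_irreducible_of_prime Nat.prime_two hnsq
        have haev : aeval T (X ^ 2 - C (-1) : F[X]) = 0 := by
          rw [map_sub, map_pow, aeval_X, aeval_C, hz, sub_eq_zero]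
          rfl
        have hss : T.IsSemisimple := Module.End.isSemisimple_of_squarefree_aeval_eq_zero hirr.squarefree haev
        have hTT : ∀ v, T (T v) = -v := by
          intro v
          rw [← Module.End.mul_apply, ← pow_two, hz]
          simp
        have hinj : Function.Injective T := by
          intro u v huv
          have := hTT u
          rw [huv, hTT] at this
          exact (neg_injective this).symm
        have ha : ∀ v, sympForm d F v v = 0 := fun v => ClassicalGeometry.SympBasic.sympForm_self v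
        obtain ⟨W, -, hWi, hWt, hWd⟩ := exists_ti_of_step hB hss (fun W hW => hT.inv_perp hB hinj hW) (D := 2)
          (T := ⊤) (fun U _ hU hUn hUd => by
            obtain ⟨v, hv, hv0, hk⟩ := exists_common_isotropic hB (U := U) (n := 1) (by omega) (fun _ => T)
            refine exists_ti_cyc hB hT hU hv hv0 ?_
            intro k
            have hodd : sympForm d F v (T v) = 0 := hk 0
            have h5 : ∀ j : ℕ, (T ^ (2 * j)) v = (-1 : F) ^ j • v := by
              intro j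
              rw [pow_mul, hz, _root_.smul_pow, one_pow]; rfl
            rcases Nat.even_or_odd' k with ⟨j, rfl | rfl⟩
            · rw [h5, hB.smul_right, ha, mul_zero]
            · rw [pow_succ', Module.End.mul_apply, h5, map_smul, hB.smul_right, hodd, mul_zero]) le_top
          (U := ⊤) (fun _ _ => trivial) hV
        rw [finrank_top, hfr] at hWd
        have hWe := dvd_finrank_of_pow_eq Nat.prime_two hnsq hz hWi
        have hmW : m ≤ finrank F W := by
          obtain ⟨a, ha⟩ := hme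
          omega
        -- invariant subspaces of W of every even dimension
        have hsub : ∀ j : ℕ, 2 * j ≤ finrank F W → ∃ U ≤ W, Inv T U ∧ finrank F U = 2 * j := by
          intro j
          induction j with
          | zero => intro _; exact ⟨⊥, bot_le, inv_bot, by simp⟩
          | succ j ih =>
            intro hj
            obtain ⟨U, hUW, hU, hUd⟩ := ih (by omega)
            obtain ⟨C, hC, hCW, h6, h7⟩ := exists_rel_compl hss hU hWi hUW
            have hC0 : C ≠ ⊥ := by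
              rintro rfl
              rw [sup_bot_eq] at h7
              rw [← h7] at hj
              omega
            obtain ⟨S, hSC, hS⟩ := exists_irr hC hC0
            refine ⟨U ⊔ S, sup_le hUW (hSC.trans hCW), hU.sup hS.2.1, ?_⟩
            have h8 : U ⊓ S = ⊥ := by
              rw [eq_bot_iff, ← h6]; exact inf_le_inf_left _ hSC
            rw [finrank_sup_of_disj h8, hUd, hS.finrank_eq_natDegree hirr (fun v _ => by rw [haev]; rfl),
              natDegree_X_pow_sub_C]
            ring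
        obtain ⟨a, ha'⟩ := hme
        obtain ⟨U, hUW, hU, hUd⟩ := hsub a (by omega)
        exact ⟨U, ⟨by omega, hWt.mono hUW⟩, hU⟩
      · obtain ⟨b, hb⟩ := hsq.2 hq3
        have hb0 : b ≠ 0 := by
          rintro rfl
          rw [zero_pow two_ne_zero] at hb
          have : (1 : F) = 0 := by linear_combination hb
          exact one_ne_zero this
        have hbi : b⁻¹ * b⁻¹ = -1 := by
          have h5 : b * b = -1 := by rw [← hb, pow_two]
          have h6 : b⁻¹ * b⁻¹ * (b * b) = 1 := by field_simp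
          rw [h5] at h6
          linear_combination -h6
        have hy2 : (b⁻¹ • T) ^ 2 = 1 := by
          rw [_root_.smul_pow b⁻¹ T 2, hz, smul_smul, pow_two, hbi]
          norm_num
        have hy : ∀ u v, sympForm d F ((b⁻¹ • T) u) ((b⁻¹ • T) v) = -1 * sympForm d F u v := by
          intro u v
          rw [LinearMap.smul_apply, LinearMap.smul_apply, hB.smul_left, hB.smul_right, RingHom.id_apply, hT]
          linear_combination (sympForm d F u v) * hbi
        have h7 := (finrank_of_anti h2 hy2 hy hB (W := ⊤) (fun _ _ => trivial) hV).1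
        rw [top_inf_eq, finrank_top, hfr] at h7
        obtain ⟨W₁, W₂, hd1, -, -, hsup⟩ := exists_split (fx (b⁻¹ • T)) (a := m) (b := d - m) (by omega)
        have hW₁ : W₁ ≤ fx (b⁻¹ • T) := by rw [← hsup]; exact le_sup_left
        exact ⟨W₁, ⟨hd1, (ti_fx_of_anti h2 hy hB).mono hW₁⟩, (inv_smul_iff' (inv_ne_zero hb0)).1 (inv_of_le_fx hW₁)⟩

end Cfsg.Agent.H951
end

-- part: H951/STIOdd
section
/-!
# Totally isotropic `m`-spaces of the symplectic space: `r` odd, `r ≠ p`
-/

set_option autoImplicit false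
set_option linter.unusedSectionVars false
set_option linter.unusedVariables false

namespace Cfsg.Agent.H951

open Module Polynomial Cfsg

variable {F : Type*} [Field F] [Fintype F] {q d r m : ℕ}
variable {V : Type*} [AddCommGroup V] [Module F V] [FiniteDimensional F V] {B : V → V → F}

/-- Blocks of a prescribed type, `i` even. -/
theorem exists_blk_type [Fact r.Prime] (hr : (r : F) ≠ 0) (hF : Fintype.card F = q)
    (hB : Frm (RingHom.id F) (-1) B) (hK : Kind (RingHom.id F) (-1) B) {i : ℕ}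
    (hi : i = orderOf (q : ZMod r)) (hi0 : 0 < i) (hie : Even i) {f : F[X]} (hf : Irreducible f) (hd : f ∣ cyclotomic r F)
    {U : Submodule F V} (hU : Nd B U) (hUc : finrank F U = i) :
    ∃ y : Module.End F V, Isom B y ∧ y ^ r = 1 ∧ hB.perp U ≤ fx y ∧ cm y = U ∧ ∀ u ∈ U, aeval y f u = 0 := by
  obtain ⟨y, hy, hyr, hyp, hyc⟩ := exists_blk_symp (c := i) hr hF hB hK hi hi0 (by rw [if_pos hie]) hU hUc
  have hi' : i = orderOf (Fintype.card F : ZMod r) := by rw [hF]; exact hi
  have hirr : Irr y U := by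
    have hU0 : U ≠ ⊥ := by
      rintro rfl
      rw [finrank_bot] at hUc
      omega
    refine ⟨hU0, by rw [← hyc]; exact inv_cm, ?_⟩
    intro W hWU hW
    by_cases h0 : W = ⊥
    · exact Or.inl h0
    right
    have h1 := ord_dvd_finrank hyr hW (inf_fx_of_le_cm hr hyr (hWU.trans hyc.ge))
    rw [← hi'] at h1
    have h2 : 0 < finrank F W := by
      rw [Nat.pos_iff_ne_zero]
      exact fun h => h0 (Submodule.finrank_eq_zero.1 h)
    exact Submodule.eq_of_le_of_finrank_le hWU (by rw [hUc]; exact Nat.le_of_dvd h2 h1)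
  obtain ⟨f₀, hf₀, hd₀, hk₀⟩ := hirr.exists_factor (cyclotomic r F) (cyclotomic_ne_zero r F)
    fun v hv => cyclotomic_apply_of_mem_cm hyr (by rw [hyc]; exact hv)
  obtain ⟨k, hk, hkd⟩ := exists_pow_dvd hr hf₀ hd₀ hf hd
  refine ⟨y ^ k, hy.pow k, ?_, hyp.trans (fx_le_fx_pow k), ?_, ?_⟩
  · rw [← pow_mul, mul_comm, pow_mul, hyr, one_pow]
  · rw [cm_pow_eq hyr hk, hyc]
  · intro u hu
    rw [← aeval_comp_pow]
    obtain ⟨g, hg⟩ := hkd
    rw [hg, mul_comm, map_mul, Module.End.mul_apply, hk₀ u hu, map_zero]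

/-- Elements whose totally isotropic invariant subspaces in `[V, x]` are small. -/
theorem exists_bad [Fact r.Prime] (hr : (r : F) ≠ 0) (hF : Fintype.card F = q)
    (hB : Frm (RingHom.id F) (-1) B) (hK : Kind (RingHom.id F) (-1) B) (hV : Nd B (⊤ : Submodule F V)) {i : ℕ}
    (hi : i = orderOf (q : ZMod r)) (hi0 : 0 < i) (hie : Even i) {f₁ : F[X]} (hf₁ : Irreducible f₁)
    (hd₁ : f₁ ∣ cyclotomic r F) (S' : Finset F[X]) (hS' : ∀ g ∈ S', Irreducible g ∧ g ∣ cyclotomic r F ∧ g.Monic)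
    (hm₁ : f₁.Monic) (hnot : f₁ ∉ S') (a : ℕ) (hdim : i * (a + S'.card) ≤ finrank F V) :
    ∃ x : Module.End F V, Isom B x ∧ x ^ r = 1 ∧ finrank F ↥(cm x) = i * (a + S'.card) ∧
      (∀ u ∈ cm x, aeval x (f₁ * ∏ g ∈ S', g) u = 0) ∧
      ∀ W ≤ cm x, Inv x W → TI B W → 2 * finrank F W ≤ i * a := by
  classical
  have hi' : i = orderOf (Fintype.card F : ZMod r) := by rw [hF]; exact hi
  induction S' using Finset.induction_on with
  | empty =>
    rw [Finset.card_empty, add_zero] at hdim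
    obtain ⟨x, hx, hxr, hxd, hxk⟩ := exists_elt_kill hB hK hV hr (c := i) (fun _ => hie) (f := f₁)
      (fun U hU hUc => exists_blk_type hr hF hB hK hi hi0 hie hf₁ hd₁ hU hUc) a hdim
    refine ⟨x, hx, hxr, by simpa using hxd, by simpa using hxk, ?_⟩
    intro W hW _ hWt
    have := hB.two_mul_finrank_le (hx.nd_cm hB hr hxr hV) hW hWt
    rwa [hxd] at this
  | insert g S' hg ih =>
    rw [Finset.card_insert_of_notMem hg] at hdim ⊢
    have e1 : i * (a + (S'.card + 1)) = i * (a + S'.card) + i := by ring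
    rw [e1] at hdim ⊢
    obtain ⟨x, hx, hxr, hxd, hxk, hxD⟩ := ih (fun g hg => hS' g (Finset.mem_insert_of_mem hg))
      (fun h => hnot (Finset.mem_insert_of_mem h)) (by omega)
    obtain ⟨hgi, hgd, hgm⟩ := hS' g (Finset.mem_insert_self _ _)
    have h2 := finrank_fx_cm hr hxr
    obtain ⟨U, hUx, hU, hUc⟩ := exists_nd_sub hB hK (hx.nd_fx hB hr hxr hV) (k := i) (by omega) (fun _ => hie)
    obtain ⟨y, hy, hyr, hyp, hyc, hyk⟩ := exists_blk_type hr hF hB hK hi hi0 hie hgi hgd hU hUc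
    have h3 := glue_comm hB hU hx hUx hyc.le hyp
    have h4 := glue_cm hB hU hx hUx hyc.le hyp
    have hne : ∀ h : F[X], Irreducible h → h.Monic → h ≠ g → IsCoprime h g := by
      intro h hh hhm hhg
      rw [hh.coprime_iff_not_dvd]
      intro hdvd
      apply hhg
      exact eq_of_monic_of_associated hhm hgm (hh.associated_of_dvd hgi hdvd)
    have hcop : IsCoprime (f₁ * ∏ g ∈ S', g) g := by
      apply IsCoprime.mul_left
      · exact hne f₁ hf₁ hm₁ (fun h => hnot (by rw [h]; exact Finset.mem_insert_self _ _))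
      · apply IsCoprime.prod_left
        intro h hh
        obtain ⟨k1, k2, k3⟩ := hS' h (Finset.mem_insert_of_mem hh)
        exact hne h k1 k3 (fun e => hg (by rw [← e]; exact hh))
    obtain ⟨g1, g2⟩ := glue_types hB hV hU hx hUx hyp hyc hcop hxk hyk (by
      intro W hW hWi hWt
      by_contra h0
      have h5 := ord_dvd_finrank hyr hWi (inf_fx_of_le_cm hr hyr (hW.trans hyc.ge))
      rw [← hi'] at h5
      have h6 : 0 < finrank F W := by
        rw [Nat.pos_iff_ne_zero]
        exact fun h => h0 (Submodule.finrank_eq_zero.1 h)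
      have h7 := Nat.le_of_dvd h6 h5
      have h8 := hB.two_mul_finrank_le hU hW hWt
      omega) hxD
    refine ⟨x * y, isom_mul hx hy, ?_, ?_, ?_, g2⟩
    · rw [(show Commute x y from h3).mul_pow, hxr, hyr, one_mul]
    · rw [h4.1, finrank_sup_of_disj h4.2, hxd, hyc, hUc]
    · intro u hu
      rw [Finset.prod_insert hg, show f₁ * (g * ∏ h ∈ S', h) = (f₁ * ∏ h ∈ S', h) * g by ring]
      exact g1 u hu

open UniqueFactorizationMonoid in
/-- The number of irreducible factors of the cyclotomic polynomial. -/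
theorem exists_factors [Fact r.Prime] (hr : (r : F) ≠ 0) (hF : Fintype.card F = q) {i : ℕ}
    (hi : i = orderOf (q : ZMod r)) :
    ∃ S : Finset F[X], S.card = (r - 1) / i ∧ ∀ g ∈ S, Irreducible g ∧ g ∣ cyclotomic r F ∧ g.Monic := by
  classical
  obtain ⟨p, hp⟩ := CharP.exists F
  obtain ⟨n, hpp, hn⟩ := FiniteField.card F p
  have hfact : Fact p.Prime := ⟨hpp⟩
  have hcop : p.Coprime r := by
    rw [Nat.coprime_primes hpp Fact.out]
    rintro rfl
    exact hr (CharP.cast_eq_zero F p)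
  refine ⟨(normalizedFactors (cyclotomic r F)).toFinset, ?_, ?_⟩
  · rw [Polynomial.normalizedFactors_cyclotomic_card hn hcop, Nat.totient_prime Fact.out, ← orderOf_units,
      ZMod.coe_unitOfCoprime, ← hn, hF, ← hi]
  · intro g hg
    rw [Multiset.mem_toFinset] at hg
    refine ⟨irreducible_of_normalized_factor g hg, dvd_of_mem_normalizedFactors hg, ?_⟩
    have h1 := normalize_normalized_factor g hg
    rw [← h1]
    exact Polynomial.monic_normalize (irreducible_of_normalized_factor g hg).ne_zero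

/-- The decomposition of a totally isotropic invariant subspace. -/
lemma ti_split [Fact r.Prime] (hr : (r : F) ≠ 0) (hF : Fintype.card F = q)
    (hB : Frm (RingHom.id F) (-1) B) (hV : Nd B (⊤ : Submodule F V)) {i : ℕ}
    (hi : i = orderOf (q : ZMod r)) {x : Module.End F V} (hx : Isom B x) (hxr : x ^ r = 1) {W : Submodule F V}
    (hW : Inv x W) (hWt : TI B W) : ∃ j b, finrank F W = i * j + b ∧ finrank F ↥(W ⊓ cm x) = i * j ∧
      2 * b ≤ finrank F ↥(fx x) := by
  have hi' : i = orderOf (Fintype.card F : ZMod r) := by rw [hF]; exact hi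
  have h1 := ord_dvd_finrank hxr (hW.inf inv_cm) (inf_fx_of_le_cm hr hxr inf_le_right)
  rw [← hi'] at h1
  obtain ⟨j, hj⟩ := h1
  have h2 := finrank_inf_add hr hxr hW
  refine ⟨j, finrank F ↥(W ⊓ fx x), by omega, hj, ?_⟩
  exact hB.two_mul_finrank_le (hx.nd_fx hB hr hxr hV) inf_le_right (hWt.mono inf_le_left)

/-- From a large totally isotropic invariant subspace of `[V, x]`. -/
lemma ti_assemble [Fact r.Prime] (hr : (r : F) ≠ 0) (hF : Fintype.card F = q)
    (hB : Frm (RingHom.id F) (-1) B) (hK : Kind (RingHom.id F) (-1) B) (hV : Nd B (⊤ : Submodule F V)) {i : ℕ}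
    (hi : i = orderOf (q : ZMod r)) {x : Module.End F V} (hx : Isom B x) (hxr : x ^ r = 1) {W : Submodule F V}
    (hWc : W ≤ cm x) (hW : Inv x W) (hWt : TI B W) {j b : ℕ} (hj : i * j ≤ finrank F W) (hb : 2 * b ≤ finrank F ↥(fx x)) :
    ∃ W' : Submodule F V, Inv x W' ∧ TI B W' ∧ finrank F W' = i * j + b := by
  have hi' : i = orderOf (Fintype.card F : ZMod r) := by rw [hF]; exact hi
  obtain ⟨W₁, h1, h2, h3⟩ := exists_inv_finrank hr hxr hW hWc (j := j) (by rw [← hi']; exact hj)
  obtain ⟨W₂, k1, k2, k3⟩ := exists_ti_sub hB hK (hx.nd_fx hB hr hxr hV) hb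
  obtain ⟨g1, g2, g3⟩ := sup_ti_invariant hB hx (h1.trans hWc) k1 h2 (hWt.mono h1) k2 hr hxr
  exact ⟨_, g1, g2, by rw [g3, h3, k3, ← hi']⟩

theorem sti_odd {p : ℕ} [Fact p.Prime] [CharP F p] (hF : Fintype.card F = q) (hd : 2 ≤ d) (hm : 1 ≤ m)
    (hmd : m ≤ d) [Fact r.Prime] (hr2 : r ≠ 2) (hr : (r : F) ≠ 0)
    (hΩ : r ∣ Nat.card {W : Submodule F (Fin d ⊕ Fin d → F) // finrank F ↥W = m ∧ TI (sympForm d F) W}) {i c : ℕ}
    (hi : i = orderOf (q : ZMod r)) (hc : c = if Even i then i else 2 * i) :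
    SStat F d r (fun W => finrank F ↥W = m ∧ TI (sympForm d F) W) ↔
      (i ≤ m ∧ 2 * (m % i) ≤ (2 * d) % c ∧ (Odd i ∨ (r - 1) / i + 2 * (m / i) ≤ (2 * d) / i)) := by
  have hrP : r.Prime := Fact.out
  have hq := two_le_card hF
  have hi0 := ord_pos' hF hr hi
  have hc0 : 0 < c := by rw [hc]; split_ifs <;> omega
  have hB := frm_symp (F := F) d
  have hK := kind_symp (F := F) d
  have hV := nd_symp (F := F) d
  have hfr : finrank F (Fin d ⊕ Fin d → F) = 2 * d := by simp [two_mul]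
  have hodd := hrP.odd_of_ne_two hr2
  have hi' : i = orderOf (Fintype.card F : ZMod r) := by rw [hF]; exact hi
  have ha : ∀ v, sympForm d F v v = 0 := fun v => ClassicalGeometry.SympBasic.sympForm_self v
  obtain ⟨hcn, hmod⟩ : c ≤ 2 * d ∧ 2 * d % c < 2 * m := by
    obtain ⟨j, h2, h3, h4⟩ := exists_dvd_sf_ti hF hmd hrP (not_dvd_q hF hr) hΩ
    exact mod_lt_of_sf (by omega) hi hi0 hc h2 h3 h4
  have hci : c ≤ 2 * i := by rw [hc]; split_ifs <;> omega
  have hmodc : 2 * d % c < c := Nat.mod_lt _ hc0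
  have hdivc := Nat.div_add_mod (2 * d) c
  have hdivi := Nat.div_add_mod (2 * d) i
  have hmodi : 2 * d % i < i := Nat.mod_lt _ hi0
  have hmdiv := Nat.div_add_mod m i
  have hmmod : m % i < i := Nat.mod_lt _ hi0
  have hns : ∀ y : Module.End F (Fin d ⊕ Fin d → F), Isom (sympForm d F) y → y ^ r = 1 → 0 < finrank F ↥(cm y) →
      ∀ z : F, y ≠ z • 1 := by
    intro y hy hyr hpos z hz
    have h1 := eq_one_of_scalar hB hV (exists_ne_zero' (by omega)) hy hodd hyr hz
    have h4 : cm y = ⊥ := by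
      rw [eq_bot_iff]
      intro v hv
      obtain ⟨w, rfl⟩ := mem_cm.1 hv
      rw [h1]
      simp
    rw [h4, finrank_bot] at hpos
    exact lt_irrefl 0 hpos
  -- i j + b with b < i
  have hdecomp : ∀ j b, m = i * j + b → b < i → j = m / i ∧ b = m % i := by
    intro j b h1 h2
    constructor
    · rw [h1, Nat.mul_add_div hi0, Nat.div_eq_of_lt h2, add_zero]
    · rw [h1, Nat.mul_add_mod, Nat.mod_eq_of_lt h2]
  constructor
  · intro h
    have hcpos : 1 ≤ 2 * d / c := (Nat.one_le_div_iff hc0).2 hcn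
    have hcc : c * 1 ≤ c * (2 * d / c) := Nat.mul_le_mul_left _ hcpos
    obtain ⟨y, hy, hyr, hyd⟩ := exists_elt_symp hr hF hB hK hV hi hi0 hc (M := 2 * d / c)
      (by rw [hfr]; exact Nat.mul_div_le _ c)
    obtain ⟨W, ⟨hWm, hW⟩, hWi⟩ := h y hy ⟨1, by rw [hyr, one_smul]⟩ (hns y hy hyr (by omega))
    obtain ⟨j, b, h1, h2, h3⟩ := ti_split hr hF hB hV hi hy hyr hWi hW
    have h4 := finrank_fx_cm hr hyr
    rw [hyd, hfr] at h4
    rw [hWm] at h1
    obtain ⟨e1, e2⟩ := hdecomp j b h1 (by omega)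
    have hj0 : j ≠ 0 := by rintro rfl; omega
    have hij : i * 1 ≤ i * j := Nat.mul_le_mul_left _ (Nat.pos_of_ne_zero hj0)
    refine ⟨by omega, by omega, ?_⟩
    rcases Nat.even_or_odd i with he | ho
    · right
      have hci' : c = i := by rw [hc, if_pos he]
      subst hci'
      obtain ⟨S, hScard, hS⟩ := exists_factors hr hF hi
      set t := (r - 1) / c with ht
      set n' := 2 * d / c with hn'
      by_contra hlt
      push Not at hlt
      -- t ≥ 1
      have ht1 : 1 ≤ t := by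
        rw [ht, Nat.one_le_div_iff hi0, hi]
        refine Nat.le_of_dvd (Nat.sub_pos_of_lt hrP.one_lt) ?_
        rw [orderOf_dvd_iff_pow_eq_one]
        exact ZMod.pow_card_sub_one_eq_one (by
          intro h0
          exact not_dvd_q hF hr ((ZMod.natCast_eq_zero_iff _ _).1 h0))
      have hSne : S.Nonempty := by
        rw [← Finset.card_pos]; omega
      obtain ⟨f₁, hf₁⟩ := hSne
      classical
      have hcard' : (S.erase f₁).card = t - 1 := by rw [Finset.card_erase_of_mem hf₁, hScard]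
      obtain ⟨a, u, hu, hau⟩ : ∃ a u, u ≤ t - 1 ∧ ((t < n' ∧ a = n' - t ∧ u = t - 1) ∨ (n' ≤ t ∧ a = 1 ∧ u = n' - 1)) := by
        rcases lt_or_ge t n' with h5 | h5
        · exact ⟨n' - t, t - 1, le_rfl, Or.inl ⟨h5, rfl, rfl⟩⟩
        · exact ⟨1, n' - 1, by omega, Or.inr ⟨h5, rfl, rfl⟩⟩
      obtain ⟨S', hS'S, hS'card⟩ := Finset.exists_subset_card_eq (hu.trans hcard'.ge)
      have hau' : a + u ≤ n' := by omega
      have hle : c * (a + u) ≤ c * n' := Nat.mul_le_mul_left _ hau'
      obtain ⟨x, hx, hxr, hxd, -, hxD⟩ := exists_bad hr hF hB hK hV hi hi0 he (hS f₁ hf₁).1 (hS f₁ hf₁).2.1 S'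
        (fun g hg => hS g (Finset.mem_of_mem_erase (hS'S hg))) (hS f₁ hf₁).2.2
        (fun h => (Finset.notMem_erase f₁ S) (hS'S h)) a (by rw [hS'card, hfr]; omega)
      rw [hS'card] at hxd
      have hpos' : 0 < c * (a + u) := Nat.mul_pos hi0 (by omega)
      obtain ⟨W, ⟨hWm, hW⟩, hWi⟩ := h x hx ⟨1, by rw [hxr, one_smul]⟩ (hns x hx hxr (by omega))
      obtain ⟨j', b', k1, k2, k3⟩ := ti_split hr hF hB hV hi hx hxr hWi hW
      have k4 := finrank_fx_cm hr hxr
      rw [hxd, hfr] at k4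
      rw [hWm] at k1
      have k5 := hxD (W ⊓ cm x) inf_le_right (hWi.inf inv_cm) (hW.mono inf_le_left)
      rw [k2] at k5
      have k6 : 2 * j' ≤ a := by
        have : c * (2 * j') ≤ c * a := by
          calc c * (2 * j') = 2 * (c * j') := by ring
            _ ≤ c * a := k5
        exact Nat.le_of_mul_le_mul_left this hi0
      rcases hau with ⟨l1, l2, l3⟩ | ⟨l1, l2, l3⟩
      · have l4 : c * (a + u) + c = c * n' := by
          have : a + u + 1 = n' := by omega
          rw [← this]; ring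
        obtain ⟨e3, e4⟩ := hdecomp j' b' k1 (by omega)
        omega
      · have l4 : a + u = n' := by omega
        rw [l4] at k4
        have l5 : j' = 0 := by omega
        rw [l5] at k1
        omega
    · exact Or.inl ho
  · rintro ⟨him, hk, hcond⟩ T hT ⟨z, hz⟩ hns
    obtain ⟨hz0, hy, hyr⟩ := normalize_odd hB hV (exists_ne_zero' (by omega)) hT hodd hz
    set y := z • T with hydef
    have hss := semisimple_of_pow hr hyr
    have hinj : Function.Injective y := by
      obtain ⟨s, hs⟩ : ∃ s, r = s + 1 := ⟨r - 1, by have := hrP.pos; omega⟩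
      intro u v huv
      have h : ∀ w, (y ^ s) (y w) = w := by
        intro w
        rw [← Module.End.mul_apply, ← pow_succ, ← hs, hyr]
        rfl
      rw [← h u, ← h v, huv]
    obtain ⟨M, hM⟩ := dvd_finrank_symp hr hF hB hK hi hc hyr (cm y) inv_cm (hy.nd_cm hB hr hyr hV) le_rfl
    have h4 := finrank_fx_cm hr hyr
    rw [hM, hfr] at h4
    have hMn : M ≤ 2 * d / c := (Nat.le_div_iff_mul_le hc0).2 (by rw [mul_comm]; omega)
    have hMc : c * M ≤ c * (2 * d / c) := Nat.mul_le_mul_left _ hMn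
    rcases Nat.even_or_odd i with he | ho
    · have hci' : c = i := by rw [hc, if_pos he]
      subst hci'
      have hcond' : (r - 1) / c + 2 * (m / c) ≤ 2 * d / c := by
        rcases hcond with h | h
        · exact absurd he (Nat.not_even_iff_odd.2 h)
        · exact h
      obtain ⟨W, hWc, hWi, hWt, hWd⟩ := exists_ti_of_step hB hss (fun W hW => hy.inv_perp hB hinj hW) (D := r - 1)
        (T := cm y) (fun U _ hU _ hUd => step_cw hB ha hy hodd hyr U hU hUd) le_rfl inv_cm (hy.nd_cm hB hr hyr hV)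
      obtain ⟨s, hs⟩ := ord_dvd_finrank hyr hWi (inf_fx_of_le_cm hr hyr hWc)
      rw [← hi'] at hs
      have hir : c ∣ r - 1 := by
        rw [hi, orderOf_dvd_iff_pow_eq_one]
        exact ZMod.pow_card_sub_one_eq_one (by
          intro h0
          exact not_dvd_q hF hr ((ZMod.natCast_eq_zero_iff _ _).1 h0))
      obtain ⟨t, ht⟩ := hir
      have htt : (r - 1) / c = t := by rw [ht, Nat.mul_div_cancel_left _ hi0]
      rw [htt] at hcond'
      rw [hM, hs, ht] at hWd
      have hMs : M ≤ 2 * s + t := by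
        have : c * M ≤ c * (2 * s + t) := by
          calc c * M ≤ 2 * (c * s) + c * t := hWd
            _ = c * (2 * s + t) := by ring
        exact Nat.le_of_mul_le_mul_left this hi0
      have key : ∃ j b, m = c * j + b ∧ j ≤ s ∧ 2 * b ≤ finrank F ↥(fx y) := by
        rcases le_total (m / c) s with h5 | h5
        · exact ⟨m / c, m % c, hmdiv.symm, h5, by omega⟩
        · have h6 : c * s ≤ c * (m / c) := Nat.mul_le_mul_left _ h5
          refine ⟨s, m - c * s, by omega, le_rfl, ?_⟩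
          have h7 : c * (t + 2 * (m / c)) ≤ c * (2 * d / c) := Nat.mul_le_mul_left _ hcond'
          have h8 : c * (t + 2 * (m / c)) = c * t + 2 * (c * (m / c)) := by ring
          have h9 : c * M ≤ c * (2 * s + t) := Nat.mul_le_mul_left _ hMs
          have h10 : c * (2 * s + t) = 2 * (c * s) + c * t := by ring
          omega
      obtain ⟨j, b, k1, k2, k3⟩ := key
      obtain ⟨W', g1, g2, g3⟩ := ti_assemble hr hF hB hK hV hi hy hyr hWc hWi hWt (j := j) (b := b)
        (by rw [hs]; exact Nat.mul_le_mul_left _ k2) k3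
      exact ⟨W', ⟨by rw [g3, ← k1], g2⟩, (inv_smul_iff' hz0).1 g1⟩
    · have hci' : c = 2 * i := by rw [hc, if_neg (Nat.not_even_iff_odd.2 ho)]
      obtain ⟨W, hWc, hWi, hWt, hWd⟩ := exists_ti_of_step hB hss (fun W hW => hy.inv_perp hB hinj hW) (D := 0)
        (T := cm y) (fun U hUc hU hUn hUd => by
          have hU0 : U ≠ ⊥ := by rintro rfl; rw [finrank_bot] at hUd; omega
          obtain ⟨C, hCU, hC⟩ := exists_irr hU hU0
          refine ⟨C, hCU, hC.2.1, hC.1, ?_⟩
          rcases hC.nd_or_ti hB hy hinj with h5 | h5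
          · exfalso
            have h6 := even_of_kind hB hK h5 rfl
            rw [hC.finrank_eq hr hyr (hCU.trans hUc), ← hi'] at h6
            exact absurd ho (Nat.not_odd_iff_even.2 h6)
          · exact h5) le_rfl inv_cm (hy.nd_cm hB hr hyr hV)
      rw [hM, hci'] at hWd
      have hWd' : i * M ≤ finrank F W := by
        have : 2 * i * M = 2 * (i * M) := by ring
        omega
      rw [hci'] at hk h4
      have h4' : finrank F ↥(fx y) + 2 * (i * M) = 2 * d := by
        have : 2 * i * M = 2 * (i * M) := by ring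
        omega
      have key : ∃ j b, m = i * j + b ∧ j ≤ M ∧ 2 * b ≤ finrank F ↥(fx y) := by
        rcases le_total (m / i) M with h5 | h5
        · refine ⟨m / i, m % i, hmdiv.symm, h5, ?_⟩
          rw [hci'] at hMc hdivc
          have : 2 * i * M = 2 * (i * M) := by ring
          omega
        · have h6 : i * M ≤ i * (m / i) := Nat.mul_le_mul_left _ h5
          exact ⟨M, m - i * M, by omega, le_rfl, by omega⟩
      obtain ⟨j, b, k1, k2, k3⟩ := key
      obtain ⟨W', g1, g2, g3⟩ := ti_assemble hr hF hB hK hV hi hy hyr hWc hWi hWt (j := j) (b := b)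
        ((Nat.mul_le_mul_left _ k2).trans hWd') k3
      exact ⟨W', ⟨by rw [g3, ← k1], g2⟩, (inv_smul_iff' hz0).1 g1⟩

end Cfsg.Agent.H951
end

-- part: S5955
section
set_option autoImplicit false
open scoped MatrixGroups
open Cfsg

namespace Cfsg.Agent.S5955

/-- Elements of prime order of PSp_n(q) with no fixed totally isotropic `m`-space. Here `T = PSp_n(q)` with `n = 2d ≥ 4`, `(n, q) ≠ (4, 2)`, realised through the symplectic matrices over the field `F` with `q` elements (preserving the standard alternating form); an element of `T` of prime order `r` is such a matrix `x` with `x^r` scalar and `x` not scalar. For `r ≠ p` let `i` be the multiplicative order of `q` modulo `r`, `c = i` for `i` even and `c = 2i` for `i` odd, and write `k = n mod c`, `ℓ = m mod i`, `ℓ' = m mod c`, `n' = ⌊n/i⌋`, `m' = ⌊m/i⌋`, `t = (r−1)/i`. Let `1 ≤ m ≤ n/2` and let `r` be a prime dividing the number of totally isotropic `m`-spaces. Then every element of `T` of order `r` fixes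 a totally isotropic `m`-space if and only if either (i) `r = 2 ≠ p` and `m` is even or `q ≡ 1 (mod 4)`; or (ii) `r ≠ p`, `r > 2`, `i ≤ m`, `k ≥ 2ℓ`, and `i` is odd or `n' − 2m' ≥ t`. -/
theorem result {F : Type*} [Field F] [Fintype F] {p : ℕ} [Fact p.Prime] [CharP F p] {q : ℕ} (hq : Fintype.card F = q)
    (d m : ℕ) (hd : 2 ≤ d) (hT : (d, q) ≠ (2, 2)) (hm : 1 ≤ m) (hmd : m ≤ d)
    (r : ℕ) [Fact r.Prime]
    (hrΩ : r ∣ Nat.card {W : Submodule F (Fin d ⊕ Fin d → F) // Module.finrank F ↥W = m ∧ (∀ u ∈ W, ∀ v ∈ W, Cfsg.sympForm d F u v = 0)})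
    (i c : ℕ) (hi : i = orderOf (q : ZMod r)) (hc : c = if Even i then i else 2 * i) :
    (∀ x : ↥(Matrix.symplecticGroup (Fin d) F),
      (∃ z : F, ((x ^ r : ↥(Matrix.symplecticGroup (Fin d) F)) : Matrix (Fin d ⊕ Fin d) (Fin d ⊕ Fin d) F) = z • (1 : Matrix (Fin d ⊕ Fin d) (Fin d ⊕ Fin d) F)) →
      (∀ z : F, (x : Matrix (Fin d ⊕ Fin d) (Fin d ⊕ Fin d) F) ≠ z • (1 : Matrix (Fin d ⊕ Fin d) (Fin d ⊕ Fin d) F)) →
      ∃ W : Submodule F (Fin d ⊕ Fin d → F), Module.finrank F ↥W = m ∧ (∀ u ∈ W, ∀ v ∈ W, Cfsg.sympForm d F u v = 0) ∧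
        W.map (Matrix.toLin' (x : Matrix (Fin d ⊕ Fin d) (Fin d ⊕ Fin d) F)) ≤ W) ↔
    ((r = 2 ∧ p ≠ 2 ∧ (Even m ∨ q % 4 = 1)) ∨
     (r ≠ p ∧ 2 < r ∧ i ≤ m ∧ 2 * (m % i) ≤ (2 * d) % c ∧ (Odd i ∨ (r - 1) / i + 2 * (m / i) ≤ (2 * d) / i))) := by
  have hF : Fintype.card F = q := hq
  have hrP : r.Prime := Fact.out
  have hpP : p.Prime := Fact.out
  have key : (∀ x : ↥(Matrix.symplecticGroup (Fin d) F),
      (∃ z : F, ((x ^ r : ↥(Matrix.symplecticGroup (Fin d) F)) : Matrix (Fin d ⊕ Fin d) (Fin d ⊕ Fin d) F) = z • (1 : Matrix (Fin d ⊕ Fin d) (Fin d ⊕ Fin d) F)) →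
      (∀ z : F, (x : Matrix (Fin d ⊕ Fin d) (Fin d ⊕ Fin d) F) ≠ z • (1 : Matrix (Fin d ⊕ Fin d) (Fin d ⊕ Fin d) F)) →
      ∃ W : Submodule F (Fin d ⊕ Fin d → F), Module.finrank F ↥W = m ∧ (∀ u ∈ W, ∀ v ∈ W, Cfsg.sympForm d F u v = 0) ∧
        W.map (Matrix.toLin' (x : Matrix (Fin d ⊕ Fin d) (Fin d ⊕ Fin d) F)) ≤ W) ↔
      H951.SStat F d r (fun W => Module.finrank F ↥W = m ∧ H951.TI (sympForm d F) W) := by
    rw [H951.SStat, ← H951.sstat_iff]
    constructor
    · intro h x h1 h2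
      obtain ⟨W, h3, h4, h5⟩ := h x h1 h2
      exact ⟨W, ⟨h3, h4⟩, h5⟩
    · intro h x h1 h2
      obtain ⟨W, ⟨h3, h4⟩, h5⟩ := h x h1 h2
      exact ⟨W, h3, h4, h5⟩
  rw [key]
  by_cases hrp : r = p
  · subst hrp
    exact absurd hrΩ (H951.not_dvd_card_ti (p := r) hF hmd)
  · have hrF : (r : F) ≠ 0 := by
      intro h
      rw [CharP.cast_eq_zero_iff F p] at h
      exact hrp ((Nat.prime_dvd_prime_iff_eq hpP hrP).1 h).symm
    by_cases h2 : r = 2
    · subst h2
      have h2F : (2 : F) ≠ 0 := by exact_mod_cast hrF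
      have hqo : q % 2 = 1 := by
        by_contra hqe
        obtain ⟨k, -, hk⟩ := FiniteField.card F p
        have h4 : 2 ∣ p ^ (k : ℕ) := by rw [← hk, hF]; omega
        exact hrp ((Nat.prime_dvd_prime_iff_eq Nat.prime_two hpP).1 (Nat.prime_two.dvd_of_dvd_pow h4))
      rw [H951.sti_two hF hd h2F hmd hqo]
      constructor
      · intro h; exact Or.inl ⟨rfl, Ne.symm hrp, h⟩
      · rintro (⟨-, -, h⟩ | ⟨-, h, -⟩)
        · exact h
        · exact absurd h (lt_irrefl 2)
    · have h3 : 2 < r := lt_of_le_of_ne hrP.two_le (Ne.symm h2)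
      rw [H951.sti_odd (p := p) hF hd hm hmd h2 hrF hrΩ hi hc]
      constructor
      · intro h; exact Or.inr ⟨hrp, h3, h⟩
      · rintro (⟨h, -⟩ | ⟨-, -, h⟩)
        · exact absurd h h2
        · exact h

end Cfsg.Agent.S5955
end
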