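import Mathlib
import Cfsg.Agent.H952.SympTrans
import Cfsg.Agent.H952.SympDecomp
import Cfsg.Agent.H952.Lagr
import Cfsg.Agent.H951.Sub
import Cfsg.Agent.H950.MaxTI
import Cfsg.Agent.H951.UUnip
import Cfsg.Statements.S5956
import Cfsg.Agent.H952.NdCount
set_option linter.all false

-- part: H952/NdSub
section
/-!
Isometries of prime order of symplectic spaces and invariant non-degenerate subspaces of given
dimension.
-/

set_option autoImplicit false

namespace Cfsg.Agent.H952.NdSub

open Module Submodule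
open Cfsg.Agent.H952.Alt Cfsg.Agent.H952.Semi Cfsg.Agent.H952.SympSemi

set_option linter.unusedSectionVars false

variable {F V : Type*} [Field F] [AddCommGroup V] [Module F V] [FiniteDimensional F V]
  {B : LinearMap.BilinForm F V} {x : Module.End F V}

/-- Odd order prime to the characteristic: existence. -/
theorem exists_nd_inv [Fintype F] (hA : B.IsAlt) {r : ℕ} [Fact r.Prime] (hr2 : r ≠ 2)
    (hrF : (r : F) ≠ 0) (hxr : x ^ r = 1) (hx : ∀ u v, B (x u) (x v) = B u v)
    (hV : Nd B ⊤) {m : ℕ} (hm : Even m) (hmn : m ≤ finrank F V)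
    (h : m % cc (Fintype.card F) r ≤ finrank F V % cc (Fintype.card F) r) :
    ∃ W : Submodule F V, Nd B W ∧ Inv x W ∧ finrank F W = m := by
  have hord := orderOf_pos (coprime_card (F := F) hrF)
  have hc0 := cc_pos hord
  set c := cc (Fintype.card F) r with hc
  have hinv : Inv x (⊤ : Submodule F V) := fun v _ => mem_top
  have hC := nd_comm hA hrF hxr hx hV hinv
  have hF' := nd_fix (B := B) hrF hxr hx hV hinv
  obtain ⟨j, hj⟩ := cc_dvd_comm hA hrF hxr hx hV hinv
  have hsum : finrank F ((⊤ : Submodule F V) ⊓ LinearMap.ker (x - 1) : Submodule F V) +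
      finrank F ((⊤ : Submodule F V).map (x - 1)) = finrank F V := by
    rw [finrank_fix_add, finrank_top]
  have hce : Even c := cc_even _ _
  set a := min j (m / c) with ha
  obtain ⟨E, hE1, hE2, hE3, hE4⟩ := exists_mul hA hr2 hrF hxr hx hord a
    ((⊤ : Submodule F V).map (x - 1)) hC (inv_map_sub hinv) (comm_inf_ker hrF hxr _)
    (by rw [hj]; exact Nat.mul_le_mul_left _ (min_le_left _ _))
  have hcm := Nat.div_add_mod m c
  have hcn := Nat.div_add_mod (finrank F V) c
  have hca : c * a ≤ m := by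
    have : c * a ≤ c * (m / c) := Nat.mul_le_mul_left _ (min_le_right _ _)
    omega
  have hle : m - c * a ≤ finrank F ((⊤ : Submodule F V) ⊓ LinearMap.ker (x - 1) :
      Submodule F V) := by
    rcases le_total j (m / c) with hjm | hjm
    · rw [ha, min_eq_left hjm, ← hc] at *
      rw [← hc] at hj
      omega
    · rw [ha, min_eq_right hjm]
      rw [← hc] at hj
      have h1 : c * j ≤ c * (finrank F V / c) := by
        apply Nat.mul_le_mul_left
        rw [Nat.le_div_iff_mul_le hc0, mul_comm]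
        omega
      omega
  obtain ⟨k, hk⟩ := (Nat.even_sub hca).2 (iff_of_true hm (hce.mul_right a))
  obtain ⟨E', hE'1, hE'2, hE'3⟩ := exists_even_dim hA k _ hF' (by omega)
  have ho : ∀ u ∈ E, ∀ v ∈ E', B u v = 0 := fun u hu v hv =>
    eq_zero_swap hA (orth_fix_comm hx ⊤ ⊤ v (hE'1 hv) u (hE1 hu))
  refine ⟨E ⊔ E', Nd.sup hA hE2 hE'2 ho, Inv.sup hE3 ?_, ?_⟩
  · intro v hv
    rw [mem_ker_sub.1 (hE'1 hv).2]
    exact hv
  · have hd := disjoint_of_orth hA hE2 ho
    have := finrank_sup_add_finrank_inf_eq E E'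
    rw [hd.eq_bot, finrank_bot] at this
    rw [hE4, hE'3, ← hc] at this
    omega

/-- Odd order prime to the characteristic: an isometry with maximal commutator space restricts the
dimensions of the invariant non-degenerate subspaces. -/
theorem of_nd_inv [Fintype F] (hA : B.IsAlt) {r : ℕ} [Fact r.Prime]
    (hrF : (r : F) ≠ 0) (hxr : x ^ r = 1) (hx : ∀ u v, B (x u) (x v) = B u v)
    (hmax : finrank F (LinearMap.ker (x - 1)) = finrank F V % cc (Fintype.card F) r)
    {W : Submodule F V} (hW : Nd B W) (hWx : Inv x W) :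
    finrank F W % cc (Fintype.card F) r ≤ finrank F V % cc (Fintype.card F) r ∧
      (cc (Fintype.card F) r ≤ finrank F W ∨
        finrank F W ≤ finrank F V % cc (Fintype.card F) r) := by
  have hord := orderOf_pos (coprime_card (F := F) hrF)
  have hc0 := cc_pos hord
  obtain ⟨j, hj⟩ := cc_dvd_comm hA hrF hxr hx hW hWx
  have hsum := finrank_fix_add (x := x) (W := W)
  have hle : finrank F (W ⊓ LinearMap.ker (x - 1) : Submodule F V) ≤
      finrank F (LinearMap.ker (x - 1)) := Submodule.finrank_mono inf_le_right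
  set c := cc (Fintype.card F) r with hc
  have hlt : finrank F V % c < c := Nat.mod_lt _ hc0
  rw [hmax] at hle
  rw [hj] at hsum
  have hmod : finrank F W % c = finrank F (W ⊓ LinearMap.ker (x - 1) : Submodule F V) := by
    rw [← hsum, Nat.add_mul_mod_self_left, Nat.mod_eq_of_lt (by omega)]
  refine ⟨by omega, ?_⟩
  rcases Nat.eq_zero_or_pos j with h | h
  · right
    rw [h, mul_zero, add_zero] at hsum
    omega
  · left
    have : c * 1 ≤ c * j := Nat.mul_le_mul_left _ h
    omega

/-- Involutory isometries (up to scalars) in odd characteristic: an invariant plane. -/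
theorem exists_plane (hA : B.IsAlt) (hx : ∀ u v, B (x u) (x v) = B u v)
    (h2 : (2 : F) ≠ 0) {z : F} (hz : z = 1 ∨ z = -1) (hxx : ∀ v, x (x v) = z • v)
    {W : Submodule F V} (hW : Nd B W) (hWx : Inv x W) (hW0 : W ≠ ⊥) :
    ∃ E ≤ W, Nd B E ∧ Inv x E ∧ finrank F E = 2 := by
  obtain ⟨u, huW, hu0⟩ := (Submodule.ne_bot_iff W).1 hW0
  have key : ∀ e ∈ W, ∀ w ∈ W, B e w ≠ 0 → x e ∈ span F {e, w} → x w ∈ span F {e, w} →
      ∃ E ≤ W, Nd B E ∧ Inv x E ∧ finrank F E = 2 := by
    intro e he w hw hne h1 h2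
    refine ⟨span F {e, w}, ?_, Nd.pair hA hne, ?_, finrank_pair hA hne⟩
    · rw [span_le]
      rintro y (rfl | rfl)
      · exact he
      · exact hw
    · intro y hy
      have : (span F {e, w}).map x ≤ span F {e, w} := by
        rw [Submodule.map_span_le]
        rintro y (rfl | rfl)
        · exact h1
        · exact h2
      exact this ⟨y, hy, rfl⟩
  rcases hz with rfl | rfl
  · have hxx' : ∀ v, x (x v) = v := fun v => by rw [hxx, one_smul]
    have he : ∃ (e : V) (l : F), e ∈ W ∧ e ≠ 0 ∧ l * l = 1 ∧ x e = l • e := by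
      by_cases h : u + x u = 0
      · exact ⟨u, -1, huW, hu0, by ring, by rw [neg_one_smul]; exact eq_neg_of_add_eq_zero_right h⟩
      · exact ⟨u + x u, 1, W.add_mem huW (hWx u huW), h, by ring, by
          rw [map_add, hxx', one_smul, add_comm]⟩
    obtain ⟨e, l, heW, he0, hl, hxe⟩ := he
    obtain ⟨w, hwW, hne⟩ := hW e heW he0
    have hB : B e (x w) = l * B e w := by
      have h1 := hx e w
      rw [hxe, LinearMap.map_smul₂, smul_eq_mul] at h1
      rw [← h1, ← mul_assoc, hl, one_mul]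
    refine key e heW (w + l • x w) (W.add_mem hwW (W.smul_mem _ (hWx w hwW))) ?_ ?_ ?_
    · rw [map_add, map_smul, hB, smul_eq_mul, ← mul_assoc, hl, one_mul, ← two_mul]
      exact mul_ne_zero h2 hne
    · rw [hxe]
      exact Submodule.smul_mem _ _ (Submodule.subset_span (Or.inl rfl))
    · have : x (w + l • x w) = l • (w + l • x w) := by
        rw [map_add, map_smul, hxx', smul_add, smul_smul, hl, one_smul, add_comm]
      rw [this]
      exact Submodule.smul_mem _ _ (Submodule.subset_span (Or.inr rfl))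
  · have hxx' : ∀ v, x (x v) = -v := fun v => by rw [hxx, neg_one_smul]
    by_cases hex : ∃ v ∈ W, B v (x v) ≠ 0
    · obtain ⟨v, hv, hne⟩ := hex
      refine key v hv (x v) (hWx v hv) hne (Submodule.subset_span (Or.inr rfl)) ?_
      rw [hxx']
      exact Submodule.neg_mem _ (Submodule.subset_span (Or.inl rfl))
    · push Not at hex
      exfalso
      have h0 : ∀ a ∈ W, ∀ b ∈ W, B a (x b) = 0 := by
        intro a ha b hb
        have h1 := hex (a + b) (W.add_mem ha hb)
        rw [map_add, map_add, LinearMap.add_apply, LinearMap.map_add, LinearMap.map_add, hex a ha,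
          hex b hb, zero_add, add_zero] at h1
        have h3 : B b (x a) = B a (x b) := by
          have h4 := hx b (x a)
          rw [hxx', map_neg] at h4
          rw [← h4, swap hA (x b) a, neg_neg]
        rw [h3, ← two_mul] at h1
        exact (mul_eq_zero.1 h1).resolve_left h2
      obtain ⟨w, hw, hne⟩ := hW u huW hu0
      apply hne
      have := h0 u huW (x w) (hWx w hw)
      rw [hxx', map_neg, neg_eq_zero] at this
      exact this

theorem exists_nd_inv_two (hA : B.IsAlt) (hinj : Function.Injective x)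
    (hx : ∀ u v, B (x u) (x v) = B u v)
    (h2 : (2 : F) ≠ 0) {z : F} (hz : z = 1 ∨ z = -1) (hxx : ∀ v, x (x v) = z • v) (m : ℕ) :
    ∀ {W : Submodule F V}, Nd B W → Inv x W → 2 * m ≤ finrank F W →
    ∃ E ≤ W, Nd B E ∧ Inv x E ∧ finrank F E = 2 * m := by
  induction m with
  | zero => exact fun {W} _ _ _ => ⟨⊥, bot_le, Nd.bot, fun v hv => by
      rw [(Submodule.mem_bot F).1 hv, map_zero]; exact Submodule.zero_mem _, by simp⟩
  | succ m ih =>
    intro W hW hWx hm
    have hW0 : W ≠ ⊥ := by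
      rintro rfl
      rw [finrank_bot] at hm
      omega
    obtain ⟨E, hE1, hE2, hE3, hE4⟩ := exists_plane hA hx h2 hz hxx hW hWx hW0
    have hs := split_finrank hA hE2 hE1
    obtain ⟨E', hE'1, hE'2, hE'3, hE'4⟩ := ih (split_nd hA hW hE2 hE1)
      (split_inv hA hinj hx hWx hE3) (by omega)
    have ho : ∀ u ∈ E, ∀ v ∈ E', B u v = 0 := fun u hu v hv =>
      split_orth hA u hu v (hE'1 hv)
    refine ⟨E ⊔ E', sup_le hE1 (hE'1.trans inf_le_left), Nd.sup hA hE2 hE'2 ho,
      Inv.sup hE3 hE'3, ?_⟩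
    have hd := disjoint_of_orth hA hE2 ho
    have := finrank_sup_add_finrank_inf_eq E E'
    rw [hd.eq_bot, finrank_bot] at this
    omega

/-- Involutions in characteristic 2: existence. -/
theorem exists_nd_inv_char_two (hA : B.IsAlt) (hinj : Function.Injective x)
    (hx : ∀ u v, B (x u) (x v) = B u v) (hxx : ∀ v, x (x v) = v) (hV : Nd B ⊤) {m : ℕ}
    (hm : m ≤ finrank F V) (hme : Even m) (h : finrank F V % 4 = 2 ∨ m % 4 = 0) :
    ∃ E : Submodule F V, Nd B E ∧ Inv x E ∧ finrank F E = m := by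
  classical
  obtain ⟨ι, _, E, τ, hE, hE2, hτ, hEx, hs⟩ := exists_atoms hA hinj hx 1
    (fun v => by rw [hxx, one_smul]) _ ⊤ rfl hV (fun v _ => mem_top)
  have htop : (Finset.univ : Finset ι).sup E = ⊤ := by
    rw [← hs, Finset.sup_univ_eq_iSup]
  have hn : finrank F V = 2 * Fintype.card ι := by
    rw [← finrank_top F V, ← htop, hE.finrank_sup hA, Finset.sum_congr rfl (fun i _ => hE2 i),
      Finset.sum_const, Finset.card_univ, smul_eq_mul, mul_comm]
  obtain ⟨k, hk⟩ := hme
  have hT : ∃ T : Finset ι, T.card = k ∧ ∀ i ∈ T, τ i ∈ T := by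
    rcases Nat.even_or_odd' k with ⟨l, hl | hl⟩
    · obtain ⟨T, _, hT, hT'⟩ := Comb.exists_even τ hτ Finset.univ (fun _ _ => Finset.mem_univ _) l
        (by rw [Finset.card_univ]; omega)
      exact ⟨T, by omega, hT'⟩
    · obtain ⟨f, hf⟩ : ∃ f, τ f = f := by
        by_contra hne
        push Not at hne
        have := CountGen.even_card τ hτ hne
        rw [Nat.card_eq_fintype_card] at this
        omega
      obtain ⟨T, _, hT, hT'⟩ := Comb.exists_odd τ hτ Finset.univ (fun _ _ => Finset.mem_univ _) f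
        (Finset.mem_univ _) hf l (by rw [Finset.card_univ]; omega)
      exact ⟨T, by omega, hT'⟩
  obtain ⟨T, hTc, hT⟩ := hT
  refine ⟨T.sup E, hE.nd_sup hA T, ?_, ?_⟩
  · have : T.sup E ≤ (T.sup E).comap x := by
      apply Finset.sup_le
      intro i hi v hv
      rw [Submodule.mem_comap]
      have h1 : x v ∈ E (τ i) := by
        rw [← hEx]
        exact ⟨v, hv, rfl⟩
      exact (Finset.le_sup (f := E) (hT i hi)) h1
    exact fun v hv => this hv
  · rw [hE.finrank_sup hA, Finset.sum_congr rfl (fun i _ => hE2 i), Finset.sum_const, hTc,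
      smul_eq_mul]
    omega

/-- The rank of an alternating form on a subspace is even. -/
theorem even_rank (hA : B.IsAlt) (W R : Submodule F V) (hRW : R ≤ W)
    (hR : ∀ v ∈ W, v ∈ R ↔ ∀ w ∈ W, B v w = 0) : Even (finrank F W - finrank F R) := by
  obtain ⟨T, hT⟩ := Submodule.exists_isCompl (R.comap W.subtype)
  set T' := T.map W.subtype with hT'
  have hfr : finrank F (R.comap W.subtype) = finrank F R :=
    (Submodule.comapSubtypeEquivOfLe hRW).finrank_eq
  have hft : finrank F T' = finrank F T :=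
    (Submodule.equivMapOfInjective _ W.injective_subtype T).symm.finrank_eq
  have hsum := Submodule.finrank_add_eq_of_isCompl hT
  have hnd : Nd B T' := by
    rintro _ ⟨t, ht, rfl⟩ h0
    have ht0 : t ≠ 0 := fun h => h0 (by rw [h, map_zero])
    have hn : (t : V) ∉ R := by
      intro h
      apply ht0
      have := hT.disjoint.le_bot (show t ∈ R.comap W.subtype ⊓ T from ⟨h, ht⟩)
      exact (Submodule.mem_bot F).1 this
    have hn' : ¬ ∀ w ∈ W, B (t : V) w = 0 := fun h => hn ((hR t t.2).2 h)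
    push Not at hn'
    obtain ⟨w, hw, hne⟩ := hn'
    have hw' : (⟨w, hw⟩ : W) ∈ R.comap W.subtype ⊔ T := by rw [hT.sup_eq_top]; exact mem_top
    obtain ⟨r, hr, t', ht', hrt⟩ := Submodule.mem_sup.1 hw'
    refine ⟨t', ⟨t', ht', rfl⟩, ?_⟩
    have hrt' : w = (r : V) + t' := by
      have := congrArg Subtype.val hrt
      exact this.symm
    have h1 : B (t : V) r = 0 := eq_zero_swap hA ((hR r r.2).1 hr t t.2)
    rw [hrt', map_add, h1, zero_add] at hne
    exact hne
  have := even_finrank hA _ T' rfl hnd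
  have h2 : finrank F W - finrank F R = finrank F T' := by omega
  rw [h2]
  exact this

/-- Isometries with all blocks of size two and with `B(v, xv) = 0`. -/
theorem four_dvd (hA : B.IsAlt) (hx : ∀ u v, B (x u) (x v) = B u v)
    (hB : ∀ v, B v (x v) = 0) (hker : LinearMap.ker (x - 1) = LinearMap.range (x - 1))
    {W : Submodule F V} (hW : Nd B W) (hWx : Inv x W) (hinj : Function.Injective x) :
    4 ∣ finrank F W := by
  have hc := hW.isCompl hA
  have hO : Inv x (B.orthogonal W) := by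
    have := split_inv hA hinj hx (W := ⊤) (E := W) (fun v _ => mem_top) hWx
    rwa [top_inf_eq] at this
  have hRW : W ⊓ LinearMap.ker (x - 1) = W.map (x - 1) := by
    apply le_antisymm
    · rintro v ⟨hv, hvk⟩
      rw [hker] at hvk
      obtain ⟨w, rfl⟩ := hvk
      have hw : w ∈ W ⊔ B.orthogonal W := by rw [hc.sup_eq_top]; exact mem_top
      obtain ⟨a, ha, b, hb, rfl⟩ := Submodule.mem_sup.1 hw
      have hb' : (x - 1) b ∈ B.orthogonal W := by
        rw [LinearMap.sub_apply, Module.End.one_apply]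
        exact Submodule.sub_mem _ (hO b hb) hb
      have ha' : (x - 1) a ∈ W := by
        rw [LinearMap.sub_apply, Module.End.one_apply]
        exact Submodule.sub_mem _ (hWx a ha) ha
      have hb'' : (x - 1) b ∈ W := by
        have : (x - 1) b = (x - 1) (a + b) - (x - 1) a := by rw [map_add]; abel
        rw [this]
        exact Submodule.sub_mem _ hv ha'
      have h0 : (x - 1) b = 0 := by
        have := hc.disjoint.le_bot (show (x - 1) b ∈ W ⊓ B.orthogonal W from ⟨hb'', hb'⟩)
        exact (Submodule.mem_bot F).1 this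
      rw [map_add, h0, add_zero]
      exact ⟨a, ha, rfl⟩
    · rintro _ ⟨a, ha, rfl⟩
      refine ⟨?_, ?_⟩
      · rw [LinearMap.sub_apply, Module.End.one_apply]
        exact Submodule.sub_mem _ (hWx a ha) ha
      · rw [hker]
        exact ⟨a, rfl⟩
  have hsum := finrank_fix_add (x := x) (W := W)
  rw [hRW] at hsum
  have hs : (B.compRight (x - 1)).IsAlt := by
    intro v
    show B v ((x - 1) v) = 0
    rw [LinearMap.sub_apply, Module.End.one_apply, map_sub, hB, hA, sub_zero]
  have hsymm : ∀ u v, B u ((x - 1) v) = 0 → B v ((x - 1) u) = 0 := by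
    intro u v h
    exact eq_zero_swap hs (show (B.compRight (x - 1)) u v = 0 from h)
  have := even_rank hs W (W.map (x - 1)) (by rw [← hRW]; exact inf_le_left) (by
    intro v hv
    constructor
    · intro hvm w hw
      rw [← hRW] at hvm
      apply eq_zero_swap hs
      show B w ((x - 1) v) = 0
      rw [LinearMap.mem_ker.1 hvm.2, map_zero]
    · intro h
      rw [← hRW]
      refine ⟨hv, ?_⟩
      show (x - 1) v = 0
      by_contra hne
      have hm : (x - 1) v ∈ W := by
        rw [LinearMap.sub_apply, Module.End.one_apply]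
        exact Submodule.sub_mem _ (hWx v hv) hv
      obtain ⟨w, hw, hwne⟩ := hW _ hm hne
      apply hwne
      apply eq_zero_swap hA
      exact hsymm v w (h w hw))
  obtain ⟨k, hk⟩ := this
  omega

end Cfsg.Agent.H952.NdSub
end

-- part: H952/SympWrap
section
/-!
From symplectic matrices whose `r`-th power is scalar to isometries.
-/

set_option autoImplicit false

namespace Cfsg.Agent.H952.Wrap

open Module Submodule Cfsg
open Cfsg.Agent.H952.Alt Cfsg.Agent.H952.Semi Cfsg.Agent.H952.SympSemi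
open Cfsg.Agent.ClassicalGeometry.SympBasic

variable {F : Type*} [Field F] {d : ℕ}

theorem finrank_eq : finrank F (Fin d ⊕ Fin d → F) = 2 * d := by
  rw [Module.finrank_fintype_fun_eq_card, Fintype.card_sum, Fintype.card_fin]; omega

theorem exists_pair (hd : 0 < d) : ∃ u v : Fin d ⊕ Fin d → F, sympBilin d F u v = 1 := by
  let i0 : Fin d := ⟨0, hd⟩
  refine ⟨Pi.single (Sum.inr i0) 1, Pi.single (Sum.inl i0) 1, ?_⟩
  rw [sympBilin_apply, sympForm_single_inr_left]
  simp

/-- The scalar of a scalar isometry. -/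
theorem mul_self_of_scalar (hd : 0 < d) {x : Module.End F (Fin d ⊕ Fin d → F)}
    (hx : ∀ u v, sympBilin d F (x u) (x v) = sympBilin d F u v) {z : F}
    (hz : x = z • (1 : Module.End F (Fin d ⊕ Fin d → F))) : z * z = 1 := by
  obtain ⟨u, v, huv⟩ := exists_pair (F := F) hd
  have h3 := hx u v
  rw [hz, LinearMap.smul_apply, LinearMap.smul_apply, Module.End.one_apply,
    Module.End.one_apply, map_smul, map_smul, LinearMap.smul_apply, smul_eq_mul,
    smul_eq_mul, huv, mul_one] at h3
  exact h3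

theorem isom_pow {x : Module.End F (Fin d ⊕ Fin d → F)}
    (hx : ∀ u v, sympBilin d F (x u) (x v) = sympBilin d F u v) (n : ℕ) :
    ∀ u v, sympBilin d F ((x ^ n) u) ((x ^ n) v) = sympBilin d F u v := by
  induction n with
  | zero => intro u v; rfl
  | succ n ih =>
    intro u v
    rw [pow_succ', Module.End.mul_apply, Module.End.mul_apply, hx, ih]

theorem wrap (P : Submodule F (Fin d ⊕ Fin d → F) → Prop) (r : ℕ) :
    (∀ x : ↥(Matrix.symplecticGroup (Fin d) F),
      (∃ z : F, ((x ^ r : ↥(Matrix.symplecticGroup (Fin d) F)) : Matrix (Fin d ⊕ Fin d) (Fin d ⊕ Fin d) F) = z • (1 : Matrix (Fin d ⊕ Fin d) (Fin d ⊕ Fin d) F)) →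
      (∀ z : F, (x : Matrix (Fin d ⊕ Fin d) (Fin d ⊕ Fin d) F) ≠ z • (1 : Matrix (Fin d ⊕ Fin d) (Fin d ⊕ Fin d) F)) →
      ∃ W : Submodule F (Fin d ⊕ Fin d → F), P W ∧
        W.map (Matrix.toLin' (x : Matrix (Fin d ⊕ Fin d) (Fin d ⊕ Fin d) F)) ≤ W) ↔
    (∀ x : Module.End F (Fin d ⊕ Fin d → F),
      (∀ u v, sympBilin d F (x u) (x v) = sympBilin d F u v) →
      (∃ z : F, x ^ r = z • (1 : Module.End F (Fin d ⊕ Fin d → F))) →
      (∀ z : F, x ≠ z • (1 : Module.End F (Fin d ⊕ Fin d → F))) → ∃ W, P W ∧ Inv x W) := by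
  have hone : Matrix.toLin' (1 : Matrix (Fin d ⊕ Fin d) (Fin d ⊕ Fin d) F) =
      (1 : Module.End F (Fin d ⊕ Fin d → F)) := Matrix.toLin'_one
  have hpow : ∀ x : ↥(Matrix.symplecticGroup (Fin d) F),
      Matrix.toLin' ((x ^ r : ↥(Matrix.symplecticGroup (Fin d) F)) :
        Matrix (Fin d ⊕ Fin d) (Fin d ⊕ Fin d) F) =
      (Matrix.toLin' (x : Matrix (Fin d ⊕ Fin d) (Fin d ⊕ Fin d) F)) ^ r := by
    intro x
    rw [← Matrix.toLin'_pow]
    rfl
  constructor
  · intro H x hx ⟨z, hz⟩ hns
    obtain ⟨y, rfl⟩ := exists_symplectic x hx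
    obtain ⟨W, hW, hWy⟩ := H y ⟨z, by
      apply Matrix.toLin'.injective
      rw [hpow, hz, map_smul, hone]⟩ (by
      intro z hz
      apply hns z
      rw [hz, map_smul, hone])
    exact ⟨W, hW, fun v hv => hWy ⟨v, hv, rfl⟩⟩
  · intro H x ⟨z, hz⟩ hns
    obtain ⟨W, hW, hWx⟩ := H _ (toLin_isometry x) ⟨z, by
      rw [← hpow, hz, map_smul, hone]⟩ (by
      intro z hz
      apply hns z
      apply Matrix.toLin'.injective
      rw [hz, map_smul, hone])
    refine ⟨W, hW, ?_⟩
    rintro _ ⟨v, hv, rfl⟩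
    exact hWx v hv

/-- For odd `r` we may assume that `x ^ r = 1`. -/
theorem odd_iff (P : Submodule F (Fin d ⊕ Fin d → F) → Prop) {r : ℕ} (hr : Odd r) (hd : 0 < d) :
    (∀ x : Module.End F (Fin d ⊕ Fin d → F),
      (∀ u v, sympBilin d F (x u) (x v) = sympBilin d F u v) →
      (∃ z : F, x ^ r = z • (1 : Module.End F (Fin d ⊕ Fin d → F))) →
      (∀ z : F, x ≠ z • (1 : Module.End F (Fin d ⊕ Fin d → F))) → ∃ W, P W ∧ Inv x W) ↔
    (∀ x : Module.End F (Fin d ⊕ Fin d → F),
      (∀ u v, sympBilin d F (x u) (x v) = sympBilin d F u v) →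
      x ^ r = 1 → x ≠ 1 → ∃ W, P W ∧ Inv x W) := by
  obtain ⟨e, he⟩ := hr
  constructor
  · intro H x hx hxr hx1
    refine H x hx ⟨1, by rw [hxr, one_smul]⟩ ?_
    intro z hz
    apply hx1
    have h2 := mul_self_of_scalar hd hx hz
    have h4 : x ^ r = z • (1 : Module.End F (Fin d ⊕ Fin d → F)) := by
      rw [hz, smul_pow, one_pow, he, pow_succ, pow_mul, sq, h2, one_pow, one_mul]
    rw [hxr] at h4
    rw [hz, ← h4]
  · intro H x hx ⟨z, hz⟩ hns
    have hzz := mul_self_of_scalar hd (isom_pow hx r) hz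
    have hz0 : z ≠ 0 := fun h => by rw [h, mul_zero] at hzz; exact zero_ne_one hzz
    obtain ⟨W, hW, hWx⟩ := H (z • x) (by
      intro u v
      rw [LinearMap.smul_apply, LinearMap.smul_apply, map_smul, map_smul,
        LinearMap.smul_apply, hx, smul_smul, hzz, one_smul]) (by
      rw [smul_pow, hz, smul_smul, he, ← pow_succ]
      have : z ^ (2 * e + 1 + 1) = 1 := by
        rw [show 2 * e + 1 + 1 = 2 * (e + 1) by ring, pow_mul, sq, hzz, one_pow]
      rw [this, one_smul]) (by
      intro h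
      apply hns z
      rw [← h, smul_smul, hzz, one_smul])
    refine ⟨W, hW, fun v hv => ?_⟩
    have h1 := W.smul_mem z (hWx v hv)
    rwa [LinearMap.smul_apply, smul_smul, hzz, one_smul] at h1

end Cfsg.Agent.H952.Wrap
end

-- part: H952/SwapElem
section
/-!
An explicit isometry of a symplectic space of dimension divisible by 4.
-/

set_option autoImplicit false

namespace Cfsg.Agent.H952.NdSub

open Module Submodule Cfsg
open Cfsg.Agent.ClassicalGeometry.SympBasic

variable {F : Type*} [Field F]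

theorem exists_fpf (d : ℕ) (hd : Even d) : ∃ (π : Fin d → Fin d) (P : Fin d → Prop),
    (∀ i, π (π i) = i) ∧ ∀ i, (P i ∧ ¬ P (π i)) ∨ (¬ P i ∧ P (π i)) := by
  obtain ⟨k, hk⟩ := hd
  have e : Fin d ≃ Fin k × Bool := Fintype.equivOfCardEq (by simp; omega)
  refine ⟨fun i => e.symm ((e i).1, !(e i).2), fun i => (e i).2 = true, ?_, ?_⟩
  · intro i
    simp
  · intro i
    simp only [Equiv.apply_symm_apply]
    cases (e i).2 <;> simp

/-- The permutation of coordinates. -/
def permEnd {d : ℕ} (π : Fin d → Fin d) (F : Type*) [Field F] :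
    Module.End F (Fin d ⊕ Fin d → F) where
  toFun v := Sum.elim (fun i => v (Sum.inl (π i))) (fun i => v (Sum.inr (π i)))
  map_add' u v := by funext i; rcases i with i | i <;> rfl
  map_smul' c v := by funext i; rcases i with i | i <;> rfl

theorem exists_swap_elem {d : ℕ} (hd : Even d) (hd0 : 0 < d) (h2 : (2 : F) = 0) :
    ∃ x : Module.End F (Fin d ⊕ Fin d → F),
      (∀ u v, sympForm d F (x u) (x v) = sympForm d F u v) ∧ (∀ v, x (x v) = v) ∧
      (∀ v, sympForm d F v (x v) = 0) ∧ LinearMap.ker (x - 1) = LinearMap.range (x - 1) ∧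
      ∀ z : F, x ≠ z • 1 := by
  classical
  obtain ⟨π, P, hπ, hP⟩ := exists_fpf d hd
  have hinv : Function.Involutive π := hπ
  have hadd : ∀ a : F, a + a = 0 := fun a => by rw [← two_mul, h2, zero_mul]
  have hneg : ∀ a : F, -a = a := fun a => (eq_neg_of_add_eq_zero_left (hadd a)).symm
  have hl : ∀ v i, permEnd π F v (Sum.inl i) = v (Sum.inl (π i)) := fun _ _ => rfl
  have hr : ∀ v i, permEnd π F v (Sum.inr i) = v (Sum.inr (π i)) := fun _ _ => rfl
  have hxx : ∀ v, permEnd π F (permEnd π F v) = v := by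
    intro v
    funext i
    rcases i with i | i
    · rw [hl, hl, hπ]
    · rw [hr, hr, hπ]
  refine ⟨permEnd π F, ?_, hxx, ?_, ?_, ?_⟩
  · intro u v
    rw [sympForm_eq_sum, sympForm_eq_sum]
    exact Equiv.sum_comp hinv.toPerm
      (fun i => u (Sum.inr i) * v (Sum.inl i) - u (Sum.inl i) * v (Sum.inr i))
  · intro v
    rw [sympForm_eq_sum, Finset.sum_sub_distrib, sub_eq_zero]
    rw [← Equiv.sum_comp hinv.toPerm]
    apply Finset.sum_congr rfl
    intro i _
    show _ * (permEnd π F v) _ = _ * _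
    rw [hl, hr]
    simp only [Function.Involutive.coe_toPerm, hπ]
    ring
  · apply le_antisymm
    · intro v hv
      have hv' : permEnd π F v = v := by
        have : (permEnd π F - 1) v = 0 := hv
        rwa [LinearMap.sub_apply, Module.End.one_apply, sub_eq_zero] at this
      have hvl : ∀ i, v (Sum.inl (π i)) = v (Sum.inl i) := fun i => by
        have := congrFun hv' (Sum.inl i)
        rwa [hl] at this
      have hvr : ∀ i, v (Sum.inr (π i)) = v (Sum.inr i) := fun i => by
        have := congrFun hv' (Sum.inr i)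
        rwa [hr] at this
      refine ⟨Sum.elim (fun i => if P i then v (Sum.inl i) else 0)
        (fun i => if P i then v (Sum.inr i) else 0), ?_⟩
      rw [LinearMap.sub_apply, Module.End.one_apply]
      funext i
      rcases i with i | i
      · rw [Pi.sub_apply, hl, Sum.elim_inl, Sum.elim_inl]
        rcases hP i with h | h
        · rw [if_neg h.2, if_pos h.1, zero_sub, hneg]
        · rw [if_pos h.2, if_neg h.1, sub_zero, hvl]
      · rw [Pi.sub_apply, hr, Sum.elim_inr, Sum.elim_inr]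
        rcases hP i with h | h
        · rw [if_neg h.2, if_pos h.1, zero_sub, hneg]
        · rw [if_pos h.2, if_neg h.1, sub_zero, hvr]
    · rintro _ ⟨v, rfl⟩
      show (permEnd π F - 1) ((permEnd π F - 1) v) = 0
      rw [LinearMap.sub_apply, LinearMap.sub_apply, Module.End.one_apply, Module.End.one_apply,
        map_sub, hxx]
      funext i
      show (v i - permEnd π F v i) - (permEnd π F v i - v i) = 0
      have := hadd (v i - permEnd π F v i)
      rw [← this]
      ring
  · intro z hz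
    have i0 : Fin d := ⟨0, hd0⟩
    have h1 := congrFun (LinearMap.congr_fun hz (Pi.single (Sum.inl i0) 1)) (Sum.inl (π i0))
    have hne : π i0 ≠ i0 := by
      intro h
      have := hP i0
      rw [h] at this
      tauto
    rw [hl, hπ, Pi.single_eq_same, LinearMap.smul_apply, Pi.smul_apply, Module.End.one_apply,
      Pi.single_eq_of_ne (fun h => hne (Sum.inl_injective h)), smul_zero] at h1
    exact one_ne_zero h1

end Cfsg.Agent.H952.NdSub
end

-- part: H952/TiExist
section
/-!
Existence of invariant totally isotropic subspaces for isometries of odd prime order of a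
symplectic space.
-/

set_option autoImplicit false
set_option linter.unusedSectionVars false

namespace Cfsg.Agent.H952.TiSub

open Module Submodule
open Cfsg.Agent.H952.Alt Cfsg.Agent.H952.Semi Cfsg.Agent.H952.SympSemi

variable {F V : Type*} [Field F] [AddCommGroup V] [Module F V] [FiniteDimensional F V]
  {B : LinearMap.BilinForm F V}

theorem frm (hA : B.IsAlt) : H951.Frm (RingHom.id F) (-1) (fun u v => B u v) where
  add_left u v w := by rw [map_add, LinearMap.add_apply]
  smul_left a u v := by rw [map_smul, LinearMap.smul_apply, smul_eq_mul]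
  herm u v := by
    rw [RingHom.id_apply, neg_one_mul]
    exact swap hA v u
  sigma_sq a := rfl
  eps_ne := neg_ne_zero.2 one_ne_zero

theorem kind (hA : B.IsAlt) : H951.Kind (RingHom.id F) (-1) (fun u v : V => B u v) :=
  Or.inr ⟨rfl, rfl, fun v => hA v⟩

variable [Fintype F] {r : ℕ} [Fact r.Prime] {x : Module.End F V}

/-- Totally isotropic invariant subspaces of `[V, x]`. -/
theorem exists_ti_comm (hA : B.IsAlt) (hr2 : r ≠ 2) (hrF : (r : F) ≠ 0) (hxr : x ^ r = 1)
    (hx : ∀ u v, B (x u) (x v) = B u v) (hV : Nd B ⊤) :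
    ∃ (T : Submodule F V) (s1 : ℕ), T ≤ LinearMap.range (x - 1) ∧ Inv x T ∧ TI B T ∧
      finrank F (LinearMap.range (x - 1)) = 2 * finrank F T +
        orderOf ((Fintype.card F : ℕ) : ZMod r) * s1 ∧
      orderOf ((Fintype.card F : ℕ) : ZMod r) * s1 ≤ r - 1 ∧
      (Odd (orderOf ((Fintype.card F : ℕ) : ZMod r)) → s1 = 0) := by
  have hr := (Fact.out : r.Prime)
  have hodd : Odd r := hr.eq_two_or_odd'.resolve_left hr2
  have hinj : Function.Injective x := SympSemi.injective_of_pow hr.pos hxr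
  have hB := frm (F := F) hA
  have hcmi : H951.Inv x (H951.cm x) := H951.inv_cm
  have hmap : H951.cm x = (⊤ : Submodule F V).map (x - 1) := (Submodule.map_top _).symm
  have hcmn : H951.Nd (fun u v => B u v) (H951.cm x) := by
    rw [hmap]
    exact nd_comm hA hrF hxr hx hV (fun v _ => mem_top)
  by_cases hi : Odd (orderOf ((Fintype.card F : ℕ) : ZMod r))
  · obtain ⟨T, hT, hTx, hTI, hTf⟩ := H950.exists_ti_half hrF hB hx hxr (by
      intro W' hW'x hW'n hW'c
      have h1 : cc (Fintype.card F) r ∣ finrank F W' := by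
        apply cc_dvd_finrank hA hxr hW'n hW'x
        rw [eq_bot_iff, ← comm_inf_ker hrF hxr (⊤ : Submodule F V), ← hmap]
        exact inf_le_inf_right _ hW'c
      rwa [cc, if_neg (Nat.not_even_iff_odd.2 hi)] at h1) hcmi hcmn le_rfl
    exact ⟨T, 0, hT, hTx, hTI, by rw [mul_zero, add_zero]; exact hTf, by omega, fun _ => rfl⟩
  · obtain ⟨T, W1, hT, hW1, hTx, hTI, hW1x, hW1n, hf, han⟩ := H950.exists_witt hB
      (fun W hW => by
        intro v hv w hw
        rw [← Inv.map_eq hinj (show Inv x W from hW)] at hw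
        obtain ⟨w', hw', rfl⟩ := hw
        show B (x v) (x w') = 0
        rw [hx]
        exact hv w' hw') (H951.semisimple_of_pow hrF hxr) hcmi hcmn
    have h1 := H950.finrank_le_id hodd hB hx hxr hW1x hW1 han
    obtain ⟨s1, hs1⟩ : orderOf ((Fintype.card F : ℕ) : ZMod r) ∣ finrank F W1 := by
      apply orderOf_dvd_finrank hxr hW1x
      rw [eq_bot_iff, ← comm_inf_ker hrF hxr (⊤ : Submodule F V), ← hmap]
      exact inf_le_inf_right _ hW1
    exact ⟨T, s1, hT, hTx, hTI, by rw [← hs1]; exact hf, by rw [← hs1]; exact h1,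
      fun h => absurd h hi⟩

/-- Combination with fixed vectors. -/
theorem exists_ti_of (hA : B.IsAlt) (hrF : (r : F) ≠ 0) (hxr : x ^ r = 1)
    (hx : ∀ u v, B (x u) (x v) = B u v) (hV : Nd B ⊤) {T : Submodule F V}
    (hT : T ≤ LinearMap.range (x - 1)) (hTx : Inv x T) (hTI : TI B T) {b f : ℕ}
    (hb : orderOf ((Fintype.card F : ℕ) : ZMod r) * b ≤ finrank F T)
    (hf : 2 * f + finrank F (LinearMap.range (x - 1)) ≤ finrank F V) :
    ∃ W : Submodule F V, TI B W ∧ Inv x W ∧
      finrank F W = orderOf ((Fintype.card F : ℕ) : ZMod r) * b + f := by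
  obtain ⟨T1, hT1, hT1x, hT1f⟩ := H951.exists_inv_finrank hrF hxr hTx hT hb
  have hk := nd_fix (B := B) hrF hxr hx hV (fun v _ => mem_top)
  rw [top_inf_eq] at hk
  have hrk := LinearMap.finrank_range_add_finrank_ker (x - 1)
  obtain ⟨T0, hT0, hT0I, hT0f⟩ := H951.exists_ti_sub (frm hA) (kind hA)
    (U := LinearMap.ker (x - 1)) hk (k := f) (by omega)
  have ho : ∀ u ∈ T1, ∀ v ∈ T0, B u v = 0 := by
    intro u hu v hv
    have h1 := orth_fix_comm (B := B) hx ⊤ ⊤ v ⟨mem_top, hT0 hv⟩ u (by
      rw [Submodule.map_top]; exact hT (hT1 hu))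
    exact eq_zero_swap hA h1
  refine ⟨T1 ⊔ T0, TI.sup hA (fun u hu v hv => hTI u (hT1 hu) v (hT1 hv)) hT0I ho,
    Inv.sup hT1x ?_, ?_⟩
  · intro v hv
    rw [mem_ker_sub.1 (hT0 hv)]
    exact hv
  · have h1 : T1 ⊓ T0 = ⊥ := by
      rw [eq_bot_iff, ← comm_inf_ker hrF hxr (⊤ : Submodule F V), Submodule.map_top]
      exact inf_le_inf (hT1.trans hT) hT0
    have h2 := Submodule.finrank_sup_add_finrank_inf_eq T1 T0
    rw [h1, finrank_bot, hT1f, hT0f] at h2
    omega

theorem exists_ti_inv (hA : B.IsAlt) (hr2 : r ≠ 2) (hrF : (r : F) ≠ 0) (hxr : x ^ r = 1)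
    (hx : ∀ u v, B (x u) (x v) = B u v) (hV : Nd B ⊤) {m : ℕ} (hm : 2 * m ≤ finrank F V)
    (hl : 2 * (m % orderOf ((Fintype.card F : ℕ) : ZMod r)) ≤
      finrank F V % cc (Fintype.card F) r)
    (h : Odd (orderOf ((Fintype.card F : ℕ) : ZMod r)) ∨
      (r - 1) / orderOf ((Fintype.card F : ℕ) : ZMod r) +
        2 * (m / orderOf ((Fintype.card F : ℕ) : ZMod r)) ≤
        finrank F V / orderOf ((Fintype.card F : ℕ) : ZMod r)) :
    ∃ W : Submodule F V, TI B W ∧ Inv x W ∧ finrank F W = m := by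
  have hord := SympSemi.orderOf_pos (coprime_card (F := F) hrF)
  have hc0 := cc_pos hord
  obtain ⟨T, s1, hT, hTx, hTI, hf, hs1, hs1'⟩ := exists_ti_comm hA hr2 hrF hxr hx hV
  have hdc := cc_dvd_comm hA hrF hxr hx hV (fun v _ => mem_top)
  rw [Submodule.map_top] at hdc
  obtain ⟨b1, hb1⟩ : orderOf ((Fintype.card F : ℕ) : ZMod r) ∣ finrank F T := by
    apply orderOf_dvd_finrank hxr hTx
    rw [eq_bot_iff, ← comm_inf_ker hrF hxr (⊤ : Submodule F V), Submodule.map_top]
    exact inf_le_inf_right _ hT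
  have hle : finrank F (LinearMap.range (x - 1)) ≤ finrank F V := Submodule.finrank_le _
  have hccdef : cc (Fintype.card F) r = if Even (orderOf ((Fintype.card F : ℕ) : ZMod r)) then
      orderOf ((Fintype.card F : ℕ) : ZMod r) else
      2 * orderOf ((Fintype.card F : ℕ) : ZMod r) := rfl
  have key : ∀ b, b ≤ b1 → orderOf ((Fintype.card F : ℕ) : ZMod r) * b ≤ m →
      2 * (m - orderOf ((Fintype.card F : ℕ) : ZMod r) * b) +
        finrank F (LinearMap.range (x - 1)) ≤ finrank F V →
      ∃ W : Submodule F V, TI B W ∧ Inv x W ∧ finrank F W = m := by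
    intro b hb hbm h2
    obtain ⟨W, h3, h4, h5⟩ := exists_ti_of hA hrF hxr hx hV hT hTx hTI (b := b)
      (by rw [hb1]; exact Nat.mul_le_mul_left _ hb) h2
    exact ⟨W, h3, h4, by omega⟩
  set i := orderOf ((Fintype.card F : ℕ) : ZMod r) with hi
  set c := cc (Fintype.card F) r with hc
  set n := finrank F V with hn
  have hmi := Nat.div_add_mod m i
  have hnc := Nat.div_add_mod n c
  have hni := Nat.div_add_mod n i
  obtain ⟨s, hs⟩ := hdc
  -- `dim [V, x] ≤ n - n % c`
  have hsn : c * s ≤ c * (n / c) := by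
    apply Nat.mul_le_mul_left
    rw [Nat.le_div_iff_mul_le hc0, mul_comm, ← hs]
    exact hle
  rcases le_total b1 (m / i) with hb | hb
  · refine key b1 le_rfl ?_ ?_
    · have := Nat.mul_le_mul_left i hb
      omega
    · have h1 := Nat.mul_le_mul_left i hb
      by_cases hio : Odd i
      · have := hs1' hio
        rw [this, mul_zero, add_zero, hb1] at hf
        omega
      · have h2 := h.resolve_left hio
        have hce : c = i := by rw [hccdef, if_pos (Nat.not_odd_iff_even.1 hio)]
        have h3 : i * ((r - 1) / i + 2 * (m / i)) ≤ i * (n / i) := Nat.mul_le_mul_left _ h2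
        have h4 : s1 ≤ (r - 1) / i := by
          rw [Nat.le_div_iff_mul_le hord, mul_comm]
          exact hs1
        have h5 : i * s1 ≤ i * ((r - 1) / i) := Nat.mul_le_mul_left _ h4
        rw [mul_add] at h3
        rw [hce] at hl
        have h6 : i * (2 * (m / i)) = 2 * (i * (m / i)) := by ring
        rw [hb1] at hf
        omega
  · refine key (m / i) hb (by omega) ?_
    omega

end Cfsg.Agent.H952.TiSub
end

-- part: H952/SympUnip
section
/-!
Unipotent elements of symplectic groups in odd characteristic and invariant non-degenerate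
subspaces of given dimension.
-/

set_option autoImplicit false
set_option linter.unusedSectionVars false

namespace Cfsg.Agent.H952.SympUnip

open Module Submodule
open Cfsg.Agent.H951 (Frm Skew Blk JT Kind)

/-! ### Multisets -/

/-- The block with top `a`. -/
def fb (a : ℕ) : ℕ × ℕ := (if Even a then 1 else 2, a)

/-- The multiset of Jordan blocks. -/
def ex (κ : Multiset ℕ) : Multiset ℕ := κ.bind fun a => Multiset.replicate (fb a).1 a

theorem ex_zero : ex 0 = 0 := rfl

theorem ex_cons (a : ℕ) (κ : Multiset ℕ) : ex (a ::ₘ κ) = Multiset.replicate (fb a).1 a + ex κ :=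
  Multiset.cons_bind _ _ _

theorem ex_add (κ κ' : Multiset ℕ) : ex (κ + κ') = ex κ + ex κ' := Multiset.add_bind _ _ _

theorem mem_ex {κ : Multiset ℕ} {a : ℕ} (h : a ∈ ex κ) : a ∈ κ := by
  obtain ⟨b, hb, hab⟩ := Multiset.mem_bind.1 h
  rwa [Multiset.eq_of_mem_replicate hab]

theorem count_ex (κ : Multiset ℕ) (a : ℕ) : (ex κ).count a = (fb a).1 * κ.count a := by
  induction κ using Multiset.induction_on with
  | empty => simp [ex_zero]
  | cons b κ ih =>
    rw [ex_cons, Multiset.count_add, ih, Multiset.count_cons, Multiset.count_replicate]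
    by_cases h : a = b
    · subst h
      rw [if_pos rfl, if_pos rfl]; ring
    · rw [if_neg h, if_neg (Ne.symm h)]; ring

theorem sum_ex (κ : Multiset ℕ) (j : ℕ) : ((ex κ).map fun x => x - j).sum =
    ((κ.map fb).map fun x => x.1 * (x.2 - j)).sum := by
  induction κ using Multiset.induction_on with
  | empty => simp [ex_zero]
  | cons b κ ih =>
    rw [ex_cons, Multiset.map_add, Multiset.sum_add, ih, Multiset.map_cons, Multiset.map_cons,
      Multiset.sum_cons, Multiset.map_replicate, Multiset.sum_replicate, smul_eq_mul]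
    rfl

theorem sum_ex' (κ : Multiset ℕ) : (ex κ).sum =
    ((κ.map fb).map fun x => x.1 * x.2).sum := by
  have := sum_ex κ 0
  simpa using this

theorem even_count_ex (κ : Multiset ℕ) (a : ℕ) (ha : Odd a) : Even ((ex κ).count a) := by
  rw [count_ex, fb, if_neg (Nat.not_even_iff_odd.2 ha)]
  exact even_two_mul _

/-- Multisets with odd parts of even multiplicity. -/
theorem exists_ex (μ : Multiset ℕ) (h : ∀ a : ℕ, Odd a → Even (μ.count a)) :
    ∃ κ : Multiset ℕ, ex κ = μ := by
  classical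
  let f : ℕ → ℕ := fun a => if Even a then μ.count a else μ.count a / 2
  have hf : ∀ a, a ∉ μ → f a = 0 := by
    intro a ha
    have := Multiset.count_eq_zero_of_notMem ha
    show (if Even a then μ.count a else μ.count a / 2) = 0
    rw [this]; simp
  let κ : Multiset ℕ := ∑ a ∈ μ.toFinset, Multiset.replicate (f a) a
  have hκ : ∀ a, κ.count a = f a := by
    intro a
    rw [Multiset.count_sum']
    simp only [Multiset.count_replicate]
    rw [Finset.sum_ite_eq']
    split_ifs with h1
    · rfl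
    · exact (hf a (fun h2 => h1 (Multiset.mem_toFinset.2 h2))).symm
  refine ⟨κ, ?_⟩
  ext a
  rw [count_ex, hκ, fb]
  show (if Even a then 1 else 2) * (if Even a then μ.count a else μ.count a / 2) = _
  split_ifs with h1
  · rw [one_mul]
  · exact Nat.two_mul_div_two_of_even (h a (Nat.not_even_iff_odd.1 h1))

theorem le_of_ex_le {κ κ' : Multiset ℕ} (h : ex κ' ≤ ex κ) : κ' ≤ κ := by
  rw [Multiset.le_iff_count] at h ⊢
  intro a
  have h1 := h a
  rw [count_ex, count_ex] at h1
  refine Nat.le_of_mul_le_mul_left h1 ?_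
  show 0 < (if Even a then 1 else 2)
  split_ifs <;> omega

/-! ### Blocks -/

variable {F V : Type*} [Field F] [AddCommGroup V] [Module F V] [FiniteDimensional F V]
  {B : V → V → F} {N : Module.End F V}

theorem step_alt (hB : Frm (RingHom.id F) (-1) B) (h2 : (2 : F) ≠ 0)
    (hN : Skew B N) {n : ℕ} (hn : N ^ n = 0) (W : Submodule F V) (hW : H951.Inv N W)
    (hWn : H951.Nd B W) (h0 : W ≠ ⊥) :
    ∃ U ≤ W, ∃ s a, ((s, a) = fb a ∧ 0 < a ∧ a ≤ n) ∧ 0 < s * a ∧ Blk B N U s a := by
  obtain ⟨k, hkn, ⟨w, hw, hwk⟩, hk⟩ := H951.exists_top_power hn h0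
  have hsymm : ∀ u v, B v ((N ^ k) u) = (-1) ^ (k + 1) * B u ((N ^ k) v) := by
    intro u v
    have h1 : B v ((N ^ k) u) = -1 * B ((N ^ k) u) v := hB.herm _ _
    rw [h1, hN.pow hB, pow_succ]; ring
  obtain ⟨v, hv, hwv⟩ := hWn _ (hW.pow k w hw) hwk
  have hwv' : B v ((N ^ k) w) ≠ 0 := fun h => hwv (hB.eq_zero_comm.1 h)
  rcases Nat.even_or_odd k with hk2 | hk2
  · -- `k` even: two generators
    have hodd : ¬ Even (k + 1) := by rw [Nat.even_add_one, not_not]; exact hk2
    have hs1 : ∀ u v, B v ((N ^ k) u) = - B u ((N ^ k) v) := by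
      intro u v
      rw [hsymm, (hk2.add_one).neg_one_pow, neg_one_mul]
    have hs0 : ∀ u, B u ((N ^ k) u) = 0 := by
      intro u
      have h3 := hs1 u u
      have h4 : 2 * B u ((N ^ k) u) = 0 := by linear_combination h3
      exact (mul_eq_zero.1 h4).resolve_left h2
    refine ⟨_, ?_, 2, k + 1, ⟨?_, by omega, by omega⟩, by omega,
      H951.blk_of_gens hB hN (s := 2) (k := k) ![v, w] ?_ ?_⟩
    · rw [Submodule.span_le]
      rintro _ ⟨⟨i, b⟩, rfl⟩
      fin_cases b
      · exact hW.pow _ v hv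
      · exact hW.pow _ w hw
    · rw [fb, if_neg hodd]
    · intro b
      fin_cases b
      · exact hk v hv
      · exact hk w hw
    · intro c hc
      have h3 := hc 0
      have h4 := hc 1
      rw [Fin.sum_univ_two] at h3 h4
      simp only [Matrix.cons_val_zero, Matrix.cons_val_one] at h3 h4
      rw [hs0, mul_zero, zero_add, hs1] at h3
      rw [hs0, mul_zero, add_zero] at h4
      have h5 := (mul_eq_zero.1 h4).resolve_right hwv'
      have h6 := (mul_eq_zero.1 h3).resolve_right (neg_ne_zero.2 hwv')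
      funext b
      fin_cases b
      · exact h5
      · exact h6
  · -- `k` odd: one generator
    have hev : Even (k + 1) := hk2.add_one
    have hs1 : ∀ u v, B v ((N ^ k) u) = B u ((N ^ k) v) := by
      intro u v
      rw [hsymm, hev.neg_one_pow, one_mul]
    obtain ⟨u, hu, huu⟩ : ∃ u ∈ W, B u ((N ^ k) u) ≠ 0 := by
      by_contra hno
      push Not at hno
      have h3 := hno (v + w) (W.add_mem hv hw)
      rw [map_add, hB.add_left, hB.add_right, hB.add_right, hno v hv, hno w hw, hs1 v w,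
        zero_add, add_zero] at h3
      have h4 : 2 * B v ((N ^ k) w) = 0 := by linear_combination h3
      exact hwv' ((mul_eq_zero.1 h4).resolve_left h2)
    refine ⟨_, ?_, 1, k + 1, ⟨?_, by omega, by omega⟩, by omega,
      H951.blk_of_gens hB hN (s := 1) (k := k) (fun _ => u) (fun _ => hk u hu) ?_⟩
    · rw [Submodule.span_le]
      rintro _ ⟨x, rfl⟩
      exact hW.pow _ u hu
    · rw [fb, if_pos hev]
    · intro c hc
      have h3 := hc 0
      rw [Fin.sum_univ_one] at h3
      ext b
      rw [Subsingleton.elim b 0]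
      exact (mul_eq_zero.1 h3).resolve_right huu

theorem real_alt [Finite F] (hB : Frm (RingHom.id F) (-1) B) (hK : Kind (RingHom.id F) (-1) B)
    (h2 : (2 : F) ≠ 0) {n : ℕ} (s a : ℕ) (hsa : (s, a) = fb a ∧ 0 < a ∧ a ≤ n)
    (U : Submodule F V) (hU : H951.Nd B U) (hUf : finrank F U = s * a) :
    ∃ N : Module.End F V, Skew B N ∧ (∀ v ∈ hB.perp U, N v = 0) ∧ (∀ v, N v ∈ U) ∧
      N ^ n = 0 ∧ Blk B N U s a := by
  obtain ⟨hf, ha, han⟩ := hsa
  obtain ⟨k, rfl⟩ : ∃ k, a = k + 1 := ⟨a - 1, by omega⟩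
  have hs : s = if Even (k + 1) then 1 else 2 := congrArg Prod.fst hf
  have fin : ∀ {s : ℕ} (G : Fin s → Fin s → F),
      (∀ b b', G b' b = ((-1) ^ k * -1) * (RingHom.id F) (G b b')) →
      (∀ c : Fin s → F, (∀ b, ∑ b', c b' * G b' b = 0) → c = 0) → finrank F U = s * (k + 1) →
      ∃ N : Module.End F V, Skew B N ∧ (∀ v ∈ hB.perp U, N v = 0) ∧ (∀ v, N v ∈ U) ∧
      N ^ n = 0 ∧ Blk B N U s (k + 1) := by
    intro s G h3 h4 h5
    obtain ⟨N, h6, h7, h8, h9, h10⟩ := H951.exists_block_real hB hK (fun _ => h2) G h3 h4 hU h5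
    refine ⟨N, h6, h7, h8, ?_, h10⟩
    obtain ⟨t, ht⟩ : ∃ t, n = t + (k + 1) := ⟨n - (k + 1), by omega⟩
    rw [ht, pow_add, h9, mul_zero]
  by_cases hev : Even (k + 1)
  · rw [if_pos hev] at hs
    subst hs
    have hk : Odd k := by
      rw [Nat.even_add_one] at hev
      exact Nat.not_even_iff_odd.1 hev
    refine fin (fun _ _ => 1) ?_ ?_ hUf
    · intro b b'
      rw [hk.neg_one_pow]; simp
    · intro c hc
      have h3 := hc 0
      rw [Fin.sum_univ_one, mul_one] at h3
      ext b
      rw [Subsingleton.elim b 0]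
      exact h3
  · rw [if_neg hev] at hs
    subst hs
    have hk : Even k := by
      rw [Nat.even_add_one, not_not] at hev
      exact hev
    refine fin (fun b b' => if b = b' then 0 else if b = 0 then 1 else -1) ?_ ?_ hUf
    · intro b b'
      rw [hk.neg_one_pow]
      fin_cases b <;> fin_cases b' <;> simp
    · intro c hc
      have h3 := hc 0
      have h4 := hc 1
      rw [Fin.sum_univ_two] at h3 h4
      simp at h3 h4
      funext b
      fin_cases b
      · exact h4
      · exact h3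

/-! ### The statement -/

open Cfsg.Agent.ClassicalGeometry.SympBasic

theorem main {F : Type*} [Field F] [Fintype F] {p : ℕ} [Fact p.Prime] [CharP F p] (hp : 2 < p)
    {d m : ℕ} (hme : Even m) (hmd : m ≤ 2 * d) :
    (∀ x : Module.End F (Fin d ⊕ Fin d → F),
      (∀ u v, sympBilin d F (x u) (x v) = sympBilin d F u v) →
      x ^ p = 1 → x ≠ 1 → ∃ W : Submodule F (Fin d ⊕ Fin d → F),
        (finrank F W = m ∧ Alt.Nd (sympBilin d F) W) ∧ Alt.Inv x W) ↔
    (∀ μ : Multiset ℕ, (∀ a ∈ μ, 0 < a ∧ a ≤ p) →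
      (∀ a : ℕ, Odd a → Even (μ.count a)) → μ.sum = 2 * d →
        ∃ ν : Multiset ℕ, ν ≤ μ ∧ ν.sum = m ∧ ∀ a : ℕ, Odd a → Even (ν.count a)) := by
  have hpP : p.Prime := Fact.out
  have hA : (sympBilin d F).IsAlt := sympBilin_isAlt
  have hV : finrank F (Fin d ⊕ Fin d → F) = 2 * d := H952.Wrap.finrank_eq
  have hB := TiSub.frm (F := F) hA
  have hK := TiSub.kind (F := F) hA
  have hp2 : p ≠ 2 := by omega
  have h2 : (2 : F) ≠ 0 := by
    intro h0
    have h1 : ((2 : ℕ) : F) = 0 := by exact_mod_cast h0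
    have h3 : p ∣ 2 := (CharP.cast_eq_zero_iff F p 2).1 h1
    have := Nat.le_of_dvd (by omega) h3
    omega
  have hnd : H951.Nd (fun u v => sympBilin d F u v) (⊤ : Submodule F (Fin d ⊕ Fin d → F)) :=
    Alt.nd_top
  have hexm : ∀ (κ : Multiset ℕ), (∀ a ∈ ex κ, 0 < a ∧ a ≤ p) → ∀ a ∈ κ, 0 < a ∧ a ≤ p := by
    intro κ h a ha
    apply h
    rw [← Multiset.count_pos, count_ex]
    apply Nat.mul_pos
    · show 0 < (if Even a then 1 else 2)
      split_ifs <;> omega
    · exact Multiset.count_pos.2 ha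
  have hmapfb : ∀ μ' : Multiset (ℕ × ℕ), (∀ x ∈ μ', (x.1, x.2) = fb x.2 ∧ 0 < x.2 ∧ x.2 ≤ p) →
      μ' = (μ'.map Prod.snd).map fb := by
    intro μ' h
    rw [Multiset.map_map]
    conv_lhs => rw [← Multiset.map_id μ']
    apply Multiset.map_congr rfl
    intro x hx
    exact (h x hx).1
  constructor
  · intro H μ hμ hμe hsum
    obtain ⟨κ, rfl⟩ := exists_ex μ hμe
    have hκ := hexm κ hμ
    obtain ⟨N, h1, -, -, h4, h5⟩ := H951.exists_real hB hK hpP.ne_zero
      (P := fun s a => (s, a) = fb a ∧ 0 < a ∧ a ≤ p)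
      (fun s a hsa U hU hUf => real_alt hB hK h2 s a hsa U hU hUf) (fun _ s a hsa => by
        have h := congrArg Prod.fst hsa.1
        change s = (if Even a then 1 else 2) at h
        rw [h]
        split_ifs with h3
        · rw [one_mul]; exact h3
        · exact even_two_mul a) (κ.map fb) (by
        intro x hx
        obtain ⟨a, ha, rfl⟩ := Multiset.mem_map.1 hx
        exact ⟨rfl, hκ a ha⟩) ⊤ hnd (by rw [finrank_top, hV, ← sum_ex', hsum])
    by_cases hN0 : N = 0
    · -- all parts are 1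
      have h6 := h5.rank hB 1
      rw [hN0, pow_one, Submodule.map_zero, finrank_bot, ← sum_ex] at h6
      have h7 : ∀ a ∈ ex κ, a = 1 := by
        intro a ha
        have h8 : a - 1 ∈ (ex κ).map fun x => x - 1 := Multiset.mem_map.2 ⟨a, ha, rfl⟩
        have h9 := Multiset.sum_eq_zero_iff.1 h6.symm _ h8
        have := (hμ a ha).1
        omega
      have h8 : ex κ = Multiset.replicate (2 * d) 1 := by
        rw [Multiset.eq_replicate]
        refine ⟨?_, h7⟩
        have h9 : ex κ = Multiset.replicate (Multiset.card (ex κ)) 1 :=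
          Multiset.eq_replicate_card.2 h7
        rw [h9, Multiset.sum_replicate] at hsum
        simpa using hsum
      refine ⟨Multiset.replicate m 1, ?_, by simp, ?_⟩
      · rw [h8]
        exact (Multiset.replicate_le_replicate 1).2 hmd
      · intro a _
        rw [Multiset.count_replicate]
        split_ifs
        · exact hme
        · exact Even.zero
    obtain ⟨y, hy, hyp, hyW, hy1⟩ := H951.exists_isom_of_skew_odd (p := p) hp2 hB h1 h4
    obtain ⟨W, ⟨hWm, hWn⟩, hW⟩ := H y hy hyp (fun h => hN0 (hy1 h))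
    have hWN : H951.Inv N W := (hyW W).1 hW
    have hperp : ∀ W, H951.Inv N W → H951.Inv N (hB.perp W) := fun W hW => h1.inv_perp hB hW
    obtain ⟨ν, hν, hν1⟩ := H951.exists_jt hB hperp (step_alt hB h2 h1 h4) W hWN hWn
    have hWp := hB.nd_perp_inf hnd hWn le_top
    rw [inf_top_eq] at hWp
    obtain ⟨ν', hν', hν'1⟩ := H951.exists_jt hB hperp (step_alt hB h2 h1 h4) (hB.perp W)
      (hperp _ hWN) hWp
    have hadd := hν.add hB hν' fun u hu w hw => hB.eq_zero_comm.1 (hw u hu)
    rw [(hB.isCompl_perp hWn).sup_eq_top] at hadd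
    have e1 := hmapfb ν hν1
    have e2 := hmapfb ν' hν'1
    have heq : ex κ = ex (ν.map Prod.snd) + ex (ν'.map Prod.snd) := by
      rw [← ex_add]
      apply H951.multiset_eq_of_sums (fun a ha => (hμ a ha).1)
      · intro a ha
        have h6 := mem_ex ha
        rcases Multiset.mem_add.1 h6 with h7 | h7
        · obtain ⟨x, hx, rfl⟩ := Multiset.mem_map.1 h7
          exact (hν1 x hx).2.1
        · obtain ⟨x, hx, rfl⟩ := Multiset.mem_map.1 h7
          exact (hν'1 x hx).2.1
      · intro j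
        rw [sum_ex, sum_ex, ← h5.rank hB j, hadd.rank hB j, Multiset.map_add fb, ← e1, ← e2]
    refine ⟨ex (ν.map Prod.snd), ?_, ?_, fun a ha => even_count_ex _ a ha⟩
    · rw [heq]
      exact Multiset.le_add_right _ _
    · rw [sum_ex', ← e1, ← hν.finrank_eq hB, hWm]
  · intro H x hx hxp _
    obtain ⟨N, h1, h4, hyW⟩ := H951.exists_skew_of_isom_odd (p := p) hp2 hB hx hxp
    obtain ⟨μ', hμ', hμ1⟩ := H951.exists_jt hB (fun W hW => h1.inv_perp hB hW)
      (step_alt hB h2 h1 h4) ⊤ (fun _ _ => trivial) hnd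
    have e1 := hmapfb μ' hμ1
    have hd := hμ'.finrank_eq hB
    rw [finrank_top, hV, e1, ← sum_ex'] at hd
    obtain ⟨ν, hν, hνm, hνe⟩ := H (ex (μ'.map Prod.snd)) (by
      intro a ha
      obtain ⟨x, hx, rfl⟩ := Multiset.mem_map.1 (mem_ex ha)
      exact (hμ1 x hx).2) (fun a ha => even_count_ex _ a ha) hd.symm
    obtain ⟨κ', rfl⟩ := exists_ex ν hνe
    have hle : κ'.map fb ≤ μ' := by
      rw [e1]
      exact Multiset.map_le_map (le_of_ex_le hν)
    obtain ⟨W, -, hW⟩ := hμ'.sub hle
    refine ⟨W, ⟨?_, hW.nd hB⟩, (hyW W).2 hW.inv⟩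
    rw [hW.finrank_eq hB, ← sum_ex', hνm]

end Cfsg.Agent.H952.SympUnip
end

-- part: S5956
section
set_option autoImplicit false
open scoped MatrixGroups
open Cfsg

namespace Cfsg.Agent.S5956

open Module Submodule
open Cfsg.Agent.H952.Alt Cfsg.Agent.H952.Semi Cfsg.Agent.H952.SympSemi Cfsg.Agent.H952.NdSub
open Cfsg.Agent.ClassicalGeometry.SympBasic

/-- The property of the statement for all isometries. -/
def Prop' (F : Type*) [Field F] (d m r : ℕ) : Prop :=
  ∀ x : Module.End F (Fin d ⊕ Fin d → F),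
      (∀ u v, sympBilin d F (x u) (x v) = sympBilin d F u v) →
      (∃ z : F, x ^ r = z • (1 : Module.End F (Fin d ⊕ Fin d → F))) →
      (∀ z : F, x ≠ z • (1 : Module.End F (Fin d ⊕ Fin d → F))) →
      ∃ W : Submodule F (Fin d ⊕ Fin d → F), (finrank F W = m ∧ Nd (sympBilin d F) W) ∧ Inv x W

variable {F : Type*} [Field F] {d : ℕ}

theorem semi [Fintype F] {r : ℕ} [Fact r.Prime] (hr2 : r ≠ 2) (hrF : (r : F) ≠ 0) (hd : 0 < d)
    {m : ℕ} (hme : Even m) (hmd : m < d)
    (hrΩ : r ∣ Nat.card {W : Submodule F (Fin d ⊕ Fin d → F) //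
      finrank F W = m ∧ Nd (sympBilin d F) W}) :
    Prop' F d m r ↔ (cc (Fintype.card F) r ≤ m ∧
      m % cc (Fintype.card F) r ≤ (2 * d) % cc (Fintype.card F) r) := by
  have hr := (Fact.out : r.Prime)
  have hodd : Odd r := hr.eq_two_or_odd'.resolve_left hr2
  have hA : (sympBilin d F).IsAlt := sympBilin_isAlt
  have hV : finrank F (Fin d ⊕ Fin d → F) = 2 * d := H952.Wrap.finrank_eq
  have hc0 := cc_pos (orderOf_pos (coprime_card (F := F) hrF))
  obtain ⟨k, hk⟩ := hme
  have hlt : (2 * d) % cc (Fintype.card F) r < 2 * k :=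
    lt_of_dvd_card (by omega) hrF (by rw [hk, ← two_mul] at hrΩ; exact hrΩ)
  unfold Prop'
  rw [H952.Wrap.odd_iff (fun W => finrank F W = m ∧ Nd (sympBilin d F) W) hodd hd]
  set c := cc (Fintype.card F) r with hc
  constructor
  · intro H
    have hle : c ≤ 2 * d := by
      by_contra hcon
      rw [Nat.mod_eq_of_lt (by omega)] at hlt
      omega
    obtain ⟨l, hl⟩ := (cc_even (Fintype.card F) r).mul_right (2 * d / c)
    rw [← hc] at hl
    have hmul := Nat.mul_div_le (2 * d) c
    obtain ⟨W0, _, hW0, hW0f⟩ := exists_even_dim hA l ⊤ nd_top (by rw [finrank_top, hV]; omega)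
    obtain ⟨x, hx⟩ := exists_freeOn hA hrF (2 * d / c) W0 hW0 (by rw [hW0f, ← hc]; omega)
    have hfr := hx.finrank_range hA hW0
    have hrn := LinearMap.finrank_range_add_finrank_ker (x - 1)
    have hpos : 0 < c * (2 * d / c) := Nat.mul_pos hc0 (Nat.div_pos hle hc0)
    obtain ⟨W, ⟨hWf, hW⟩, hWx⟩ := H x hx.isom hx.pow (by
      rintro rfl
      rw [sub_self, LinearMap.range_zero, finrank_bot] at hfr
      omega)
    have hdm := Nat.div_add_mod (2 * d) c
    have := of_nd_inv hA hrF hx.pow hx.isom (by rw [← hc, hV]; omega) hW hWx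
    rw [← hc, hWf, hV] at this
    omega
  · rintro ⟨h1, h2⟩ x hx hxr -
    obtain ⟨W, h3, h4, h5⟩ := exists_nd_inv hA hr2 hrF hxr hx nd_top ⟨k, hk⟩
      (by rw [hV]; omega) (by rw [← hc, hV]; exact h2)
    exact ⟨W, ⟨h5, h3⟩, h4⟩

theorem two_odd (h2 : (2 : F) ≠ 0) (hd : 0 < d) {m : ℕ} (hme : Even m) (hmd : m < d) :
    Prop' F d m 2 := by
  intro x hx ⟨z, hz⟩ _
  have hA : (sympBilin d F).IsAlt := sympBilin_isAlt
  have hV : finrank F (Fin d ⊕ Fin d → F) = 2 * d := H952.Wrap.finrank_eq
  obtain ⟨k, hk⟩ := hme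
  have hzz := H952.Wrap.mul_self_of_scalar hd (H952.Wrap.isom_pow hx 2) hz
  obtain ⟨E, _, h3, h4, h5⟩ := exists_nd_inv_two hA (injective_of_isometry nd_top hx) hx h2
    (mul_self_eq_one_iff.1 hzz) (fun v => by
      have := LinearMap.congr_fun hz v
      rw [sq] at this
      exact this) k nd_top (fun v _ => mem_top) (by rw [finrank_top, hV]; omega)
  exact ⟨E, ⟨by omega, h3⟩, h4⟩

theorem two_even (h2 : (2 : F) = 0) (hd : 0 < d) {m : ℕ} (hme : Even m) (hmd : m < d) :
    Prop' F d m 2 ↔ ((2 * d) % 4 = 2 ∨ m % 4 = 0) := by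
  have hA : (sympBilin d F).IsAlt := sympBilin_isAlt
  have hV : finrank F (Fin d ⊕ Fin d → F) = 2 * d := H952.Wrap.finrank_eq
  constructor
  · intro H
    by_contra hcon
    push Not at hcon
    have hde : Even d := by
      rw [Nat.even_iff]; omega
    obtain ⟨x, h1, h3, h4, h5, h6⟩ := exists_swap_elem (F := F) hde hd h2
    obtain ⟨W, ⟨hWf, hW⟩, hWx⟩ := H x h1 ⟨1, by
      rw [one_smul, sq]; exact LinearMap.ext h3⟩ h6
    have := four_dvd hA h1 h4 h5 hW hWx (injective_of_isometry nd_top h1)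
    rw [hWf] at this
    omega
  · intro h x hx ⟨z, hz⟩ _
    have hzz := H952.Wrap.mul_self_of_scalar hd (H952.Wrap.isom_pow hx 2) hz
    have hz1 : z = 1 := by
      rcases mul_self_eq_one_iff.1 hzz with h | h
      · exact h
      · rw [h]
        have : (1 : F) + 1 = 0 := by rw [one_add_one_eq_two, h2]
        exact (eq_neg_of_add_eq_zero_left this).symm
    obtain ⟨E, h3, h4, h5⟩ := exists_nd_inv_char_two hA (injective_of_isometry nd_top hx) hx
      (fun v => by
        have := LinearMap.congr_fun hz v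
        rw [sq, hz1, one_smul] at this
        exact this) nd_top (m := m) (by rw [hV]; omega) hme (by rw [hV]; exact h)
    exact ⟨E, ⟨h5, h3⟩, h4⟩

theorem unip [Fintype F] {p : ℕ} [Fact p.Prime] [CharP F p] (hp : 2 < p) (hd : 0 < d) {m : ℕ}
    (hme : Even m) (hmd : m < d) :
    Prop' F d m p ↔ (∀ μ : Multiset ℕ, (∀ a ∈ μ, 0 < a ∧ a ≤ p) →
      (∀ a : ℕ, Odd a → Even (μ.count a)) → μ.sum = 2 * d →
        ∃ ν : Multiset ℕ, ν ≤ μ ∧ ν.sum = m ∧ ∀ a : ℕ, Odd a → Even (ν.count a)) := by
  have hodd : Odd p := (Fact.out : p.Prime).eq_two_or_odd'.resolve_left (by omega)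
  unfold Prop'
  rw [H952.Wrap.odd_iff (fun W => finrank F W = m ∧ Nd (sympBilin d F) W) hodd hd]
  exact H952.SympUnip.main hp hme (by omega)

/-- Elements of prime order of PSp_n(q) with no fixed nondegenerate `m`-space. Here `T = PSp_n(q)` with `n = 2d ≥ 4`, `(n, q) ≠ (4, 2)`, realised through the symplectic matrices over the field `F` with `q` elements (preserving the standard alternating form); an element of `T` of prime order `r` is such a matrix `x` with `x^r` scalar and `x` not scalar. For `r ≠ p` let `i` be the multiplicative order of `q` modulo `r`, `c = i` for `i` even and `c = 2i` for `i` odd, and write `k = n mod c`, `ℓ = m mod i`, `ℓ' = m mod c`, `n' = ⌊n/i⌋`, `m' = ⌊m/i⌋`, `t = (r−1)/i`. Let `m` be even with `2 ≤ m < n/2` and let `r` be a prime dividing the number of nondegenerate `m`-spaces. Then every element of `T` of order `r` fixes a nondegenerate `m`-space if and only if one of: (i) `r = p > 2` and every partition of `n` into parts of size at most `p` in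 which every odd part has even multiplicity contains (as a sub-multiset) a partition of `m` in which every odd part has even multiplicity; (ii) `r = p = 2` and `n ≡ 2 (mod 4)` or `m ≡ 0 (mod 4)`; (iii) `r = 2 ≠ p`; (iv) `r ≠ p`, `r > 2`, `c ≤ m` and `k ≥ ℓ'`. -/
theorem result {F : Type*} [Field F] [Fintype F] {p : ℕ} [Fact p.Prime] [CharP F p] {q : ℕ} (hq : Fintype.card F = q)
    (d m : ℕ) (hd : 2 ≤ d) (hT : (d, q) ≠ (2, 2)) (hm : 2 ≤ m) (hme : Even m) (hmd : m < d)
    (r : ℕ) [Fact r.Prime]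
    (hrΩ : r ∣ Nat.card {W : Submodule F (Fin d ⊕ Fin d → F) // Module.finrank F ↥W = m ∧ (∀ u ∈ W, u ≠ 0 → ∃ v ∈ W, Cfsg.sympForm d F u v ≠ 0)})
    (i c : ℕ) (hi : i = orderOf (q : ZMod r)) (hc : c = if Even i then i else 2 * i) :
    (∀ x : ↥(Matrix.symplecticGroup (Fin d) F),
      (∃ z : F, ((x ^ r : ↥(Matrix.symplecticGroup (Fin d) F)) : Matrix (Fin d ⊕ Fin d) (Fin d ⊕ Fin d) F) = z • (1 : Matrix (Fin d ⊕ Fin d) (Fin d ⊕ Fin d) F)) →
      (∀ z : F, (x : Matrix (Fin d ⊕ Fin d) (Fin d ⊕ Fin d) F) ≠ z • (1 : Matrix (Fin d ⊕ Fin d) (Fin d ⊕ Fin d) F)) →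
      ∃ W : Submodule F (Fin d ⊕ Fin d → F), Module.finrank F ↥W = m ∧ (∀ u ∈ W, u ≠ 0 → ∃ v ∈ W, Cfsg.sympForm d F u v ≠ 0) ∧
        W.map (Matrix.toLin' (x : Matrix (Fin d ⊕ Fin d) (Fin d ⊕ Fin d) F)) ≤ W) ↔
    ((r = p ∧ 2 < p ∧ (∀ μ : Multiset ℕ, (∀ a ∈ μ, 0 < a ∧ a ≤ p) → (∀ a : ℕ, Odd a → Even (μ.count a)) → μ.sum = 2 * d →
        ∃ ν : Multiset ℕ, ν ≤ μ ∧ ν.sum = m ∧ ∀ a : ℕ, Odd a → Even (ν.count a))) ∨
     (r = p ∧ p = 2 ∧ ((2 * d) % 4 = 2 ∨ m % 4 = 0)) ∨
     (r = 2 ∧ p ≠ 2) ∨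
     (r ≠ p ∧ 2 < r ∧ c ≤ m ∧ m % c ≤ (2 * d) % c)) := by
  subst hq
  have hr := (Fact.out : r.Prime)
  have hp := (Fact.out : p.Prime)
  have hcc : c = cc (Fintype.card F) r := by
    rw [hc, hi]
    rfl
  have hP : (∀ x : ↥(Matrix.symplecticGroup (Fin d) F),
      (∃ z : F, ((x ^ r : ↥(Matrix.symplecticGroup (Fin d) F)) : Matrix (Fin d ⊕ Fin d) (Fin d ⊕ Fin d) F) = z • (1 : Matrix (Fin d ⊕ Fin d) (Fin d ⊕ Fin d) F)) →
      (∀ z : F, (x : Matrix (Fin d ⊕ Fin d) (Fin d ⊕ Fin d) F) ≠ z • (1 : Matrix (Fin d ⊕ Fin d) (Fin d ⊕ Fin d) F)) →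
      ∃ W : Submodule F (Fin d ⊕ Fin d → F), Module.finrank F ↥W = m ∧ (∀ u ∈ W, u ≠ 0 → ∃ v ∈ W, Cfsg.sympForm d F u v ≠ 0) ∧
        W.map (Matrix.toLin' (x : Matrix (Fin d ⊕ Fin d) (Fin d ⊕ Fin d) F)) ≤ W) ↔
      Prop' F d m r := by
    rw [Prop', ← H952.Wrap.wrap (fun W => finrank F W = m ∧ Nd (sympBilin d F) W) r]
    simp only [and_assoc]
    rfl
  rw [hP]
  by_cases hrp : r = p
  · subst hrp
    by_cases h2 : r = 2
    · subst h2
      rw [two_even (F := F) (CharP.cast_eq_zero F 2) (by omega) hme hmd]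
      omega
    · have h3 : 2 < r := lt_of_le_of_ne hr.two_le (Ne.symm h2)
      rw [unip (F := F) h3 (by omega) hme hmd]
      constructor
      · intro h
        exact Or.inl ⟨rfl, h3, h⟩
      · rintro (⟨_, _, h⟩ | ⟨_, h, _⟩ | ⟨h, h'⟩ | ⟨h, _⟩)
        · exact h
        · exact absurd h h2
        · exact absurd h h'
        · exact absurd rfl h
  · have hrF : (r : F) ≠ 0 := by
      intro h0
      have h1 : p ∣ r := (CharP.cast_eq_zero_iff F p r).1 h0
      exact hrp ((Nat.prime_dvd_prime_iff_eq hp hr).1 h1).symm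
    by_cases h2 : r = 2
    · subst h2
      have : Prop' F d m 2 := two_odd (by exact_mod_cast hrF) (by omega) hme hmd
      constructor
      · intro _
        exact Or.inr (Or.inr (Or.inl ⟨rfl, fun h => hrp h.symm⟩))
      · intro _
        exact this
    · have h3 : 2 < r := lt_of_le_of_ne hr.two_le (Ne.symm h2)
      rw [semi h2 hrF (by omega) hme hmd hrΩ, ← hcc]
      constructor
      · intro h
        exact Or.inr (Or.inr (Or.inr ⟨hrp, h3, h⟩))
      · rintro (⟨h, _⟩ | ⟨h, _⟩ | ⟨h, _⟩ | ⟨_, _, h⟩)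
        · exact absurd h hrp
        · exact absurd h hrp
        · exact absurd h h2
        · exact h

end Cfsg.Agent.S5956
end
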