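import Cfsg.Agent.H951.DecompBridge
import Cfsg.Agent.H951.Elem
import Cfsg.Statements.S5958
set_option linter.all false

-- part: H951/Decomp4
section
/-!
# Analysis of decompositions permuted by an operator of prime order
-/

set_option autoImplicit false

namespace Cfsg.Agent.H951

open Module Polynomial

variable {F V : Type*} [Field F] [AddCommGroup V] [Module F V]
variable {x y : Module.End F V} {a b r s t : ℕ} {U U' W : Submodule F V}

/-- `x^r = 1`, `c = r - 1` the order of `|F|` modulo `r`, and at least as many fixed dimensions as non-trivial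
irreducible summands: `U` is a free part plus a fixed part. -/
lemma exists_mono_free [Fintype F] [FiniteDimensional F V] [Fact r.Prime] (hr : (r : F) ≠ 0) (hx : x ^ r = 1)
    (hc : orderOf (Fintype.card F : ZMod r) = r - 1) (hU : Inv x U) {M : ℕ}
    (hM : finrank F ↥(U ⊓ cm x) = (r - 1) * M) (hM' : M ≤ finrank F ↥(U ⊓ fx x)) :
    ∃ S T, Cyc x r M S ∧ T ≤ fx x ∧ S ⊓ T = ⊥ ∧ S ⊔ T = U := by
  have hrpos : 0 < r := (Fact.out : r.Prime).pos
  have hr1 : 1 < r := (Fact.out : r.Prime).one_lt
  induction M generalizing U with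
  | zero =>
    refine ⟨⊥, U, Cyc.zero, ?_, bot_inf_eq _, bot_sup_eq _⟩
    have h0 : U ⊓ cm x = ⊥ := Submodule.finrank_eq_zero.1 (by rw [hM]; simp)
    have := inf_fx_sup_inf_cm hr hx hU
    rw [h0, sup_bot_eq] at this
    rw [← this]; exact inf_le_right
  | succ M ih =>
    have hUc : U ⊓ cm x ≠ ⊥ := by
      intro h
      rw [h, finrank_bot] at hM
      have : 0 < (r - 1) * (M + 1) := Nat.mul_pos (by omega) (Nat.succ_pos _)
      omega
    obtain ⟨S₁, hS₁, hI⟩ := exists_irr (hU.inf inv_cm) hUc
    have hS₁d : finrank F S₁ = r - 1 := by rw [hI.finrank_eq hr hx (hS₁.trans inf_le_right), hc]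
    obtain ⟨E, hE, hEd⟩ := exists_sub (U ⊓ fx x) (a := 1) (by omega)
    obtain ⟨T, hTi, hT1, hT2, hT3, hT4⟩ := exists_compl_split hr hx hU hE hS₁ hI.2.1
    rw [hEd] at hT3
    rw [hS₁d, hM, mul_add, mul_one] at hT4
    obtain ⟨S', T', hS', hT', hST', hST''⟩ := ih hTi (by omega) (by omega)
    -- the cyclic piece `E ⊔ S₁`
    have hES : E ⊓ S₁ = ⊥ := by
      rw [eq_bot_iff, ← (isCompl_fx_cm hr hx).inf_eq_bot]
      exact inf_le_inf (hE.trans inf_le_right) (hS₁.trans inf_le_right)
    have hESd : finrank F ↥(E ⊔ S₁) = 1 * r := by rw [finrank_sup_of_disj hES, hEd, hS₁d]; omega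
    have hEbot : E ≠ ⊥ := by rintro rfl; simp at hEd
    obtain ⟨f, hf, hf0⟩ := (Submodule.ne_bot_iff _).1 hEbot
    obtain ⟨u, hu, hu0⟩ := (Submodule.ne_bot_iff _).1 hI.1
    have hffx : x f = f := mem_fx.1 (hE hf).2
    have hcyc : Cyc x r 1 (E ⊔ S₁) := by
      have hv0 : f + u ≠ 0 := by
        intro h
        have : f ∈ E ⊓ S₁ := ⟨hf, by rw [eq_neg_of_add_eq_zero_left h]; exact S₁.neg_mem hu⟩
        rw [hES, Submodule.mem_bot] at this
        exact hf0 this
      set G := (⨆ j : Fin r, (F ∙ (f + u)).map (x ^ (j : ℕ))) with hG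
      have hGle : G ≤ E ⊔ S₁ := by
        refine iSup_le fun j => ?_
        rw [Submodule.map_span_le]
        intro w hw
        rw [Set.mem_singleton_iff] at hw
        subst hw
        rw [map_add, pow_fx hffx]
        exact Submodule.add_mem_sup hf (hI.2.1.pow _ u hu)
      have hGinv : Inv x G := by
        have hPne : (X ^ r - 1 : F[X]) ≠ 0 := X_pow_sub_C_ne_zero hrpos 1
        have hdeg : (X ^ r - 1 : F[X]).natDegree = r := by
          have := natDegree_X_pow_sub_C (R := F) (n := r) (r := 1)
          rwa [C_1] at this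
        have e : G = Submodule.span F (Set.range fun j : Fin (X ^ r - 1 : F[X]).natDegree => (x ^ (j : ℕ)) (f + u)) := by
          rw [hdeg, Submodule.span_range_eq_iSup, hG]
          simp only [Submodule.map_span, Set.image_singleton]
        rw [e]
        exact inv_span_pow hPne (by simp [hx])
      have hvG : f + u ∈ G := (Cyc.le_of hrpos rfl) (Submodule.mem_span_singleton_self _)
      have hfG : f ∈ G := by
        have h1 : avg x r (f + u) ∈ G := by
          rw [avg, LinearMap.sum_apply]
          exact Submodule.sum_mem _ fun j _ => hGinv.pow j _ hvG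
        have h2 : avg x r u = 0 := by
          obtain ⟨w, rfl⟩ := mem_cm.1 (hS₁ hu).2
          have := LinearMap.congr_fun (avg_mul_sub_one hx) w
          simpa [Module.End.mul_apply] using this
        rw [map_add, avg_of_fx hffx, h2, add_zero] at h1
        have := G.smul_mem (r : F)⁻¹ h1
        rwa [smul_smul, inv_mul_cancel₀ hr, one_smul] at this
      have huG : u ∈ G := by
        have := G.sub_mem hvG hfG
        rwa [add_sub_cancel_left] at this
      have hS₁G : S₁ ≤ G := by
        rcases hI.2.2 (S₁ ⊓ G) inf_le_left (hI.2.1.inf hGinv) with h | h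
        · exfalso
          apply hu0
          rw [← Submodule.mem_bot F, ← h]
          exact ⟨hu, huG⟩
        · rw [← h]; exact inf_le_right
      have hEG : E ≤ G := by
        have h1 : F ∙ f = E := by
          apply Submodule.eq_of_le_of_finrank_eq
          · rw [Submodule.span_singleton_le_iff_mem]; exact hf
          · rw [finrank_span_singleton hf0, hEd]
        rw [← h1, Submodule.span_singleton_le_iff_mem]; exact hfG
      refine ⟨F ∙ (f + u), finrank_span_singleton hv0, le_antisymm hGle (sup_le hEG hS₁G), hESd, ?_⟩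
      rw [hx, map_one']
    have hdis : (E ⊔ S₁) ⊓ S' = ⊥ := by
      rw [eq_bot_iff, ← hT1]
      exact inf_le_inf le_rfl (le_sup_left.trans hST''.le)
    refine ⟨(E ⊔ S₁) ⊔ S', T', ?_, hT', ?_, ?_⟩
    · rw [add_comm M 1]
      exact hcyc.sup hrpos hS' hdis
    · apply disj_of_finrank
      have e1 := finrank_sup_of_disj hdis
      have e2 := finrank_sup_of_disj hST'
      have e3 := finrank_sup_of_disj hT1
      rw [hST''] at e2
      rw [sup_assoc (E ⊔ S₁) S' T', hST'']
      omega
    · rw [sup_assoc (E ⊔ S₁) S' T', hST'', hT2]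

/-! ### analysis -/

/-- Data of a decomposition permuted by `x`. -/
structure PData (x : Module.End F V) (a t : ℕ) (D : Fin t → Submodule F V) (σ : Equiv.Perm (Fin t)) : Prop where
  dim : ∀ j, finrank F (D j) = a
  ind : iSupIndep D
  top : (⨆ j, D j) = ⊤
  perm : ∀ j, (D j).map x = D (σ j)

namespace PData

variable {D : Fin t → Submodule F V} {σ : Equiv.Perm (Fin t)}

lemma finrank_eq [FiniteDimensional F V] (h : PData x a t D σ) : finrank F V = a * t := by
  have := finrank_iSup_of_indep D h.ind
  rw [h.top, finrank_top] at this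
  rw [this]
  simp [h.dim, mul_comm]

lemma map_pow (h : PData x a t D σ) (i : ℕ) (j : Fin t) : (D j).map (x ^ i) = D ((σ ^ i) j) := by
  induction i with
  | zero => simp [map_one']
  | succ i ih =>
    rw [pow_succ', pow_succ', Equiv.Perm.mul_apply, ← h.perm, ← ih]
    exact Submodule.map_comp (x ^ i) x (D j)

lemma inj (h : PData x a t D σ) (ha : 1 ≤ a) : Function.Injective D := by
  apply h.ind.injective
  intro j hj
  have := h.dim j
  rw [hj, finrank_bot] at this
  omega

lemma pow_perm (h : PData x a t D σ) (ha : 1 ≤ a) (hx : x ^ r = 1) (j : Fin t) : (σ ^ r) j = j := by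
  apply h.inj ha
  rw [← h.map_pow, hx, map_one']

/-- For a non-fixed index the first `r` images are distinct. -/
lemma pow_injective [Fact r.Prime] (h : PData x a t D σ) (ha : 1 ≤ a) (hx : x ^ r = 1) {j : Fin t} (hj : σ j ≠ j) :
    Function.Injective fun i : Fin r => (σ ^ (i : ℕ)) j := by
  have hper : Function.IsPeriodicPt σ r j := by
    rw [Function.IsPeriodicPt, Function.IsFixedPt, ← Equiv.Perm.coe_pow]
    exact h.pow_perm ha hx j
  have hdvd := hper.minimalPeriod_dvd
  have hmin : Function.minimalPeriod σ j = r := by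
    rcases (Nat.dvd_prime (Fact.out : r.Prime)).1 hdvd with h1 | h1
    · exact absurd (Function.minimalPeriod_eq_one_iff_isFixedPt.1 h1) hj
    · exact h1
  intro i i' hii'
  have h1 := Function.iterate_injOn_Iio_minimalPeriod (f := σ) (x := j)
  rw [hmin] at h1
  apply Fin.ext
  apply h1 i.2 i'.2
  simpa only [Equiv.Perm.coe_pow] using hii'

lemma avg_inj [FiniteDimensional F V] [Fact r.Prime] (h : PData x a t D σ) (ha : 1 ≤ a) (hx : x ^ r = 1) {j : Fin t}
    (hj : σ j ≠ j) {v : V} (hv : v ∈ D j) (h0 : avg x r v = 0) : v = 0 := by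
  have hinj := h.pow_injective ha hx hj
  have hrpos : 0 < r := (Fact.out : r.Prime).pos
  obtain ⟨s, rfl⟩ : ∃ s, r = s + 1 := ⟨r - 1, by omega⟩
  rw [avg, Finset.sum_range_succ', LinearMap.add_apply, pow_zero, Module.End.one_apply, LinearMap.sum_apply] at h0
  have h1 : v ∈ D j ⊓ ⨆ (l) (_ : l ≠ j), D l := by
    refine ⟨hv, ?_⟩
    rw [SetLike.mem_coe, ← neg_mem_iff, ← eq_neg_of_add_eq_zero_left h0]
    refine Submodule.sum_mem _ fun i hi => ?_
    have hne : (σ ^ (i + 1)) j ≠ j := by
      intro he
      have := @hinj ⟨i + 1, by have := Finset.mem_range.1 hi; omega⟩ ⟨0, by omega⟩ (by simpa using he)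
      simp at this
    refine (le_iSup₂_of_le ((σ ^ (i + 1)) j) hne le_rfl : D ((σ ^ (i + 1)) j) ≤ _) ?_
    rw [← h.map_pow]
    exact ⟨v, hv, rfl⟩
  rw [(disjoint_iff.1 ((iSupIndep_def.1 h.ind) j))] at h1
  exact (Submodule.mem_bot F).1 h1

/-- A polynomial killing `v ∈ D j`, `v ≠ 0`, `j` not fixed, has degree at least `r`. -/
lemma le_natDegree [FiniteDimensional F V] [Fact r.Prime] (h : PData x a t D σ) (ha : 1 ≤ a) (hx : x ^ r = 1)
    {j : Fin t} (hj : σ j ≠ j) {v : V} (hv : v ∈ D j) (hv0 : v ≠ 0) {g : F[X]} (hg : g ≠ 0)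
    (hgv : aeval x g v = 0) : r ≤ g.natDegree := by
  by_contra hlt
  push Not at hlt
  have hinj := h.pow_injective ha hx hj
  have hindep : iSupIndep (fun i : Fin r => D ((σ ^ (i : ℕ)) j)) := h.ind.comp hinj
  have hrpos : 0 < r := (Fact.out : r.Prime).pos
  have hxinj : ∀ i : ℕ, Function.Injective (x ^ i) := by
    intro i
    rw [Module.End.coe_pow]
    exact (injective_of_pow hrpos hx).iterate i
  -- the vectors x^i v are linearly independent
  have hli : LinearIndependent F (fun i : Fin r => (x ^ (i : ℕ)) v) := by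
    refine hindep.linearIndependent _ (fun i => ?_) (fun i => ?_)
    · rw [← h.map_pow]; exact ⟨v, hv, rfl⟩
    · intro h0
      apply hv0
      apply hxinj i
      rw [h0, map_zero]
  rw [Fintype.linearIndependent_iff] at hli
  have hsum : ∑ i : Fin r, g.coeff i • (x ^ (i : ℕ)) v = 0 := by
    rw [← hgv, aeval_eq_sum_range' hlt, LinearMap.sum_apply, Finset.sum_range]
    rfl
  apply hg
  have := hli (fun i => g.coeff i) hsum ⟨g.natDegree, hlt⟩
  exact leadingCoeff_eq_zero.1 this

/-- If all indices are fixed and `[V, x]` is small the divisibility forces many fixed vectors. -/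
lemma mul_mod_le [Fintype F] [FiniteDimensional F V] [Fact r.Prime] (h : PData x a t D σ) (hr : (r : F) ≠ 0)
    (hx : x ^ r = 1) (hfix : ∀ j, σ j = j) :
    t * (a % orderOf (Fintype.card F : ZMod r)) ≤ finrank F ↥(fx x) := by
  have hinv : ∀ j, Inv x (D j) := fun j => by rw [inv_iff_map, h.perm, hfix]
  have hle : ∀ j, a % orderOf (Fintype.card F : ZMod r) ≤ finrank F ↥(D j ⊓ fx x) := by
    intro j
    have h1 := finrank_inf_add hr hx (hinv j)
    rw [h.dim j] at h1
    obtain ⟨M, hM⟩ := ord_dvd_finrank hx ((hinv j).inf inv_cm)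
      (inf_fx_of_le_cm hr hx (inf_le_right : D j ⊓ cm x ≤ cm x))
    rw [← h1, hM, Nat.add_mul_mod_self_left]
    exact Nat.mod_le _ _
  have hind : iSupIndep fun j => D j ⊓ fx x := h.ind.mono fun j => inf_le_left
  have h1 := finrank_iSup_of_indep _ hind
  have h2 : finrank F ↥(⨆ j, D j ⊓ fx x) ≤ finrank F ↥(fx x) :=
    Submodule.finrank_mono (iSup_le fun j => inf_le_right)
  calc t * (a % orderOf (Fintype.card F : ZMod r)) = ∑ _j : Fin t, (a % orderOf (Fintype.card F : ZMod r)) := by simp
    _ ≤ ∑ j : Fin t, finrank F ↥(D j ⊓ fx x) := Finset.sum_le_sum fun j _ => hle j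
    _ ≤ _ := h1 ▸ h2

/-- If some index is not fixed then `(r - 1) a ≤ dim [V, x]`. -/
lemma le_finrank_cm [FiniteDimensional F V] [Fact r.Prime] (h : PData x a t D σ) (ha : 1 ≤ a) (hr : (r : F) ≠ 0)
    (hx : x ^ r = 1) {j : Fin t} (hj : σ j ≠ j) : (r - 1) * a ≤ finrank F ↥(cm x) := by
  have hinj := h.pow_injective ha hx hj
  have hindep : iSupIndep (fun i : Fin r => D ((σ ^ (i : ℕ)) j)) := h.ind.comp hinj
  have hrpos : 0 < r := (Fact.out : r.Prime).pos
  set E := ⨆ i : Fin r, D ((σ ^ (i : ℕ)) j) with hE
  have hEd : finrank F E = r * a := by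
    rw [hE, finrank_iSup_of_indep _ hindep]
    simp [h.dim]
  have hEinv : Inv x E := by
    obtain ⟨s, rfl⟩ : ∃ s, r = s + 1 := ⟨r - 1, by omega⟩
    rw [inv_iff_map, hE, Submodule.map_iSup]
    refine iSup_le fun i => ?_
    rw [h.perm, ← Equiv.Perm.mul_apply, ← pow_succ']
    rcases Nat.lt_or_ge (i : ℕ) s with hi | hi
    · exact le_iSup (fun i : Fin (s + 1) => D ((σ ^ (i : ℕ)) j)) ⟨i + 1, Nat.succ_lt_succ hi⟩
    · have : (i : ℕ) + 1 = s + 1 := by have := i.2; omega
      rw [this, h.pow_perm ha hx]
      refine le_iSup_of_le (0 : Fin (s + 1)) ?_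
      simp
  have h1 := finrank_inf_add hr hx hEinv
  have h2 : E ⊓ fx x ≤ (D j).map (avg x r) := by
    intro w hw
    have hw1 : w = (r : F)⁻¹ • avg x r w := by
      rw [avg_of_fx (mem_fx.1 hw.2), smul_smul, inv_mul_cancel₀ hr, one_smul]
    rw [hw1]
    refine Submodule.smul_mem _ _ ?_
    have h3 : E.map (avg x r) ≤ (D j).map (avg x r) := by
      rw [hE, Submodule.map_iSup]
      refine iSup_le fun i => ?_
      rw [← h.map_pow, ← Submodule.map_comp]
      have : avg x r ∘ₗ (x ^ (i : ℕ)) = avg x r := by
        have h4 : ∀ i : ℕ, avg x r * x ^ i = avg x r := by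
          intro i
          induction i with
          | zero => simp
          | succ i ih =>
            rw [pow_succ, ← mul_assoc, ih]
            have := avg_mul_sub_one hx
            rw [mul_sub, mul_one, sub_eq_zero] at this
            exact this
        exact h4 i
      rw [this]
    exact h3 ⟨w, hw.1, rfl⟩
  have h3 : finrank F ↥(E ⊓ fx x) ≤ a :=
    (Submodule.finrank_mono h2).trans ((Submodule.finrank_map_le _ _).trans (h.dim j).le)
  have h4 : finrank F ↥(E ⊓ cm x) ≤ finrank F ↥(cm x) := Submodule.finrank_mono inf_le_right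
  have h5 : (r - 1) * a = r * a - a := by rw [Nat.sub_mul, one_mul]
  omega

/-- If the fixed indices only carry fixed vectors then `r · dim [V, x] ≤ (r - 1) · dim V`. -/
lemma mul_finrank_cm_le [FiniteDimensional F V] [Fact r.Prime] (h : PData x a t D σ) (ha : 1 ≤ a)
    (hr : (r : F) ≠ 0) (hx : x ^ r = 1) (hfix : ∀ j, σ j = j → D j ≤ fx x) :
    r * finrank F ↥(cm x) ≤ (r - 1) * (a * t) := by
  classical
  have hrpos : 0 < r := (Fact.out : r.Prime).pos
  have hσ : ∀ j, (σ ^ r) j = j := h.pow_perm ha hx
  -- claim for σ-closed finsets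
  have claim : ∀ S : Finset (Fin t), (∀ j ∈ S, σ j ∈ S) →
      r * finrank F ↥((⨆ j ∈ S, D j).map (x - 1)) ≤ (r - 1) * (a * S.card) := by
    intro S
    induction hn : S.card using Nat.strong_induction_on generalizing S with
    | _ n ih =>
      intro hS
      rcases S.eq_empty_or_nonempty with h0 | ⟨j, hj⟩
      · have h00 : (⨆ j ∈ S, D j) = ⊥ := by rw [h0]; simp
        rw [h00, Submodule.map_bot, finrank_bot, mul_zero]
        exact Nat.zero_le _
      have hSpow : ∀ i : ℕ, ∀ l ∈ S, (σ ^ i) l ∈ S := by
        intro i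
        induction i with
        | zero => intro l hl; simpa using hl
        | succ i ih' => intro l hl; rw [pow_succ', Equiv.Perm.mul_apply]; exact hS _ (ih' l hl)
      set O : Finset (Fin t) := Finset.image (fun i : Fin r => (σ ^ (i : ℕ)) j) Finset.univ with hO
      have hOS : O ⊆ S := by
        intro l hl
        rw [hO, Finset.mem_image] at hl
        obtain ⟨i, -, rfl⟩ := hl
        exact hSpow _ _ hj
      have hjO : j ∈ O := by
        rw [hO, Finset.mem_image]
        exact ⟨⟨0, hrpos⟩, Finset.mem_univ _, by simp⟩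
      have hOσ : ∀ l ∈ S, σ l ∈ O → l ∈ O := by
        intro l _ hl
        rw [hO, Finset.mem_image] at hl ⊢
        obtain ⟨i, -, hi⟩ := hl
        -- l = σ^(r-1) σ l = σ^(i + r - 1) j
        have h1 : l = (σ ^ ((i : ℕ) + (r - 1))) j := by
          have h2 : (σ ^ (r - 1)) (σ l) = l := by
            rw [← Equiv.Perm.mul_apply, ← pow_succ, Nat.sub_add_cancel hrpos, hσ]
          rw [add_comm, pow_add, Equiv.Perm.mul_apply, hi, h2]
        have h3 : ∀ k : ℕ, (σ ^ k) j = (σ ^ (k % r)) j := by
          intro k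
          conv_lhs => rw [← Nat.mod_add_div k r, pow_add, Equiv.Perm.mul_apply]
          congr 1
          have : ∀ m : ℕ, (σ ^ (r * m)) j = j := by
            intro m
            induction m with
            | zero => simp
            | succ m ihm => rw [mul_add, mul_one, pow_add, Equiv.Perm.mul_apply, hσ, ihm]
          exact this _
        refine ⟨⟨((i : ℕ) + (r - 1)) % r, Nat.mod_lt _ hrpos⟩, Finset.mem_univ _, ?_⟩
        show (σ ^ (((i : ℕ) + (r - 1)) % r)) j = l
        rw [← h3, ← h1]
      have hS' : ∀ l ∈ S \ O, σ l ∈ S \ O := by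
        intro l hl
        rw [Finset.mem_sdiff] at hl ⊢
        exact ⟨hS l hl.1, fun hl' => hl.2 (hOσ l hl.1 hl')⟩
      have hcard : (S \ O).card + O.card = S.card := Finset.card_sdiff_add_card_eq_card hOS
      have hOpos : 0 < O.card := Finset.card_pos.2 ⟨j, hjO⟩
      have h1 := ih (S \ O).card (by omega) (S \ O) rfl hS'
      have hsup : (⨆ l ∈ S, D l) = (⨆ l ∈ S \ O, D l) ⊔ (⨆ l ∈ O, D l) := by
        rw [← Finset.sup_eq_iSup, ← Finset.sup_eq_iSup, ← Finset.sup_eq_iSup, ← Finset.sup_union,
          Finset.sdiff_union_of_subset hOS]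
      have h2 : finrank F ↥((⨆ l ∈ S, D l).map (x - 1)) ≤
          finrank F ↥((⨆ l ∈ S \ O, D l).map (x - 1)) + finrank F ↥((⨆ l ∈ O, D l).map (x - 1)) := by
        rw [hsup, Submodule.map_sup]
        exact Submodule.finrank_add_le_finrank_add_finrank _ _
      have h3 : r * finrank F ↥((⨆ l ∈ O, D l).map (x - 1)) ≤ (r - 1) * (a * O.card) := by
        by_cases hjf : σ j = j
        · have hO1 : (⨆ l ∈ O, D l) ≤ fx x := by
            refine iSup₂_le fun l hl => ?_
            rw [hO, Finset.mem_image] at hl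
            obtain ⟨i, -, rfl⟩ := hl
            have : ∀ k : ℕ, (σ ^ k) j = j := by
              intro k
              induction k with
              | zero => simp
              | succ k ihk => rw [pow_succ, Equiv.Perm.mul_apply, hjf, ihk]
            rw [this]
            exact hfix j hjf
          have : (⨆ l ∈ O, D l).map (x - 1) = ⊥ := by
            rw [eq_bot_iff]
            rintro _ ⟨w, hw, rfl⟩
            exact (Submodule.mem_bot F).2 (LinearMap.mem_ker.1 (hO1 hw))
          rw [this, finrank_bot, mul_zero]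
          exact Nat.zero_le _
        · have hinj := h.pow_injective ha hx hjf
          have hOc : O.card = r := by
            rw [hO, Finset.card_image_of_injective _ hinj, Finset.card_univ, Fintype.card_fin]
          have hEle : finrank F ↥(⨆ l ∈ O, D l) ≤ r * a := by
            have h5 : (⨆ l ∈ O, D l) = ⨆ l : {l // l ∈ O}, D l.1 := by rw [iSup_subtype]
            rw [h5]
            refine (finrank_iSup_le _).trans (le_of_eq ?_)
            simp only [h.dim, Finset.sum_const, smul_eq_mul, Finset.card_univ]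
            rw [Fintype.card_coe, hOc]
          -- avg (D j) is fixed and inside
          have hav : (D j).map (avg x r) ≤ (⨆ l ∈ O, D l) ⊓ LinearMap.ker (x - 1) := by
            rintro _ ⟨v, hv, rfl⟩
            refine ⟨?_, ?_⟩
            · rw [avg, LinearMap.sum_apply]
              refine Submodule.sum_mem _ fun i hi => ?_
              refine (le_iSup₂_of_le ((σ ^ i) j) ?_ le_rfl : D ((σ ^ i) j) ≤ _) ?_
              · rw [hO, Finset.mem_image]
                exact ⟨⟨i, Finset.mem_range.1 hi⟩, Finset.mem_univ _, rfl⟩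
              · rw [← h.map_pow]; exact ⟨v, hv, rfl⟩
            · rw [SetLike.mem_coe, LinearMap.mem_ker]
              exact LinearMap.congr_fun (sub_one_mul_avg hx) v
          have havd : finrank F ↥((D j).map (avg x r)) = a := by
            have hL : Function.Injective ((avg x r).domRestrict (D j)) := by
              rw [← LinearMap.ker_eq_bot, eq_bot_iff]
              intro v hv
              rw [Submodule.mem_bot]
              apply Subtype.ext
              exact h.avg_inj ha hx hjf v.2 (LinearMap.mem_ker.1 hv)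
            have h6 := LinearMap.finrank_range_of_inj hL
            rw [LinearMap.range_domRestrict, h.dim] at h6
            exact h6
          have h7 : a ≤ finrank F ↥((⨆ l ∈ O, D l) ⊓ LinearMap.ker (x - 1)) :=
            havd ▸ Submodule.finrank_mono hav
          have h8 := LinearMap.finrank_range_add_finrank_ker ((x - 1).domRestrict (⨆ l ∈ O, D l))
          rw [LinearMap.range_domRestrict] at h8
          have h9 : finrank F ↥(LinearMap.ker ((x - 1).domRestrict (⨆ l ∈ O, D l)))
              = finrank F ↥((⨆ l ∈ O, D l) ⊓ LinearMap.ker (x - 1)) := by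
            rw [LinearMap.ker_domRestrict, ← Submodule.map_comap_subtype]
            exact (Submodule.finrank_map_subtype_eq _ _).symm
          have h10 : finrank F ↥((⨆ l ∈ O, D l).map (x - 1)) ≤ (r - 1) * a := by
            have : (r - 1) * a = r * a - a := by rw [Nat.sub_mul, one_mul]
            omega
          rw [hOc]
          calc r * finrank F ↥((⨆ l ∈ O, D l).map (x - 1)) ≤ r * ((r - 1) * a) := Nat.mul_le_mul_left _ h10
            _ = (r - 1) * (a * r) := by ring
      calc r * finrank F ↥((⨆ l ∈ S, D l).map (x - 1))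
          ≤ r * (finrank F ↥((⨆ l ∈ S \ O, D l).map (x - 1)) + finrank F ↥((⨆ l ∈ O, D l).map (x - 1))) :=
            Nat.mul_le_mul_left _ h2
        _ = r * finrank F ↥((⨆ l ∈ S \ O, D l).map (x - 1)) + r * finrank F ↥((⨆ l ∈ O, D l).map (x - 1)) := by ring
        _ ≤ (r - 1) * (a * (S \ O).card) + (r - 1) * (a * O.card) := Nat.add_le_add h1 h3
        _ = (r - 1) * (a * n) := by rw [← hn, ← hcard]; ring
  have h1 := claim Finset.univ (fun j _ => Finset.mem_univ _)
  have h2 : (⨆ j ∈ (Finset.univ : Finset (Fin t)), D j) = ⊤ := by simp [h.top]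
  rw [h2, Finset.card_univ, Fintype.card_fin, Submodule.map_top] at h1
  exact h1

end PData

end Cfsg.Agent.H951
end

-- part: H951/DecompCount
section
/-!
# The number of decompositions into `t` subspaces of dimension `a`
-/

set_option autoImplicit false

namespace Cfsg.Agent.H951

open Module

section gl

variable {F V : Type*} [Field F] [Fintype F] [AddCommGroup V] [Module F V] [FiniteDimensional F V] {r : ℕ}

/-- If the prime `r` divides the order of `GL(V)` then the order of `|F|` modulo `r` is at most `dim V`. -/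
lemma ord_le_of_dvd_card [Fact r.Prime] (hr : (r : F) ≠ 0) (h : r ∣ Nat.card (V ≃ₗ[F] V)) :
    orderOf (Fintype.card F : ZMod r) ≤ finrank F V := by
  have hV : Finite V := Module.finite_of_finite F
  have hG : Finite (V ≃ₗ[F] V) := DFunLike.finite _
  obtain ⟨g, hg⟩ := exists_prime_orderOf_dvd_card' r h
  have hx : (g : Module.End F V) ^ r = 1 := by
    have h1 : g ^ r = 1 := hg ▸ pow_orderOf_eq_one g
    apply LinearMap.ext
    intro v
    have h2 : ∀ j : ℕ, ((g : Module.End F V) ^ j) v = (g ^ j) v := by
      intro j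
      induction j with
      | zero => rfl
      | succ j ih => rw [pow_succ', pow_succ', Module.End.mul_apply, ih]; rfl
    rw [h2, h1]; rfl
  have hne : cm (g : Module.End F V) ≠ ⊥ := by
    intro h0
    have h1 : g = 1 := by
      apply LinearEquiv.ext
      intro v
      have h2 : g v - v ∈ cm (g : Module.End F V) := mem_cm.2 ⟨v, rfl⟩
      rw [h0, Submodule.mem_bot, sub_eq_zero] at h2
      exact h2
    rw [h1, orderOf_one] at hg
    exact (Fact.out : r.Prime).one_lt.ne hg
  have h1 := ord_dvd_finrank hx inv_cm (inf_fx_of_le_cm hr hx le_rfl)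
  refine (Nat.le_of_dvd ?_ h1).trans (Submodule.finrank_le _)
  exact Nat.pos_of_ne_zero fun h0 => hne (Submodule.finrank_eq_zero.1 h0)

end gl

section count

variable {F V : Type*} [Field F] [Fintype F] [AddCommGroup V] [Module F V] [FiniteDimensional F V] {a t : ℕ}

/-- The ordered decompositions. -/
def Dec (F V : Type*) [Field F] [AddCommGroup V] [Module F V] (a t : ℕ) : Type _ :=
  {D : Fin t → Submodule F V // (∀ i, finrank F (D i) = a) ∧ iSupIndep D ∧ (⨆ i, D i) = ⊤}

/-- The action of `GL(V)` on ordered decompositions. -/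
@[reducible] def decAct (F V : Type*) [Field F] [AddCommGroup V] [Module F V] (a t : ℕ) :
    MulAction (V ≃ₗ[F] V) (Dec F V a t) where
  smul g D := ⟨fun i => (D.1 i).map (g : V →ₗ[F] V), fun i =>
      (LinearEquiv.finrank_map_eq g _).trans (D.2.1 i),
    LinearMap.iSupIndep_map (g : V →ₗ[F] V) g.injective D.2.2.1,
    (Submodule.map_iSup _ _).symm.trans ((congrArg _ D.2.2.2).trans ((Submodule.map_top _).trans (LinearEquiv.range g)))⟩
  one_smul D := Subtype.ext (funext fun i => Submodule.map_id _)
  mul_smul g h D := Subtype.ext (funext fun i => Submodule.map_comp (h : V →ₗ[F] V) (g : V →ₗ[F] V) (D.1 i))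

/-- The action of the symmetric group on ordered decompositions. -/
@[reducible] def permAct (F V : Type*) [Field F] [AddCommGroup V] [Module F V] (a t : ℕ) :
    MulAction (Equiv.Perm (Fin t)) (Dec F V a t) where
  smul σ D := ⟨fun i => D.1 (σ⁻¹ i), fun i => D.2.1 _, D.2.2.1.comp (σ⁻¹).injective,
    ((σ⁻¹).iSup_comp (g := D.1)).trans D.2.2.2⟩
  one_smul D := Subtype.ext (funext fun i => by show D.1 ((1 : Equiv.Perm (Fin t))⁻¹ i) = _; simp)
  mul_smul g h D := Subtype.ext (funext fun i => by
    show D.1 ((g * h)⁻¹ i) = D.1 (h⁻¹ (g⁻¹ i)); rw [mul_inv_rev]; rfl)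

omit [Fintype F] in
lemma dec_transitive (D D' : Dec F V a t) : ∃ g : V ≃ₗ[F] V, ∀ i, (D.1 i).map (g : V →ₗ[F] V) = D'.1 i := by
  classical
  have hI := DirectSum.isInternal_submodule_of_iSupIndep_of_iSup_eq_top D.2.2.1 D.2.2.2
  have hI' := DirectSum.isInternal_submodule_of_iSupIndep_of_iSup_eq_top D'.2.2.1 D'.2.2.2
  let b : ∀ i, Basis (Fin a) F (D.1 i) := fun i => Module.finBasisOfFinrankEq F _ (D.2.1 i)
  let b' : ∀ i, Basis (Fin a) F (D'.1 i) := fun i => Module.finBasisOfFinrankEq F _ (D'.2.1 i)
  let B := hI.collectedBasis b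
  let B' := hI'.collectedBasis b'
  let g : V ≃ₗ[F] V := B.equiv B' (Equiv.refl _)
  refine ⟨g, fun i => ?_⟩
  apply Submodule.eq_of_le_of_finrank_eq
  · have hspan : D.1 i = Submodule.span F (Set.range fun k => ((b i k : D.1 i) : V)) := by
      have h1 := congrArg (Submodule.map (D.1 i).subtype) (b i).span_eq
      rw [Submodule.map_span, Submodule.map_top, Submodule.range_subtype, ← Set.range_comp] at h1
      exact h1.symm
    rw [hspan, Submodule.map_span_le]
    rintro _ ⟨k, rfl⟩
    have h1 : B ⟨i, k⟩ = (b i k : V) := by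
      simp only [B, DirectSum.IsInternal.collectedBasis_coe]
    have h2 : g (B ⟨i, k⟩) = B' ⟨i, k⟩ := by simp [g]
    have h3 : B' ⟨i, k⟩ = (b' i k : V) := by
      simp only [B', DirectSum.IsInternal.collectedBasis_coe]
    show g ((b i k : D.1 i) : V) ∈ D'.1 i
    rw [← h1, h2, h3]
    exact (b' i k).2
  · exact (LinearEquiv.finrank_map_eq g _).trans ((D.2.1 i).trans (D'.2.1 i).symm)

lemma card_dec_dvd (h : Nonempty (Dec F V a t)) : Nat.card (Dec F V a t) ∣ Nat.card (V ≃ₗ[F] V) := by
  have hV : Finite V := Module.finite_of_finite F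
  let _ := decAct F V a t
  have ht : MulAction.IsPretransitive (V ≃ₗ[F] V) (Dec F V a t) := by
    constructor
    intro D D'
    obtain ⟨g, hg⟩ := dec_transitive D D'
    exact ⟨g, Subtype.ext (funext hg)⟩
  obtain ⟨D⟩ := h
  rw [← MulAction.index_stabilizer_of_transitive (V ≃ₗ[F] V) D]
  exact Subgroup.index_dvd_card _

omit [Fintype F] [FiniteDimensional F V] in
lemma factorial_dvd_card_dec (ha : 1 ≤ a) : t.factorial ∣ Nat.card (Dec F V a t) := by
  let _ := permAct F V a t
  have hfree : ∀ D : Dec F V a t, MulAction.stabilizer (Equiv.Perm (Fin t)) D = ⊥ := by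
    intro D
    rw [eq_bot_iff]
    intro σ hσ
    rw [MulAction.mem_stabilizer_iff] at hσ
    rw [Subgroup.mem_bot]
    have hinj : Function.Injective D.1 := by
      apply D.2.2.1.injective
      intro j hj
      have := D.2.1 j
      rw [hj, finrank_bot] at this
      omega
    have h1 : σ⁻¹ = 1 := by
      apply Equiv.ext
      intro i
      apply hinj
      exact congrFun (congrArg Subtype.val hσ) i
    rw [← inv_inv σ, h1, inv_one]
  have h1 := Nat.card_congr (MulAction.selfEquivOrbitsQuotientProd hfree)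
  rw [Nat.card_prod, Nat.card_perm, Nat.card_fin] at h1
  rw [h1]
  exact dvd_mul_left _ _

/-- If the prime `r` divides the number of unordered decompositions into `t` subspaces of dimension `a ≥ 1` then the
order of `|F|` modulo `r` is at most `dim V`. -/
lemma ord_le_of_dvd_card_dec {r : ℕ} [Fact r.Prime] (hr : (r : F) ≠ 0) (ha : 1 ≤ a) (hd : finrank F V = a * t)
    (h : r ∣ Nat.card (Dec F V a t) / t.factorial) : orderOf (Fintype.card F : ZMod r) ≤ finrank F V := by
  apply ord_le_of_dvd_card hr
  have hne : Nonempty (Dec F V a t) := by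
    have h1 : PD (1 : Module.End F V) a ⊤ t := by
      apply pd_of_le_fx (x := (1 : Module.End F V))
      · exact fun _ _ h => h
      · intro v _; exact mem_fx.2 rfl
      · rw [finrank_top, hd]
    obtain ⟨D, h1, h2, h3, -⟩ := h1
    refine ⟨⟨D, h1, indep_of_finrank D ?_, h2⟩⟩
    rw [h2, h3]
    simp [h1, mul_comm]
  refine dvd_trans ?_ (card_dec_dvd hne)
  obtain ⟨k, hk⟩ := factorial_dvd_card_dec (F := F) (V := V) (t := t) ha
  rw [hk, Nat.mul_div_cancel_left _ (Nat.factorial_pos t)] at h
  rw [hk]
  exact h.mul_left _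

end count

end Cfsg.Agent.H951
end

-- part: S5958
section
set_option autoImplicit false
open scoped MatrixGroups
open Cfsg

namespace Cfsg.Agent.S5958

open Module Polynomial Cfsg.Agent.H951

section lin

variable {F V : Type*} [Field F] [Fintype F] [AddCommGroup V] [Module F V] [FiniteDimensional F V]

/-- The "if" direction, for operators. -/
theorem pd_of_cond {a t r : ℕ} [Fact r.Prime] (hr : (r : F) ≠ 0) (ha : 1 ≤ a) (hd : finrank F V = a * t)
    (h : (a = 1 ∧ 1 < orderOf (Fintype.card F : ZMod r) ∧ orderOf (Fintype.card F : ZMod r) = r - 1 ∧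
        a * t ≤ ((a * t) % orderOf (Fintype.card F : ZMod r)) * r) ∨
      (orderOf (Fintype.card F : ZMod r) ≤ a ∧
        (a * t) % orderOf (Fintype.card F : ZMod r) = t * (a % orderOf (Fintype.card F : ZMod r))))
    {x : Module.End F V} {z : F} (hz : z ≠ 0) (hx : x ^ r = z • 1) : PD x a ⊤ t := by
  have hrp : r.Prime := Fact.out
  have hr1 := hrp.one_lt
  set c := orderOf (Fintype.card F : ZMod r) with hc
  have hcpos : 0 < c := ord_pos hr
  by_cases hroot : ∃ w : F, w ^ r = z
  · obtain ⟨w, hw⟩ := hroot
    have hw0 : w ≠ 0 := by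
      rintro rfl
      apply hz; rw [← hw, zero_pow hrp.ne_zero]
    set y : Module.End F V := w⁻¹ • x with hy
    have hyr : y ^ r = 1 := by
      rw [hy, _root_.smul_pow, hx, smul_smul, ← hw, ← mul_pow, inv_mul_cancel₀ hw0, one_pow, one_smul]
    have hxy : x = w • y := by rw [hy, smul_smul, mul_inv_cancel₀ hw0, one_smul]
    have hinj : Function.Injective y := injective_of_pow hrp.pos hyr
    rw [hxy]
    refine PD.smul ?_ hw0
    have htot := finrank_fx_add_cm hr hyr
    obtain ⟨M, hM⟩ := ord_dvd_finrank hyr inv_cm (inf_fx_of_le_cm hr hyr (le_refl (cm y)))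
    rw [← hc] at hM
    rcases h with ⟨rfl, h1, h2, h3⟩ | ⟨h1, h2⟩
    · -- a = 1
      rw [one_mul] at h3 hd
      have hdm := Nat.div_add_mod t c
      have hMle : M ≤ t / c := by
        rw [Nat.le_div_iff_mul_le hcpos]
        rw [hM, hd] at htot
        rw [mul_comm M c]
        omega
      have hrM : r * M ≤ t := by
        -- t = c (t / c) + k, t ≤ k r, c = r - 1
        have e1 : c * M ≤ c * (t / c) := Nat.mul_le_mul_left _ hMle
        have hrc : r = c + 1 := by omega
        have e2 : c * t ≤ c * (t % c) * r := by rw [mul_assoc]; exact Nat.mul_le_mul_left _ h3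
        -- r (t / c) ≤ t : from t ≤ k (c+1)
        have e3 : (c + 1) * (t / c) ≤ t := by
          have h4 : t ≤ (t % c) * (c + 1) := by rw [← hrc]; exact h3
          have h5 : c * (t / c) ≤ (t % c) * c := by nlinarith
          have h6 : t / c ≤ t % c := by
            have : c * (t / c) ≤ c * (t % c) := by rw [mul_comm c (t % c)]; exact h5
            exact Nat.le_of_mul_le_mul_left this hcpos
          nlinarith
        rw [hrc]
        exact (Nat.mul_le_mul_left _ hMle).trans e3
      have hfxM : M ≤ finrank F ↥(⊤ ⊓ fx y) := by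
        rw [top_inf_eq]
        rw [hM, hd] at htot
        have hrc : r = c + 1 := by omega
        rw [hrc, add_mul, one_mul] at hrM
        omega
      obtain ⟨S, T, hS, hT, hST, hST'⟩ := exists_mono_free hr hyr h2 (inv_top (x := y)) (M := M)
        (by rw [top_inf_eq, hM, h2]) hfxM
      have hSfr := hS.finrank
      have hfr := finrank_sup_of_disj hST
      rw [hST', finrank_top, hSfr, hd] at hfr
      have h5 : PD y 1 S (r * M) :=
        Cyc.pd_mul (a := 1) hrp.pos hinj (fun W => by rw [hyr, map_one']) (by rw [one_mul]; exact hS)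
      have h6 : PD y 1 T (finrank F T) := pd_of_le_fx hinj hT (by rw [one_mul])
      have h7 := h5.sup h6 hST
      rw [hST'] at h7
      have : t = r * M + finrank F T := by rw [hfr, mul_comm r M]
      rw [this]
      exact h7
    · refine pd_semisimple hr hyr inv_top (by rw [finrank_top, hd]) ?_
      rw [← hc, top_inf_eq, hM]
      have hdm := Nat.div_add_mod a c
      rw [hM, hd] at htot
      have hdm2 := Nat.div_add_mod (a * t) c
      have hMle : M ≤ (a * t) / c := by
        rw [Nat.le_div_iff_mul_le hcpos, mul_comm M c]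
        omega
      have e1 : c * M ≤ c * ((a * t) / c) := Nat.mul_le_mul_left _ hMle
      have e2 : a * t = c * (a / c) * t + t * (a % c) := by
        conv_lhs => rw [← hdm]
        ring
      omega
  · push Not at hroot
    exact pd_of_irreducible hrp (X_pow_sub_C_irreducible_of_prime hrp hroot) hx hz hd

end lin

theorem result {F : Type*} [Field F] [Fintype F] {p : ℕ} [Fact p.Prime] [CharP F p] {q : ℕ} (hq : Fintype.card F = q)
    (n a t : ℕ) (hn : 2 ≤ n) (hT : (n, q) ≠ (2, 2) ∧ (n, q) ≠ (2, 3)) (hat : n = a * t) (ha : 1 ≤ a) (ht : 2 ≤ t)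
    (r : ℕ) [Fact r.Prime] (hr2 : r ≠ 2) (hrp : r ≠ p) (hΩ : r ∣ Nat.card {D : Fin t → Submodule F (Fin n → F) // Cfsg.Geo.IsMDecomposition a D} / Nat.factorial t)
    (c : ℕ) (hc : c = orderOf (q : ZMod r)) :
    (∀ x : Matrix.SpecialLinearGroup (Fin n) F,
      (∃ z : F, ((x ^ r : Matrix.SpecialLinearGroup (Fin n) F) : Matrix (Fin n) (Fin n) F) = z • (1 : Matrix (Fin n) (Fin n) F)) →
      (∀ z : F, (x : Matrix (Fin n) (Fin n) F) ≠ z • (1 : Matrix (Fin n) (Fin n) F)) →
      ∃ D : Fin t → Submodule F (Fin n → F), Cfsg.Geo.IsMDecomposition a D ∧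
        ∃ σ : Equiv.Perm (Fin t), ∀ j, (D j).map (Matrix.toLin' (x : Matrix (Fin n) (Fin n) F)) = D (σ j)) ↔
    ((a = 1 ∧ 1 < c ∧ c = r - 1 ∧ n ≤ (n % c) * r) ∨ (c ≤ a ∧ n % c = t * (a % c))) := by
  subst hq
  have hne : Nonempty (Fin n) := ⟨⟨0, by omega⟩⟩
  have hrP : r.Prime := Fact.out
  have hr : (r : F) ≠ 0 := by
    intro h
    rw [CharP.cast_eq_zero_iff F p] at h
    exact hrp ((Nat.prime_dvd_prime_iff_eq (Fact.out : p.Prime) hrP).1 h).symm
  have hd : finrank F (Fin n → F) = a * t := by rw [Module.finrank_fin_fun, hat]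
  constructor
  · intro hall
    have hcpos : 0 < c := by rw [hc]; exact ord_pos hr
    by_cases hc1 : c = 1
    · right
      rw [hc1, Nat.mod_one, Nat.mod_one, mul_zero]
      exact ⟨ha, rfl⟩
    have hc1' : orderOf (Fintype.card F : ZMod r) ≠ 1 := by rw [← hc]; exact hc1
    -- c ≤ n
    have hcn : c ≤ n := by
      have h1 : Nat.card {D : Fin t → Submodule F (Fin n → F) // Cfsg.Geo.IsMDecomposition a D}
          = Nat.card (Dec F (Fin n → F) a t) := by
        refine Nat.card_congr (Equiv.subtypeEquivRight fun D => ?_)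
        constructor
        · intro h; exact ⟨h.finrank_eq, h.indep, h.iSup_eq_top⟩
        · intro h; exact ⟨ht, ha, h.1, h.2.1, h.2.2⟩
      rw [h1] at hΩ
      have h2 := ord_le_of_dvd_card_dec hr ha hd hΩ
      rw [Module.finrank_fin_fun] at h2
      rw [hc]; exact h2
    -- the test elements
    have test : ∀ M : ℕ, 1 ≤ M → c * M ≤ n → ∃ (x : Module.End F (Fin n → F)) (P : F[X]), Irreducible P ∧
        P.natDegree = c ∧ x ^ r = 1 ∧ finrank F ↥(cm x) = c * M ∧ (∀ v ∈ cm x, aeval x P v = 0) ∧
        ∃ (D : Fin t → Submodule F (Fin n → F)) (σ : Equiv.Perm (Fin t)), PData x a t D σ := by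
      intro M hM1 hM
      obtain ⟨P, hP, hPd⟩ := exists_factor_cyclotomic (F := F) r
      obtain ⟨x, hx, hxd, hxP⟩ := exists_end hr hP hPd (M := M) (n := n) (by rw [← hc]; exact hM)
      rw [← hc] at hxd
      obtain ⟨A, hA, hAr⟩ := exists_sl hc1' x hx
      obtain ⟨D, hD, σ, hσ⟩ := hall A ⟨1, by rw [Matrix.SpecialLinearGroup.coe_pow, hAr, one_smul]⟩ (by
        intro z hz
        have h1 : x = z • 1 := by
          rw [← hA, hz, map_smul, Matrix.toLin'_one]; rfl
        have h2 : z = 1 := by
          apply eq_one_of_pow_eq_one hc1'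
          have h3 : (z ^ r) • (1 : Module.End F (Fin n → F)) = 1 := by
            have h3' := hx
            rw [h1, _root_.smul_pow, one_pow] at h3'
            exact h3'
          obtain ⟨v, hv⟩ := exists_ne (0 : Fin n → F)
          have h4 := LinearMap.congr_fun h3 v
          rw [LinearMap.smul_apply, Module.End.one_apply] at h4
          by_contra hne1
          apply hv
          have h5 : (z ^ r - 1) • v = 0 := by rw [sub_smul, h4, one_smul, sub_self]
          exact (smul_eq_zero.1 h5).resolve_left (sub_ne_zero.2 hne1)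
        rw [h2, one_smul] at h1
        have h6 : cm x = ⊥ := by
          rw [h1, cm, sub_self, LinearMap.range_zero]
        rw [h6, finrank_bot] at hxd
        have : 0 < c * M := Nat.mul_pos hcpos hM1
        omega)
      refine ⟨x, P, hP, ?_, hx, hxd, hxP, D, σ, ⟨hD.finrank_eq, hD.indep, hD.iSup_eq_top, ?_⟩⟩
      · rw [natDegree_factor hr hP hPd, hc]
      · intro j; rw [← hσ j, hA]
    have hcr : c ≤ r - 1 := by
      rw [hc]
      apply orderOf_le_of_pow_eq_one (Nat.sub_pos_of_lt hrP.one_lt)
      apply ZMod.pow_card_sub_one_eq_one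
      intro h0
      rw [hc, h0] at hcpos
      simp at hcpos
    -- if some σ j ≠ j then c = r - 1
    have hnf : ∀ (x : Module.End F (Fin n → F)) (P : F[X]) (D : Fin t → Submodule F (Fin n → F))
        (σ : Equiv.Perm (Fin t)), Irreducible P → P.natDegree = c → x ^ r = 1 →
        (∀ v ∈ cm x, aeval x P v = 0) → PData x a t D σ → ∀ j, σ j ≠ j → c = r - 1 := by
      intro x P D σ hP hPc hx hxP hPD j hj
      have hDne : D j ≠ ⊥ := by
        intro h0
        have := hPD.dim j
        rw [h0, finrank_bot] at this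
        omega
      obtain ⟨v, hv, hv0⟩ := (Submodule.ne_bot_iff _).1 hDne
      have hPne : P ≠ 0 := hP.ne_zero
      have hX1 : (X - 1 : F[X]) ≠ 0 := X_sub_C_ne_zero 1
      have h1 := hPD.le_natDegree ha hx hj hv hv0 (g := P * (X - 1)) (mul_ne_zero hPne hX1) (by
        rw [map_mul, Module.End.mul_apply]
        apply hxP
        refine mem_cm.2 ⟨v, by simp⟩)
      rw [natDegree_mul hPne hX1, hPc] at h1
      have h2 : (X - 1 : F[X]).natDegree = 1 := natDegree_X_sub_C 1
      rw [h2] at h1
      omega
    -- the big element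
    have hdm := Nat.div_add_mod n c
    have hn'1 : 1 ≤ n / c := (Nat.one_le_div_iff hcpos).2 hcn
    obtain ⟨x, P, hP, hPc, hx, hxd, hxP, D, σ, hPD⟩ := test (n / c) hn'1 (Nat.mul_div_le n c)
    have htot := finrank_fx_add_cm hr hx
    rw [Module.finrank_fin_fun, hxd] at htot
    have hfx : finrank F ↥(fx x) = n % c := by omega
    have hmodlt := Nat.mod_lt n hcpos
    by_cases hfix : ∀ j, σ j = j
    · right
      have h1 := hPD.mul_mod_le hr hx hfix
      rw [← hc, hfx] at h1
      have h2 : n % c = t * (a % c) := by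
        have h3 : (t * (a % c)) % c = n % c := by
          rw [hat, mul_comm a t, Nat.mul_mod, Nat.mod_mod, ← Nat.mul_mod]
        rw [← h3, Nat.mod_eq_of_lt (lt_of_le_of_lt h1 hmodlt)]
      refine ⟨?_, h2⟩
      by_contra hca
      push Not at hca
      rw [Nat.mod_eq_of_lt hca, mul_comm, ← hat] at h2
      omega
    · push Not at hfix
      obtain ⟨j, hj⟩ := hfix
      have hcr1 : c = r - 1 := hnf x P D σ hP hPc hx hxP hPD j hj
      left
      -- a ≤ n % c < c
      have h1 := hPD.le_finrank_cm ha hr hx hj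
      have hac : a < c := by
        -- avg is injective on D j into fx x
        have h2 : (D j).map (avg x r) ≤ fx x := by
          rintro _ ⟨v, hv, rfl⟩
          rw [fx, LinearMap.mem_ker]
          exact LinearMap.congr_fun (sub_one_mul_avg hx) v
        have h3 : finrank F ↥((D j).map (avg x r)) = a := by
          have hL : Function.Injective ((avg x r).domRestrict (D j)) := by
            rw [← LinearMap.ker_eq_bot, eq_bot_iff]
            intro v hv
            rw [Submodule.mem_bot]
            apply Subtype.ext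
            exact hPD.avg_inj ha hx hj v.2 (LinearMap.mem_ker.1 hv)
          have h6 := LinearMap.finrank_range_of_inj hL
          rw [LinearMap.range_domRestrict, hPD.dim] at h6
          exact h6
        have h4 := Submodule.finrank_mono h2
        rw [h3, hfx] at h4
        omega
      -- fixed members are pointwise fixed
      have hpf : ∀ (x : Module.End F (Fin n → F)) (D : Fin t → Submodule F (Fin n → F))
          (σ : Equiv.Perm (Fin t)), x ^ r = 1 → PData x a t D σ → ∀ j, σ j = j → D j ≤ fx x := by
        intro x D σ hx hPD j hj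
        have hinv : Inv x (D j) := by rw [inv_iff_map, hPD.perm, hj]
        have h5 := inf_fx_sup_inf_cm hr hx hinv
        have h6 : D j ⊓ cm x = ⊥ := by
          have h7 := ord_dvd_finrank hx (hinv.inf inv_cm) (inf_fx_of_le_cm hr hx (inf_le_right : D j ⊓ cm x ≤ cm x))
          rw [← hc] at h7
          apply Submodule.finrank_eq_zero.1
          by_contra hne0
          have h8 := Nat.le_of_dvd (Nat.pos_of_ne_zero hne0) h7
          have h9 : finrank F ↥(D j ⊓ cm x) ≤ finrank F ↥(D j) := Submodule.finrank_mono inf_le_left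
          rw [hPD.dim] at h9
          omega
        rw [h6, sup_bot_eq] at h5
        rw [← h5]; exact inf_le_right
      -- a = 1
      have ha1 : a = 1 := by
        obtain ⟨x₁, P₁, hP₁, hPc₁, hx₁, hxd₁, hxP₁, D₁, σ₁, hPD₁⟩ := test 1 le_rfl (by rw [mul_one]; exact hcn)
        have hnotall : ∃ j, σ₁ j ≠ j := by
          by_contra hall'
          push Not at hall'
          have h5 : (⊤ : Submodule F (Fin n → F)) ≤ fx x₁ := by
            rw [← hPD₁.top]
            exact iSup_le fun j => hpf x₁ D₁ σ₁ hx₁ hPD₁ j (hall' j)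
          have h6 := (isCompl_fx_cm hr hx₁).inf_eq_bot
          rw [top_le_iff.1 h5, top_inf_eq] at h6
          rw [h6, finrank_bot] at hxd₁
          omega
        obtain ⟨j₁, hj₁⟩ := hnotall
        have h5 := hPD₁.le_finrank_cm ha hr hx₁ hj₁
        rw [hxd₁, mul_one, ← hcr1] at h5
        have h6 : c * a ≤ c * 1 := by rw [mul_one]; exact h5
        have := Nat.le_of_mul_le_mul_left h6 hcpos
        omega
      refine ⟨ha1, by omega, hcr1, ?_⟩
      have h5 := hPD.mul_finrank_cm_le ha hr hx (fun j hj => hpf x D σ hx hPD j hj)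
      rw [← hat, hxd, ← hcr1] at h5
      have h6 : r * (n / c) ≤ n := by
        have : c * (r * (n / c)) ≤ c * n := by
          calc c * (r * (n / c)) = r * (c * (n / c)) := by ring
            _ ≤ c * n := h5
        exact Nat.le_of_mul_le_mul_left this hcpos
      -- r n' ≤ n, n = c n' + k, r = c + 1
      have hrc : r = c + 1 := by have := hrP.one_lt; omega
      rw [hrc] at h6 ⊢
      have h7 : n / c ≤ n % c := by
        rw [add_mul, one_mul] at h6
        omega
      have h8 : c * (n / c) ≤ c * (n % c) := Nat.mul_le_mul_left _ h7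
      rw [mul_add, mul_one, mul_comm (n % c) c]
      omega
  · intro hcond x hx1 _
    obtain ⟨z, hz⟩ := hx1
    rw [Matrix.SpecialLinearGroup.coe_pow] at hz
    have hz0 : z ≠ 0 := ne_zero_of_pow_scalar x.2 hz
    refine exists_decomp_of_pd ht ha (pd_of_cond hr ha hd ?_ hz0 (toLin'_pow_eq hz))
    rw [← hc, ← hat]
    exact hcond

end Cfsg.Agent.S5958
end
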