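import Cfsg.Statements.S5962
import Cfsg.Agent.H952.SympDecomp
import Cfsg.Agent.H952.Lagr
set_option linter.all false

set_option autoImplicit false
open scoped MatrixGroups
open Cfsg

namespace Cfsg.Agent.S5962

/-- Involutions of PSp_n(q), q odd, and the subgroups GL_{n/2}(q).2. Here `T = PSp_n(q)`, `n = 2d ≥ 4`, `q` odd, realised through the symplectic matrices over the field `F` with `q` elements; Ω is the set of unordered pairs `{U, W}` of complementary totally isotropic `d`-spaces (`F^n = U ⊕ W`), whose stabilizers are the subgroups of type GL_d(q).2 (maximal except in some small cases; maximality is not assumed); an element of `T` of prime order `r` (a symplectic matrix `x` with `x^r` scalar, `x` not scalar) fixes such a pair when it fixes or interchanges `U` and `W`. If the number of such pairs is even, every involution of `T` fixes one of them (the action is 2-elusive). -/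
theorem result {F : Type*} [Field F] [Fintype F] {p : ℕ} [Fact p.Prime] [CharP F p] {q : ℕ} (hq : Fintype.card F = q)
    (d : ℕ) (hd : 2 ≤ d) (hT : (d, q) ≠ (2, 2)) (hodd : Odd q)
    (hΩ : 2 ∣ Nat.card {P : Submodule F (Fin d ⊕ Fin d → F) × Submodule F (Fin d ⊕ Fin d → F) // IsCompl P.1 P.2 ∧ (∀ u ∈ P.1, ∀ v ∈ P.1, Cfsg.sympForm d F u v = 0) ∧ (∀ u ∈ P.2, ∀ v ∈ P.2, Cfsg.sympForm d F u v = 0)} / 2)
    (x : ↥(Matrix.symplecticGroup (Fin d) F))
    (hx1 : ∃ z : F, ((x ^ 2 : ↥(Matrix.symplecticGroup (Fin d) F)) : Matrix (Fin d ⊕ Fin d) (Fin d ⊕ Fin d) F) = z • (1 : Matrix (Fin d ⊕ Fin d) (Fin d ⊕ Fin d) F))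
    (hx2 : ∀ z : F, (x : Matrix (Fin d ⊕ Fin d) (Fin d ⊕ Fin d) F) ≠ z • (1 : Matrix (Fin d ⊕ Fin d) (Fin d ⊕ Fin d) F)) :
    ∃ U W : Submodule F (Fin d ⊕ Fin d → F), IsCompl U W ∧ (∀ u ∈ U, ∀ v ∈ U, Cfsg.sympForm d F u v = 0) ∧ (∀ u ∈ W, ∀ v ∈ W, Cfsg.sympForm d F u v = 0) ∧
        ((U.map (Matrix.toLin' (x : Matrix (Fin d ⊕ Fin d) (Fin d ⊕ Fin d) F)) = U ∧ W.map (Matrix.toLin' (x : Matrix (Fin d ⊕ Fin d) (Fin d ⊕ Fin d) F)) = W) ∨
         (U.map (Matrix.toLin' (x : Matrix (Fin d ⊕ Fin d) (Fin d ⊕ Fin d) F)) = W ∧ W.map (Matrix.toLin' (x : Matrix (Fin d ⊕ Fin d) (Fin d ⊕ Fin d) F)) = U)) := by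
  obtain ⟨z, hz⟩ := hx1
  have hx := Cfsg.Agent.H952.Alt.toLin_isometry x
  have hnd := Cfsg.Agent.H952.Alt.nd_top (F := F) (d := d)
  have hinj := Cfsg.Agent.H952.Alt.injective_of_isometry hnd hx
  have hA := Cfsg.Agent.ClassicalGeometry.SympBasic.sympBilin_isAlt (F := F) (m := d)
  have hsq := Cfsg.Agent.H952.Alt.sq_scalar x z hz
  have h2 : (2 : F) ≠ 0 := by
    intro h2
    haveI : CharP F 2 := CharTwo.of_one_ne_zero_of_two_eq_zero one_ne_zero h2
    have h3 : ringChar F = 2 := ringChar.eq F 2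
    have := FiniteField.even_card_of_char_two h3
    rw [hq] at this
    rcases hodd with ⟨k, hk⟩
    omega
  -- `z = 1` or `z = -1`
  have hzz : z * z = 1 := by
    let i0 : Fin d := ⟨0, by omega⟩
    let u : Fin d ⊕ Fin d → F := Pi.single (Sum.inr i0) 1
    let v : Fin d ⊕ Fin d → F := Pi.single (Sum.inl i0) 1
    have h1 : Cfsg.Agent.ClassicalGeometry.SympBasic.sympBilin d F u v = 1 := by
      rw [Cfsg.Agent.ClassicalGeometry.SympBasic.sympBilin_apply,
        Cfsg.Agent.ClassicalGeometry.SympBasic.sympForm_single_inr_left]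
      simp [v]
    have h3 := hx (Matrix.toLin' (x : Matrix (Fin d ⊕ Fin d) (Fin d ⊕ Fin d) F) u)
      (Matrix.toLin' (x : Matrix (Fin d ⊕ Fin d) (Fin d ⊕ Fin d) F) v)
    rw [hx u v, hsq, hsq, map_smul, map_smul, LinearMap.smul_apply, smul_eq_mul, smul_eq_mul,
      h1, mul_one] at h3
    exact h3
  rcases mul_self_eq_one_iff.1 hzz with h1 | h1
  · obtain ⟨U, W, hU, hW, hs, k1, k2⟩ := Cfsg.Agent.H952.Alt.exists_fix_pair hA hinj hx
      (fun v => by rw [hsq, h1, one_smul]) h2 _ ⊤ rfl hnd (fun _ _ => Submodule.mem_top)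
    exact ⟨U, W, Cfsg.Agent.H952.Alt.TI.isCompl hnd hU hW hs, hU, hW, Or.inl ⟨k1, k2⟩⟩
  · obtain ⟨U, W, hU, hW, hs, k1, k2⟩ := Cfsg.Agent.H952.Alt.exists_swap_pair hA hinj hx
      (fun v => by rw [hsq, h1, neg_one_smul]) h2 _ ⊤ rfl hnd (fun _ _ => Submodule.mem_top)
    exact ⟨U, W, Cfsg.Agent.H952.Alt.TI.isCompl hnd hU hW hs, hU, hW, Or.inr ⟨k1, k2⟩⟩

end Cfsg.Agent.S5962
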