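import Mathlib
import Cfsg.Agent.H952.SympTrans
import Cfsg.Agent.H952.Lagr
import Cfsg.Statements.S5963
set_option linter.all false

-- part: H952/Polar
section
/-!
The number of ordered pairs of complementary totally isotropic subspaces: it divides
`q^N * ∏ (q^j + 1)`.
-/

set_option autoImplicit false

namespace Cfsg.Agent.H952.Polar

open Module Submodule Cfsg
open scoped Matrix
open Cfsg.Agent.H952.Alt Cfsg.Agent.H952.Semi Cfsg.Agent.H952.SympSemi
open Cfsg.Agent.ClassicalGeometry.SympBasic Cfsg.Agent.ClassicalGeometry.SympIso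

section abs

variable {F V : Type*} [Field F] [AddCommGroup V] [Module F V] [FiniteDimensional F V]
  {B : LinearMap.BilinForm F V}

theorem finrank_le_of_pair (hnd : Nd B ⊤) {U W : Submodule F V}
    (hs : U ⊔ W = ⊤) (hU : TI B U) : finrank F U ≤ finrank F W := by
  let θ : U →ₗ[F] (Module.Dual F W) := LinearMap.domRestrict₁₂ B U W
  have hθ : Function.Injective θ := by
    rw [injective_iff_map_eq_zero]
    intro y hy
    by_contra h0
    have hy0 : (y : V) ≠ 0 := fun h => h0 (Subtype.ext h)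
    obtain ⟨w, _, hne⟩ := hnd y Submodule.mem_top hy0
    have hw : w ∈ U ⊔ W := by rw [hs]; exact Submodule.mem_top
    obtain ⟨a, ha, b, hb, rfl⟩ := Submodule.mem_sup.1 hw
    apply hne
    rw [map_add, hU y y.2 a ha, zero_add]
    exact LinearMap.congr_fun hy ⟨b, hb⟩
  have h1 := LinearMap.finrank_le_finrank_of_injective hθ
  rwa [Subspace.dual_finrank_eq] at h1

/-- A symplectic basis adapted to a pair of complementary totally isotropic subspaces. -/
theorem exists_basis (hnd : Nd B ⊤) {d : ℕ} (hV : finrank F V = 2 * d)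
    {U W : Submodule F V} (hc : IsCompl U W) (hU : TI B U) (hW : TI B W) :
    ∃ b : Module.Basis (Fin d ⊕ Fin d) F V, (∀ i, b (Sum.inl i) ∈ U) ∧ (∀ i, b (Sum.inr i) ∈ W) ∧
      (∀ i j : Fin d, B (b (Sum.inr i)) (b (Sum.inl j)) = if i = j then 1 else 0) := by
  classical
  have h1 := finrank_le_of_pair hnd hc.sup_eq_top hU
  have h2 := finrank_le_of_pair hnd (sup_comm U W ▸ hc.sup_eq_top) hW
  have h3 := Submodule.finrank_add_eq_of_isCompl hc
  have hUd : finrank F U = d := by omega
  have hWd : finrank F W = d := by omega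
  let bU : Module.Basis (Fin d) F U := Module.finBasisOfFinrankEq F U hUd
  let θ : W →ₗ[F] (Module.Dual F U) := LinearMap.domRestrict₁₂ B W U
  have hθ : Function.Injective θ := by
    rw [injective_iff_map_eq_zero]
    intro y hy
    by_contra h0
    have hy0 : (y : V) ≠ 0 := fun h => h0 (Subtype.ext h)
    obtain ⟨w, _, hne⟩ := hnd y Submodule.mem_top hy0
    have hw : w ∈ U ⊔ W := by rw [hc.sup_eq_top]; exact Submodule.mem_top
    obtain ⟨a, ha, b, hb, rfl⟩ := Submodule.mem_sup.1 hw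
    apply hne
    rw [map_add, hW y y.2 b hb, add_zero]
    exact LinearMap.congr_fun hy ⟨a, ha⟩
  let Θ : W ≃ₗ[F] (Module.Dual F U) := LinearEquiv.ofInjectiveOfFinrankEq θ hθ (by
    rw [Subspace.dual_finrank_eq]; omega)
  let bW : Module.Basis (Fin d) F W := bU.dualBasis.map Θ.symm
  let b : Module.Basis (Fin d ⊕ Fin d) F V :=
    (bU.prod bW).map (Submodule.prodEquivOfIsCompl U W hc)
  have hbl : ∀ i, b (Sum.inl i) = (bU i : V) := by
    intro i
    simp [b]
  have hbr : ∀ i, b (Sum.inr i) = (bW i : V) := by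
    intro i
    simp [b]
  refine ⟨b, fun i => by rw [hbl]; exact (bU i).2, fun i => by rw [hbr]; exact (bW i).2, ?_⟩
  intro i j
  rw [hbl, hbr]
  have h4 : Θ (bW i) = bU.dualBasis i := by
    simp [bW]
  have h5 : B (bW i : V) (bU j : V) = Θ (bW i) (bU j) := rfl
  rw [h5, h4, Module.Basis.dualBasis_apply_self]
  simp only [eq_comm]

end abs

variable {F : Type*} [Field F] {d : ℕ}

/-- The standard totally isotropic subspaces. -/
def U0 (d : ℕ) (F : Type*) [Field F] : Submodule F (Fin d ⊕ Fin d → F) where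
  carrier := {v | ∀ i, v (Sum.inr i) = 0}
  add_mem' := fun {a b} ha hb i => by rw [Pi.add_apply, ha i, hb i, add_zero]
  zero_mem' := fun _ => rfl
  smul_mem' := fun c v hv i => by rw [Pi.smul_apply, hv i, smul_zero]

def W0 (d : ℕ) (F : Type*) [Field F] : Submodule F (Fin d ⊕ Fin d → F) where
  carrier := {v | ∀ i, v (Sum.inl i) = 0}
  add_mem' := fun {a b} ha hb i => by rw [Pi.add_apply, ha i, hb i, add_zero]
  zero_mem' := fun _ => rfl
  smul_mem' := fun c v hv i => by rw [Pi.smul_apply, hv i, smul_zero]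

/-- The pairs of the statements. -/
def IsPair (d : ℕ) (F : Type*) [Field F]
    (P : Submodule F (Fin d ⊕ Fin d → F) × Submodule F (Fin d ⊕ Fin d → F)) : Prop :=
  IsCompl P.1 P.2 ∧ (∀ u ∈ P.1, ∀ v ∈ P.1, Cfsg.sympForm d F u v = 0) ∧
    (∀ u ∈ P.2, ∀ v ∈ P.2, Cfsg.sympForm d F u v = 0)

theorem isPair_base : IsPair d F (U0 d F, W0 d F) := by
  refine ⟨?_, ?_, ?_⟩
  · apply IsCompl.of_eq
    · rw [eq_bot_iff]
      intro v hv
      rw [Submodule.mem_bot]
      funext i
      rcases i with i | i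
      · exact hv.2 i
      · exact hv.1 i
    · rw [eq_top_iff]
      intro v _
      refine Submodule.mem_sup.2 ⟨Sum.elim (v ∘ Sum.inl) 0, fun i => rfl, Sum.elim 0 (v ∘ Sum.inr),
        fun i => rfl, ?_⟩
      funext i
      rcases i with i | i <;> simp
  · intro u hu v hv
    rw [sympForm_eq_sum]
    refine Finset.sum_eq_zero fun i _ => ?_
    rw [hu i, hv i]; ring
  · intro u hu v hv
    rw [sympForm_eq_sum]
    refine Finset.sum_eq_zero fun i _ => ?_
    rw [hu i, hv i]; ring

/-- The action on pairs. -/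
noncomputable def act (g : ↥(Matrix.symplecticGroup (Fin d) F))
    (P : Submodule F (Fin d ⊕ Fin d → F) × Submodule F (Fin d ⊕ Fin d → F)) :
    Submodule F (Fin d ⊕ Fin d → F) × Submodule F (Fin d ⊕ Fin d → F) :=
  (P.1.map (Matrix.toLin' (g : Matrix (Fin d ⊕ Fin d) (Fin d ⊕ Fin d) F)),
    P.2.map (Matrix.toLin' (g : Matrix (Fin d ⊕ Fin d) (Fin d ⊕ Fin d) F)))

theorem act_one (P : Submodule F (Fin d ⊕ Fin d → F) × Submodule F (Fin d ⊕ Fin d → F)) :
    act (1 : ↥(Matrix.symplecticGroup (Fin d) F)) P = P := by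
  rw [act, Submonoid.coe_one, Matrix.toLin'_one, Submodule.map_id, Submodule.map_id]

theorem act_mul (g h : ↥(Matrix.symplecticGroup (Fin d) F))
    (P : Submodule F (Fin d ⊕ Fin d → F) × Submodule F (Fin d ⊕ Fin d → F)) :
    act (g * h) P = act g (act h P) := by
  rw [act, act, act, Submonoid.coe_mul, Matrix.toLin'_mul, Submodule.map_comp,
    Submodule.map_comp]

theorem isPair_act (g : ↥(Matrix.symplecticGroup (Fin d) F))
    (P : Submodule F (Fin d ⊕ Fin d → F) × Submodule F (Fin d ⊕ Fin d → F))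
    (h : IsPair d F P) : IsPair d F (act g P) := by
  have hinj := injective_of_isometry nd_top (toLin_isometry g)
  have hsurj := LinearMap.surjective_of_injective hinj
  refine ⟨?_, ?_, ?_⟩
  · apply IsCompl.of_eq
    · show P.1.map _ ⊓ P.2.map _ = ⊥
      rw [← Submodule.map_inf _ hinj, h.1.inf_eq_bot, Submodule.map_bot]
    · show P.1.map _ ⊔ P.2.map _ = ⊤
      rw [← Submodule.map_sup, h.1.sup_eq_top, Submodule.map_top, LinearMap.range_eq_top]
      exact hsurj
  · rintro _ ⟨u, hu, rfl⟩ _ ⟨v, hv, rfl⟩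
    exact (toLin_isometry g u v).trans (h.2.1 u hu v hv)
  · rintro _ ⟨u, hu, rfl⟩ _ ⟨v, hv, rfl⟩
    exact (toLin_isometry g u v).trans (h.2.2 u hu v hv)

theorem act_trans (P : Submodule F (Fin d ⊕ Fin d → F) × Submodule F (Fin d ⊕ Fin d → F))
    (h : IsPair d F P) : ∃ g : ↥(Matrix.symplecticGroup (Fin d) F),
      act g (U0 d F, W0 d F) = P := by
  have hV : finrank F (Fin d ⊕ Fin d → F) = 2 * d := by
    rw [Module.finrank_fintype_fun_eq_card, Fintype.card_sum, Fintype.card_fin]; omega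
  obtain ⟨b, hbU, hbW, hb⟩ := exists_basis (B := sympBilin d F) nd_top hV h.1 h.2.1 h.2.2
  have hiso : ∀ x y, sympBilin d F (b.equivFun.symm x) (b.equivFun.symm y) = sympForm d F x y :=
    apply_eq_sympForm (sympBilin d F) sympBilin_isAlt b hb
      (fun i j => h.2.1 _ (hbU i) _ (hbU j)) (fun i j => h.2.2 _ (hbW i) _ (hbW j))
  obtain ⟨g, hg⟩ := exists_symplectic (b.equivFun.symm : Module.End F (Fin d ⊕ Fin d → F)) hiso
  have hinj : Function.Injective (b.equivFun.symm : Module.End F (Fin d ⊕ Fin d → F)) :=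
    b.equivFun.symm.injective
  have hle1 : (U0 d F).map (b.equivFun.symm : Module.End F (Fin d ⊕ Fin d → F)) ≤ P.1 := by
    rintro _ ⟨v, hv, rfl⟩
    rw [LinearEquiv.coe_coe, Module.Basis.equivFun_symm_apply, Fintype.sum_sum_type]
    refine Submodule.add_mem _ (Submodule.sum_mem _ fun i _ => Submodule.smul_mem _ _ (hbU i)) ?_
    refine Submodule.sum_mem _ fun i _ => ?_
    rw [hv i, zero_smul]
    exact Submodule.zero_mem _
  have hle2 : (W0 d F).map (b.equivFun.symm : Module.End F (Fin d ⊕ Fin d → F)) ≤ P.2 := by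
    rintro _ ⟨v, hv, rfl⟩
    rw [LinearEquiv.coe_coe, Module.Basis.equivFun_symm_apply, Fintype.sum_sum_type]
    refine Submodule.add_mem _ ?_ (Submodule.sum_mem _ fun i _ => Submodule.smul_mem _ _ (hbW i))
    refine Submodule.sum_mem _ fun i _ => ?_
    rw [hv i, zero_smul]
    exact Submodule.zero_mem _
  have hc : IsCompl ((U0 d F).map (b.equivFun.symm : Module.End F (Fin d ⊕ Fin d → F)))
      ((W0 d F).map (b.equivFun.symm : Module.End F (Fin d ⊕ Fin d → F))) := by
    have := (isPair_act g _ (isPair_base (d := d) (F := F))).1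
    rw [act, hg] at this
    exact this
  refine ⟨g, ?_⟩
  rw [act, hg]
  refine Prod.ext ?_ ?_
  · apply Submodule.eq_of_le_of_finrank_le hle1
    have h1 := Submodule.finrank_add_eq_of_isCompl hc
    have h2 := Submodule.finrank_add_eq_of_isCompl h.1
    have h3 := Submodule.finrank_mono hle2
    omega
  · apply Submodule.eq_of_le_of_finrank_le hle2
    have h1 := Submodule.finrank_add_eq_of_isCompl hc
    have h2 := Submodule.finrank_add_eq_of_isCompl h.1
    have h3 := Submodule.finrank_mono hle1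
    omega

/-! ### The Levi subgroup -/

theorem levi_mem (A : Matrix.GeneralLinearGroup (Fin d) F) :
    Matrix.fromBlocks (A : Matrix (Fin d) (Fin d) F) 0 0
      ((A⁻¹ : Matrix.GeneralLinearGroup (Fin d) F) : Matrix (Fin d) (Fin d) F)ᵀ ∈
        Matrix.symplecticGroup (Fin d) F := by
  have h1 : (A : Matrix (Fin d) (Fin d) F) *
      ((A⁻¹ : Matrix.GeneralLinearGroup (Fin d) F) : Matrix (Fin d) (Fin d) F) = 1 := by
    rw [← Units.val_mul, mul_inv_cancel, Units.val_one]
  rw [SymplecticGroup.mem_iff, Matrix.J, Matrix.fromBlocks_multiply,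
    Matrix.fromBlocks_transpose, Matrix.fromBlocks_multiply]
  simp only [Matrix.mul_zero, Matrix.zero_mul, add_zero, zero_add, Matrix.transpose_zero,
    Matrix.mul_neg, Matrix.mul_one, Matrix.neg_mul, Matrix.transpose_transpose, neg_zero]
  rw [h1, ← Matrix.transpose_mul, h1, Matrix.transpose_one]

/-- The embedding of `GL_d` in `Sp_{2d}`. -/
def levi (d : ℕ) (F : Type*) [Field F] :
    Matrix.GeneralLinearGroup (Fin d) F →* ↥(Matrix.symplecticGroup (Fin d) F) where
  toFun A := ⟨_, levi_mem A⟩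
  map_one' := by
    apply Subtype.ext
    simp
  map_mul' A A' := by
    apply Subtype.ext
    simp only [mul_inv_rev, Units.val_mul, Matrix.transpose_mul, Submonoid.coe_mul,
      Matrix.fromBlocks_multiply, Matrix.mul_zero, Matrix.zero_mul, add_zero, zero_add]

theorem levi_injective : Function.Injective (levi d F) := by
  intro A A' h
  apply Units.ext
  have h1 : Matrix.fromBlocks (A : Matrix (Fin d) (Fin d) F) 0 0 _ =
    Matrix.fromBlocks (A' : Matrix (Fin d) (Fin d) F) 0 0 _ := congrArg Subtype.val h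
  exact (Matrix.fromBlocks_inj.1 h1).1

theorem act_levi (A : Matrix.GeneralLinearGroup (Fin d) F) :
    act (levi d F A) (U0 d F, W0 d F) = (U0 d F, W0 d F) := by
  have hinj := injective_of_isometry nd_top (toLin_isometry (levi d F A))
  have h1 : Inv (Matrix.toLin' ((levi d F A : ↥(Matrix.symplecticGroup (Fin d) F)) :
      Matrix (Fin d ⊕ Fin d) (Fin d ⊕ Fin d) F)) (U0 d F) := by
    intro v hv i
    rw [Matrix.toLin'_apply]
    show (Matrix.fromBlocks (A : Matrix (Fin d) (Fin d) F) 0 0 _ *ᵥ v) (Sum.inr i) = 0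
    have : v = Sum.elim (v ∘ Sum.inl) (v ∘ Sum.inr) := (Sum.elim_comp_inl_inr v).symm
    rw [this, Matrix.fromBlocks_mulVec]
    have h0 : v ∘ Sum.inr = 0 := funext hv
    simp [h0]
  have h2 : Inv (Matrix.toLin' ((levi d F A : ↥(Matrix.symplecticGroup (Fin d) F)) :
      Matrix (Fin d ⊕ Fin d) (Fin d ⊕ Fin d) F)) (W0 d F) := by
    intro v hv i
    rw [Matrix.toLin'_apply]
    show (Matrix.fromBlocks (A : Matrix (Fin d) (Fin d) F) 0 0 _ *ᵥ v) (Sum.inl i) = 0
    have : v = Sum.elim (v ∘ Sum.inl) (v ∘ Sum.inr) := (Sum.elim_comp_inl_inr v).symm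
    rw [this, Matrix.fromBlocks_mulVec]
    have h0 : v ∘ Sum.inl = 0 := funext hv
    simp [h0]
  rw [act]
  exact Prod.ext (h1.map_eq hinj) (h2.map_eq hinj)

/-! ### Orders -/

theorem prod_GL (q d : ℕ) : ∃ e : ℕ, ∏ i : Fin d, (q ^ d - q ^ (i : ℕ)) =
    q ^ e * ∏ i ∈ Finset.range d, (q ^ (i + 1) - 1) := by
  refine ⟨∑ i ∈ Finset.range d, i, ?_⟩
  rw [Fin.prod_univ_eq_prod_range (fun i => q ^ d - q ^ i) d, ← Finset.prod_pow_eq_pow_sum,
    ← Finset.prod_range_reflect (fun i => q ^ (i + 1) - 1) d, ← Finset.prod_mul_distrib]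
  refine Finset.prod_congr rfl fun i hi => ?_
  rw [Finset.mem_range] at hi
  rw [Nat.mul_sub, mul_one, ← pow_add]
  congr 2
  omega

theorem finite_sub [Finite F] : Finite (Submodule F (Fin d ⊕ Fin d → F)) :=
  Finite.of_injective (fun W => (W : Set (Fin d ⊕ Fin d → F))) SetLike.coe_injective

/-- A prime `r ≠ p` dividing the number of ordered polar pairs divides `q^j + 1` for some
`1 ≤ j ≤ d`. -/
theorem exists_dvd [Fintype F] {r : ℕ} [Fact r.Prime] (hrF : (r : F) ≠ 0)
    (h : r ∣ Nat.card {P // IsPair d F P}) : ∃ j, j < d ∧ r ∣ Fintype.card F ^ (j + 1) + 1 := by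
  have hr := (Fact.out : r.Prime)
  obtain ⟨S, hS, hcard⟩ := CountGen.card_orbit act act_one act_mul (IsPair d F)
    (U0 d F, W0 d F) isPair_base isPair_act act_trans
  have hGL : Nat.card (Matrix.GeneralLinearGroup (Fin d) F) ∣ Nat.card S := by
    have h1 : (levi d F).range ≤ S := by
      rintro _ ⟨A, rfl⟩
      exact (hS _).2 (act_levi A)
    have h2 := Subgroup.card_dvd_of_le h1
    rwa [Nat.card_congr (MonoidHom.ofInjective levi_injective).symm.toEquiv] at h2
  obtain ⟨k, hk⟩ := hGL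
  rw [Matrix.card_GL_field] at hk
  obtain ⟨e, he⟩ := prod_GL (Fintype.card F) d
  rw [he] at hk
  rw [Cfsg.Agent.S0245.result (F := F) rfl d, hk] at hcard
  set q := Fintype.card F with hq
  have hq1 : 1 < q := Fintype.one_lt_card
  have h2 : ∏ i ∈ Finset.range d, (q ^ (2 * (i + 1)) - 1) =
      (∏ i ∈ Finset.range d, (q ^ (i + 1) - 1)) * ∏ i ∈ Finset.range d, (q ^ (i + 1) + 1) := by
    rw [← Finset.prod_mul_distrib]
    refine Finset.prod_congr rfl fun i _ => ?_
    rw [mul_comm 2, pow_mul, mul_comm, ← Nat.sq_sub_sq]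
  have h3 : 0 < ∏ i ∈ Finset.range d, (q ^ (i + 1) - 1) := by
    apply Finset.prod_pos
    intro i _
    have := Nat.one_lt_pow (show i + 1 ≠ 0 by omega) hq1
    omega
  rw [h2] at hcard
  have h4 : k * q ^ e * Nat.card {P // IsPair d F P} =
      q ^ d ^ 2 * ∏ i ∈ Finset.range d, (q ^ (i + 1) + 1) := by
    apply Nat.eq_of_mul_eq_mul_left h3
    linear_combination hcard
  have h5 : r ∣ q ^ d ^ 2 * ∏ i ∈ Finset.range d, (q ^ (i + 1) + 1) := by
    rw [← h4]
    exact h.mul_left _
  rcases hr.dvd_mul.1 h5 with h6 | h6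
  · exact absurd (hr.dvd_of_dvd_pow h6)
      ((Nat.Prime.coprime_iff_not_dvd hr).1 (coprime_card (F := F) hrF))
  · obtain ⟨j, hj, hjr⟩ := (Prime.dvd_finsetProd_iff hr.prime _).1 h6
    exact ⟨j, Finset.mem_range.1 hj, hjr⟩

/-- The number of ordered pairs is even. -/
theorem even_card [Finite F] (hd : 0 < d) : 2 ∣ Nat.card {P // IsPair d F P} := by
  haveI := finite_sub (F := F) (d := d)
  refine CountGen.even_card (fun P => ⟨(P.1.2, P.1.1), P.2.1.symm, P.2.2.2, P.2.2.1⟩)
    (fun P => rfl) ?_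
  rintro ⟨⟨U, W⟩, hP⟩ h
  have h1 : W = U := (Prod.ext_iff.1 (congrArg Subtype.val h)).1
  have h2 : IsCompl U W := hP.1
  subst h1
  have h3 : W = ⊥ := by
    have := h2.inf_eq_bot
    rwa [inf_idem] at this
  have h4 : W = ⊤ := by
    have := h2.sup_eq_top
    rwa [sup_idem] at this
  have h5 : (⊥ : Submodule F (Fin d ⊕ Fin d → F)) = ⊤ := h3.symm.trans h4
  have h6 : (Pi.single (Sum.inl ⟨0, hd⟩) 1 : Fin d ⊕ Fin d → F) ∈
      (⊥ : Submodule F (Fin d ⊕ Fin d → F)) := by rw [h5]; exact Submodule.mem_top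
  rw [Submodule.mem_bot] at h6
  have h7 := congrFun h6 (Sum.inl ⟨0, hd⟩)
  simp at h7

/-- From `r ∣ q^j + 1`: the order of `q` modulo `r` is even and at most `2j`. -/
theorem order_even {q r j : ℕ} [Fact r.Prime] (hr2 : r ≠ 2) (hj : 0 < j) (h : r ∣ q ^ j + 1) :
    Even (orderOf ((q : ℕ) : ZMod r)) ∧ orderOf ((q : ℕ) : ZMod r) ≤ 2 * j := by
  have hr := (Fact.out : r.Prime)
  have h1 : ((q : ℕ) : ZMod r) ^ j = -1 := by
    have := (ZMod.natCast_eq_zero_iff (q ^ j + 1) r).2 h
    push_cast at this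
    exact eq_neg_of_add_eq_zero_left this
  have h2 : ((q : ℕ) : ZMod r) ^ (2 * j) = 1 := by
    rw [mul_comm, pow_mul, h1]; ring
  have h3 := orderOf_dvd_of_pow_eq_one h2
  refine ⟨?_, Nat.le_of_dvd (by omega) h3⟩
  by_contra hodd
  rw [Nat.not_even_iff_odd] at hodd
  have h4 : orderOf ((q : ℕ) : ZMod r) ∣ j :=
    (Nat.coprime_two_right.2 hodd).dvd_of_dvd_mul_left h3
  have h5 := orderOf_dvd_iff_pow_eq_one.1 h4
  rw [h1] at h5
  have h6 : (2 : ZMod r) = 0 := by linear_combination -h5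
  have h7 : r ∣ 2 := by
    rw [← ZMod.natCast_eq_zero_iff]
    exact_mod_cast h6
  exact hr2 ((Nat.prime_dvd_prime_iff_eq hr Nat.prime_two).1 h7)

end Cfsg.Agent.H952.Polar
end

-- part: S5963
section
set_option autoImplicit false
open scoped MatrixGroups
open Cfsg

namespace Cfsg.Agent.S5963

open Module Submodule
open Cfsg.Agent.H952.Alt Cfsg.Agent.H952.Semi Cfsg.Agent.H952.SympSemi
open Cfsg.Agent.ClassicalGeometry.SympBasic

variable {F : Type*} [Field F] {d : ℕ}

/-- A scalar isometry of odd order is trivial. -/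
theorem eq_one_of_scalar {r : ℕ} (hodd : Odd r) (hd : 0 < d)
    {x : Module.End F (Fin d ⊕ Fin d → F)} (hxr : x ^ r = 1)
    (hx : ∀ u v, sympBilin d F (x u) (x v) = sympBilin d F u v) {z : F}
    (hz : x = z • (1 : Module.End F (Fin d ⊕ Fin d → F))) : x = 1 := by
  let i0 : Fin d := ⟨0, by omega⟩
  let u : Fin d ⊕ Fin d → F := Pi.single (Sum.inr i0) 1
  let v : Fin d ⊕ Fin d → F := Pi.single (Sum.inl i0) 1
  have h1 : sympBilin d F u v = 1 := by
    rw [sympBilin_apply, sympForm_single_inr_left]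
    simp [v]
  have hzv : ∀ w, x w = z • w := fun w => by rw [hz]; rfl
  have h2 : z * z = 1 := by
    have h3 := hx u v
    rw [hzv, hzv, map_smul, map_smul, LinearMap.smul_apply, smul_eq_mul, smul_eq_mul, h1,
      mul_one] at h3
    exact h3
  have h3 : ∀ n : ℕ, (x ^ n) v = z ^ n • v := by
    intro n
    induction n with
    | zero => simp
    | succ n ih => rw [pow_succ', Module.End.mul_apply, ih, hzv, smul_smul, ← pow_succ']
  have h4 : z ^ r = 1 := by
    have h5 := h3 r
    rw [hxr, Module.End.one_apply] at h5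
    have h6 := congrFun h5 (Sum.inl i0)
    simpa [v] using h6.symm
  have h5 : z = 1 := by
    obtain ⟨k, hk⟩ := hodd
    rw [hk, pow_succ, pow_mul, sq, h2, one_pow, one_mul] at h4
    exact h4
  rw [hz, h5, one_smul]

/-- An isometry of odd order `r` whose commutator space has dimension the order of `q` modulo `r`
fixes no polar pair. -/
theorem no_pair [Fintype F] {r : ℕ} [Fact r.Prime] (hr2 : r ≠ 2) (hrF : (r : F) ≠ 0)
    (hd : 0 < d) {x : Module.End F (Fin d ⊕ Fin d → F)} (hxr : x ^ r = 1)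
    (hx : ∀ u v, sympBilin d F (x u) (x v) = sympBilin d F u v)
    (hfr : finrank F (LinearMap.range (x - 1)) = orderOf ((Fintype.card F : ℕ) : ZMod r))
    {U W : Submodule F (Fin d ⊕ Fin d → F)} (hc : IsCompl U W)
    (hU : TI (sympBilin d F) U) (hW : TI (sympBilin d F) W)
    (h : (U.map x = U ∧ W.map x = W) ∨ (U.map x = W ∧ W.map x = U)) : False := by
  have hr := (Fact.out : r.Prime)
  have hcop := coprime_card (F := F) hrF
  have hord := Cfsg.Agent.H952.SympSemi.orderOf_pos hcop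
  have hA : (sympBilin d F).IsAlt := sympBilin_isAlt
  obtain ⟨e, he⟩ := hr.eq_two_or_odd'.resolve_left hr2
  rcases h with ⟨h1, h2⟩ | ⟨h1, h2⟩
  · have hUx := Inv.of_map_eq h1
    have hWx := Inv.of_map_eq h2
    have hd1 := orderOf_dvd_finrank hxr (inv_map_sub hUx) (comm_inf_ker hrF hxr U)
    have hd2 := orderOf_dvd_finrank hxr (inv_map_sub hWx) (comm_inf_ker hrF hxr W)
    have hsum := Cfsg.Agent.H952.Jordan.finrank_map_sup (x - 1) U W (map_sub_le hUx)
      (map_sub_le hWx) hc.disjoint 1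
    rw [pow_one, hc.sup_eq_top, Submodule.map_top, hfr] at hsum
    have hnd := nd_comm (B := sympBilin d F) hA hrF hxr hx nd_top
      (fun _ _ => Submodule.mem_top)
    rw [Submodule.map_top] at hnd
    have hTI : TI (sympBilin d F) (LinearMap.range (x - 1)) := by
      rcases Nat.eq_zero_or_pos (finrank F (W.map (x - 1))) with h0 | h0
      · have h3 : LinearMap.range (x - 1) = U.map (x - 1) := by
          rw [← Submodule.map_top, ← hc.sup_eq_top, Submodule.map_sup,
            Submodule.finrank_eq_zero.1 h0, sup_bot_eq]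
        rw [h3]
        intro a ha b hb
        exact hU a (map_sub_le hUx ha) b (map_sub_le hUx hb)
      · have h4 := Nat.le_of_dvd h0 hd2
        have h3 : LinearMap.range (x - 1) = W.map (x - 1) := by
          rw [← Submodule.map_top, ← hc.sup_eq_top, Submodule.map_sup,
            Submodule.finrank_eq_zero.1 (show finrank F (U.map (x - 1)) = 0 by omega),
            bot_sup_eq]
        rw [h3]
        intro a ha b hb
        exact hW a (map_sub_le hWx ha) b (map_sub_le hWx hb)
    have hne : LinearMap.range (x - 1) ≠ ⊥ := by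
      intro h0
      rw [h0, finrank_bot] at hfr
      omega
    obtain ⟨u, hu, hu0⟩ := Submodule.exists_mem_ne_zero_of_ne_bot hne
    obtain ⟨v, hv, hne⟩ := hnd u hu hu0
    exact hne (hTI u hu v hv)
  · have h3 : U.map (x ^ 2) = U := by
      rw [sq, Module.End.mul_eq_comp, Submodule.map_comp, h1, h2]
    have h4 : ∀ n : ℕ, U.map ((x ^ 2) ^ n) = U := by
      intro n
      induction n with
      | zero => rw [pow_zero, Module.End.one_eq_id, Submodule.map_id]
      | succ n ih => rw [pow_succ, Module.End.mul_eq_comp, Submodule.map_comp, h3, ih]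
    have h5 : U.map (x ^ r) = W := by
      rw [he, pow_succ', pow_mul, Module.End.mul_eq_comp, Submodule.map_comp, h4, h1]
    rw [hxr, Module.End.one_eq_id, Submodule.map_id] at h5
    subst h5
    have h6 : U = ⊥ := by
      have := hc.inf_eq_bot
      rwa [inf_idem] at this
    have h7 : U = ⊤ := by
      have := hc.sup_eq_top
      rwa [sup_idem] at this
    have h8 : (Pi.single (Sum.inl ⟨0, hd⟩) 1 : Fin d ⊕ Fin d → F) ∈
        (⊥ : Submodule F (Fin d ⊕ Fin d → F)) := by
      rw [← h6, h7]; exact Submodule.mem_top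
    rw [Submodule.mem_bot] at h8
    have h9 := congrFun h8 (Sum.inl ⟨0, hd⟩)
    simp at h9

/-- Derangements of odd prime order of PSp_n(q), q odd, on pairs of complementary totally isotropic subspaces. Here `T = PSp_n(q)`, `n = 2d ≥ 4`, `q` odd, realised through the symplectic matrices over the field `F` with `q` elements; Ω is the set of unordered pairs `{U, W}` of complementary totally isotropic `d`-spaces (`F^n = U ⊕ W`), whose stabilizers are the subgroups of type GL_d(q).2 (maximal except in some small cases; maximality is not assumed); an element of `T` of prime order `r` (a symplectic matrix `x` with `x^r` scalar, `x` not scalar) fixes such a pair when it fixes or interchanges `U` and `W`. For every odd prime `r ≠ p` dividing the number of such pairs, some element of `T` of order `r` fixes no such pair (the action is never `r`-elusive for odd `r ≠ p`). -/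
theorem result {F : Type*} [Field F] [Fintype F] {p : ℕ} [Fact p.Prime] [CharP F p] {q : ℕ} (hq : Fintype.card F = q)
    (d : ℕ) (hd : 2 ≤ d) (hT : (d, q) ≠ (2, 2)) (hodd : Odd q)
    (r : ℕ) [Fact r.Prime] (hr2 : r ≠ 2) (hrp : r ≠ p) (hΩ : r ∣ Nat.card {P : Submodule F (Fin d ⊕ Fin d → F) × Submodule F (Fin d ⊕ Fin d → F) // IsCompl P.1 P.2 ∧ (∀ u ∈ P.1, ∀ v ∈ P.1, Cfsg.sympForm d F u v = 0) ∧ (∀ u ∈ P.2, ∀ v ∈ P.2, Cfsg.sympForm d F u v = 0)} / 2) :
    ∃ x : ↥(Matrix.symplecticGroup (Fin d) F),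
      (∃ z : F, ((x ^ r : ↥(Matrix.symplecticGroup (Fin d) F)) : Matrix (Fin d ⊕ Fin d) (Fin d ⊕ Fin d) F) = z • (1 : Matrix (Fin d ⊕ Fin d) (Fin d ⊕ Fin d) F)) ∧
      (∀ z : F, (x : Matrix (Fin d ⊕ Fin d) (Fin d ⊕ Fin d) F) ≠ z • (1 : Matrix (Fin d ⊕ Fin d) (Fin d ⊕ Fin d) F)) ∧
      ¬ (∃ U W : Submodule F (Fin d ⊕ Fin d → F), IsCompl U W ∧ (∀ u ∈ U, ∀ v ∈ U, Cfsg.sympForm d F u v = 0) ∧ (∀ u ∈ W, ∀ v ∈ W, Cfsg.sympForm d F u v = 0) ∧
        ((U.map (Matrix.toLin' (x : Matrix (Fin d ⊕ Fin d) (Fin d ⊕ Fin d) F)) = U ∧ W.map (Matrix.toLin' (x : Matrix (Fin d ⊕ Fin d) (Fin d ⊕ Fin d) F)) = W) ∨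
         (U.map (Matrix.toLin' (x : Matrix (Fin d ⊕ Fin d) (Fin d ⊕ Fin d) F)) = W ∧ W.map (Matrix.toLin' (x : Matrix (Fin d ⊕ Fin d) (Fin d ⊕ Fin d) F)) = U))) := by
  subst hq
  have hrF : (r : F) ≠ 0 := by
    intro h0
    have h1 : p ∣ r := (CharP.cast_eq_zero_iff F p r).1 h0
    exact hrp ((Nat.prime_dvd_prime_iff_eq (Fact.out : p.Prime) (Fact.out : r.Prime)).1 h1).symm
  have hr := (Fact.out : r.Prime)
  have hcop := coprime_card (F := F) hrF
  have hord := Cfsg.Agent.H952.SympSemi.orderOf_pos hcop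
  have hA : (sympBilin d F).IsAlt := sympBilin_isAlt
  have hV : finrank F (Fin d ⊕ Fin d → F) = 2 * d := by
    rw [Module.finrank_fintype_fun_eq_card, Fintype.card_sum, Fintype.card_fin]; omega
  have hΩ' : r ∣ Nat.card {P // Cfsg.Agent.H952.Polar.IsPair d F P} :=
    hΩ.trans (Nat.div_dvd_of_dvd (Cfsg.Agent.H952.Polar.even_card (F := F) (d := d) (by omega)))
  obtain ⟨j, hj, hjr⟩ := Cfsg.Agent.H952.Polar.exists_dvd hrF hΩ'
  obtain ⟨hev, hle⟩ := Cfsg.Agent.H952.Polar.order_even hr2 (by omega) hjr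
  have hcc : cc (Fintype.card F) r = orderOf ((Fintype.card F : ℕ) : ZMod r) := by
    rw [cc, if_pos hev]
  obtain ⟨k, hk⟩ := hev
  obtain ⟨W, -, hW, hWf⟩ := exists_even_dim (B := sympBilin d F) hA k ⊤ nd_top
    (by rw [finrank_top, hV]; omega)
  obtain ⟨x, hx⟩ := exists_freeOn (B := sympBilin d F) hA hrF 1 W hW (by omega)
  have hfr := hx.finrank_range hA hW
  obtain ⟨y, hy⟩ := exists_symplectic x hx.isom
  have hpow : Matrix.toLin' ((y ^ r : ↥(Matrix.symplecticGroup (Fin d) F)) :
      Matrix (Fin d ⊕ Fin d) (Fin d ⊕ Fin d) F) = 1 := by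
    rw [← hx.pow, ← hy, ← Matrix.toLin'_pow]
    rfl
  refine ⟨y, ⟨1, ?_⟩, ?_, ?_⟩
  · apply Matrix.toLin'.injective
    rw [hpow, one_smul, Matrix.toLin'_one]
    rfl
  · intro z hz
    have h1 : x = z • (1 : Module.End F (Fin d ⊕ Fin d → F)) := by
      rw [← hy, hz, map_smul, Matrix.toLin'_one]
      rfl
    have h2 := eq_one_of_scalar (hr.eq_two_or_odd'.resolve_left hr2) (by omega) hx.pow hx.isom h1
    rw [h2, sub_self, LinearMap.range_zero, finrank_bot] at hfr
    omega
  · rintro ⟨U, W', hc, hU, hW', h⟩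
    rw [hy] at h
    exact no_pair hr2 hrF (by omega) hx.pow hx.isom (by omega) hc hU hW' h

end Cfsg.Agent.S5963
end
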