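import Mathlib
import Cfsg.Prelude.Def_GeometricClasses
import Cfsg.Agent.H953.Cent
import Cfsg.Agent.H953.Basic
import Cfsg.Agent.H953.SubConj
import Cfsg.Statements.S5964
import Cfsg.Agent.H953.Index
set_option linter.all false

-- part: H953/Roots
section
set_option autoImplicit false

namespace Cfsg.Agent.H953

open Polynomial

universe u

section Cyclic

variable {F : Type u} [Field F] [Fintype F]

theorem exists_gen : ∃ ζ : Fˣ, orderOf ζ = Fintype.card F - 1 ∧ ∀ a : Fˣ, ∃ t : ℕ, a = ζ ^ t := by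
  classical
  obtain ⟨ζ, hζ⟩ := IsCyclic.exists_generator (α := Fˣ)
  refine ⟨ζ, ?_, fun a => ?_⟩
  · rw [orderOf_eq_card_of_forall_mem_zpowers hζ, Nat.card_eq_fintype_card, Fintype.card_units]
  · obtain ⟨t, ht⟩ := (mem_powers_iff_mem_zpowers.mpr (hζ a))
    exact ⟨t, ht.symm⟩

/-- A non-`r`-th power of order a power of `r`. -/
theorem exists_not_pow (r : ℕ) [Fact r.Prime] (h : r ∣ Fintype.card F - 1) :
    ∃ z : F, z ≠ 0 ∧ z ^ (r ^ padicValNat r (Fintype.card F - 1)) = 1 ∧ ∀ b : F, b ^ r ≠ z := by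
  obtain ⟨ζ, hζ, hgen⟩ := exists_gen (F := F)
  have hpos : Fintype.card F - 1 ≠ 0 := by
    have := Fintype.one_lt_card (α := F)
    omega
  set ν := padicValNat r (Fintype.card F - 1) with hν
  obtain ⟨s, hs⟩ : r ^ ν ∣ Fintype.card F - 1 := pow_padicValNat_dvd
  have hrs : ¬ r ∣ s := by
    rintro ⟨t, rfl⟩
    have h1 : r ^ (ν + 1) ∣ Fintype.card F - 1 := ⟨t, by rw [hs]; ring⟩
    have := (padicValNat_dvd_iff_le hpos).mp h1
    omega
  refine ⟨((ζ ^ s : Fˣ) : F), Units.ne_zero _, ?_, ?_⟩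
  · rw [← Units.val_pow_eq_pow_val, ← pow_mul, mul_comm, ← hs, ← hζ, pow_orderOf_eq_one, Units.val_one]
  · intro b hb
    have hb0 : b ≠ 0 := by
      rintro rfl
      rw [zero_pow (Fact.out : r.Prime).ne_zero] at hb
      exact (Units.ne_zero _) hb.symm
    obtain ⟨t, ht⟩ := hgen (Units.mk0 b hb0)
    have h1 : (Units.mk0 b hb0) ^ r = ζ ^ s := Units.ext hb
    rw [ht, ← pow_mul] at h1
    have h2 := pow_eq_pow_iff_modEq.mp h1
    rw [hζ] at h2
    have h3 := h2.of_dvd h
    have h4 : r ∣ t * r := Dvd.intro_left t rfl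
    exact hrs ((h3.dvd_iff dvd_rfl).mp h4)

/-- `c ^ d = 1` with `v_r(d) < v_r(q - 1)`: `c` is an `r`-th power. -/
theorem exists_root_of_pow_eq_one (r : ℕ) [Fact r.Prime] {c : F} {d : ℕ} (hd : d ≠ 0) (hc : c ^ d = 1)
    (h : padicValNat r d < padicValNat r (Fintype.card F - 1)) : ∃ b : F, b ^ r = c := by
  obtain ⟨ζ, hζ, hgen⟩ := exists_gen (F := F)
  have hpos : Fintype.card F - 1 ≠ 0 := by
    have := Fintype.one_lt_card (α := F)
    omega
  have hc0 : c ≠ 0 := by
    rintro rfl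
    rw [zero_pow hd] at hc
    exact zero_ne_one hc
  obtain ⟨t, ht⟩ := hgen (Units.mk0 c hc0)
  by_cases ht0 : t = 0
  · refine ⟨1, ?_⟩
    rw [ht0, pow_zero] at ht
    rw [one_pow]
    exact (congrArg Units.val ht).symm
  have h1 : (Units.mk0 c hc0) ^ d = 1 := Units.ext hc
  rw [ht, ← pow_mul, ← orderOf_dvd_iff_pow_eq_one, hζ] at h1
  have h2 : padicValNat r (Fintype.card F - 1) ≤ padicValNat r (t * d) := by
    rw [← padicValNat_dvd_iff_le (mul_ne_zero ht0 hd)]
    exact pow_padicValNat_dvd.trans h1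
  rw [padicValNat.mul ht0 hd] at h2
  have h3 : 1 ≤ padicValNat r t := by omega
  have h4 : r ∣ t := by
    rw [← pow_one r, padicValNat_dvd_iff_le ht0]; exact h3
  obtain ⟨l, rfl⟩ := h4
  refine ⟨((ζ ^ l : Fˣ) : F), ?_⟩
  rw [← Units.val_pow_eq_pow_val, ← pow_mul, mul_comm l r, ← ht]
  rfl

/-- If `r` is prime to `q - 1`, all elements are `r`-th powers. -/
theorem exists_root_of_not_dvd (r : ℕ) [Fact r.Prime] (h : ¬ r ∣ Fintype.card F - 1) (c : F) : ∃ b : F, b ^ r = c := by
  classical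
  by_cases hc : c = 0
  · exact ⟨0, by rw [hc, zero_pow (Fact.out : r.Prime).ne_zero]⟩
  have hcop : (Nat.card Fˣ).Coprime r := by
    rw [Nat.card_eq_fintype_card, Fintype.card_units, Nat.coprime_comm]
    exact (Nat.Prime.coprime_iff_not_dvd Fact.out).mpr h
  obtain ⟨b, hb⟩ := (Nat.Coprime.pow_left_bijective hcop).surjective (Units.mk0 c hc)
  exact ⟨b, congrArg Units.val hb⟩

/-- If `r` is prime to `q - 1`, `r`-th powers determine the element. -/
theorem pow_inj_of_not_dvd (r : ℕ) [Fact r.Prime] (h : ¬ r ∣ Fintype.card F - 1) {a b : F} (hab : a ^ r = b ^ r) :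
    a = b := by
  classical
  have hr0 := (Fact.out : r.Prime).ne_zero
  by_cases ha : a = 0
  · rw [ha, zero_pow hr0] at hab
    rw [ha]; exact (pow_eq_zero_iff hr0 |>.mp hab.symm).symm
  by_cases hb : b = 0
  · rw [hb, zero_pow hr0] at hab
    exact absurd (pow_eq_zero_iff hr0 |>.mp hab) ha
  have hcop : (Nat.card Fˣ).Coprime r := by
    rw [Nat.card_eq_fintype_card, Fintype.card_units, Nat.coprime_comm]
    exact (Nat.Prime.coprime_iff_not_dvd Fact.out).mpr h
  have := (Nat.Coprime.pow_left_bijective hcop).injective (a₁ := Units.mk0 a ha) (a₂ := Units.mk0 b hb) (Units.ext hab)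
  exact congrArg Units.val this

end Cyclic

section Divisors

variable {F : Type u} [Field F] [Fintype F]

/-- Monic divisors of `X ^ r - 1` over `F` have coefficients in `F₀` when `|F| ≡ |F₀| (mod r)`. -/
theorem coeff_mem_of_dvd (p : ℕ) [Fact p.Prime] [CharP F p] (F₀ : Subfield F) {q₀ : ℕ} (hF₀ : Nat.card F₀ = q₀)
    (r : ℕ) (hr : (r : F) ≠ 0) (hle : q₀ ≤ Fintype.card F) (hmod : r ∣ Fintype.card F - q₀)
    (g : F[X]) (hg : g.Monic) (hdvd : g ∣ X ^ r - 1) (m : ℕ) : g.coeff m ∈ F₀ := by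
  have : ExpChar F p := ExpChar.prime Fact.out
  have : Fintype F₀ := Fintype.ofFinite F₀
  have : CharP F₀ p := by
    refine ⟨fun a => ?_⟩
    rw [← CharP.cast_eq_zero_iff F p a]
    constructor
    · intro h; have := congrArg Subtype.val h; simpa using this
    · intro h; apply Subtype.ext; simpa using h
  obtain ⟨a, ha⟩ : ∃ a : ℕ, q₀ = p ^ a := by
    obtain ⟨a, -, ha⟩ := FiniteField.card F₀ p
    exact ⟨a, by rw [← hF₀, Nat.card_eq_fintype_card, ha]⟩
  set g' : F[X] := g.map (iterateFrobenius F p a) with hg'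
  have hg'm : g'.Monic := hg.map _
  have h1 : expand F q₀ g' = g ^ q₀ := by
    rw [ha, hg', ← map_expand, map_iterateFrobenius_expand]
  have h2 : expand F (Fintype.card F) g' = g' ^ Fintype.card F := FiniteField.expand_card g'
  have h3 : (X ^ r - 1 : F[X]) ∣ X ^ (Fintype.card F) - X ^ q₀ := by
    obtain ⟨l, hl⟩ := hmod
    have : (X : F[X]) ^ (Fintype.card F) - X ^ q₀ = X ^ q₀ * ((X ^ r) ^ l - 1 ^ l) := by
      have : Fintype.card F = q₀ + r * l := by omega
      rw [this, pow_add, pow_mul, one_pow]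
      ring
    rw [this]
    exact Dvd.dvd.mul_left (sub_dvd_pow_sub_pow _ _ _) _
  have h4 : (X : F[X]) ^ (Fintype.card F) - X ^ q₀ ∣ expand F (Fintype.card F) g' - expand F q₀ g' := by
    rw [expand_eq_comp_X_pow, expand_eq_comp_X_pow]
    have := sub_dvd_eval_sub (X ^ (Fintype.card F) : F[X]) (X ^ q₀) (g'.map C)
    rwa [← eval₂_eq_eval_map, ← eval₂_eq_eval_map] at this
  have h5 : g ∣ g' ^ Fintype.card F := by
    have h6 : g ∣ expand F (Fintype.card F) g' - expand F q₀ g' := hdvd.trans (h3.trans h4)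
    rw [h1, h2] at h6
    have h7 : g ∣ g ^ q₀ := by
      apply dvd_pow_self
      rw [ha]
      exact pow_ne_zero _ (Fact.out : p.Prime).ne_zero
    exact (dvd_sub_left h7).mp h6
  have hsq : Squarefree g := ((X_pow_sub_one_separable_iff.mpr hr).squarefree).squarefree_of_dvd hdvd
  have h6 : g ∣ g' := (hsq.dvd_pow_iff_dvd Fintype.card_ne_zero).mp h5
  have h7 : g' = g := eq_of_monic_of_dvd_of_natDegree_le hg hg'm h6 (by rw [hg', hg.natDegree_map])
  rw [mem_subfield_iff_pow F₀ hF₀]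
  have h8 := congrArg (fun h => h.coeff m) h7
  simp only [hg', coeff_map, iterateFrobenius_def] at h8
  rw [ha]
  exact h8

end Divisors

section Matrices

variable {F : Type u} [Field F]

theorem pow_eq_smul_of_aeval {ι : Type*} [Fintype ι] [DecidableEq ι] {x : Matrix ι ι F} {r : ℕ} {z : F} :
    aeval x (X ^ r - C z) = 0 ↔ x ^ r = z • (1 : Matrix ι ι F) := by
  rw [map_sub, map_pow, aeval_X, aeval_C, Algebra.algebraMap_eq_smul_one, sub_eq_zero]

/-- If `x ^ r = z` where `z` is not an `r`-th power, `det x` is determined. -/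
theorem det_of_irreducible {ι : Type*} [Fintype ι] [DecidableEq ι] (x : Matrix ι ι F) {r : ℕ} (hr : r.Prime) (z : F)
    (hx : x ^ r = z • (1 : Matrix ι ι F)) (hz : ∀ b : F, b ^ r ≠ z) :
    ∃ d : ℕ, d * r = Fintype.card ι ∧ x.det = ((-1) ^ r * (-z)) ^ d := by
  obtain ⟨d, g, e, P, hg, hann, hP⟩ := exists_rcf x
  have hirr : Irreducible (X ^ r - C z) := X_pow_sub_C_irreducible_of_prime hr hz
  have hmon : (X ^ r - C z).Monic := monic_X_pow_sub_C z hr.ne_zero
  have hdvd := (hann _).mp (pow_eq_smul_of_aeval.mpr hx)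
  have hgi : ∀ i, g i = X ^ r - C z := by
    intro i
    obtain ⟨q, m, hq, hqirr, hm, h⟩ := hg i
    have h1 : q ∣ X ^ r - C z := (dvd_pow_self q hm.ne').trans (h ▸ hdvd i)
    have h2 : X ^ r - C z ∣ q := hqirr.dvd_symm hirr h1
    have h3 : q = X ^ r - C z := eq_of_monic_of_associated hq hmon (associated_of_dvd_dvd h1 h2)
    have h4 : X ^ r - C z ∣ g i := by rw [h, ← h3]; exact dvd_pow_self q hm.ne'
    exact eq_of_monic_of_associated (monic_of_pow (hg i)) hmon (associated_of_dvd_dvd (hdvd i) h4)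
  have hdeg : ∀ i, (g i).natDegree = r := by
    intro i; rw [hgi, natDegree_X_pow_sub_C]
  refine ⟨d, ?_, ?_⟩
  · rw [← sum_natDegree e, Finset.sum_congr rfl (fun i _ => hdeg i), Finset.sum_const, Finset.card_univ,
      Fintype.card_fin, smul_eq_mul]
  · have hPd : (P : Matrix ι ι F).det ≠ 0 := (Matrix.isUnits_det_units P).ne_zero
    have h1 := congrArg Matrix.det hP
    rw [Matrix.det_mul, Matrix.det_mul, Matrix.det_reindex_self, det_blockDiagonal', mul_comm] at h1
    rw [mul_left_cancel₀ hPd h1]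
    have h2 : ∀ i, (comp (g i)).det = (-1) ^ r * (-z) := by
      intro i
      rw [det_comp (monic_of_pow (hg i)), hdeg, hgi]
      simp [hr.ne_zero.symm]
    rw [Finset.prod_congr rfl (fun i _ => h2 i), Finset.prod_const, Finset.card_univ, Fintype.card_fin]

/-- Existence of elements with scalar `r`-th power. -/
theorem exists_sl_pow_eq (r m : ℕ) (hr : 0 < r) (z : F) (h : ((-1) ^ r * (-z)) ^ m = 1) :
    ∃ x : Matrix.SpecialLinearGroup (Fin (r * m)) F,
      ((x ^ r : Matrix.SpecialLinearGroup (Fin (r * m)) F) : Matrix (Fin (r * m)) (Fin (r * m)) F) = z • 1 := by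
  have hdeg : (X ^ r - C z : F[X]).natDegree = r := natDegree_X_pow_sub_C
  have hmon : (X ^ r - C z : F[X]).Monic := monic_X_pow_sub_C z hr.ne'
  let M : Matrix (Fin (X ^ r - C z : F[X]).natDegree) (Fin (X ^ r - C z : F[X]).natDegree) F := comp (X ^ r - C z)
  have hM : M ^ r = z • 1 := by
    rw [← pow_eq_smul_of_aeval]
    exact (aeval_comp_eq_zero hmon _).mpr dvd_rfl
  have hMd : M.det = (-1) ^ r * (-z) := by
    refine (det_comp hmon).trans ?_
    rw [hdeg]
    simp only [coeff_sub, coeff_X_pow, coeff_C_zero]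
    rw [if_neg hr.ne, zero_sub]
  let e : Fin (X ^ r - C z : F[X]).natDegree × Fin m ≃ Fin (r * m) :=
    (Equiv.prodCongr (finCongr hdeg) (Equiv.refl _)).trans finProdFinEquiv
  let B := Matrix.blockDiagonal (fun _ : Fin m => M)
  let φ := Matrix.reindexAlgEquiv F F e
  have hdet : (φ B).det = 1 := by
    have h1 : (φ B).det = B.det := Matrix.det_reindexAlgEquiv F F e B
    rw [h1, Matrix.det_blockDiagonal, Finset.prod_const, Finset.card_univ, Fintype.card_fin, hMd, h]
  refine ⟨⟨φ B, hdet⟩, ?_⟩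
  have h2 : B ^ r = z • 1 := by
    rw [← Matrix.blockDiagonal_pow]
    have : ((fun _ : Fin m => M) ^ r) = z • (1 : Fin m → Matrix _ _ F) := by
      funext i
      simp only [Pi.pow_apply, hM]
      rfl
    rw [this, Matrix.blockDiagonal_smul, Matrix.blockDiagonal_one]
  change (φ B) ^ r = _
  rw [← map_pow, h2, map_smul, map_one]

/-- If `x ^ r = z` and `x` is conjugate into the subfield group, then `z ∈ F₀ (F^*) ^ r`. -/
theorem exists_of_conj {n : ℕ} (hn : 0 < n) (F₀ : Subfield F) (x P : Matrix.SpecialLinearGroup (Fin n) F) {r : ℕ} {z : F}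
    (hz : ((x ^ r : Matrix.SpecialLinearGroup (Fin n) F) : Matrix (Fin n) (Fin n) F) = z • (1 : Matrix (Fin n) (Fin n) F))
    (h : P⁻¹ * x * P ∈ (Cfsg.Geo.subfieldSubgroup F₀ 1).comap
      (Matrix.SpecialLinearGroup.toGL : Matrix.SpecialLinearGroup (Fin n) F →* GL (Fin n) F)) :
    ∃ (c s : F), c ≠ 0 ∧ s ∈ F₀ ∧ z = c ^ r * s := by
  obtain ⟨y, c, hc, hyc⟩ := eq_of_mem_subfield F₀ x P h
  rw [Matrix.SpecialLinearGroup.coe_pow] at hz
  set Pm : Matrix (Fin n) (Fin n) F := (P : Matrix (Fin n) (Fin n) F) with hPm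
  have hPdet : Pm.det = 1 := P.det_coe
  have h2 : ∀ l : ℕ, (x : Matrix (Fin n) (Fin n) F) ^ l * Pm =
      Pm * (c • (y : Matrix (Fin n) (Fin n) F₀).map F₀.subtype) ^ l := by
    intro l
    induction l with
    | zero => simp
    | succ l ih => rw [pow_succ, mul_assoc, hyc, ← mul_assoc, ih, mul_assoc, ← pow_succ]
  have h3 := h2 r
  rw [hz, Matrix.smul_mul, one_mul] at h3
  have h4 : z • (1 : Matrix (Fin n) (Fin n) F) = (c • (y : Matrix (Fin n) (Fin n) F₀).map F₀.subtype) ^ r := by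
    have := congrArg (fun M => Pm⁻¹ * M) h3
    simp only [Matrix.mul_smul, ← mul_assoc, Matrix.nonsing_inv_mul _ (by rw [hPdet]; exact isUnit_one : IsUnit Pm.det),
      one_mul] at this
    exact this
  have h5 : (c • (y : Matrix (Fin n) (Fin n) F₀).map F₀.subtype) ^ r =
      c ^ r • ((y : Matrix (Fin n) (Fin n) F₀) ^ r).map F₀.subtype := by
    rw [_root_.smul_pow]
    congr 1
    exact (map_pow (F₀.subtype.mapMatrix) (y : Matrix (Fin n) (Fin n) F₀) r).symm
  rw [h5] at h4
  have h6 := congrFun (congrFun h4 ⟨0, hn⟩) ⟨0, hn⟩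
  rw [Matrix.smul_apply, Matrix.one_apply_eq, smul_eq_mul, mul_one, Matrix.smul_apply, Matrix.map_apply, smul_eq_mul] at h6
  exact ⟨c, _, hc, SetLike.coe_mem _, h6⟩

end Matrices

end Cfsg.Agent.H953
end

-- part: S5964
section
set_option autoImplicit false
open scoped MatrixGroups
open Cfsg

namespace Cfsg.Agent.S5964

open Polynomial Cfsg.Agent.H953

universe u

variable {F : Type u} [Field F] [Fintype F]

omit [Fintype F] in
theorem z_ne_zero {n : ℕ} (hn : 2 ≤ n) (x : Matrix.SpecialLinearGroup (Fin n) F) {m : ℕ} {z : F}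
    (h : ((x ^ m : Matrix.SpecialLinearGroup (Fin n) F) : Matrix (Fin n) (Fin n) F) = z • (1 : Matrix (Fin n) (Fin n) F)) :
    z ≠ 0 := by
  rintro rfl
  have : Nonempty (Fin n) := ⟨⟨0, by omega⟩⟩
  have h2 := (x ^ m).det_coe
  rw [h, zero_smul, Matrix.det_zero] at h2
  exact zero_ne_one h2

/-- The case of even `q`. -/
theorem even_case [CharP F 2] (n : ℕ) (hn : 2 ≤ n)
    (F₀ : Subfield F) (x : Matrix.SpecialLinearGroup (Fin n) F)
    (hx : ∃ z : F, ((x ^ 2 : Matrix.SpecialLinearGroup (Fin n) F) : Matrix (Fin n) (Fin n) F) = z • (1 : Matrix (Fin n) (Fin n) F)) :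
    ∃ P : Matrix.SpecialLinearGroup (Fin n) F, P⁻¹ * x * P ∈ ((Cfsg.Geo.subfieldSubgroup F₀ 1).comap (Matrix.SpecialLinearGroup.toGL : Matrix.SpecialLinearGroup (Fin n) F →* GL (Fin n) F)) := by
  classical
  have hne : Nonempty (Fin n) := ⟨⟨0, by omega⟩⟩
  have hnz : NeZero n := ⟨by omega⟩
  obtain ⟨z, hz⟩ := hx
  have hz0 := z_ne_zero hn x hz
  rw [Matrix.SpecialLinearGroup.coe_pow] at hz
  obtain ⟨w, u, hw, hxu, hu, hu1⟩ := exists_unipotent 2 (x : Matrix (Fin n) (Fin n) F) z hz0 hz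
  obtain ⟨P, y, hP⟩ := exists_descent F₀ u _ hu (by
    intro g hg hdvd m
    obtain ⟨j, -, rfl⟩ := dvd_X_sub_one_pow hg hdvd
    exact coeff_X_sub_one_pow_mem F₀ j m)
  have hPx : (x : Matrix (Fin n) (Fin n) F) * (P : Matrix (Fin n) (Fin n) F) =
      (P : Matrix (Fin n) (Fin n) F) * (w • y.map F₀.subtype) := by
    rw [hxu, Matrix.smul_mul, hP, Matrix.mul_smul]
  have hmem := mem_subfield_of_eq F₀ x P w y hPx
  obtain ⟨d, g, e, Q, hg, hann, hQ⟩ := exists_rcf u
  have hcomm : ∀ A : Matrix (Fin n) (Fin n) F, A * u = u * A → A * (x : Matrix (Fin n) (Fin n) F) =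
      (x : Matrix (Fin n) (Fin n) F) * A := by
    intro A hA
    rw [hxu, Matrix.mul_smul, Matrix.smul_mul, hA]
  have hall : ∀ c : F, ∃ A : Matrix (Fin n) (Fin n) F,
      A * (x : Matrix (Fin n) (Fin n) F) = (x : Matrix (Fin n) (Fin n) F) * A ∧ A.det = c := by
    intro c
    obtain ⟨i, hi⟩ := exists_index e
    have hdeg : (g i).natDegree ≤ 2 := by
      obtain ⟨j, hj, h⟩ := dvd_X_sub_one_pow (monic_of_pow (hg i)) ((hann _).mp hu i)
      rw [h]
      have : (X - 1 : F[X]) = X - C 1 := by rw [C_1]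
      rw [this, natDegree_pow, natDegree_X_sub_C]
      omega
    have h3 : (g i).natDegree = 1 ∨ (g i).natDegree = 2 := by omega
    rcases h3 with h | h
    · obtain ⟨A, hA, hd⟩ := exists_commute_scale hQ i c
      exact ⟨A, hcomm A hA, by rw [hd, h, pow_one]⟩
    · obtain ⟨b, hb⟩ := exists_pow_char 2 c
      obtain ⟨A, hA, hd⟩ := exists_commute_scale hQ i b
      exact ⟨A, hcomm A hA, by rw [hd, h, hb]⟩
  exact conj_sl_of_gl _ x hall P hmem

/-- If `x ^ r = w ^ r` is scalar, `r ≠ p`, and `q ≡ q₀ (mod r)`, then `x` is conjugate into the subfield group. -/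
theorem conj_of_root {p : ℕ} [Fact p.Prime] [CharP F p] (n : ℕ) (hn : 2 ≤ n)
    (F₀ : Subfield F) {q₀ : ℕ} (hF₀ : Nat.card F₀ = q₀) (r : ℕ) (hr : r.Prime) (hrp : r ≠ p)
    (hle : q₀ ≤ Fintype.card F) (hmod : r ∣ Fintype.card F - q₀)
    (x : Matrix.SpecialLinearGroup (Fin n) F) (w : F)
    (hx : ((x ^ r : Matrix.SpecialLinearGroup (Fin n) F) : Matrix (Fin n) (Fin n) F) = (w ^ r) • (1 : Matrix (Fin n) (Fin n) F)) :
    ∃ P : Matrix.SpecialLinearGroup (Fin n) F, P⁻¹ * x * P ∈ ((Cfsg.Geo.subfieldSubgroup F₀ 1).comap (Matrix.SpecialLinearGroup.toGL : Matrix.SpecialLinearGroup (Fin n) F →* GL (Fin n) F)) := by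
  have hne : Nonempty (Fin n) := ⟨⟨0, by omega⟩⟩
  have hnz : NeZero n := ⟨by omega⟩
  have hw : w ≠ 0 := by
    intro h
    exact z_ne_zero hn x hx (by rw [h, zero_pow hr.ne_zero])
  have hrF : (r : F) ≠ 0 := by
    rw [Ne, CharP.cast_eq_zero_iff F p]
    intro h
    exact hrp ((Nat.prime_dvd_prime_iff_eq Fact.out hr).mp h).symm
  rw [Matrix.SpecialLinearGroup.coe_pow] at hx
  set y : Matrix (Fin n) (Fin n) F := w⁻¹ • (x : Matrix (Fin n) (Fin n) F) with hy
  have hxy : (x : Matrix (Fin n) (Fin n) F) = w • y := by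
    rw [hy, smul_smul, mul_inv_cancel₀ hw, one_smul]
  have hy1 : y ^ r = 1 := by
    rw [hy, _root_.smul_pow, hx, smul_smul, inv_pow, inv_mul_cancel₀ (pow_ne_zero _ hw), one_smul]
  have hyX : aeval y (X ^ r - 1 : F[X]) = 0 := by
    rw [map_sub, map_pow, aeval_X, map_one, hy1, sub_self]
  obtain ⟨P, y₀, hP⟩ := exists_descent F₀ y _ hyX (by
    intro g hg hdvd m
    exact coeff_mem_of_dvd p F₀ hF₀ r hrF hle hmod g hg hdvd m)
  have hPx : (x : Matrix (Fin n) (Fin n) F) * (P : Matrix (Fin n) (Fin n) F) =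
      (P : Matrix (Fin n) (Fin n) F) * (w • y₀.map F₀.subtype) := by
    rw [hxy, Matrix.smul_mul, hP, Matrix.mul_smul]
  have hmem := mem_subfield_of_eq F₀ x P w y₀ hPx
  refine conj_sl_of_gl _ x ?_ P hmem
  intro c
  obtain ⟨A, hA, hd⟩ := exists_commute_det_of_squarefree y _ ((X_pow_sub_one_separable_iff.mpr hrF).squarefree) hyX c
  refine ⟨A, ?_, hd⟩
  rw [hxy, Matrix.mul_smul, Matrix.smul_mul, hA]

/-- Involutions of PSL_n(q) and subfield subgroups. Here `T = PSL_n(F)` for a field `F` with `q = p^f` elements (`n ≥ 2`, `(n, q) ≠ (2, 2), (2, 3)`), `F₀` is the subfield with `q₀` elements where `q = q₀^k` for a prime `k`, and `H` is the subgroup of matrices of determinant 1 lying in the subfield group of `F₀` (invertible matrices over `F₀` times scalars) — a maximal subgroup of type GL_n(q₀) (the non-maximal case `n = 2`, `q₀ = 2` is excluded); Ω is the set of `T`-conjugates of `H` (cosets of `H`), so an element of `T` of prime order `r` (a matrix `x`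 of determinant 1 with `x^r` scalar, `x` not scalar) fixes a point of Ω when some conjugate of `x` by a matrix of determinant 1 lies in `H`. Suppose the index of `H` is even. Then every involution of `T` is conjugate in `T` into `H` if and only if either `q` is even, or `k = 2` and `(n)_2 ≤ (q − 1)_2`. (For `q` odd and `k` odd the index of `H` is odd, so that case does not arise.) -/
theorem result {F : Type*} [Field F] [Fintype F] {p : ℕ} [Fact p.Prime] [CharP F p] {q : ℕ} (hq : Fintype.card F = q)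
    (n : ℕ) (hn : 2 ≤ n) (hT : (n, q) ≠ (2, 2) ∧ (n, q) ≠ (2, 3))
    (F₀ : Subfield F) (k q₀ : ℕ) (hk : k.Prime) (hF₀ : Nat.card ↥F₀ = q₀) (hqk : q = q₀ ^ k) (hC5 : ¬ (n = 2 ∧ q₀ = 2)) (hΩ : 2 ∣ ((Cfsg.Geo.subfieldSubgroup F₀ 1).comap (Matrix.SpecialLinearGroup.toGL : Matrix.SpecialLinearGroup (Fin n) F →* GL (Fin n) F)).index) :
    (∀ x : Matrix.SpecialLinearGroup (Fin n) F,
      (∃ z : F, ((x ^ 2 : Matrix.SpecialLinearGroup (Fin n) F) : Matrix (Fin n) (Fin n) F) = z • (1 : Matrix (Fin n) (Fin n) F)) →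
      (∀ z : F, (x : Matrix (Fin n) (Fin n) F) ≠ z • (1 : Matrix (Fin n) (Fin n) F)) →
      ∃ P : Matrix.SpecialLinearGroup (Fin n) F, P⁻¹ * x * P ∈ ((Cfsg.Geo.subfieldSubgroup F₀ 1).comap (Matrix.SpecialLinearGroup.toGL : Matrix.SpecialLinearGroup (Fin n) F →* GL (Fin n) F))) ↔
    (Odd q → (k = 2 ∧ padicValNat 2 n ≤ padicValNat 2 (q - 1))) := by
  classical
  have hfin : Fintype F₀ := Fintype.ofFinite F₀
  have hc0 : Fintype.card F₀ = q₀ := by rw [← hF₀, Nat.card_eq_fintype_card]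
  have hq01 : 1 < q₀ := hc0 ▸ Fintype.one_lt_card
  constructor
  · intro h hodd
    have hp2 : 2 ≠ p := by
      rintro rfl
      obtain ⟨l, -, hl⟩ := FiniteField.card F 2
      rw [hq] at hl
      rw [hl] at hodd
      exact (Nat.not_even_iff_odd.mpr hodd) ((even_two).pow_of_ne_zero l.ne_zero)
    have hq0odd : Odd q₀ := by
      by_contra hcon
      rw [Nat.not_odd_iff_even] at hcon
      rw [hqk] at hodd
      exact (Nat.not_even_iff_odd.mpr hodd) (hcon.pow_of_ne_zero hk.ne_zero)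
    obtain ⟨j, hj2, hjn, -, hj⟩ := exists_of_dvd_index n hn F₀ k q₀ hF₀ (hq.trans hqk) hk 2 Nat.prime_two hp2 hΩ
    have hk2 : 2 = k := by
      apply hj
      have : Odd (q₀ ^ j) := hq0odd.pow
      obtain ⟨l, hl⟩ := this
      exact ⟨l, by omega⟩
    subst hk2
    refine ⟨rfl, ?_⟩
    by_contra hcon
    push Not at hcon
    -- the element of order 2 with irreducible minimal polynomial
    have h2q : 2 ∣ Fintype.card F - 1 := by
      rw [hq]
      obtain ⟨l, hl⟩ := hodd
      exact ⟨l, by omega⟩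
    obtain ⟨z, hz0, hz1, hzn⟩ := exists_not_pow (F := F) 2 h2q
    rw [hq] at hz1
    have hn0 : n ≠ 0 := by omega
    obtain ⟨m, hm⟩ : 2 ^ (padicValNat 2 (q - 1) + 1) ∣ n := (padicValNat_dvd_iff_le hn0).mpr hcon
    set ν := padicValNat 2 (q - 1) with hν
    have hν1 : 1 ≤ ν := by
      rw [hν]
      have : q - 1 ≠ 0 := by
        have := Fintype.one_lt_card (α := F)
        omega
      rw [← padicValNat_dvd_iff_le this, pow_one, ← hq]
      exact h2q
    have hn2 : n = 2 * (2 ^ ν * m) := by rw [hm]; ring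
    subst hn2
    obtain ⟨x, hx⟩ := exists_sl_pow_eq (F := F) 2 (2 ^ ν * m) (by norm_num) z (by
      rw [pow_mul]
      have : ((-1) ^ 2 * -z) ^ 2 ^ ν = 1 := by
        have h3 : Even (2 ^ ν) := (even_two).pow_of_ne_zero (by omega)
        rw [neg_one_sq, one_mul, h3.neg_pow, hz1]
      rw [this, one_pow])
    obtain ⟨P, hP⟩ := h x ⟨z, hx⟩ (by
      intro c hc
      apply hzn c
      rw [Matrix.SpecialLinearGroup.coe_pow, hc, _root_.smul_pow, one_pow] at hx
      have h6 := congrFun (congrFun hx ⟨0, by omega⟩) ⟨0, by omega⟩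
      simpa using h6)
    obtain ⟨c, s, hc, hs, hzs⟩ := exists_of_conj (by omega) F₀ x P hx hP
    obtain ⟨t, ht⟩ := isSquare_of_mem_subfield F₀ hF₀ (hq.trans hqk) hq0odd hs
    apply hzn (c * t)
    rw [hzs, ht]
    ring
  · intro h x hx hxs
    by_cases hp : p = 2
    · subst hp
      exact even_case n hn F₀ x hx
    · have hoddq : Odd q := by
        obtain ⟨l, -, hl⟩ := FiniteField.card F p
        rw [← hq, hl]
        exact ((Fact.out : p.Prime).odd_of_ne_two hp).pow
      obtain ⟨hk2, hle⟩ := h hoddq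
      subst hk2
      have hq0odd : Odd q₀ := by
        by_contra hcon
        rw [Nat.not_odd_iff_even] at hcon
        rw [hqk] at hoddq
        exact (Nat.not_even_iff_odd.mpr hoddq) (hcon.pow_of_ne_zero two_ne_zero)
      obtain ⟨z, hz⟩ := hx
      -- z is a square
      obtain ⟨w, hw⟩ : ∃ w : F, w ^ 2 = z := by
        by_contra hcon
        push Not at hcon
        have hz' := hz
        rw [Matrix.SpecialLinearGroup.coe_pow] at hz'
        obtain ⟨d, hd, hdet⟩ := det_of_irreducible (x : Matrix (Fin n) (Fin n) F) Nat.prime_two z hz' hcon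
        rw [Fintype.card_fin] at hd
        rw [x.det_coe, neg_one_sq, one_mul] at hdet
        have hd0 : d ≠ 0 := by rintro rfl; omega
        have h3 : padicValNat 2 d < padicValNat 2 (Fintype.card F - 1) := by
          rw [hq]
          refine lt_of_lt_of_le ?_ hle
          rw [← hd, padicValNat.mul hd0 two_ne_zero, padicValNat.self (by norm_num)]
          omega
        obtain ⟨b, hb⟩ := exists_root_of_pow_eq_one (F := F) 2 hd0 hdet.symm h3
        obtain ⟨i, hi⟩ := isSquare_of_mem_subfield F₀ hF₀ (hq.trans hqk) hq0odd (F₀.neg_mem F₀.one_mem)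
        apply hcon (i * b)
        rw [mul_pow, hb, pow_two, ← hi]
        ring
      rw [← hw] at hz
      refine conj_of_root n hn F₀ hF₀ 2 Nat.prime_two (Ne.symm hp) ?_ ?_ x w hz
      · rw [hq, hqk]; exact Nat.le_self_pow two_ne_zero _
      · rw [hq, hqk]
        have : q₀ ^ 2 - q₀ = q₀ * (q₀ - 1) := by
          rw [Nat.mul_sub, mul_one, pow_two]
        rw [this]
        obtain ⟨l, hl⟩ := hq0odd
        exact Dvd.dvd.mul_left ⟨l, by omega⟩ _

end Cfsg.Agent.S5964
end
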