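import Mathlib
import Cfsg.Agent.H953.Cent
import Cfsg.Agent.H953.Basic
import Cfsg.Statements.S5965
import Cfsg.Agent.S5964
import Cfsg.Agent.H953.Index
import Cfsg.Agent.H953.Mult
import Cfsg.Agent.H953.Rank
set_option linter.all false

-- part: H953/Pairs
section
set_option autoImplicit false

namespace Cfsg.Agent.H953

open Polynomial

universe u

set_option synthInstance.maxSize 2000 in
/-- Five elements of `ZMod 5` with sum zero are symmetric about one of them. -/
theorem five_aux : ∀ t0 t1 t2 t3 t4 : ZMod 5, t0 + t1 + t2 + t3 + t4 = 0 →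
      (t1 + t2 = 2 * t0 ∧ t3 + t4 = 2 * t0) ∨
      (t1 + t3 = 2 * t0 ∧ t2 + t4 = 2 * t0) ∨
      (t1 + t4 = 2 * t0 ∧ t2 + t3 = 2 * t0) ∨
      (t0 + t2 = 2 * t1 ∧ t3 + t4 = 2 * t1) ∨
      (t0 + t3 = 2 * t1 ∧ t2 + t4 = 2 * t1) ∨
      (t0 + t4 = 2 * t1 ∧ t2 + t3 = 2 * t1) ∨
      (t0 + t1 = 2 * t2 ∧ t3 + t4 = 2 * t2) ∨
      (t0 + t3 = 2 * t2 ∧ t1 + t4 = 2 * t2) ∨
      (t0 + t4 = 2 * t2 ∧ t1 + t3 = 2 * t2) ∨
      (t0 + t1 = 2 * t3 ∧ t2 + t4 = 2 * t3) ∨
      (t0 + t2 = 2 * t3 ∧ t1 + t4 = 2 * t3) ∨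
      (t0 + t4 = 2 * t3 ∧ t1 + t2 = 2 * t3) ∨
      (t0 + t1 = 2 * t4 ∧ t2 + t3 = 2 * t4) ∨
      (t0 + t2 = 2 * t4 ∧ t1 + t3 = 2 * t4) ∨
      (t0 + t3 = 2 * t4 ∧ t1 + t2 = 2 * t4) := by
  decide +kernel

theorem five_perm (t : Fin 5 → ZMod 5) (h : ∑ i, t i = 0) :
    ∃ σ : Equiv.Perm (Fin 5), t (σ 1) + t (σ 2) = 2 * t (σ 0) ∧ t (σ 3) + t (σ 4) = 2 * t (σ 0) := by
  rw [Fin.sum_univ_five] at h
  rcases five_aux (t 0) (t 1) (t 2) (t 3) (t 4) h with h | h | h | h | h | h | h | h | h | h | h | h | h | h | h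
  · exact ⟨Equiv.ofBijective ![0, 1, 2, 3, 4] (by decide), h⟩
  · exact ⟨Equiv.ofBijective ![0, 1, 3, 2, 4] (by decide), h⟩
  · exact ⟨Equiv.ofBijective ![0, 1, 4, 2, 3] (by decide), h⟩
  · exact ⟨Equiv.ofBijective ![1, 0, 2, 3, 4] (by decide), h⟩
  · exact ⟨Equiv.ofBijective ![1, 0, 3, 2, 4] (by decide), h⟩
  · exact ⟨Equiv.ofBijective ![1, 0, 4, 2, 3] (by decide), h⟩
  · exact ⟨Equiv.ofBijective ![2, 0, 1, 3, 4] (by decide), h⟩
  · exact ⟨Equiv.ofBijective ![2, 0, 3, 1, 4] (by decide), h⟩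
  · exact ⟨Equiv.ofBijective ![2, 0, 4, 1, 3] (by decide), h⟩
  · exact ⟨Equiv.ofBijective ![3, 0, 1, 2, 4] (by decide), h⟩
  · exact ⟨Equiv.ofBijective ![3, 0, 2, 1, 4] (by decide), h⟩
  · exact ⟨Equiv.ofBijective ![3, 0, 4, 1, 2] (by decide), h⟩
  · exact ⟨Equiv.ofBijective ![4, 0, 1, 2, 3] (by decide), h⟩
  · exact ⟨Equiv.ofBijective ![4, 0, 2, 1, 3] (by decide), h⟩
  · exact ⟨Equiv.ofBijective ![4, 0, 3, 1, 2] (by decide), h⟩

section Pairs

variable {F : Type u} [Field F] [Fintype F]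

/-- `diag(ζ, ζ⁻¹)` is similar to a matrix over `F₀`. -/
theorem pair_two (F₀ : Subfield F) {q₀ : ℕ} (hF₀ : Nat.card F₀ = q₀) (ζ : F) (h0 : ζ ≠ 0)
    (hadd : ∀ a b : F, (a + b) ^ q₀ = a ^ q₀ + b ^ q₀)
    (hζ : ζ ^ q₀ = ζ⁻¹) :
    ∃ (V : Matrix (Fin 2) (Fin 2) F) (C : Matrix (Fin 2) (Fin 2) F₀), V.det ≠ 0 ∧
      Matrix.diagonal ![ζ, ζ⁻¹] * V = V * C.map F₀.subtype := by
  by_cases h : ζ = ζ⁻¹
  · have hmem : ζ ∈ F₀ := by
      rw [mem_subfield_iff_pow F₀ hF₀, hζ]; exact h.symm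
    refine ⟨1, Matrix.diagonal ![⟨ζ, hmem⟩, ⟨ζ, hmem⟩], by rw [Matrix.det_one]; exact one_ne_zero, ?_⟩
    rw [mul_one, one_mul, Matrix.diagonal_map (map_zero _)]
    congr 1
    funext i
    fin_cases i
    · simp
    · simp [← h]
  · have hτ : ζ + ζ⁻¹ ∈ F₀ := by
      rw [mem_subfield_iff_pow F₀ hF₀, hadd, inv_pow, hζ, inv_inv, add_comm]
    refine ⟨!![1, ζ; 1, ζ⁻¹], !![0, -1; 1, ⟨ζ + ζ⁻¹, hτ⟩], ?_, ?_⟩
    · rw [Matrix.det_fin_two_of, one_mul, mul_one]
      intro h1
      exact h (sub_eq_zero.mp h1).symm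
    · ext i j
      fin_cases i <;> fin_cases j <;>
        simp [Matrix.mul_apply, Fin.sum_univ_two, Matrix.diagonal_apply]
      · rw [mul_add, mul_inv_cancel₀ h0]; ring
      · rw [mul_add, inv_mul_cancel₀ h0]; ring

/-- `diag(1, ζ_1, ζ_1⁻¹, ..., ζ_m, ζ_m⁻¹)` is similar to a matrix over `F₀`. -/
theorem pair_many (F₀ : Subfield F) {q₀ : ℕ} (hF₀ : Nat.card F₀ = q₀) {m : ℕ} (ζ : Fin m → F) (h0 : ∀ i, ζ i ≠ 0)
    (hadd : ∀ a b : F, (a + b) ^ q₀ = a ^ q₀ + b ^ q₀)
    (hζ : ∀ i, ζ i ^ q₀ = (ζ i)⁻¹) :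
    ∃ (V : Matrix (Fin 1 ⊕ (Fin 2 × Fin m)) (Fin 1 ⊕ (Fin 2 × Fin m)) F)
      (C : Matrix (Fin 1 ⊕ (Fin 2 × Fin m)) (Fin 1 ⊕ (Fin 2 × Fin m)) F₀), V.det ≠ 0 ∧
      Matrix.diagonal (Sum.elim (fun _ => (1 : F)) (fun a => ![ζ a.2, (ζ a.2)⁻¹] a.1)) * V = V * C.map F₀.subtype := by
  choose V C hV hVC using fun i => pair_two F₀ hF₀ (ζ i) (h0 i) hadd (hζ i)
  refine ⟨Matrix.fromBlocks (1 : Matrix (Fin 1) (Fin 1) F) 0 0 (Matrix.blockDiagonal V),
    Matrix.fromBlocks (1 : Matrix (Fin 1) (Fin 1) F₀) 0 0 (Matrix.blockDiagonal C), ?_, ?_⟩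
  · rw [Matrix.det_fromBlocks_zero₂₁, Matrix.det_one, one_mul, Matrix.det_blockDiagonal]
    exact Finset.prod_ne_zero_iff.mpr fun i _ => hV i
  · have h1 : Matrix.diagonal (Sum.elim (fun _ => (1 : F)) (fun a : Fin 2 × Fin m => ![ζ a.2, (ζ a.2)⁻¹] a.1)) =
        Matrix.fromBlocks (1 : Matrix (Fin 1) (Fin 1) F) 0 0 (Matrix.blockDiagonal fun i => Matrix.diagonal ![ζ i, (ζ i)⁻¹]) := by
      rw [Matrix.blockDiagonal_diagonal, ← Matrix.diagonal_one, Matrix.fromBlocks_diagonal]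
    rw [h1, Matrix.fromBlocks_map, Matrix.fromBlocks_multiply, Matrix.fromBlocks_multiply,
      ← Matrix.blockDiagonal_mul]
    have h2 : (Matrix.blockDiagonal C).map F₀.subtype = Matrix.blockDiagonal (fun i => (C i).map F₀.subtype) :=
      Matrix.blockDiagonal_map C _ (map_zero _)
    rw [h2, ← Matrix.blockDiagonal_mul]
    have h3 : (fun i => Matrix.diagonal ![ζ i, (ζ i)⁻¹] * V i) = fun i => V i * (C i).map F₀.subtype := funext hVC
    simp [h3]

end Pairs

end Cfsg.Agent.H953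
end

-- part: S5965
section
set_option autoImplicit false
open scoped MatrixGroups
open Cfsg

namespace Cfsg.Agent.S5965

open Polynomial Cfsg.Agent.H953

universe u

variable {F : Type u} [Field F] [Fintype F]

/-- The scalar `x ^ r` is an `r`-th power when `(n)_r ≤ (q - 1)_r` (or `r ∤ q - 1`). -/
theorem exists_root {n : ℕ} (hn : 2 ≤ n) (r : ℕ) [Fact r.Prime] (hr2 : r ≠ 2)
    (h : r ∣ Fintype.card F - 1 → padicValNat r n ≤ padicValNat r (Fintype.card F - 1))
    (x : Matrix.SpecialLinearGroup (Fin n) F) (z : F)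
    (hz : ((x ^ r : Matrix.SpecialLinearGroup (Fin n) F) : Matrix (Fin n) (Fin n) F) = z • (1 : Matrix (Fin n) (Fin n) F)) :
    ∃ w : F, w ^ r = z := by
  by_cases hrq : r ∣ Fintype.card F - 1
  · by_contra hcon
    push Not at hcon
    rw [Matrix.SpecialLinearGroup.coe_pow] at hz
    obtain ⟨d, hd, hdet⟩ := det_of_irreducible (x : Matrix (Fin n) (Fin n) F) (Fact.out : r.Prime) z hz hcon
    rw [Fintype.card_fin] at hd
    have hodd : Odd r := (Fact.out : r.Prime).odd_of_ne_two hr2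
    rw [x.det_coe, hodd.neg_one_pow, neg_one_mul, neg_neg] at hdet
    have hd0 : d ≠ 0 := by rintro rfl; omega
    have hle := h hrq
    have h3 : padicValNat r d < padicValNat r (Fintype.card F - 1) := by
      refine lt_of_lt_of_le ?_ hle
      rw [← hd, padicValNat.mul hd0 (Fact.out : r.Prime).ne_zero, padicValNat_self]
      omega
    obtain ⟨b, hb⟩ := exists_root_of_pow_eq_one (F := F) r hd0 hdet.symm h3
    exact hcon b hb
  · exact exists_root_of_not_dvd r hrq z

theorem pow_mod_self (r : ℕ) [Fact r.Prime] (Q : ℕ) : r ∣ Q ^ r - Q := by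
  have h1 : ((Q ^ r : ℕ) : ZMod r) = (Q : ZMod r) := by
    rw [Nat.cast_pow, ZMod.pow_card]
  rw [ZMod.natCast_eq_natCast_iff] at h1
  exact (Nat.modEq_iff_dvd' (Nat.le_self_pow (Fact.out : r.Prime).ne_zero _)).mp h1.symm

/-- The exceptional positive case `k = 2`, `r = n ∈ {3, 5}`. -/
theorem special {p : ℕ} [Fact p.Prime] [CharP F p] (r m : ℕ) [Fact r.Prime] (hr2 : r ≠ 2) (hrp : r ≠ p)
    (hrm : r = 1 + 2 * m)
    (hcomb : ∀ t : Fin r → ZMod r, ∑ i, t i = 0 → ∃ e : Fin 1 ⊕ (Fin 2 × Fin m) ≃ Fin r,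
      ∀ i, t (e (Sum.inr (0, i))) + t (e (Sum.inr (1, i))) = 2 * t (e (Sum.inl 0)))
    (F₀ : Subfield F) (q₀ : ℕ) (hF₀ : Nat.card ↥F₀ = q₀) (hqk : Fintype.card F = q₀ ^ 2)
    (hv : padicValNat r (q₀ + 1) = 1)
    (x : Matrix.SpecialLinearGroup (Fin r) F) (z : F)
    (hz : ((x ^ r : Matrix.SpecialLinearGroup (Fin r) F) : Matrix (Fin r) (Fin r) F) = z • (1 : Matrix (Fin r) (Fin r) F)) :
    ∃ P : Matrix.SpecialLinearGroup (Fin r) F, P⁻¹ * x * P ∈ ((Cfsg.Geo.subfieldSubgroup F₀ 1).comap (Matrix.SpecialLinearGroup.toGL : Matrix.SpecialLinearGroup (Fin r) F →* GL (Fin r) F)) := by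
  classical
  have hrP : r.Prime := Fact.out
  have hr3 : 3 ≤ r := by
    have := hrP.two_le
    omega
  have hne : Nonempty (Fin r) := ⟨⟨0, by omega⟩⟩
  have hnz : NeZero r := ⟨by omega⟩
  have hrF : (r : F) ≠ 0 := by
    rw [Ne, CharP.cast_eq_zero_iff F p]
    intro h
    exact hrp ((Nat.prime_dvd_prime_iff_eq Fact.out hrP).mp h).symm
  have hFfin : Fintype F₀ := Fintype.ofFinite F₀
  have hc0 : Fintype.card F₀ = q₀ := by rw [← hF₀, Nat.card_eq_fintype_card]
  have hq01 : 1 < q₀ := hc0 ▸ Fintype.one_lt_card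
  have hrq0 : r ∣ q₀ + 1 := by
    have := (padicValNat_dvd_iff_le (p := r) (n := 1) (a := q₀ + 1) (by omega)).mpr (by omega)
    rwa [pow_one] at this
  have hq1 : Fintype.card F - 1 = (q₀ - 1) * (q₀ + 1) := by
    obtain ⟨c, rfl⟩ : ∃ c, q₀ = c + 1 := ⟨q₀ - 1, by omega⟩
    rw [hqk]
    have : (c + 1) ^ 2 = c * (c + 1 + 1) + 1 := by ring
    rw [this]
    simp
  have hrq0' : ¬ r ∣ q₀ - 1 := by
    intro h
    have h2 : r ∣ 2 := by
      have := Nat.dvd_sub hrq0 h
      have h3 : q₀ + 1 - (q₀ - 1) = 2 := by omega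
      rwa [h3] at this
    have := Nat.le_of_dvd (by norm_num) h2
    omega
  have hvq : padicValNat r (Fintype.card F - 1) = 1 := by
    rw [hq1, padicValNat.mul (by omega) (by omega), hv, padicValNat.eq_zero_of_not_dvd hrq0']
  have hrq : r ∣ Fintype.card F - 1 := by rw [hq1]; exact Dvd.dvd.mul_left hrq0 _
  -- the root
  obtain ⟨w, hw⟩ := exists_root (by omega) r hr2 (fun _ => by rw [hvq, padicValNat_self]) x z hz
  have hw0 : w ≠ 0 := by
    rintro rfl
    rw [zero_pow hrP.ne_zero] at hw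
    exact S5964.z_ne_zero (by omega) x hz hw.symm
  rw [Matrix.SpecialLinearGroup.coe_pow, ← hw] at hz
  set y : Matrix (Fin r) (Fin r) F := w⁻¹ • (x : Matrix (Fin r) (Fin r) F) with hy
  have hxy : (x : Matrix (Fin r) (Fin r) F) = w • y := by
    rw [hy, smul_smul, mul_inv_cancel₀ hw0, one_smul]
  have hy1 : y ^ r = 1 := by
    rw [hy, _root_.smul_pow, hz, smul_smul, inv_pow, inv_mul_cancel₀ (pow_ne_zero _ hw0), one_smul]
  -- a primitive root of unity
  obtain ⟨ω', hω'⟩ := exists_prime_orderOf_dvd_card' (G := Fˣ) r (by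
    rw [Nat.card_eq_fintype_card, Fintype.card_units]; exact hrq)
  set ω : F := (ω' : F) with hω
  have hωo : orderOf ω = r := by rw [hω, orderOf_units, hω']
  have hprim : IsPrimitiveRoot ω r := hωo ▸ IsPrimitiveRoot.orderOf ω
  have hsplit : (X ^ r - 1 : F[X]).Splits := X_pow_sub_one_splits hprim
  obtain ⟨P, a, har, hyP⟩ := exists_diagonal y r hrF hsplit hy1
  -- determinant
  have hdet : w ^ r * ∏ i, a i = 1 := by
    have h1 := congrArg Matrix.det hyP
    have hPd : (P : Matrix (Fin r) (Fin r) F).det ≠ 0 := (Matrix.isUnits_det_units P).ne_zero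
    rw [Matrix.det_mul, Matrix.det_mul, mul_comm, Matrix.det_diagonal] at h1
    have h2 := mul_left_cancel₀ hPd h1
    have h3 := congrArg Matrix.det hxy
    rw [x.det_coe, Matrix.det_smul, h2, Fintype.card_fin] at h3
    exact h3.symm
  have hwr : w ^ r = 1 := by
    have h1 : w ^ (r ^ 2) = 1 := by
      have h2 : (w ^ r) ^ r * (∏ i, a i) ^ r = 1 := by rw [← mul_pow, hdet, one_pow]
      have h3 : (∏ i, a i) ^ r = 1 := by
        rw [← Finset.prod_pow]
        exact Finset.prod_eq_one fun i _ => har i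
      rw [h3, mul_one, ← pow_mul, ← pow_two] at h2
      exact h2
    have h2 : w ^ (Fintype.card F - 1) = 1 := FiniteField.pow_card_sub_one_eq_one w hw0
    have h3 := orderOf_dvd_of_pow_eq_one h1
    have h4 := orderOf_dvd_of_pow_eq_one h2
    obtain ⟨j, hj, hoj⟩ := (Nat.dvd_prime_pow hrP).mp h3
    have hj1 : j ≤ 1 := by
      by_contra hcon
      have h5 : r ^ 2 ∣ Fintype.card F - 1 := by
        rw [hoj] at h4
        exact (pow_dvd_pow r (by omega)).trans h4
      have h6 := (padicValNat_dvd_iff_le (p := r) (by rw [hq1]; exact mul_ne_zero (by omega) (by omega))).mp h5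
      omega
    rw [← orderOf_dvd_iff_pow_eq_one, hoj]
    calc r ^ j ∣ r ^ 1 := pow_dvd_pow r hj1
      _ = r := pow_one r
  rw [hwr, one_mul] at hdet
  -- exponents
  have hex : ∀ i, ∃ t : ZMod r, a i = ω ^ t.val := by
    intro i
    obtain ⟨l, hl, h⟩ := hprim.eq_pow_of_pow_eq_one (har i)
    refine ⟨(l : ZMod r), ?_⟩
    rw [ZMod.val_natCast_of_lt hl, h]
  choose t ht using hex
  have hsum : ∑ i, t i = 0 := by
    have h1 : ω ^ (∑ i, (t i).val) = 1 := by
      rw [← Finset.prod_pow_eq_pow_sum, ← hdet]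
      exact Finset.prod_congr rfl fun i _ => (ht i).symm
    have h2 : r ∣ ∑ i, (t i).val := hprim.dvd_of_pow_eq_one _ h1
    have h3 := (ZMod.natCast_eq_zero_iff (∑ i, (t i).val) r).mpr h2
    rw [Nat.cast_sum] at h3
    rw [← h3]
    refine Finset.sum_congr rfl fun i _ => ?_
    exact (ZMod.natCast_zmod_val (t i)).symm
  obtain ⟨e, he⟩ := hcomb t hsum
  have ha0 : ∀ i, a i ≠ 0 := by
    intro i h
    have := har i
    rw [h, zero_pow hrP.ne_zero] at this
    exact zero_ne_one this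
  set b : F := a (e (Sum.inl 0)) with hb
  have hb0 : b ≠ 0 := ha0 _
  have hpair : ∀ i, a (e (Sum.inr (0, i))) * a (e (Sum.inr (1, i))) = b * b := by
    intro i
    rw [hb, ht, ht, ht, ← pow_add, ← pow_add]
    rw [← pow_mod_orderOf ω, ← pow_mod_orderOf ω (_ + _), hωo]
    congr 1
    have h1 := he i
    have h2 : (((t (e (Sum.inr (0, i)))).val + (t (e (Sum.inr (1, i)))).val : ℕ) : ZMod r) =
        (((t (e (Sum.inl 0))).val + (t (e (Sum.inl 0))).val : ℕ) : ZMod r) := by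
      rw [Nat.cast_add, Nat.cast_add, ZMod.natCast_zmod_val, ZMod.natCast_zmod_val, ZMod.natCast_zmod_val, h1]
      ring
    exact (ZMod.natCast_eq_natCast_iff _ _ _).mp h2
  let ζ : Fin m → F := fun i => a (e (Sum.inr (0, i))) / b
  have hζ0 : ∀ i, ζ i ≠ 0 := fun i => div_ne_zero (ha0 _) hb0
  have hζr : ∀ i, ζ i ^ r = 1 := by
    intro i
    change (a (e (Sum.inr (0, i))) / b) ^ r = 1
    rw [div_pow, har, hb, har, div_one]
  obtain ⟨f, hf⟩ : ∃ f : ℕ, q₀ = p ^ f := by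
    have : CharP F₀ p := by
      refine ⟨fun a => ?_⟩
      rw [← CharP.cast_eq_zero_iff F p a]
      constructor
      · intro h; have := congrArg Subtype.val h; simpa using this
      · intro h; apply Subtype.ext; simpa using h
    obtain ⟨f, -, hf⟩ := FiniteField.card F₀ p
    exact ⟨f, by rw [← hc0, hf]⟩
  have hadd : ∀ a b : F, (a + b) ^ q₀ = a ^ q₀ + b ^ q₀ := by
    intro a b
    rw [hf]
    exact add_pow_char_pow a b p f
  have hζq : ∀ i, ζ i ^ q₀ = (ζ i)⁻¹ := by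
    intro i
    rw [← mul_eq_one_iff_eq_inv₀ (hζ0 i), ← pow_succ]
    obtain ⟨l, hl⟩ := hrq0
    rw [hl, pow_mul, hζr, one_pow]
  obtain ⟨V, C, hV, hVC⟩ := pair_many F₀ hF₀ ζ hζ0 hadd hζq
  let φ := Matrix.reindexAlgEquiv F F e
  have hdiag : Matrix.diagonal a = b • φ (Matrix.diagonal (Sum.elim (fun _ => (1 : F)) (fun c => ![ζ c.2, (ζ c.2)⁻¹] c.1))) := by
    have h1 : φ (Matrix.diagonal (Sum.elim (fun _ => (1 : F)) (fun c => ![ζ c.2, (ζ c.2)⁻¹] c.1))) =
        Matrix.diagonal ((Sum.elim (fun _ => (1 : F)) (fun c => ![ζ c.2, (ζ c.2)⁻¹] c.1)) ∘ e.symm) := by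
      change Matrix.reindex e e _ = _
      rw [Matrix.reindex_apply, Matrix.submatrix_diagonal_equiv]
    rw [h1, ← Matrix.diagonal_smul]
    congr 1
    funext i
    obtain ⟨i, rfl⟩ := e.surjective i
    rw [Pi.smul_apply, Function.comp_apply, Equiv.symm_apply_apply, smul_eq_mul]
    rcases i with i | ⟨c, i⟩
    · have : i = 0 := Subsingleton.elim _ _
      subst this
      simp [hb]
    · fin_cases c
      · simp only [Sum.elim_inr]
        change _ = b * (a (e (Sum.inr (0, i))) / b)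
        field_simp
        rfl
      · simp only [Sum.elim_inr]
        change a (e (Sum.inr (1, i))) = b * (a (e (Sum.inr (0, i))) / b)⁻¹
        have h2 := hpair i
        have h3 := ha0 (e (Sum.inr (0, i)))
        field_simp
        rw [pow_two, ← h2]; ring
  have hφV : (φ V).det ≠ 0 := by
    have : (φ V).det = V.det := Matrix.det_reindexAlgEquiv F F e V
    rw [this]; exact hV
  let Q : GL (Fin r) F := P * Matrix.GeneralLinearGroup.mkOfDetNeZero (φ V) hφV
  have hQ : (Q : Matrix (Fin r) (Fin r) F) = (P : Matrix (Fin r) (Fin r) F) * φ V := rfl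
  have hφC : φ (C.map F₀.subtype) = (Matrix.reindex e e C).map F₀.subtype := rfl
  have hfinal : (x : Matrix (Fin r) (Fin r) F) * (Q : Matrix (Fin r) (Fin r) F) =
      (Q : Matrix (Fin r) (Fin r) F) * ((w * b) • (Matrix.reindex e e C).map F₀.subtype) := by
    rw [hQ, hxy, Matrix.smul_mul, ← mul_assoc, hyP, hdiag, Matrix.mul_smul, Matrix.smul_mul, mul_assoc, ← map_mul, hVC,
      map_mul, hφC, smul_smul, Matrix.mul_smul, mul_assoc]
  have hmem := mem_subfield_of_eq F₀ x Q (w * b) _ hfinal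
  refine conj_sl_of_gl _ x ?_ Q hmem
  intro c
  have hyX : aeval y (X ^ r - 1 : F[X]) = 0 := by
    rw [map_sub, map_pow, aeval_X, map_one, hy1, sub_self]
  obtain ⟨A, hA, hd⟩ := exists_commute_det_of_squarefree y _ ((X_pow_sub_one_separable_iff.mpr hrF).squarefree) hyX c
  refine ⟨A, ?_, hd⟩
  rw [hxy, Matrix.mul_smul, Matrix.smul_mul, hA]

omit [Fintype F] in
/-- Powers of a conjugating relation. -/
theorem pow_rel {n : ℕ} {x P M : Matrix (Fin n) (Fin n) F} (h : x * P = P * M) (l : ℕ) : x ^ l * P = P * M ^ l := by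
  induction l with
  | zero => simp
  | succ l ih => rw [pow_succ, mul_assoc, h, ← mul_assoc, ih, mul_assoc, ← pow_succ]

theorem scalar_rel {n : ℕ} (hn : 0 < n) (F₀ : Subfield F) (x P : Matrix.SpecialLinearGroup (Fin n) F) {r : ℕ} {z c : F}
    (y : GL (Fin n) F₀)
    (hz : ((x ^ r : Matrix.SpecialLinearGroup (Fin n) F) : Matrix (Fin n) (Fin n) F) = z • (1 : Matrix (Fin n) (Fin n) F))
    (hyc : (x : Matrix (Fin n) (Fin n) F) * (P : Matrix (Fin n) (Fin n) F) =
      (P : Matrix (Fin n) (Fin n) F) * (c • (y : Matrix (Fin n) (Fin n) F₀).map F₀.subtype)) :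
    ∃ s ∈ F₀, z = c ^ r * s := by
  rw [Matrix.SpecialLinearGroup.coe_pow] at hz
  set Pm : Matrix (Fin n) (Fin n) F := (P : Matrix (Fin n) (Fin n) F) with hPm
  have hPdet : Pm.det = 1 := P.det_coe
  have h3 := pow_rel hyc r
  rw [hz, Matrix.smul_mul, one_mul] at h3
  have h4 : z • (1 : Matrix (Fin n) (Fin n) F) = (c • (y : Matrix (Fin n) (Fin n) F₀).map F₀.subtype) ^ r := by
    have := congrArg (fun M => Pm⁻¹ * M) h3
    simp only [Matrix.mul_smul, ← mul_assoc, Matrix.nonsing_inv_mul _ (by rw [hPdet]; exact isUnit_one : IsUnit Pm.det),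
      one_mul] at this
    exact this
  have h5 : (c • (y : Matrix (Fin n) (Fin n) F₀).map F₀.subtype) ^ r =
      c ^ r • ((y : Matrix (Fin n) (Fin n) F₀) ^ r).map F₀.subtype := by
    rw [_root_.smul_pow]
    congr 1
    exact (map_pow (F₀.subtype.mapMatrix) (y : Matrix (Fin n) (Fin n) F₀) r).symm
  rw [h5] at h4
  have h6 := congrFun (congrFun h4 ⟨0, hn⟩) ⟨0, hn⟩
  rw [Matrix.smul_apply, Matrix.one_apply_eq, smul_eq_mul, mul_one, Matrix.smul_apply, Matrix.map_apply, smul_eq_mul] at h6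
  exact ⟨_, SetLike.coe_mem _, h6⟩

/-- First example: `r ∤ q - 1`. -/
theorem ex_one {n j k : ℕ} (hj2 : 2 ≤ j) (hjn : j ≤ n) (F₀ : Subfield F) (q₀ : ℕ)
    (hF₀ : Nat.card ↥F₀ = q₀) (hqk : Fintype.card F = q₀ ^ k) (r : ℕ) [Fact r.Prime] (hrF : (r : F) ≠ 0)
    (hrq : ¬ r ∣ Fintype.card F - 1) (hdiv : r ∣ q₀ ^ (j * k) - 1) (hnd : ¬ r ∣ q₀ ^ j - 1) :
    ∃ x : Matrix.SpecialLinearGroup (Fin n) F, (∃ z : F, ((x ^ r : Matrix.SpecialLinearGroup (Fin n) F) : Matrix (Fin n) (Fin n) F) = z • (1 : Matrix (Fin n) (Fin n) F)) ∧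
      (∀ z : F, (x : Matrix (Fin n) (Fin n) F) ≠ z • (1 : Matrix (Fin n) (Fin n) F)) ∧
      ∀ P : Matrix.SpecialLinearGroup (Fin n) F, P⁻¹ * x * P ∉ ((Cfsg.Geo.subfieldSubgroup F₀ 1).comap (Matrix.SpecialLinearGroup.toGL : Matrix.SpecialLinearGroup (Fin n) F →* GL (Fin n) F)) := by
  classical
  have hFfin : Fintype F₀ := Fintype.ofFinite F₀
  have hc0 : Fintype.card F₀ = q₀ := by rw [← hF₀, Nat.card_eq_fintype_card]
  have hq01 : 1 < q₀ := hc0 ▸ Fintype.one_lt_card
  have hq : 1 ≤ Fintype.card F := Fintype.card_pos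
  have hrq0 : ¬ r ∣ q₀ - 1 := by
    intro h
    apply hrq
    rw [hqk]
    have h1 := Nat.sub_dvd_pow_sub_pow q₀ 1 k
    rw [one_pow] at h1
    exact h.trans h1
  set i := orderOf (Fintype.card F : ZMod r) with hi
  have hij : i ∣ j := by
    apply dvd_of_orderOf hq hi
    rw [hqk, ← pow_mul, mul_comm k j]
    exact hdiv
  have hi0 : 0 < i := Nat.pos_of_dvd_of_pos hij (by omega)
  have hin : i ≤ n := (Nat.le_of_dvd (by omega) hij).trans hjn
  obtain ⟨x, hxr, hrank⟩ := exists_elt r hrF hrq hi hi0 hin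
  have hxr1 : ((x ^ r : Matrix.SpecialLinearGroup (Fin n) F) : Matrix (Fin n) (Fin n) F) = (1 : F) • 1 := by
    rw [hxr, one_smul]; rfl
  refine ⟨x, ⟨1, hxr1⟩, ?_, ?_⟩
  · intro c hc
    have h1 : c ^ r = 1 := by
      have h2 := hxr1
      rw [Matrix.SpecialLinearGroup.coe_pow, hc, _root_.smul_pow, one_pow, one_smul] at h2
      have h6 := congrFun (congrFun h2 ⟨0, by omega⟩) ⟨0, by omega⟩
      simpa using h6
    have h2 : c = 1 := pow_inj_of_not_dvd r hrq (by rw [h1, one_pow])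
    rw [hc, h2, one_smul, sub_self, Matrix.rank_zero] at hrank
    omega
  · intro P hP
    obtain ⟨y, c, hc, hyc⟩ := eq_of_mem_subfield F₀ x P hP
    obtain ⟨s, hs, hcs⟩ := scalar_rel (by omega) F₀ x P y hxr1 hyc
    -- c lies in F₀
    have hcF : c ∈ F₀ := by
      have h1 : c ^ r = s⁻¹ := eq_inv_of_mul_eq_one_left hcs.symm
      obtain ⟨b, hb⟩ := exists_root_of_not_dvd (F := F₀) r (by rw [hc0]; exact hrq0) ⟨s⁻¹, F₀.inv_mem hs⟩
      have h2 : (b : F) ^ r = s⁻¹ := congrArg Subtype.val hb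
      have h3 : c = (b : F) := pow_inj_of_not_dvd r hrq (h1.trans h2.symm)
      rw [h3]; exact b.2
    set y' : Matrix (Fin n) (Fin n) F₀ := (⟨c, hcF⟩ : F₀) • (y : Matrix (Fin n) (Fin n) F₀) with hy'
    have hy'm : c • (y : Matrix (Fin n) (Fin n) F₀).map F₀.subtype = y'.map F₀.subtype := by
      ext i j
      simp [hy']
    rw [hy'm] at hyc
    set Pm : Matrix (Fin n) (Fin n) F := (P : Matrix (Fin n) (Fin n) F) with hPm
    have hPdet : Pm.det = 1 := P.det_coe
    have hPunit : IsUnit Pm.det := by rw [hPdet]; exact isUnit_one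
    have hy'r : y' ^ r = 1 := by
      have h1 := pow_rel hyc r
      rw [← Matrix.SpecialLinearGroup.coe_pow, hxr1, one_smul, one_mul] at h1
      have h2 : (y'.map F₀.subtype) ^ r = 1 := by
        have := congrArg (fun M => Pm⁻¹ * M) h1
        simp only [← mul_assoc, Matrix.nonsing_inv_mul _ hPunit, one_mul] at this
        exact this.symm
      apply Matrix.map_injective F₀.subtype_injective
      change (y' ^ r).map F₀.subtype = (1 : Matrix (Fin n) (Fin n) F₀).map F₀.subtype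
      rw [Matrix.map_one _ (map_zero _) (map_one _), ← h2]
      exact map_pow (F₀.subtype.mapMatrix) y' r
    have hrank' : (y' - 1).rank = i := by
      rw [← rank_map F₀.subtype (y' - 1), ← hrank]
      have h1 : (y' - 1).map F₀.subtype = y'.map F₀.subtype - 1 := by
        rw [Matrix.map_sub _ (map_sub _), Matrix.map_one _ (map_zero _) (map_one _)]
      have h2 : ((x : Matrix (Fin n) (Fin n) F) - 1) * Pm = Pm * (y'.map F₀.subtype - 1) := by
        rw [sub_mul, mul_sub, hyc, one_mul, mul_one]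
      rw [h1, ← Matrix.rank_mul_eq_right_of_isUnit_det Pm _ hPunit, ← h2, Matrix.rank_mul_eq_left_of_isUnit_det _ _ hPunit]
    have hrF0 : (r : F₀) ≠ 0 := by
      intro h
      apply hrF
      have := congrArg Subtype.val h
      simpa using this
    have h1 := dvd_pow_rank y' r hrF0 hy'r
    rw [hrank', hc0] at h1
    apply hnd
    obtain ⟨l, hl⟩ := hij
    rw [hl, pow_mul]
    have h2 := Nat.sub_dvd_pow_sub_pow (q₀ ^ i) 1 l
    rw [one_pow] at h2
    exact h1.trans h2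

/-- Second example: `r ∣ q - 1`, `(n)_r > (q - 1)_r`. -/
theorem ex_two {n : ℕ} (hn : 2 ≤ n) (F₀ : Subfield F) (q₀ : ℕ)
    (hF₀ : Nat.card ↥F₀ = q₀) (r : ℕ) [Fact r.Prime] (hr2 : r ≠ 2)
    (hrq : r ∣ Fintype.card F - 1) (hrq0 : ¬ r ∣ q₀ - 1)
    (hv : padicValNat r (Fintype.card F - 1) < padicValNat r n) :
    ∃ x : Matrix.SpecialLinearGroup (Fin n) F, (∃ z : F, ((x ^ r : Matrix.SpecialLinearGroup (Fin n) F) : Matrix (Fin n) (Fin n) F) = z • (1 : Matrix (Fin n) (Fin n) F)) ∧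
      (∀ z : F, (x : Matrix (Fin n) (Fin n) F) ≠ z • (1 : Matrix (Fin n) (Fin n) F)) ∧
      ∀ P : Matrix.SpecialLinearGroup (Fin n) F, P⁻¹ * x * P ∉ ((Cfsg.Geo.subfieldSubgroup F₀ 1).comap (Matrix.SpecialLinearGroup.toGL : Matrix.SpecialLinearGroup (Fin n) F →* GL (Fin n) F)) := by
  classical
  have hFfin : Fintype F₀ := Fintype.ofFinite F₀
  have hc0 : Fintype.card F₀ = q₀ := by rw [← hF₀, Nat.card_eq_fintype_card]
  obtain ⟨z, hz0, hz1, hzn⟩ := exists_not_pow (F := F) r hrq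
  set ν := padicValNat r (Fintype.card F - 1) with hν
  obtain ⟨m, hm⟩ : r ^ (ν + 1) ∣ n := (padicValNat_dvd_iff_le (by omega)).mpr hv
  have hn2 : n = r * (r ^ ν * m) := by rw [hm]; ring
  subst hn2
  have hodd : Odd r := (Fact.out : r.Prime).odd_of_ne_two hr2
  obtain ⟨x, hx⟩ := exists_sl_pow_eq (F := F) r (r ^ ν * m) (Fact.out : r.Prime).pos z (by
    rw [hodd.neg_one_pow, neg_one_mul, neg_neg, pow_mul, hz1, one_pow])
  refine ⟨x, ⟨z, hx⟩, ?_, ?_⟩
  · intro c hc
    apply hzn c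
    rw [Matrix.SpecialLinearGroup.coe_pow, hc, _root_.smul_pow, one_pow] at hx
    have h6 := congrFun (congrFun hx ⟨0, by omega⟩) ⟨0, by omega⟩
    simpa using h6
  · intro P hP
    obtain ⟨c, s, hc, hs, hzs⟩ := exists_of_conj (by omega) F₀ x P hx hP
    obtain ⟨b, hb⟩ := exists_root_of_not_dvd (F := F₀) r (by rw [hc0]; exact hrq0) ⟨s, hs⟩
    have h2 : (b : F) ^ r = s := congrArg Subtype.val hb
    apply hzn (c * b)
    rw [hzs, mul_pow, h2]

/-- An element `w` with `w ^ n` of order `r`. -/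
theorem exists_w {n : ℕ} (hn : n ≠ 0) (r : ℕ) [Fact r.Prime] (hrq : r ∣ Fintype.card F - 1)
    (hv : padicValNat r n < padicValNat r (Fintype.card F - 1)) :
    ∃ w ω : F, w ≠ 0 ∧ ω ≠ 1 ∧ ω ^ r = 1 ∧ ω * w ^ n = 1 := by
  obtain ⟨z, hz0, hz1, hzn⟩ := exists_not_pow (F := F) r hrq
  set ν := padicValNat r (Fintype.card F - 1) with hν
  set s := padicValNat r n with hs
  obtain ⟨n', hn'⟩ : r ^ s ∣ n := pow_padicValNat_dvd
  have hrn' : ¬ r ∣ n' := by
    rintro ⟨t, rfl⟩
    have h1 : r ^ (s + 1) ∣ n := ⟨t, by rw [hn']; ring⟩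
    have := (padicValNat_dvd_iff_le hn).mp h1
    omega
  set w : F := z ^ r ^ (ν - 1 - s) with hw
  have hw0 : w ≠ 0 := pow_ne_zero _ hz0
  have hws : w ^ r ^ s = z ^ r ^ (ν - 1) := by
    rw [hw, ← pow_mul, ← pow_add]
    congr 2
    omega
  set ρ := z ^ r ^ (ν - 1) with hρ
  have hρr : ρ ^ r = 1 := by
    rw [hρ, ← pow_mul, ← pow_succ, Nat.sub_add_cancel (by omega), hz1]
  have hρ1 : ρ ≠ 1 := by
    intro h1
    have h2 : padicValNat r (r ^ (ν - 1)) < padicValNat r (Fintype.card F - 1) := by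
      rw [padicValNat.prime_pow]; omega
    obtain ⟨b, hb⟩ := exists_root_of_pow_eq_one (F := F) r (pow_ne_zero _ (Fact.out : r.Prime).ne_zero) h1 h2
    exact hzn b hb
  have hwn : w ^ n = ρ ^ n' := by rw [hn', pow_mul, hws]
  have hρo : orderOf ρ = r := orderOf_eq_prime hρr hρ1
  refine ⟨w, (w ^ n)⁻¹, hw0, ?_, ?_, inv_mul_cancel₀ (pow_ne_zero _ hw0)⟩
  · intro h1
    rw [inv_eq_one, hwn, ← orderOf_dvd_iff_pow_eq_one, hρo] at h1
    exact hrn' h1
  · rw [inv_pow, hwn, ← pow_mul, mul_comm, pow_mul, hρr, one_pow, inv_one]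

omit [Fintype F] in
theorem diag_pow {n : ℕ} (a : Fin n → F) (c : F) (r : ℕ) (h : ∀ i, a i ^ r = c) :
    (Matrix.diagonal a : Matrix (Fin n) (Fin n) F) ^ r = c • 1 := by
  rw [Matrix.diagonal_pow, ← Matrix.diagonal_one, ← Matrix.diagonal_smul]
  congr 1
  funext i
  simp [h]

/-- Third example: `r ∣ q - 1`, `(n)_r < (q - 1)_r`. -/
theorem ex_three {p : ℕ} [Fact p.Prime] [CharP F p] {n k : ℕ} (hn : 2 ≤ n) (F₀ : Subfield F) (q₀ : ℕ)
    (hF₀ : Nat.card ↥F₀ = q₀) (hqk : Fintype.card F = q₀ ^ k) (r : ℕ) [Fact r.Prime] (hr2 : r ≠ 2)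
    (hrq : r ∣ Fintype.card F - 1) (hrq0 : ¬ r ∣ q₀ - 1)
    (hv : padicValNat r n < padicValNat r (Fintype.card F - 1)) (h2 : n = 2 → ¬ r ∣ q₀ ^ 2 - 1) :
    ∃ x : Matrix.SpecialLinearGroup (Fin n) F, (∃ z : F, ((x ^ r : Matrix.SpecialLinearGroup (Fin n) F) : Matrix (Fin n) (Fin n) F) = z • (1 : Matrix (Fin n) (Fin n) F)) ∧
      (∀ z : F, (x : Matrix (Fin n) (Fin n) F) ≠ z • (1 : Matrix (Fin n) (Fin n) F)) ∧
      ∀ P : Matrix.SpecialLinearGroup (Fin n) F, P⁻¹ * x * P ∉ ((Cfsg.Geo.subfieldSubgroup F₀ 1).comap (Matrix.SpecialLinearGroup.toGL : Matrix.SpecialLinearGroup (Fin n) F →* GL (Fin n) F)) := by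
  classical
  have hFfin : Fintype F₀ := Fintype.ofFinite F₀
  have hc0 : Fintype.card F₀ = q₀ := by rw [← hF₀, Nat.card_eq_fintype_card]
  have hq01 : 1 < q₀ := hc0 ▸ Fintype.one_lt_card
  obtain ⟨w, ω, hw0, hω1, hωr, hwω⟩ := exists_w (F := F) (n := n) (by omega) r hrq hv
  have hωo : orderOf ω = r := orderOf_eq_prime hωr hω1
  have hω0 : ω ≠ 0 := by
    rintro rfl
    rw [zero_pow (Fact.out : r.Prime).ne_zero] at hωr
    exact zero_ne_one hωr
  obtain ⟨m, rfl⟩ : ∃ m, n = m + 1 := ⟨n - 1, by omega⟩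
  let a : Fin (m + 1) → F := Fin.cons (w * ω) (fun _ => w)
  have hprod : ∏ i, a i = 1 := by
    rw [prod_cons, Finset.prod_const, Finset.card_univ, Fintype.card_fin, ← hwω]
    ring
  obtain ⟨x, hx⟩ := exists_diag_sl a hprod
  have har : ∀ i, a i ^ r = w ^ r := by
    intro i
    refine Fin.cases ?_ (fun i => ?_) i
    · simp [a, mul_pow, hωr]
    · simp [a]
  refine ⟨x, ⟨w ^ r, ?_⟩, ?_, ?_⟩
  · rw [Matrix.SpecialLinearGroup.coe_pow, hx, diag_pow a _ r har]
  · intro c hc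
    rw [hx] at hc
    have h3 : a 0 = c := by
      have := congrFun (congrFun hc 0) 0
      simpa using this
    have h4 : a ⟨1, by omega⟩ = c := by
      have := congrFun (congrFun hc ⟨1, by omega⟩) ⟨1, by omega⟩
      simpa using this
    have h5 : a ⟨1, by omega⟩ = w := rfl
    have h6 : a 0 = w * ω := by simp [a]
    rw [h6] at h3
    rw [h5] at h4
    apply hω1
    have : w * ω = w * 1 := by rw [h3, mul_one, h4]
    exact mul_left_cancel₀ hw0 this
  · intro P hP
    obtain ⟨lam, hlam, hmult⟩ := mult_subfield p F₀ hF₀ a x P hx hP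
    have hmul : ∀ β, mult a β = (if w * ω = β then 1 else 0) + (if w = β then m else 0) := by
      intro β
      rw [mult_cons, mult_const]
    have hne : w * ω ≠ w := by
      intro h
      exact hω1 (mul_left_cancel₀ hw0 (h.trans (mul_one w).symm))
    have hm1 : 1 ≤ m := by omega
    set A := lam * w with hA
    have hA0 : A ≠ 0 := mul_ne_zero hlam hw0
    -- the four possible values
    have hσ1 : (lam * w) ^ q₀ / lam = w ↔ A ^ q₀ = A := by
      rw [div_eq_iff hlam, hA, mul_comm w lam]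
    have hσ2 : (lam * w) ^ q₀ / lam = w * ω ↔ A ^ q₀ = A * ω := by
      rw [div_eq_iff hlam, hA]
      constructor
      · intro h; rw [h]; ring
      · intro h; rw [h]; ring
    have hσ3 : (lam * (w * ω)) ^ q₀ / lam = w ↔ (A * ω) ^ q₀ = A := by
      rw [div_eq_iff hlam, hA, mul_comm w lam, mul_assoc]
    have hσ4 : (lam * (w * ω)) ^ q₀ / lam = w * ω ↔ (A * ω) ^ q₀ = A * ω := by
      rw [div_eq_iff hlam, hA]
      constructor
      · intro h; rw [← mul_assoc] at h; rw [h]; ring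
      · intro h; rw [← mul_assoc, h]; ring
    have hbad : A ^ q₀ = A → (A * ω) ^ q₀ = A * ω → False := by
      intro h3 h4
      rw [mul_pow, h3] at h4
      have h5 : ω ^ q₀ = ω := mul_left_cancel₀ hA0 h4
      have h6 : ω ^ (q₀ - 1) = 1 := by
        have : ω ^ (q₀ - 1) * ω = 1 * ω := by
          rw [← pow_succ, Nat.sub_add_cancel (by omega), h5, one_mul]
        exact mul_right_cancel₀ hω0 this
      rw [← orderOf_dvd_iff_pow_eq_one, hωo] at h6
      exact hrq0 h6
    have hrnq0 : ¬ r ∣ q₀ := by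
      intro h
      have hk0 : k ≠ 0 := by
        rintro rfl
        rw [pow_zero] at hqk
        have := Fintype.one_lt_card (α := F)
        omega
      have h3 : r ∣ Fintype.card F := hqk ▸ dvd_pow h hk0
      have h4 : r ∣ 1 := by
        have := (Nat.dvd_sub h3 hrq)
        have h5 : Fintype.card F - (Fintype.card F - 1) = 1 := by
          have := Fintype.one_lt_card (α := F)
          omega
        rwa [h5] at this
      exact (Fact.out : r.Prime).one_lt.ne' (Nat.dvd_one.mp h4)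
    have hωq : ω ^ q₀ ≠ 1 := by
      intro h
      rw [← orderOf_dvd_iff_pow_eq_one, hωo] at h
      exact hrnq0 h
    have e1 := hmult w
    have e2 := hmult (w * ω)
    rw [hmul, hmul] at e1 e2
    rw [if_neg hne, if_pos rfl, zero_add] at e1
    rw [if_pos rfl, if_neg (Ne.symm hne), add_zero] at e2
    by_cases c1 : (lam * w) ^ q₀ / lam = w
    · by_cases c4 : (lam * (w * ω)) ^ q₀ / lam = w * ω
      · exact hbad (hσ1.mp c1) (hσ4.mp c4)
      · by_cases c3 : (lam * (w * ω)) ^ q₀ / lam = w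
        · have h3 := hσ1.mp c1
          have h4 := hσ3.mp c3
          rw [mul_pow, h3] at h4
          exact hωq (mul_left_cancel₀ hA0 (h4.trans (mul_one A).symm))
        · rw [if_neg (Ne.symm c4), if_neg (Ne.symm c3)] at e2
          omega
    · by_cases c2 : (lam * w) ^ q₀ / lam = w * ω
      · rw [if_pos c2.symm, if_neg (Ne.symm c1)] at e1
        have hm : m = 1 := by omega
        subst hm
        by_cases c3 : (lam * (w * ω)) ^ q₀ / lam = w
        · have h3 := hσ2.mp c2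
          have h4 := hσ3.mp c3
          rw [mul_pow, h3, mul_assoc] at h4
          have h5 : ω * ω ^ q₀ = 1 := mul_left_cancel₀ hA0 (h4.trans (mul_one A).symm)
          rw [← pow_succ', ← orderOf_dvd_iff_pow_eq_one, hωo] at h5
          apply h2 rfl
          have h6 : q₀ ^ 2 - 1 = (q₀ + 1) * (q₀ - 1) := by
            obtain ⟨c, rfl⟩ : ∃ c, q₀ = c + 1 := ⟨q₀ - 1, by omega⟩
            have : (c + 1) ^ 2 = (c + 1 + 1) * c + 1 := by ring
            rw [this]; simp
          rw [h6]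
          exact Dvd.dvd.mul_right h5 _
        · by_cases c4 : (lam * (w * ω)) ^ q₀ / lam = w * ω
          · have h3 := hσ2.mp c2
            have h4 := hσ4.mp c4
            rw [mul_pow, h3] at h4
            exact hωq (mul_left_cancel₀ (mul_ne_zero hA0 hω0) (h4.trans (mul_one _).symm))
          · rw [if_neg (Ne.symm c4), if_neg (Ne.symm c3)] at e2
            omega
      · rw [if_neg (Ne.symm c2), if_neg (Ne.symm c1)] at e1
        omega

/-- Fourth example: `r ∣ q - 1`, `n ≥ 7`. -/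
theorem ex_four {p : ℕ} [Fact p.Prime] [CharP F p] {n k : ℕ} (hn : 7 ≤ n) (F₀ : Subfield F) (q₀ : ℕ)
    (hF₀ : Nat.card ↥F₀ = q₀) (hqk : Fintype.card F = q₀ ^ k) (r : ℕ) [Fact r.Prime] (hr2 : r ≠ 2)
    (hrq : r ∣ Fintype.card F - 1) (hrq0 : ¬ r ∣ q₀ - 1) :
    ∃ x : Matrix.SpecialLinearGroup (Fin n) F, (∃ z : F, ((x ^ r : Matrix.SpecialLinearGroup (Fin n) F) : Matrix (Fin n) (Fin n) F) = z • (1 : Matrix (Fin n) (Fin n) F)) ∧
      (∀ z : F, (x : Matrix (Fin n) (Fin n) F) ≠ z • (1 : Matrix (Fin n) (Fin n) F)) ∧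
      ∀ P : Matrix.SpecialLinearGroup (Fin n) F, P⁻¹ * x * P ∉ ((Cfsg.Geo.subfieldSubgroup F₀ 1).comap (Matrix.SpecialLinearGroup.toGL : Matrix.SpecialLinearGroup (Fin n) F →* GL (Fin n) F)) := by
  classical
  have hFfin : Fintype F₀ := Fintype.ofFinite F₀
  have hc0 : Fintype.card F₀ = q₀ := by rw [← hF₀, Nat.card_eq_fintype_card]
  have hq01 : 1 < q₀ := hc0 ▸ Fintype.one_lt_card
  obtain ⟨ω', hω'⟩ := exists_prime_orderOf_dvd_card' (G := Fˣ) r (by
    rw [Nat.card_eq_fintype_card, Fintype.card_units]; exact hrq)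
  set ω : F := (ω' : F) with hω
  have hωo : orderOf ω = r := by rw [hω, orderOf_units, hω']
  have hω0 : ω ≠ 0 := Units.ne_zero ω'
  have hωr : ω ^ r = 1 := by rw [← hωo]; exact pow_orderOf_eq_one ω
  have hr3 : 3 ≤ r := by
    have := (Fact.out : r.Prime).two_le
    omega
  have hω1 : ω ≠ 1 := by
    intro h
    rw [h, orderOf_one] at hωo
    omega
  have hω2 : (ω ^ 2)⁻¹ ≠ 1 := by
    intro h
    rw [inv_eq_one, ← orderOf_dvd_iff_pow_eq_one, hωo] at h
    have := Nat.le_of_dvd (by norm_num) h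
    omega
  obtain ⟨m, rfl⟩ : ∃ m, n = m + 1 + 1 + 1 := ⟨n - 3, by omega⟩
  let a : Fin (m + 1 + 1 + 1) → F := Fin.cons ω (Fin.cons ω (Fin.cons (ω ^ 2)⁻¹ (fun _ : Fin m => (1 : F)) : Fin (m + 1) → F) : Fin (m + 1 + 1) → F)
  have hprod : ∏ i, a i = 1 := by
    rw [prod_cons, prod_cons, prod_cons, Finset.prod_const_one, mul_one]
    field_simp
  obtain ⟨x, hx⟩ := exists_diag_sl a hprod
  have har : ∀ i, a i ^ r = 1 := by
    intro i
    refine Fin.cases ?_ (fun i => ?_) i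
    · simp [a, hωr]
    · refine Fin.cases ?_ (fun i => ?_) i
      · simp [a, hωr]
      · refine Fin.cases ?_ (fun i => ?_) i
        · simp only [a, Fin.cons_succ, Fin.cons_zero]
          rw [inv_pow, ← pow_mul, mul_comm, pow_mul, hωr, one_pow, inv_one]
        · simp [a]
  refine ⟨x, ⟨1, ?_⟩, ?_, ?_⟩
  · rw [Matrix.SpecialLinearGroup.coe_pow, hx, diag_pow a _ r har]
  · intro c hc
    rw [hx] at hc
    have h3 : a 0 = c := by
      have := congrFun (congrFun hc 0) 0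
      simpa using this
    have h4 : a ⟨3, by omega⟩ = c := by
      have := congrFun (congrFun hc ⟨3, by omega⟩) ⟨3, by omega⟩
      simpa using this
    have h5 : a ⟨3, by omega⟩ = 1 := rfl
    have h6 : a 0 = ω := by simp [a]
    apply hω1
    rw [← h6, h3, ← h4, h5]
  · intro P hP
    obtain ⟨lam, hlam, hmult⟩ := mult_subfield p F₀ hF₀ a x P hx hP
    have hmul : ∀ β, mult a β = (if ω = β then 1 else 0) + ((if ω = β then 1 else 0) +
        ((if (ω ^ 2)⁻¹ = β then 1 else 0) + (if (1 : F) = β then m else 0))) := by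
      intro β
      rw [mult_cons, mult_cons, mult_cons, mult_const]
    have e1 := hmult 1
    rw [hmul, hmul, if_neg hω1, if_neg hω2, if_pos rfl] at e1
    have c1 : (1 : F) = (lam * 1) ^ q₀ / lam := by
      by_contra hc
      rw [if_neg hc] at e1
      split_ifs at e1 <;> omega
    rw [mul_one, eq_div_iff hlam, one_mul] at c1
    have e2 := hmult ω
    have h3 : (lam * ω) ^ q₀ / lam = ω ^ q₀ := by
      rw [mul_pow, ← c1]; field_simp
    rw [h3, hmul, hmul, if_pos rfl, if_neg (Ne.symm hω1)] at e2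
    have c2 : ω = ω ^ q₀ := by
      by_contra hc
      rw [if_neg hc] at e2
      split_ifs at e2 <;> omega
    have h6 : ω ^ (q₀ - 1) = 1 := by
      have : ω ^ (q₀ - 1) * ω = 1 * ω := by
        rw [← pow_succ, Nat.sub_add_cancel (by omega), ← c2, one_mul]
      exact mul_right_cancel₀ hω0 this
    rw [← orderOf_dvd_iff_pow_eq_one, hωo] at h6
    exact hrq0 h6

/-- Combinatorial input for `n = 3`. -/
theorem comb_three (t : Fin 3 → ZMod 3) (h : ∑ i, t i = 0) : ∃ e : Fin 1 ⊕ (Fin 2 × Fin 1) ≃ Fin 3,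
      ∀ i, t (e (Sum.inr (0, i))) + t (e (Sum.inr (1, i))) = 2 * t (e (Sum.inl 0)) := by
  refine ⟨Equiv.ofBijective (Sum.elim (fun _ => 0) (fun c => if c.1 = 0 then 1 else 2)) (by decide), ?_⟩
  intro i
  rw [Fin.sum_univ_three] at h
  have hi : i = 0 := Subsingleton.elim _ _
  subst hi
  change t 1 + t 2 = 2 * t 0
  have h3 : (3 : ZMod 3) = 0 := by decide
  linear_combination h - (t 0) * h3

/-- Combinatorial input for `n = 5`. -/
theorem comb_five (t : Fin 5 → ZMod 5) (h : ∑ i, t i = 0) : ∃ e : Fin 1 ⊕ (Fin 2 × Fin 2) ≃ Fin 5,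
      ∀ i, t (e (Sum.inr (0, i))) + t (e (Sum.inr (1, i))) = 2 * t (e (Sum.inl 0)) := by
  obtain ⟨σ, h1, h2⟩ := five_perm t h
  refine ⟨(Equiv.ofBijective (Sum.elim (fun _ => 0)
    (fun c => if c.1 = 0 then (if c.2 = 0 then 1 else 3) else (if c.2 = 0 then 2 else 4))) (by decide)).trans σ, ?_⟩
  intro i
  fin_cases i
  · exact h1
  · exact h2

/-- Elements of odd prime order r ≠ p of PSL_n(q) and subfield subgroups. Here `T = PSL_n(F)` for a field `F` with `q = p^f` elements (`n ≥ 2`, `(n, q) ≠ (2, 2), (2, 3)`), `F₀` is the subfield with `q₀` elements where `q = q₀^k` for a prime `k`, and `H` is the subgroup of matrices of determinant 1 lying in the subfield group of `F₀` (invertible matrices over `F₀` times scalars) — a maximal subgroup of type GL_n(q₀) (the non-maximal case `n = 2`, `q₀ = 2` is excluded); Ω is the set of `T`-conjugates of `H` (cosets of `H`), so an element of `T` of prime order `r` (a matrix `x` of determinant 1 with `x^r`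 scalar, `x` not scalar) fixes a point of Ω when some conjugate of `x` by a matrix of determinant 1 lies in `H`. Let `r ≠ p` be an odd prime dividing the index of `H`, with `(n, r) ≠ (6, 3)` and, when `r = k` divides `q₀ − 1`, with `(n)_r ≤ (q − 1)_r`. Then every element of `T` of order `r` is conjugate in `T` into `H` if and only if `r = k`, or `k = 2`, `r = n ∈ {3, 5}` and `(q₀ + 1)_r = r`. The two excluded cases, `(n, r) = (6, 3)` and `r = k ∣ q₀ − 1` with `(n)_r > (q − 1)_r`, are ones where this criterion can fail, so they are left out. -/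
theorem result {F : Type*} [Field F] [Fintype F] {p : ℕ} [Fact p.Prime] [CharP F p] {q : ℕ} (hq : Fintype.card F = q)
    (n : ℕ) (hn : 2 ≤ n) (hT : (n, q) ≠ (2, 2) ∧ (n, q) ≠ (2, 3))
    (F₀ : Subfield F) (k q₀ : ℕ) (hk : k.Prime) (hF₀ : Nat.card ↥F₀ = q₀) (hqk : q = q₀ ^ k) (hC5 : ¬ (n = 2 ∧ q₀ = 2)) (r : ℕ) [Fact r.Prime] (hr2 : r ≠ 2) (hrp : r ≠ p) (hgap : ¬ (n = 6 ∧ r = 3)) (hgapk : r = k → r ∣ q₀ - 1 → padicValNat r n ≤ padicValNat r (q - 1)) (hΩ : r ∣ ((Cfsg.Geo.subfieldSubgroup F₀ 1).comap (Matrix.SpecialLinearGroup.toGL : Matrix.SpecialLinearGroup (Fin n) F →* GL (Fin n) F)).index) :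
    (∀ x : Matrix.SpecialLinearGroup (Fin n) F,
      (∃ z : F, ((x ^ r : Matrix.SpecialLinearGroup (Fin n) F) : Matrix (Fin n) (Fin n) F) = z • (1 : Matrix (Fin n) (Fin n) F)) →
      (∀ z : F, (x : Matrix (Fin n) (Fin n) F) ≠ z • (1 : Matrix (Fin n) (Fin n) F)) →
      ∃ P : Matrix.SpecialLinearGroup (Fin n) F, P⁻¹ * x * P ∈ ((Cfsg.Geo.subfieldSubgroup F₀ 1).comap (Matrix.SpecialLinearGroup.toGL : Matrix.SpecialLinearGroup (Fin n) F →* GL (Fin n) F))) ↔
    (r = k ∨ (k = 2 ∧ r = n ∧ (n = 3 ∨ n = 5) ∧ padicValNat r (q₀ + 1) = 1)) := by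
  classical
  have hrP : r.Prime := Fact.out
  have hFfin : Fintype F₀ := Fintype.ofFinite F₀
  have hc0 : Fintype.card F₀ = q₀ := by rw [← hF₀, Nat.card_eq_fintype_card]
  have hq01 : 1 < q₀ := hc0 ▸ Fintype.one_lt_card
  have hFk : Fintype.card F = q₀ ^ k := hq.trans hqk
  have hrF : (r : F) ≠ 0 := by
    rw [Ne, CharP.cast_eq_zero_iff F p]
    intro h
    exact hrp ((Nat.prime_dvd_prime_iff_eq Fact.out hrP).mp h).symm
  constructor
  · intro h
    by_contra hcon
    push Not at hcon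
    obtain ⟨hrk, hcon⟩ := hcon
    obtain ⟨j, hj2, hjn, hdiv, hj⟩ := exists_of_dvd_index n hn F₀ k q₀ hF₀ hFk hk r hrP hrp hΩ
    have hnd : ¬ r ∣ q₀ ^ j - 1 := fun h1 => hrk (hj h1)
    have key : ¬ ∃ x : Matrix.SpecialLinearGroup (Fin n) F, (∃ z : F, ((x ^ r : Matrix.SpecialLinearGroup (Fin n) F) : Matrix (Fin n) (Fin n) F) = z • (1 : Matrix (Fin n) (Fin n) F)) ∧
      (∀ z : F, (x : Matrix (Fin n) (Fin n) F) ≠ z • (1 : Matrix (Fin n) (Fin n) F)) ∧
      ∀ P : Matrix.SpecialLinearGroup (Fin n) F, P⁻¹ * x * P ∉ ((Cfsg.Geo.subfieldSubgroup F₀ 1).comap (Matrix.SpecialLinearGroup.toGL : Matrix.SpecialLinearGroup (Fin n) F →* GL (Fin n) F)) := by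
      rintro ⟨x, hx1, hx2, hx3⟩
      obtain ⟨P, hP⟩ := h x hx1 hx2
      exact hx3 P hP
    by_cases hrq : r ∣ Fintype.card F - 1
    · have hrq0 : ¬ r ∣ q₀ - 1 := by
        intro h1
        apply hnd
        have h2 := Nat.sub_dvd_pow_sub_pow q₀ 1 j
        rw [one_pow] at h2
        exact h1.trans h2
      rcases lt_trichotomy (padicValNat r n) (padicValNat r (Fintype.card F - 1)) with hv | hv | hv
      · apply key
        refine ex_three (p := p) hn F₀ q₀ hF₀ hFk r hr2 hrq hrq0 hv ?_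
        intro hn2
        have : j = 2 := by omega
        rw [← this]; exact hnd
      · -- r divides n
        have hν1 : 1 ≤ padicValNat r (Fintype.card F - 1) := by
          rw [← padicValNat_dvd_iff_le (by have := Fintype.one_lt_card (α := F); omega), pow_one]
          exact hrq
        have hrn : r ∣ n := by
          have := (padicValNat_dvd_iff_le (p := r) (n := 1) (a := n) (by omega)).mpr (by omega)
          rwa [pow_one] at this
        have hr3 : 3 ≤ r := by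
          have := hrP.two_le
          omega
        by_cases h7 : 7 ≤ n
        · exact key (ex_four (p := p) h7 F₀ q₀ hF₀ hFk r hr2 hrq hrq0)
        · -- n = r = 3 or 5
          have hrle := Nat.le_of_dvd (by omega) hrn
          obtain ⟨m, hm⟩ := hrn
          have hcase : (r = 3 ∧ n = 3) ∨ (r = 5 ∧ n = 5) := by
            have hr6 : r ≤ 6 := by omega
            have hr4 : r ≠ 4 := by rintro rfl; exact absurd hrP (by decide)
            have hr6' : r ≠ 6 := by rintro rfl; exact absurd hrP (by decide)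
            have : r = 3 ∨ r = 5 := by omega
            rcases this with rfl | rfl
            · left
              refine ⟨rfl, ?_⟩
              have : m = 1 ∨ m = 2 := by omega
              rcases this with rfl | rfl
              · omega
              · exact absurd ⟨by omega, rfl⟩ hgap
            · right
              refine ⟨rfl, ?_⟩
              omega
          have hrn' : r = n := by omega
          -- k divides r - 1
          have hkdvd : k ∣ r - 1 := by
            by_contra hcop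
            have h1 : Nat.Coprime k (r - 1) := (Nat.Prime.coprime_iff_not_dvd hk).mpr hcop
            have h2 : orderOf (q₀ : ZMod r) ∣ k := by
              rw [orderOf_dvd_iff (by omega), ← hFk]; exact hrq
            have h3 : orderOf (q₀ : ZMod r) ∣ r - 1 := by
              apply orderOf_dvd_of_pow_eq_one
              apply ZMod.pow_card_sub_one_eq_one
              intro h0
              rw [ZMod.natCast_eq_zero_iff] at h0
              have h4 : r ∣ Fintype.card F := hFk ▸ dvd_pow h0 hk.ne_zero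
              have h5 := Nat.dvd_sub h4 hrq
              have h6 : Fintype.card F - (Fintype.card F - 1) = 1 := by
                have := Fintype.one_lt_card (α := F)
                omega
              rw [h6] at h5
              exact hrP.one_lt.ne' (Nat.dvd_one.mp h5)
            have h4 : orderOf (q₀ : ZMod r) ∣ 1 := by
              have := Nat.dvd_gcd h2 h3
              rwa [h1] at this
            rw [orderOf_dvd_iff (by omega), pow_one] at h4
            exact hrq0 h4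
          have hk2 : k = 2 := by
            rcases hcase with ⟨h1, -⟩ | ⟨h1, -⟩
            · rw [h1] at hkdvd
              exact (Nat.prime_dvd_prime_iff_eq hk Nat.prime_two).mp hkdvd
            · rw [h1] at hkdvd
              have : k ∣ 2 ^ 2 := hkdvd
              exact (Nat.prime_dvd_prime_iff_eq hk Nat.prime_two).mp (hk.dvd_of_dvd_pow this)
          subst hk2
          apply hcon rfl hrn' (by omega)
          have hq1 : Fintype.card F - 1 = (q₀ - 1) * (q₀ + 1) := by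
            obtain ⟨c, rfl⟩ : ∃ c, q₀ = c + 1 := ⟨q₀ - 1, by omega⟩
            rw [hFk]
            have : (c + 1) ^ 2 = c * (c + 1 + 1) + 1 := by ring
            rw [this]
            simp
          rw [hq1, padicValNat.mul (by omega) (by omega), padicValNat.eq_zero_of_not_dvd hrq0, zero_add] at hv
          rw [← hv, ← hrn', padicValNat_self]
      · exact key (ex_two hn F₀ q₀ hF₀ r hr2 hrq hrq0 hv)
    · exact key (ex_one hj2 hjn F₀ q₀ hF₀ hFk r hrF hrq hdiv hnd)
  · rintro (rfl | ⟨rfl, rfl, hn35, hv⟩) x ⟨z, hz⟩ -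
    · -- r = k
      obtain ⟨w, hw⟩ := exists_root hn r hr2 (by
        intro hrq
        rw [hq]
        apply hgapk rfl
        -- r ∣ q₀ - 1
        have h1 := pow_mod_self r q₀
        rw [hFk] at hrq
        have h2 := Nat.dvd_sub hrq h1
        have h3 : q₀ ≤ q₀ ^ r := Nat.le_self_pow hrP.ne_zero _
        have h4 : q₀ ^ r - 1 - (q₀ ^ r - q₀) = q₀ - 1 := by omega
        rwa [h4] at h2) x z hz
      rw [← hw] at hz
      refine S5964.conj_of_root n hn F₀ hF₀ r hrP hrp ?_ ?_ x w hz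
      · rw [hFk]; exact Nat.le_self_pow hrP.ne_zero _
      · rw [hFk]; exact pow_mod_self r q₀
    · rcases hn35 with h3 | h5
      · subst h3
        exact special (p := p) 3 1 hr2 hrp rfl comb_three F₀ q₀ hF₀ hFk hv x z hz
      · subst h5
        exact special (p := p) 5 2 hr2 hrp rfl comb_five F₀ q₀ hF₀ hFk hv x z hz

end Cfsg.Agent.S5965
end
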