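import Cfsg.Statements.S5966
import Cfsg.Agent.H953.SubConj
set_option linter.all false

set_option autoImplicit false
open scoped MatrixGroups
open Cfsg

namespace Cfsg.Agent.S5966

open Polynomial Cfsg.Agent.H953

universe u

variable {F : Type u} [Field F] [Fintype F] [CharP F 3]

omit [Fintype F] [CharP F 3] in
theorem z_ne_zero {n : ℕ} (hn : 2 ≤ n) (x : Matrix.SpecialLinearGroup (Fin n) F) {m : ℕ} {z : F}
    (h : ((x ^ m : Matrix.SpecialLinearGroup (Fin n) F) : Matrix (Fin n) (Fin n) F) = z • (1 : Matrix (Fin n) (Fin n) F)) :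
    z ≠ 0 := by
  rintro rfl
  have : Nonempty (Fin n) := ⟨⟨0, by omega⟩⟩
  have h2 := (x ^ m).det_coe
  rw [h, zero_smul, Matrix.det_zero] at h2
  exact zero_ne_one h2

/-- Every element of order three modulo scalars can be realised over the subfield up to scalars, with control of
the determinants of its centraliser. -/
theorem backward {q : ℕ} (hq : Fintype.card F = q)
    (n : ℕ) (hn : 2 ≤ n) 
    (F₀ : Subfield F) (k q₀ : ℕ) (hk : k.Prime) (hF₀ : Nat.card ↥F₀ = q₀) (hqk : q = q₀ ^ k)
    (hcase : Odd n ∨ (Even n ∧ 2 < k)) (x : Matrix.SpecialLinearGroup (Fin n) F) 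
    (hx : ∃ z : F, ((x ^ 3 : Matrix.SpecialLinearGroup (Fin n) F) : Matrix (Fin n) (Fin n) F) = z • (1 : Matrix (Fin n) (Fin n) F)) :
    ∃ P : Matrix.SpecialLinearGroup (Fin n) F, P⁻¹ * x * P ∈ ((Cfsg.Geo.subfieldSubgroup F₀ 1).comap (Matrix.SpecialLinearGroup.toGL : Matrix.SpecialLinearGroup (Fin n) F →* GL (Fin n) F)) := by
  classical
  have hne : Nonempty (Fin n) := ⟨⟨0, by omega⟩⟩
  have hnz : NeZero n := ⟨by omega⟩
  obtain ⟨z, hz⟩ := hx
  have hz0 := z_ne_zero hn x hz
  rw [Matrix.SpecialLinearGroup.coe_pow] at hz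
  obtain ⟨w, u, hw, hxu, hu, hu1⟩ := exists_unipotent 3 (x : Matrix (Fin n) (Fin n) F) z hz0 hz
  -- realisation over the subfield
  obtain ⟨P, y, hP⟩ := exists_descent F₀ u _ hu (by
    intro g hg hdvd m
    obtain ⟨j, -, rfl⟩ := dvd_X_sub_one_pow hg hdvd
    exact coeff_X_sub_one_pow_mem F₀ j m)
  have hPx : (x : Matrix (Fin n) (Fin n) F) * (P : Matrix (Fin n) (Fin n) F) =
      (P : Matrix (Fin n) (Fin n) F) * (w • y.map F₀.subtype) := by
    rw [hxu, Matrix.smul_mul, hP, Matrix.mul_smul]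
  have hmem := mem_subfield_of_eq F₀ x P w y hPx
  -- determinants
  obtain ⟨d, g, e, Q, hg, hann, hQ⟩ := exists_rcf u
  have hdeg : ∀ i, (g i).natDegree ≤ 3 := by
    intro i
    obtain ⟨j, hj, h⟩ := dvd_X_sub_one_pow (monic_of_pow (hg i)) ((hann _).mp hu i)
    rw [h]
    have : (X - 1 : F[X]) = X - C 1 := by rw [C_1]
    rw [this, natDegree_pow, natDegree_X_sub_C]
    omega
  have hcub : ∀ c : F, ∃ b : F, b ^ 3 = c := fun c => exists_pow_char 3 c
  have hcomm : ∀ A : Matrix (Fin n) (Fin n) F, A * u = u * A → A * (x : Matrix (Fin n) (Fin n) F) =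
      (x : Matrix (Fin n) (Fin n) F) * A := by
    intro A hA
    rw [hxu, Matrix.mul_smul, Matrix.smul_mul, hA]
  have hsq : ∀ c : F, ∃ A : Matrix (Fin n) (Fin n) F, A * u = u * A ∧ A.det = c ^ 2 := by
    intro c
    obtain ⟨i, hi⟩ := exists_index e
    have hi3 := hdeg i
    have h3 : (g i).natDegree = 1 ∨ (g i).natDegree = 2 ∨ (g i).natDegree = 3 := by omega
    rcases h3 with h | h | h
    · obtain ⟨A, hA, hd⟩ := exists_commute_scale hQ i (c ^ 2)
      exact ⟨A, hA, by rw [hd, h, pow_one]⟩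
    · obtain ⟨A, hA, hd⟩ := exists_commute_scale hQ i c
      exact ⟨A, hA, by rw [hd, h]⟩
    · obtain ⟨b, hb⟩ := hcub (c ^ 2)
      obtain ⟨A, hA, hd⟩ := exists_commute_scale hQ i b
      exact ⟨A, hA, by rw [hd, h, hb]⟩
  rcases hcase with hodd | ⟨heven, h2k⟩
  · -- a block of odd size
    have hall : ∀ c : F, ∃ A : Matrix (Fin n) (Fin n) F,
        A * (x : Matrix (Fin n) (Fin n) F) = (x : Matrix (Fin n) (Fin n) F) * A ∧ A.det = c := by
      intro c
      obtain ⟨i, hi⟩ : ∃ i, Odd (g i).natDegree := by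
        by_contra hcon
        push Not at hcon
        have hs := sum_natDegree e
        rw [Fintype.card_fin] at hs
        have : Even n := by
          rw [← hs]
          exact Finset.even_sum _ fun i _ => Nat.not_odd_iff_even.mp (hcon i)
        exact (Nat.not_even_iff_odd.mpr hodd) this
      have hi3 := hdeg i
      have h3 : (g i).natDegree = 1 ∨ (g i).natDegree = 3 := by
        obtain ⟨m, hm⟩ := hi
        omega
      rcases h3 with h | h
      · obtain ⟨A, hA, hd⟩ := exists_commute_scale hQ i c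
        exact ⟨A, hcomm A hA, by rw [hd, h, pow_one]⟩
      · obtain ⟨b, hb⟩ := hcub c
        obtain ⟨A, hA, hd⟩ := exists_commute_scale hQ i b
        exact ⟨A, hcomm A hA, by rw [hd, h, hb]⟩
    exact conj_sl_of_gl _ x hall P hmem
  · -- k > 2
    have hkodd : Odd k := hk.odd_of_ne_two (by omega)
    have hq0odd : Odd q₀ := by
      obtain ⟨m, -, hm⟩ := FiniteField.card F 3
      have h1 : Odd q := by rw [← hq, hm]; exact Odd.pow (by decide)
      by_contra hcon
      rw [Nat.not_odd_iff_even] at hcon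
      rw [hqk] at h1
      exact (Nat.not_even_iff_odd.mpr h1) (hcon.pow_of_ne_zero hk.ne_zero)
    obtain ⟨b, hbF, hb0, hbns⟩ := exists_nonsquare_subfield F₀ hF₀ (hq.trans hqk) hkodd hq0odd
    set c := ((P : Matrix (Fin n) (Fin n) F).det)⁻¹ with hc
    have hPd : (P : Matrix (Fin n) (Fin n) F).det ≠ 0 := (Matrix.isUnits_det_units P).ne_zero
    have hc0 : c ≠ 0 := inv_ne_zero hPd
    have hchar : ringChar F ≠ 2 := by
      rw [ringChar.eq F 3]; decide
    by_cases hcs : IsSquare c
    · obtain ⟨a, ha⟩ := hcs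
      obtain ⟨A, hA, hd⟩ := hsq a
      refine conj_sl_of_gl' _ x P 1 A (hcomm A hA) (Subgroup.one_mem _) ?_ hmem
      rw [hd, pow_two, ← ha, hc, Units.val_one, Matrix.det_one, mul_one, inv_mul_cancel₀ hPd]
    · -- c / b is a square
      have hcb : IsSquare (c * b) := by
        have h1 := quadraticChar_neg_one_iff_not_isSquare.mpr hcs
        have h2 := quadraticChar_neg_one_iff_not_isSquare.mpr hbns
        have h3 : quadraticChar F (c * b) = 1 := by rw [map_mul, h1, h2]; norm_num
        exact (quadraticChar_one_iff_isSquare (mul_ne_zero hc0 hb0)).mp h3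
      obtain ⟨a, ha⟩ := hcb
      obtain ⟨A, hA, hd⟩ := hsq (a * b⁻¹)
      -- the element diag(b,1,...,1) of the subfield group
      let D₀ : Matrix (Fin n) (Fin n) F₀ := Matrix.diagonal (fun i => if i = ⟨0, by omega⟩ then ⟨b, hbF⟩ else 1)
      have hD₀ : D₀.det = ⟨b, hbF⟩ := by
        rw [Matrix.det_diagonal, Finset.prod_ite_eq']
        simp
      have hD₀' : D₀.det ≠ 0 := by
        rw [hD₀]; intro h; exact hb0 (congrArg Subtype.val h)
      let B : GL (Fin n) F := Matrix.GeneralLinearGroup.map F₀.subtype (Matrix.GeneralLinearGroup.mkOfDetNeZero D₀ hD₀')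
      have hB : B ∈ Cfsg.Geo.subfieldSubgroup F₀ 1 := by
        rw [mem_subfield_iff]
        exact ⟨Matrix.GeneralLinearGroup.mkOfDetNeZero D₀ hD₀', 1, by rw [Units.val_one, one_smul]; rfl⟩
      have hBd : (B : Matrix (Fin n) (Fin n) F).det = b := by
        have h1 : (B : Matrix (Fin n) (Fin n) F) = D₀.map F₀.subtype := rfl
        rw [h1]
        have h2 : (D₀.map F₀.subtype).det = F₀.subtype D₀.det := (RingHom.map_det F₀.subtype D₀).symm
        rw [h2, hD₀]
        rfl
      refine conj_sl_of_gl' _ x P B A (hcomm A hA) hB ?_ hmem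
      rw [hd, hBd]
      have h1 : (a * b⁻¹) ^ 2 = c * b⁻¹ := by
        rw [mul_pow, pow_two a, ← ha]
        field_simp
      rw [h1, hc]
      field_simp

omit [Fintype F] [CharP F 3] in
/-- Solvability of linear systems descends to subfields. -/
theorem solve_descend (F₀ : Subfield F) {α β : Type*} [Fintype β] (A : Matrix α β F₀) (b : α → F₀) (w : β → F)
    (h : (A.map F₀.subtype).mulVec w = fun i => (b i : F)) : ∃ w₀ : β → F₀, A.mulVec w₀ = b := by
  obtain ⟨ρ, hρ⟩ := LinearMap.exists_leftInverse_of_injective (Algebra.linearMap F₀ F)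
    (LinearMap.ker_eq_bot.mpr (algebraMap F₀ F).injective)
  have hρ1 : ∀ a : F₀, ρ (a : F) = a := fun a => LinearMap.congr_fun hρ a
  refine ⟨fun j => ρ (w j), funext fun i => ?_⟩
  have h1 : (A.map F₀.subtype).mulVec w i = ∑ j, (A i j) • w j := rfl
  have h2 := congrArg ρ (h1.symm.trans (congrFun h i))
  rw [map_sum, hρ1] at h2
  rw [← h2]
  refine Finset.sum_congr rfl fun j _ => ?_
  rw [map_smul]
  rfl

omit [Fintype F] [CharP F 3] in
theorem map_sub_one {m : ℕ} (F₀ : Subfield F) (y : Matrix (Fin m) (Fin m) F₀) :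
    (y - 1).map F₀.subtype = y.map F₀.subtype - 1 := by
  rw [Matrix.map_sub _ (map_sub _), Matrix.map_one _ (map_zero _) (map_one _)]

/-- The counterexample for even `n` and `k = 2`. -/
theorem forward {q : ℕ} (hq : Fintype.card F = q)
    (m : ℕ) (hm : 1 ≤ m) 
    (F₀ : Subfield F) (q₀ : ℕ) (hF₀ : Nat.card ↥F₀ = q₀) (hqk : q = q₀ ^ 2) :
    ∃ x : Matrix.SpecialLinearGroup (Fin (m + m)) F,
      x ^ 3 = 1 ∧ (∀ z : F, (x : Matrix (Fin (m + m)) (Fin (m + m)) F) ≠ z • (1 : Matrix (Fin (m + m)) (Fin (m + m)) F)) ∧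
      ∀ P : Matrix.SpecialLinearGroup (Fin (m + m)) F, P⁻¹ * x * P ∉
        ((Cfsg.Geo.subfieldSubgroup F₀ 1).comap (Matrix.SpecialLinearGroup.toGL : Matrix.SpecialLinearGroup (Fin (m + m)) F →* GL (Fin (m + m)) F)) := by
  classical
  have hchar : ringChar F ≠ 2 := by
    rw [ringChar.eq F 3]; decide
  have hq0odd : Odd q₀ := by
    obtain ⟨l, -, hl⟩ := FiniteField.card F 3
    have h1 : Odd q := by rw [← hq, hl]; exact Odd.pow (by decide)
    by_contra hcon
    rw [Nat.not_odd_iff_even] at hcon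
    rw [hqk] at h1
    exact (Nat.not_even_iff_odd.mpr h1) (hcon.pow_of_ne_zero two_ne_zero)
  obtain ⟨δ, hδ⟩ := FiniteField.exists_nonsquare hchar
  have hδ0 : δ ≠ 0 := by rintro rfl; exact hδ IsSquare.zero
  let i₀ : Fin m := ⟨0, by omega⟩
  let D : Matrix (Fin m) (Fin m) F := Matrix.diagonal (fun i => if i = i₀ then δ else 1)
  have hD : D.det = δ := by
    rw [Matrix.det_diagonal, Finset.prod_ite_eq']
    simp
  let D' : Matrix (Fin m) (Fin m) F := Matrix.diagonal (fun i => if i = i₀ then δ⁻¹ else 1)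
  have hDD' : D * D' = 1 := by
    rw [Matrix.diagonal_mul_diagonal, ← Matrix.diagonal_one]
    congr 1
    funext i
    split_ifs
    · exact mul_inv_cancel₀ hδ0
    · exact one_mul _
  have hD'D : D' * D = 1 := by
    rw [Matrix.diagonal_mul_diagonal, ← Matrix.diagonal_one]
    congr 1
    funext i
    split_ifs
    · exact inv_mul_cancel₀ hδ0
    · exact one_mul _
  let e : Fin m ⊕ Fin m ≃ Fin (m + m) := finSumFinEquiv
  let X0 : Matrix (Fin m ⊕ Fin m) (Fin m ⊕ Fin m) F := Matrix.fromBlocks 1 D 0 1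
  let N0 : Matrix (Fin m ⊕ Fin m) (Fin m ⊕ Fin m) F := Matrix.fromBlocks 0 D 0 0
  have hX0 : X0 = 1 + N0 := by
    rw [← Matrix.fromBlocks_one, Matrix.fromBlocks_add]
    simp [X0]
  let φ : Matrix (Fin m ⊕ Fin m) (Fin m ⊕ Fin m) F ≃ₐ[F] Matrix (Fin (m + m)) (Fin (m + m)) F :=
    Matrix.reindexAlgEquiv F F e
  have hφdet : ∀ A, (φ A).det = A.det := fun A => Matrix.det_reindexAlgEquiv F F e A
  have hN02 : N0 * N0 = 0 := by
    rw [Matrix.fromBlocks_multiply]
    simp
  have hX03 : X0 ^ 3 = 1 := by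
    have : CharP (Matrix (Fin m ⊕ Fin m) (Fin m ⊕ Fin m) F) 3 := by
      have : Nonempty (Fin m ⊕ Fin m) := ⟨Sum.inl i₀⟩
      exact Matrix.charP 3
    have h3 : (3 : Matrix (Fin m ⊕ Fin m) (Fin m ⊕ Fin m) F) = 0 := by
      have := CharP.cast_eq_zero (Matrix (Fin m ⊕ Fin m) (Fin m ⊕ Fin m) F) 3
      exact_mod_cast this
    rw [hX0]
    have : (1 + N0) ^ 3 = 1 + 3 * N0 + 3 * (N0 * N0) + (N0 * N0) * N0 := by noncomm_ring
    rw [this, hN02, h3]
    simp
  have hX0det : X0.det = 1 := by
    rw [Matrix.det_fromBlocks_zero₂₁, Matrix.det_one, one_mul]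
  let x : Matrix.SpecialLinearGroup (Fin (m + m)) F := ⟨φ X0, by rw [hφdet]; exact hX0det⟩
  have hx : (x : Matrix (Fin (m + m)) (Fin (m + m)) F) = φ X0 := rfl
  refine ⟨x, ?_, ?_, ?_⟩
  · apply Subtype.ext
    rw [Matrix.SpecialLinearGroup.coe_pow, hx, ← map_pow, hX03, map_one]
    rfl
  · intro z hz
    have h1 := congrFun (congrFun hz (e (Sum.inl i₀))) (e (Sum.inr i₀))
    have h2 : (x : Matrix (Fin (m + m)) (Fin (m + m)) F) (e (Sum.inl i₀)) (e (Sum.inr i₀)) = δ := by
      simp [hx, φ, X0, D]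
    rw [h2] at h1
    simp at h1
    exact hδ0 h1
  · intro P hP
    obtain ⟨y, c, hc, hyc⟩ := eq_of_mem_subfield F₀ x P hP
    rw [hx] at hyc
    have hPdet : (P : Matrix (Fin (m + m)) (Fin (m + m)) F).det = 1 := P.det_coe
    set Pm : Matrix (Fin (m + m)) (Fin (m + m)) F := (P : Matrix (Fin (m + m)) (Fin (m + m)) F) with hPm
    have hPu : IsUnit Pm := (Matrix.isUnit_iff_isUnit_det _).mpr (by rw [hPdet]; exact isUnit_one)
    obtain ⟨PI, hPI, hPI'⟩ : ∃ PI : Matrix (Fin (m + m)) (Fin (m + m)) F, Pm * PI = 1 ∧ PI * Pm = 1 :=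
      ⟨Pm⁻¹, Matrix.mul_nonsing_inv _ (by rw [hPdet]; exact isUnit_one),
        Matrix.nonsing_inv_mul _ (by rw [hPdet]; exact isUnit_one)⟩
    -- the scalar lies in the subfield
    have hc3 : c ^ 3 ∈ F₀ := by
      have h1 : Pm * (c • (y : Matrix (Fin (m + m)) (Fin (m + m)) F₀).map F₀.subtype) ^ 3 = Pm := by
        have h2 : ∀ l : ℕ, φ X0 ^ l * Pm = Pm * (c • (y : Matrix (Fin (m + m)) (Fin (m + m)) F₀).map F₀.subtype) ^ l := by
          intro l
          induction l with
          | zero => simp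
          | succ l ih => rw [pow_succ, mul_assoc, hyc, ← mul_assoc, ih, mul_assoc, ← pow_succ]
        rw [← h2, ← map_pow, hX03, map_one, one_mul]
      have h2 : (c • (y : Matrix (Fin (m + m)) (Fin (m + m)) F₀).map F₀.subtype) ^ 3 = 1 := by
        have := congrArg (fun M => PI * M) h1
        simp only [← mul_assoc, hPI', one_mul] at this
        exact this
      have h3 : (c • (y : Matrix (Fin (m + m)) (Fin (m + m)) F₀).map F₀.subtype) ^ 3 =
          c ^ 3 • ((y : Matrix (Fin (m + m)) (Fin (m + m)) F₀) ^ 3).map F₀.subtype := by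
        rw [_root_.smul_pow]
        congr 1
        exact (map_pow (F₀.subtype.mapMatrix) (y : Matrix (Fin (m + m)) (Fin (m + m)) F₀) 3).symm
      rw [h3] at h2
      have h4 := congrFun (congrFun h2 (e (Sum.inl i₀))) (e (Sum.inl i₀))
      rw [Matrix.smul_apply, Matrix.map_apply, Matrix.one_apply_eq, smul_eq_mul] at h4
      rw [eq_inv_of_mul_eq_one_left h4]
      exact F₀.inv_mem (SetLike.coe_mem _)
    have hcF : c ∈ F₀ := mem_of_pow_char_mem 3 F₀ hc3
    -- a conjugate over the subfield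
    set y' : Matrix (Fin (m + m)) (Fin (m + m)) F₀ := (⟨c, hcF⟩ : F₀) • (y : Matrix (Fin (m + m)) (Fin (m + m)) F₀) with hy'
    have hy'm : c • (y : Matrix (Fin (m + m)) (Fin (m + m)) F₀).map F₀.subtype = y'.map F₀.subtype := by
      ext i j
      simp [hy']
    rw [hy'm] at hyc
    set N₁ : Matrix (Fin (m + m)) (Fin (m + m)) F₀ := y' - 1 with hN₁
    have hN₁m : φ N0 * Pm = Pm * N₁.map F₀.subtype := by
      rw [hN₁, map_sub_one, Matrix.mul_sub, ← hyc, hX0, map_add, map_one, add_mul, one_mul, mul_one]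
      abel
    have hmapinj : Function.Injective (fun A : Matrix (Fin (m + m)) (Fin (m + m)) F₀ => A.map F₀.subtype) :=
      Matrix.map_injective F₀.subtype_injective
    have hN₁2 : N₁ * N₁ = 0 := by
      apply hmapinj
      change (N₁ * N₁).map F₀.subtype = (0 : Matrix _ _ F₀).map F₀.subtype
      rw [Matrix.map_mul, Matrix.map_zero _ (map_zero _)]
      have h1 : Pm * (N₁.map F₀.subtype * N₁.map F₀.subtype) = 0 := by
        rw [← mul_assoc, ← hN₁m, mul_assoc, ← hN₁m, ← mul_assoc, ← map_mul, hN02, map_zero, zero_mul]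
      have := congrArg (fun M => PI * M) h1
      simp only [← mul_assoc, hPI', one_mul, mul_zero] at this
      exact this
    let T : Module.End F₀ (Fin (m + m) → F₀) := Matrix.toLin' N₁
    have hker : LinearMap.ker T = LinearMap.range T := by
      apply le_antisymm
      · intro v hv
        have hv0 : N₁.mulVec v = 0 := hv
        let v' : Fin (m + m) → F := fun i => (v i : F)
        have h1 : (N₁.map F₀.subtype).mulVec v' = 0 := by
          have : (N₁.map F₀.subtype).mulVec v' = F₀.subtype ∘ (N₁.mulVec v) := by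
            funext i
            exact (RingHom.map_mulVec F₀.subtype N₁ v i).symm
          rw [this, hv0]
          funext i; simp
        have h2 : (φ N0).mulVec (Pm.mulVec v') = 0 := by
          rw [Matrix.mulVec_mulVec, hN₁m, ← Matrix.mulVec_mulVec, h1, Matrix.mulVec_zero]
        let N0' : Matrix (Fin m ⊕ Fin m) (Fin m ⊕ Fin m) F := Matrix.fromBlocks 0 0 D' 0
        have h3 : N0 * N0' + N0' * N0 = 1 := by
          rw [Matrix.fromBlocks_multiply, Matrix.fromBlocks_multiply, Matrix.fromBlocks_add, ← Matrix.fromBlocks_one]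
          simp [hDD', hD'D]
        have h4 : (φ N0).mulVec ((φ N0').mulVec (Pm.mulVec v')) = Pm.mulVec v' := by
          have h5 : (φ N0 * φ N0' + φ N0' * φ N0).mulVec (Pm.mulVec v') = Pm.mulVec v' := by
            rw [← map_mul, ← map_mul, ← map_add, h3, map_one, Matrix.one_mulVec]
          rw [Matrix.add_mulVec, ← Matrix.mulVec_mulVec, ← Matrix.mulVec_mulVec, h2, Matrix.mulVec_zero, add_zero] at h5
          exact h5
        set t := (φ N0').mulVec (Pm.mulVec v') with ht
        have h6 : (N₁.map F₀.subtype).mulVec (PI.mulVec t) = v' := by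
          have h7 : Pm.mulVec ((N₁.map F₀.subtype).mulVec (PI.mulVec t)) = Pm.mulVec v' := by
            rw [Matrix.mulVec_mulVec, ← hN₁m, ← Matrix.mulVec_mulVec, Matrix.mulVec_mulVec _ Pm, hPI, Matrix.one_mulVec, h4]
          have := congrArg (fun u => PI.mulVec u) h7
          simp only [Matrix.mulVec_mulVec, ← mul_assoc, hPI', one_mul, Matrix.one_mulVec] at this
          rw [Matrix.mulVec_mulVec]
          exact this
        obtain ⟨w₀, hw₀⟩ := solve_descend F₀ N₁ v _ h6
        exact ⟨w₀, hw₀⟩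
      · rintro _ ⟨v, rfl⟩
        change N₁.mulVec (N₁.mulVec v) = 0
        rw [Matrix.mulVec_mulVec, hN₁2, Matrix.zero_mulVec]
    obtain ⟨m', b, hb⟩ := exists_basis_of_ker_eq_range T hker
    have hmm : m' = m := by
      have h1 := Module.finrank_eq_card_basis b
      rw [Module.finrank_fintype_fun_eq_card, Fintype.card_fin, Fintype.card_sum, Fintype.card_fin] at h1
      omega
    subst hmm
    let b' := b.reindex e
    let S := Pi.basisFun F₀ (Fin (m' + m'))
    let G : Matrix (Fin (m' + m')) (Fin (m' + m')) F₀ := S.toMatrix b'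
    have hGdet : G.det ≠ 0 := by
      have h1 : G * b'.toMatrix S = 1 := Module.Basis.toMatrix_mul_toMatrix_flip S b'
      intro h0
      have := congrArg Matrix.det h1
      rw [Matrix.det_mul, h0, zero_mul, Matrix.det_one] at this
      exact zero_ne_one this
    have hGN : N₁ * G = G * Matrix.reindex e e (Matrix.fromBlocks 0 1 0 0) := by
      have h1 := basis_toMatrix_mul_linearMap_toMatrix b' S b' T
      have h2 := linearMap_toMatrix_mul_basis_toMatrix b' S S T
      have h3 : LinearMap.toMatrix b' b' T = Matrix.reindex e e (Matrix.fromBlocks 0 1 0 0) := by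
        ext i j
        rw [LinearMap.toMatrix_apply, Matrix.reindex_apply, Matrix.submatrix_apply]
        obtain ⟨i, rfl⟩ := e.surjective i
        obtain ⟨j, rfl⟩ := e.surjective j
        rw [Equiv.symm_apply_apply, Equiv.symm_apply_apply]
        have hbe : ∀ a, b' (e a) = b a := by intro a; simp [b']
        have hre : ∀ u a, b'.repr u (e a) = b.repr u a := by intro u a; simp [b']
        rw [hbe, hre]
        rcases j with j | j
        · rw [(hb j).1]
          rcases i with i | i <;> simp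
        · rw [(hb j).2]
          rcases i with i | i
          · simp [Matrix.one_apply, Finsupp.single_apply, eq_comm]
          · simp
      have h4 : LinearMap.toMatrix S S T = N₁ := LinearMap.toMatrix'_toLin' N₁
      rw [h3] at h1
      rw [h4] at h2
      exact h2.trans h1.symm
    set R : Matrix (Fin m' ⊕ Fin m') (Fin m' ⊕ Fin m') F := φ.symm (Pm * G.map F₀.subtype) with hR
    have hRφ : φ R = Pm * G.map F₀.subtype := by rw [hR, AlgEquiv.apply_symm_apply]
    have hNR : N0 * R = R * Matrix.fromBlocks 0 1 0 0 := by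
      apply φ.injective
      rw [map_mul, map_mul, hRφ, ← mul_assoc, hN₁m, mul_assoc, mul_assoc]
      congr 1
      have h1 := congrArg (fun M => M.map F₀.subtype) hGN
      simp only [Matrix.map_mul] at h1
      rw [h1]
      congr 1
      ext i j
      obtain ⟨i, rfl⟩ := e.surjective i
      obtain ⟨j, rfl⟩ := e.surjective j
      rcases i with i | i <;> rcases j with j | j <;> simp [φ, Matrix.one_apply, apply_ite]
    have hRdet : R.det = (G.det : F) := by
      rw [← hφdet, hRφ, Matrix.det_mul, hPdet, one_mul]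
      exact (RingHom.map_det F₀.subtype G).symm
    rw [← Matrix.fromBlocks_toBlocks R] at hNR
    rw [Matrix.fromBlocks_multiply, Matrix.fromBlocks_multiply, Matrix.fromBlocks_inj] at hNR
    simp only [Matrix.zero_mul, zero_add, Matrix.mul_zero, Matrix.mul_one, add_zero] at hNR
    obtain ⟨-, hE, -, hC⟩ := hNR
    have hdetR : R.det = δ * (R.toBlocks₂₂.det * R.toBlocks₂₂.det) := by
      conv_lhs => rw [← Matrix.fromBlocks_toBlocks R]
      rw [← hC, Matrix.det_fromBlocks_zero₂₁, ← hE, Matrix.det_mul, hD]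
      ring
    have hsqG : IsSquare (G.det : F) := isSquare_of_mem_subfield F₀ hF₀ (hq.trans hqk) hq0odd (SetLike.coe_mem _)
    obtain ⟨s, hs⟩ := hsqG
    have hG0 : (G.det : F) ≠ 0 := fun h => hGdet (Subtype.ext h)
    rw [hRdet, hs] at hdetR
    have hE0 : R.toBlocks₂₂.det ≠ 0 := by
      intro h0
      rw [h0, mul_zero, mul_zero] at hdetR
      rw [hs, hdetR] at hG0
      exact hG0 rfl
    apply hδ
    refine ⟨s / R.toBlocks₂₂.det, ?_⟩
    field_simp
    rw [pow_two, pow_two, ← hdetR]

/-- Elements of order 3 of PSL_n(q) in characteristic 3 and subfield subgroups. Here `T = PSL_n(F)` for a field `F` with `q` elements, `q` a power of 3 (`n ≥ 2`, `(n, q) ≠ (2, 2), (2, 3)`), `F₀` is the subfield with `q₀` elements where `q = q₀^k` for a prime `k`, and `H` is the subgroup of matrices of determinant 1 lying in the subfield group of `F₀` (invertible matrices over `F₀` times scalars) — a maximal subgroup of type GL_n(q₀) (the non-maximal case `n = 2`, `q₀ = 2` is excluded); Ω is the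 set of `T`-conjugates of `H` (cosets of `H`), so an element of `T` of prime order `r` (a matrix `x` of determinant 1 with `x^r` scalar, `x` not scalar) fixes a point of Ω when some conjugate of `x` by a matrix of determinant 1 lies in `H`. Suppose 3 divides the index of `H`. Then every element of `T` of order 3 is conjugate in `T` into `H` if and only if `n` is odd, or `n` is even and `k > 2`. -/
theorem result {F : Type*} [Field F] [Fintype F] [CharP F 3] {q : ℕ} (hq : Fintype.card F = q)
    (n : ℕ) (hn : 2 ≤ n) (hT : (n, q) ≠ (2, 3))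
    (F₀ : Subfield F) (k q₀ : ℕ) (hk : k.Prime) (hF₀ : Nat.card ↥F₀ = q₀) (hqk : q = q₀ ^ k) (hC5 : ¬ (n = 2 ∧ q₀ = 2)) (hΩ : 3 ∣ ((Cfsg.Geo.subfieldSubgroup F₀ 1).comap (Matrix.SpecialLinearGroup.toGL : Matrix.SpecialLinearGroup (Fin n) F →* GL (Fin n) F)).index) :
    (∀ x : Matrix.SpecialLinearGroup (Fin n) F,
      (∃ z : F, ((x ^ 3 : Matrix.SpecialLinearGroup (Fin n) F) : Matrix (Fin n) (Fin n) F) = z • (1 : Matrix (Fin n) (Fin n) F)) →
      (∀ z : F, (x : Matrix (Fin n) (Fin n) F) ≠ z • (1 : Matrix (Fin n) (Fin n) F)) →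
      ∃ P : Matrix.SpecialLinearGroup (Fin n) F, P⁻¹ * x * P ∈ ((Cfsg.Geo.subfieldSubgroup F₀ 1).comap (Matrix.SpecialLinearGroup.toGL : Matrix.SpecialLinearGroup (Fin n) F →* GL (Fin n) F))) ↔
    (Odd n ∨ (Even n ∧ 2 < k)) := by
  constructor
  · intro h
    by_contra hcon
    push Not at hcon
    obtain ⟨h1, h2⟩ := hcon
    rw [Nat.not_odd_iff_even] at h1
    have hk2 : k = 2 := le_antisymm (h2 h1) hk.two_le
    subst hk2
    obtain ⟨m, rfl⟩ := h1
    obtain ⟨x, hx3, hxs, hxP⟩ := forward hq m (by omega) F₀ q₀ hF₀ hqk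
    obtain ⟨P, hP⟩ := h x ⟨1, by rw [hx3, one_smul]; rfl⟩ hxs
    exact hxP P hP
  · intro h x hx _
    exact backward hq n hn F₀ k q₀ hk hF₀ hqk h x hx

end Cfsg.Agent.S5966
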