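import Mathlib
import Cfsg.Prelude.Def_GeometricClasses
import Cfsg.Agent.H953.Sympl
import Cfsg.Agent.H953.Basic
import Cfsg.Agent.H953.Mult
import Cfsg.Statements.S5967
import Cfsg.Agent.H953.SimElt
import Cfsg.Agent.S5964
import Cfsg.Agent.S5965
set_option linter.all false

-- part: H953/Blocks
section
set_option autoImplicit false

namespace Cfsg.Agent.H953

open Cfsg.Geo Polynomial

section Blocks

variable {F : Type*} [Field F]

/-- `Fin m ⊕ Fin m ≃ Fin 2 × κ`. -/
def sumEquivProd {κ : Type*} {m : ℕ} (k : Fin m ≃ κ) : Fin m ⊕ Fin m ≃ Fin 2 × κ where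
  toFun := Sum.elim (fun i => (0, k i)) (fun i => (1, k i))
  invFun a := if a.1 = 0 then Sum.inl (k.symm a.2) else Sum.inr (k.symm a.2)
  left_inv a := by
    rcases a with i | i <;> simp
  right_inv a := by
    obtain ⟨l, i⟩ := a
    fin_cases l <;> simp

theorem stdForm_blocks {κ : Type*} [Fintype κ] [DecidableEq κ] {m : ℕ} (k : Fin m ≃ κ)
    (M : κ → Matrix (Fin 2) (Fin 2) F) (c : F) (hM : ∀ i, (M i).det = c) (u v : Fin m ⊕ Fin m → F) :
    stdForm m F (((Matrix.blockDiagonal M).submatrix (sumEquivProd k) (sumEquivProd k)).mulVec u)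
      (((Matrix.blockDiagonal M).submatrix (sumEquivProd k) (sumEquivProd k)).mulVec v) = c * stdForm m F u v := by
  have h1 : ∀ (w : Fin m ⊕ Fin m → F) (i : Fin m),
      (((Matrix.blockDiagonal M).submatrix (sumEquivProd k) (sumEquivProd k)).mulVec w) (Sum.inl i) =
        M (k i) 0 0 * w (Sum.inl i) + M (k i) 0 1 * w (Sum.inr i) := by
    intro w i
    rw [Matrix.mulVec, dotProduct, Fintype.sum_sum_type]
    simp [sumEquivProd, Matrix.blockDiagonal_apply]
  have h2 : ∀ (w : Fin m ⊕ Fin m → F) (i : Fin m),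
      (((Matrix.blockDiagonal M).submatrix (sumEquivProd k) (sumEquivProd k)).mulVec w) (Sum.inr i) =
        M (k i) 1 0 * w (Sum.inl i) + M (k i) 1 1 * w (Sum.inr i) := by
    intro w i
    rw [Matrix.mulVec, dotProduct, Fintype.sum_sum_type]
    simp [sumEquivProd, Matrix.blockDiagonal_apply]
  unfold stdForm
  rw [Finset.mul_sum]
  refine Finset.sum_congr rfl fun i _ => ?_
  rw [h1, h2, h1, h2, ← hM (k i), Matrix.det_fin_two]
  ring

theorem exists_conj_sim_of_blocks {n : ℕ} {κ : Type*} [Fintype κ] [DecidableEq κ]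
    {f : (Fin n → F) → (Fin n → F) → F} (hf : IsSymplecticForm f)
    (x : Matrix.SpecialLinearGroup (Fin n) F) (R : GL (Fin n) F) (e : Fin 2 × κ ≃ Fin n)
    (M : κ → Matrix (Fin 2) (Fin 2) F) (c : F) (hc : c ≠ 0) (hM : ∀ i, (M i).det = c)
    (h : (x : Matrix (Fin n) (Fin n) F) * (R : Matrix (Fin n) (Fin n) F) =
      (R : Matrix (Fin n) (Fin n) F) * Matrix.reindex e e (Matrix.blockDiagonal M)) :
    ∃ Q : GL (Fin n) F, Q⁻¹ * Matrix.SpecialLinearGroup.toGL x * Q ∈ similarityGroup f := by
  obtain ⟨m, e', S, hS⟩ := exists_std hf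
  have hcard : Fintype.card (Fin m) = Fintype.card κ := by
    have h1 := Fintype.card_congr e
    have h2 := Fintype.card_congr e'
    rw [Fintype.card_prod, Fintype.card_fin, Fintype.card_fin] at h1
    rw [Fintype.card_sum, Fintype.card_fin, Fintype.card_fin] at h2
    rw [Fintype.card_fin]
    omega
  let k : Fin m ≃ κ := Fintype.equivOfCardEq hcard
  let σ : Fin n ≃ Fin n := e'.symm.trans ((sumEquivProd k).trans e)
  have hu : IsUnit ((R : Matrix (Fin n) (Fin n) F).submatrix id σ) := by
    have h1 : IsUnit ((R : Matrix (Fin n) (Fin n) F).submatrix (Equiv.refl _) σ) :=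
      (Matrix.isUnit_submatrix_equiv _ _).mpr R.isUnit
    exact h1
  obtain ⟨R', hR'⟩ := hu
  let Z := (Matrix.blockDiagonal M).submatrix (sumEquivProd k) (sumEquivProd k)
  have hY : (x : Matrix (Fin n) (Fin n) F) * (R' : Matrix (Fin n) (Fin n) F) =
      (R' : Matrix (Fin n) (Fin n) F) * Matrix.reindexAlgEquiv F F e' Z := by
    have h1 : ((x : Matrix (Fin n) (Fin n) F) * (R : Matrix (Fin n) (Fin n) F)).submatrix id σ =
      ((R : Matrix (Fin n) (Fin n) F) * Matrix.reindex e e (Matrix.blockDiagonal M)).submatrix id σ := by rw [h]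
    rw [← Matrix.submatrix_mul_equiv _ _ id (Equiv.refl _) σ, ← Matrix.submatrix_mul_equiv _ _ id σ σ] at h1
    rw [hR']
    have h2 : (Matrix.reindex e e (Matrix.blockDiagonal M)).submatrix σ σ = Matrix.reindexAlgEquiv F F e' Z := by
      ext i j
      simp [σ, Z]
    rw [h2] at h1
    exact h1
  let Y : GL (Fin n) F := R'⁻¹ * Matrix.SpecialLinearGroup.toGL x * R'
  have hYm : (Y : Matrix (Fin n) (Fin n) F) = Matrix.reindexAlgEquiv F F e' Z := by
    change ((R'⁻¹ : GL (Fin n) F) : Matrix (Fin n) (Fin n) F) * (x : Matrix (Fin n) (Fin n) F) * (R' : Matrix (Fin n) (Fin n) F) = _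
    rw [mul_assoc, hY, ← mul_assoc, ← Units.val_mul, inv_mul_cancel, Units.val_one, one_mul]
  have hmem := mem_similarity hS Y c hc (by
    intro u v
    rw [hYm, reindex_mulVec_comp, reindex_mulVec_comp, stdForm_blocks k M c hM])
  refine ⟨R' * S⁻¹, ?_⟩
  have h3 : (R' * S⁻¹)⁻¹ * Matrix.SpecialLinearGroup.toGL x * (R' * S⁻¹) = S * Y * S⁻¹ := by
    simp only [Y, mul_inv_rev, inv_inv, mul_assoc]
  rw [h3]
  exact hmem

theorem exists_conj_sim_of_basis {n : ℕ} {κ : Type*} [Fintype κ] [DecidableEq κ]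
    {f : (Fin n → F) → (Fin n → F) → F} (hf : IsSymplecticForm f)
    (x : Matrix.SpecialLinearGroup (Fin n) F) (b : Module.Basis (Fin 2 × κ) F (Fin n → F))
    (M : κ → Matrix (Fin 2) (Fin 2) F) (c : F) (hc : c ≠ 0) (hM : ∀ i, (M i).det = c)
    (h : ∀ l i, (x : Matrix (Fin n) (Fin n) F).mulVec (b (l, i)) = M i 0 l • b (0, i) + M i 1 l • b (1, i)) :
    ∃ Q : GL (Fin n) F, Q⁻¹ * Matrix.SpecialLinearGroup.toGL x * Q ∈ similarityGroup f := by
  have hcard : Fintype.card (Fin 2 × κ) = Fintype.card (Fin n) := by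
    rw [← Module.finrank_eq_card_basis b, Module.finrank_fintype_fun_eq_card]
  let e : Fin 2 × κ ≃ Fin n := Fintype.equivOfCardEq hcard
  let b' := b.reindex e
  let St := Pi.basisFun F (Fin n)
  let R : GL (Fin n) F := ⟨St.toMatrix b', b'.toMatrix St, by simp, by simp⟩
  refine exists_conj_sim_of_blocks hf x R e M c hc hM ?_
  have hR : ∀ i j, (R : Matrix (Fin n) (Fin n) F) i j = b (e.symm j) i := by
    intro i j
    change St.toMatrix b' i j = _
    simp [St, b', Module.Basis.toMatrix_apply]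
  ext i j
  obtain ⟨⟨l, t⟩, rfl⟩ := e.surjective j
  have h1 : ((x : Matrix (Fin n) (Fin n) F) * (R : Matrix (Fin n) (Fin n) F)) i (e (l, t)) =
      ((x : Matrix (Fin n) (Fin n) F).mulVec (b (l, t))) i := by
    rw [Matrix.mul_apply, Matrix.mulVec, dotProduct]
    refine Finset.sum_congr rfl fun j _ => ?_
    rw [hR, Equiv.symm_apply_apply]
  rw [h1, h, Matrix.mul_apply, ← Equiv.sum_comp e, Fintype.sum_prod_type]
  simp [hR, Matrix.blockDiagonal_apply, Fin.sum_univ_two, mul_comm]

end Blocks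

section SqZero

variable {K : Type*} [Field K] {V : Type*} [AddCommGroup V] [Module K V] [FiniteDimensional K V]

/-- A normal form of `N` with `N ^ 2 = 0`. -/
theorem exists_basis_of_sq_zero (N : V →ₗ[K] V) (h : ∀ v, N (N v) = 0) :
    ∃ (m c : ℕ) (b : Module.Basis ((Fin m ⊕ Fin m) ⊕ Fin c) K V),
      (∀ i, N (b (Sum.inl (Sum.inl i))) = 0 ∧ N (b (Sum.inl (Sum.inr i))) = b (Sum.inl (Sum.inl i))) ∧
      ∀ i, N (b (Sum.inr i)) = 0 := by
  classical
  have hRK : LinearMap.range N ≤ LinearMap.ker N := by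
    rintro _ ⟨v, rfl⟩
    exact h v
  obtain ⟨U, hU⟩ := Submodule.exists_isCompl (LinearMap.ker N)
  obtain ⟨C', hC'⟩ := Submodule.exists_isCompl (LinearMap.range N)
  set C := C' ⊓ LinearMap.ker N with hC
  have hsup : LinearMap.range N ⊔ C = LinearMap.ker N := by
    rw [hC, ← sup_inf_assoc_of_le _ hRK, hC'.sup_eq_top, top_inf_eq]
  set W := LinearMap.range N ⊔ U with hWdef
  have hW : ∀ v ∈ W, N v ∈ W := by
    intro v _
    exact Submodule.mem_sup_left ⟨v, rfl⟩
  have hWC : IsCompl W C := by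
    rw [isCompl_iff]
    constructor
    · rw [Submodule.disjoint_def]
      intro v hv hvC
      obtain ⟨a, ha, u, hu, rfl⟩ := Submodule.mem_sup.mp hv
      have h1 : N (a + u) = 0 := hvC.2
      have h2 : N a = 0 := hRK ha
      rw [map_add, h2, zero_add] at h1
      have h3 : u = 0 := by
        have : u ∈ LinearMap.ker N ⊓ U := ⟨h1, hu⟩
        rw [hU.inf_eq_bot] at this
        exact this
      subst h3
      rw [add_zero] at hvC ⊢
      have : a ∈ LinearMap.range N ⊓ C' := ⟨ha, hvC.1⟩
      rw [hC'.inf_eq_bot] at this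
      exact this
    · rw [codisjoint_iff, hWdef, sup_assoc, sup_comm U, ← sup_assoc, hsup, hU.sup_eq_top]
  have hker : LinearMap.ker (N.restrict hW) = LinearMap.range (N.restrict hW) := by
    ext ⟨v, hv⟩
    constructor
    · intro h0
      have h1 : N v = 0 := congrArg Subtype.val h0
      obtain ⟨a, ha, u, hu, rfl⟩ := Submodule.mem_sup.mp hv
      have h2 : N a = 0 := hRK ha
      rw [map_add, h2, zero_add] at h1
      have h3 : u = 0 := by
        have : u ∈ LinearMap.ker N ⊓ U := ⟨h1, hu⟩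
        rw [hU.inf_eq_bot] at this
        exact this
      subst h3
      obtain ⟨w, rfl⟩ := ha
      have hw : w ∈ LinearMap.ker N ⊔ U := by rw [hU.sup_eq_top]; trivial
      obtain ⟨k, hk, u, hu, rfl⟩ := Submodule.mem_sup.mp hw
      refine ⟨⟨u, Submodule.mem_sup_right hu⟩, Subtype.ext ?_⟩
      have hk' : N k = 0 := hk
      simp [hk']
    · rintro ⟨w, hw⟩
      rw [← hw]
      exact Subtype.ext (h w.1)
  obtain ⟨m, bW, hbW⟩ := exists_basis_of_ker_eq_range _ hker
  let bC := Module.finBasis K C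
  let b := (bW.prod bC).map (Submodule.prodEquivOfIsCompl _ _ hWC)
  have h1 : ∀ a, b (Sum.inl a) = (bW a : V) := by
    intro a; simp [b]
  have h2 : ∀ a, b (Sum.inr a) = (bC a : V) := by
    intro a; simp [b]
  refine ⟨m, _, b, ?_, ?_⟩
  · intro i
    rw [h1, h1]
    exact ⟨congrArg Subtype.val (hbW i).1, congrArg Subtype.val (hbW i).2⟩
  · intro i
    rw [h2]
    exact (bC i).2.2

end SqZero

/-- A function with even fibres can be paired off. -/
theorem exists_pairing {α β : Type*} [Fintype α] [Fintype β] [DecidableEq β] (a : α → β)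
    (h : ∀ y, Even (Fintype.card {x // a x = y})) :
    ∃ (k : β → ℕ) (e : Fin 2 × (Σ y, Fin (k y)) ≃ α), ∀ i, a (e (0, i)) = a (e (1, i)) := by
  choose k hk using h
  have e1 : ∀ y, Nonempty (Fin 2 × Fin (k y) ≃ {x // a x = y}) := by
    intro y
    refine ⟨Fintype.equivOfCardEq ?_⟩
    rw [Fintype.card_prod, Fintype.card_fin, Fintype.card_fin, hk]
    ring
  have e1 := fun y => Classical.choice (e1 y)
  let e2 : Fin 2 × (Σ y, Fin (k y)) ≃ Σ y, Fin 2 × Fin (k y) :=
    { toFun := fun a => ⟨a.2.1, (a.1, a.2.2)⟩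
      invFun := fun a => (a.2.1, ⟨a.1, a.2.2⟩)
      left_inv := fun _ => rfl
      right_inv := fun _ => rfl }
  refine ⟨k, e2.trans ((Equiv.sigmaCongrRight e1).trans (Equiv.sigmaFiberEquiv a)), ?_⟩
  rintro ⟨y, i⟩
  have h1 : ∀ l, a ((e2.trans ((Equiv.sigmaCongrRight e1).trans (Equiv.sigmaFiberEquiv a))) (l, ⟨y, i⟩)) = y := by
    intro l
    exact (e1 y (l, i)).2
  rw [h1, h1]

end Cfsg.Agent.H953
end

-- part: S5967
section
set_option autoImplicit false
open scoped MatrixGroups
open Cfsg

namespace Cfsg.Agent.S5967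

open Cfsg.Agent.H953 Cfsg.Geo Polynomial

universe u

variable {F : Type u} [Field F] [Fintype F]

/-- The negative direction. -/
theorem ex_two {n : ℕ} (hn : 4 ≤ n) (f : (Fin n → F) → (Fin n → F) → F)
    (hf : IsSymplecticForm f)
    (hrq : 2 ∣ Fintype.card F - 1) (hv : padicValNat 2 n < padicValNat 2 (Fintype.card F - 1)) :
    ∃ x : Matrix.SpecialLinearGroup (Fin n) F,
      (∃ z : F, ((x ^ 2 : Matrix.SpecialLinearGroup (Fin n) F) : Matrix (Fin n) (Fin n) F) = z • (1 : Matrix (Fin n) (Fin n) F)) ∧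
      (∀ z : F, (x : Matrix (Fin n) (Fin n) F) ≠ z • (1 : Matrix (Fin n) (Fin n) F)) ∧
      ∀ P : Matrix.SpecialLinearGroup (Fin n) F, P⁻¹ * x * P ∉ ((Cfsg.Geo.similarityGroup f).comap (Matrix.SpecialLinearGroup.toGL : Matrix.SpecialLinearGroup (Fin n) F →* GL (Fin n) F)) := by
  classical
  obtain ⟨w, ω, hw0, hω1, hωr, hwω⟩ := S5965.exists_w (F := F) (n := n) (by omega) 2 hrq hv
  have hω0 : ω ≠ 0 := by
    rintro rfl
    rw [zero_pow two_ne_zero] at hωr
    exact zero_ne_one hωr
  obtain ⟨m, rfl⟩ : ∃ m, n = m + 1 := ⟨n - 1, by omega⟩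
  let a : Fin (m + 1) → F := Fin.cons (w * ω) (fun _ => w)
  have hprod : ∏ i, a i = 1 := by
    rw [prod_cons, Finset.prod_const, Finset.card_univ, Fintype.card_fin, ← hwω]
    ring
  have ha0 : ∀ i, a i ≠ 0 := by
    intro i
    refine Fin.cases ?_ (fun i => ?_) i
    · exact mul_ne_zero hw0 hω0
    · exact hw0
  obtain ⟨x, hx⟩ := exists_diag_sl a hprod
  have har : ∀ i, a i ^ 2 = w ^ 2 := by
    intro i
    refine Fin.cases ?_ (fun i => ?_) i
    · simp [a, mul_pow, hωr]
    · simp [a]
  refine ⟨x, ⟨w ^ 2, ?_⟩, ?_, ?_⟩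
  · rw [Matrix.SpecialLinearGroup.coe_pow, hx, S5965.diag_pow a _ 2 har]
  · intro c hc
    rw [hx] at hc
    have h3 : a 0 = c := by
      have := congrFun (congrFun hc 0) 0
      simpa using this
    have h4 : a ⟨1, by omega⟩ = c := by
      have := congrFun (congrFun hc ⟨1, by omega⟩) ⟨1, by omega⟩
      simpa using this
    have h5 : a ⟨1, by omega⟩ = w := rfl
    have h6 : a 0 = w * ω := rfl
    rw [h6] at h3
    rw [h5] at h4
    apply hω1
    have : w * ω = w * 1 := by rw [h3, mul_one, h4]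
    exact mul_left_cancel₀ hw0 this
  · intro P hP
    obtain ⟨g, c, hg, hc, hgc⟩ := transport hf x P hP
    rw [hx] at hgc
    obtain ⟨hrel, hmult⟩ := mult_sim hg a ha0 c hgc
    have hmul : ∀ β, mult a β = (if w * ω = β then 1 else 0) + (if w = β then m else 0) := by
      intro β
      rw [mult_cons, mult_const]
    have hne : w * ω ≠ w := by
      intro h
      exact hω1 (mul_left_cancel₀ hw0 (h.trans (mul_one w).symm))
    have e1 := hmult w hw0
    rw [hmul, hmul, if_neg hne, if_pos rfl, zero_add] at e1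
    have c1 : w = c / w := by
      by_contra hcon
      rw [if_neg hcon] at e1
      split_ifs at e1 <;> omega
    have c2 : w * w = c := (eq_div_iff hw0).mp c1
    have hall : ∀ j, g (Pi.single 0 1) (Pi.single j 1) = 0 := by
      intro j
      refine Fin.cases ?_ (fun j => ?_) j
      · exact hg.alternating _
      · have h1 := hrel 0 j.succ
        have h2 : a 0 = w * ω := rfl
        have h3 : a j.succ = w := rfl
        rw [h2, h3, ← c2] at h1
        have h4 : (w * w) * (ω - 1) * g (Pi.single 0 1) (Pi.single j.succ 1) = 0 := by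
          linear_combination h1
        exact (mul_eq_zero.mp h4).resolve_left (mul_ne_zero (mul_ne_zero hw0 hw0) (sub_ne_zero.mpr hω1))
    have hne0 : (Pi.single 0 (1 : F) : Fin (m + 1) → F) ≠ 0 := by
      intro h0
      have h1 := congrFun h0 0
      rw [Pi.single_eq_same] at h1
      exact one_ne_zero h1
    obtain ⟨-, v, hv'⟩ := hg.nondegenerate _ hne0
    apply hv'
    have h8 : v = ∑ j, v j • (Pi.single j (1 : F) : Fin (m + 1) → F) := by
      rw [← pi_eq_sum_univ']
    rw [h8, ← toBil_apply hg, map_sum]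
    refine Finset.sum_eq_zero fun j _ => ?_
    rw [map_smul, toBil_apply, hall, smul_zero]

/-- The positive direction, `q` even. -/
theorem even_case [CharP F 2] {n : ℕ} (hn : 4 ≤ n) (he : Even n) (f : (Fin n → F) → (Fin n → F) → F)
    (hf : IsSymplecticForm f) (x : Matrix.SpecialLinearGroup (Fin n) F)
    (hx : ∃ z : F, ((x ^ 2 : Matrix.SpecialLinearGroup (Fin n) F) : Matrix (Fin n) (Fin n) F) = z • (1 : Matrix (Fin n) (Fin n) F)) :
    ∃ P : Matrix.SpecialLinearGroup (Fin n) F, P⁻¹ * x * P ∈ ((Cfsg.Geo.similarityGroup f).comap (Matrix.SpecialLinearGroup.toGL : Matrix.SpecialLinearGroup (Fin n) F →* GL (Fin n) F)) := by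
  classical
  have hne : Nonempty (Fin n) := ⟨⟨0, by omega⟩⟩
  have hnz : NeZero n := ⟨by omega⟩
  obtain ⟨z, hz⟩ := hx
  have hz0 := S5964.z_ne_zero (by omega) x hz
  rw [Matrix.SpecialLinearGroup.coe_pow] at hz
  obtain ⟨w, u, hw, hxu, hu, hu1⟩ := exists_unipotent 2 (x : Matrix (Fin n) (Fin n) F) z hz0 hz
  -- the determinants
  obtain ⟨d, g, e, Q, hg, hann, hQ⟩ := exists_rcf u
  have hcomm : ∀ A : Matrix (Fin n) (Fin n) F, A * u = u * A → A * (x : Matrix (Fin n) (Fin n) F) =
      (x : Matrix (Fin n) (Fin n) F) * A := by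
    intro A hA
    rw [hxu, Matrix.mul_smul, Matrix.smul_mul, hA]
  have hall : ∀ c : F, ∃ A : Matrix (Fin n) (Fin n) F,
      A * (x : Matrix (Fin n) (Fin n) F) = (x : Matrix (Fin n) (Fin n) F) * A ∧ A.det = c := by
    intro c
    obtain ⟨i, hi⟩ := exists_index e
    have hdeg : (g i).natDegree ≤ 2 := by
      obtain ⟨j, hj, h⟩ := dvd_X_sub_one_pow (monic_of_pow (hg i)) ((hann _).mp hu i)
      rw [h]
      have : (X - 1 : F[X]) = X - C 1 := by rw [C_1]
      rw [this, natDegree_pow, natDegree_X_sub_C]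
      omega
    have h3 : (g i).natDegree = 1 ∨ (g i).natDegree = 2 := by omega
    rcases h3 with h | h
    · obtain ⟨A, hA, hd⟩ := exists_commute_scale hQ i c
      exact ⟨A, hcomm A hA, by rw [hd, h, pow_one]⟩
    · obtain ⟨b, hb⟩ := exists_pow_char 2 c
      obtain ⟨A, hA, hd⟩ := exists_commute_scale hQ i b
      exact ⟨A, hcomm A hA, by rw [hd, h, hb]⟩
  -- the normal form
  have hN : (u - 1) * (u - 1) = 0 := by
    rw [← pow_two]
    rw [map_pow, map_sub, aeval_X, map_one] at hu
    exact hu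
  obtain ⟨m, c, b, hb1, hb2⟩ := exists_basis_of_sq_zero (Matrix.mulVecLin (u - 1)) (by
    intro v
    rw [Matrix.mulVecLin_apply, Matrix.mulVecLin_apply, Matrix.mulVec_mulVec, hN, Matrix.zero_mulVec])
  have hcard : m + m + c = n := by
    have h1 := Module.finrank_eq_card_basis b
    rw [Module.finrank_fintype_fun_eq_card, Fintype.card_sum, Fintype.card_sum, Fintype.card_fin, Fintype.card_fin,
      Fintype.card_fin] at h1
    exact h1.symm
  obtain ⟨c', hc'⟩ : ∃ c', c = c' + c' := by
    obtain ⟨l, hl⟩ := he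
    exact ⟨l - m, by omega⟩
  subst hc'
  have hfix : ∀ v : Fin n → F, Matrix.mulVecLin (u - 1) v = (x : Matrix (Fin n) (Fin n) F).mulVec (w⁻¹ • v) - v := by
    intro v
    rw [hxu, Matrix.smul_mulVec, Matrix.mulVec_smul, smul_smul, mul_inv_cancel₀ hw, one_smul, Matrix.mulVecLin_apply,
      Matrix.sub_mulVec, Matrix.one_mulVec]
  have hx1 : ∀ v : Fin n → F, (x : Matrix (Fin n) (Fin n) F).mulVec v = w • v + w • Matrix.mulVecLin (u - 1) v := by
    intro v
    rw [hfix, Matrix.mulVec_smul, smul_sub, smul_smul, mul_inv_cancel₀ hw, one_smul, add_sub_cancel]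
  let E : (Fin m ⊕ Fin m) ⊕ Fin (c' + c') ≃ Fin 2 × (Fin m ⊕ Fin c') :=
    ((Equiv.sumCongr (sumEquivProd (Equiv.refl (Fin m))) (finSumFinEquiv.symm.trans (sumEquivProd (Equiv.refl (Fin c'))))).trans
      (Equiv.prodSumDistrib _ _ _).symm)
  let b' := b.reindex E
  have h0 : ∀ i, b' (0, Sum.inl i) = b (Sum.inl (Sum.inl i)) := by
    intro i
    rw [Module.Basis.reindex_apply]
    rfl
  have h1 : ∀ i, b' (1, Sum.inl i) = b (Sum.inl (Sum.inr i)) := by
    intro i
    rw [Module.Basis.reindex_apply]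
    rfl
  have h2 : ∀ l i, ∃ j, b' (l, Sum.inr i) = b (Sum.inr j) := by
    intro l i
    rw [Module.Basis.reindex_apply]
    exact ⟨_, rfl⟩
  obtain ⟨P, hP⟩ := exists_conj_sim_of_basis hf x b' (Sum.elim (fun _ => !![w, w; 0, w]) (fun _ => !![w, 0; 0, w])) (w ^ 2)
    (pow_ne_zero _ hw) (by
      rintro (i | i)
      · simp [Matrix.det_fin_two, pow_two]
      · simp [Matrix.det_fin_two, pow_two]) (by
      intro l i
      rcases i with i | i
      · fin_cases l
        · change (x : Matrix (Fin n) (Fin n) F).mulVec (b' (0, Sum.inl i)) = w • b' (0, Sum.inl i) + (0 : F) • b' (1, Sum.inl i)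
          rw [hx1, h0, (hb1 i).1, smul_zero, zero_smul]
        · change (x : Matrix (Fin n) (Fin n) F).mulVec (b' (1, Sum.inl i)) = w • b' (0, Sum.inl i) + w • b' (1, Sum.inl i)
          rw [hx1, h0, h1, (hb1 i).2, add_comm]
      · have h3 : (x : Matrix (Fin n) (Fin n) F).mulVec (b' (l, Sum.inr i)) = w • b' (l, Sum.inr i) := by
          obtain ⟨j, hj⟩ := h2 l i
          rw [hx1, hj, hb2, smul_zero, add_zero]
        rw [h3]
        fin_cases l
        · change w • b' (0, Sum.inr i) = w • b' (0, Sum.inr i) + (0 : F) • b' (1, Sum.inr i)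
          rw [zero_smul, add_zero]
        · change w • b' (1, Sum.inr i) = (0 : F) • b' (0, Sum.inr i) + w • b' (1, Sum.inr i)
          rw [zero_smul, zero_add])
  exact conj_sl_of_gl _ x hall P hP

omit [Fintype F] in
/-- The positive direction, `q` odd, `z` a non-square. -/
theorem nonsquare_case {n : ℕ} (f : (Fin n → F) → (Fin n → F) → F)
    (hf : IsSymplecticForm f) (x : Matrix.SpecialLinearGroup (Fin n) F) (z : F) (hz0 : z ≠ 0)
    (hx : (x : Matrix (Fin n) (Fin n) F) ^ 2 = z • (1 : Matrix (Fin n) (Fin n) F)) (hz : ∀ b : F, b ^ 2 ≠ z) :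
    ∃ Q : GL (Fin n) F, Q⁻¹ * Matrix.SpecialLinearGroup.toGL x * Q ∈ similarityGroup f := by
  obtain ⟨d, g, e, P, hg, hann, hP⟩ := exists_rcf (x : Matrix (Fin n) (Fin n) F)
  have hirr : Irreducible (X ^ 2 - C z) := X_pow_sub_C_irreducible_of_prime Nat.prime_two hz
  have hmon : (X ^ 2 - C z).Monic := monic_X_pow_sub_C z two_ne_zero
  have hdvd := (hann _).mp (pow_eq_smul_of_aeval.mpr hx)
  have hgi : ∀ i, g i = X ^ 2 - C z := by
    intro i
    obtain ⟨q, m, hq, hqirr, hm, h⟩ := hg i
    have h1 : q ∣ X ^ 2 - C z := (dvd_pow_self q hm.ne').trans (h ▸ hdvd i)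
    have h2 : X ^ 2 - C z ∣ q := hqirr.dvd_symm hirr h1
    have h3 : q = X ^ 2 - C z := eq_of_monic_of_associated hq hmon (associated_of_dvd_dvd h1 h2)
    have h4 : X ^ 2 - C z ∣ g i := by rw [h, ← h3]; exact dvd_pow_self q hm.ne'
    exact eq_of_monic_of_associated (monic_of_pow (hg i)) hmon (associated_of_dvd_dvd (hdvd i) h4)
  obtain rfl : g = fun _ => X ^ 2 - C z := funext hgi
  have hdeg : (X ^ 2 - C z : F[X]).natDegree = 2 := natDegree_X_pow_sub_C
  let M : Matrix (Fin 2) (Fin 2) F := (H953.comp (X ^ 2 - C z : F[X])).submatrix (finCongr hdeg.symm) (finCongr hdeg.symm)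
  have hM : M.det = -z := by
    rw [Matrix.det_submatrix_equiv_self, det_comp hmon, hdeg]
    simp
  let E : Fin 2 × Fin d ≃ (Σ _ : Fin d, Fin (X ^ 2 - C z : F[X]).natDegree) :=
    { toFun := fun a => ⟨a.2, finCongr hdeg.symm a.1⟩
      invFun := fun a => (finCongr hdeg a.2, a.1)
      left_inv := fun a => by simp
      right_inv := fun a => by simp }
  refine exists_conj_sim_of_blocks hf x P (E.trans e) (fun _ => M) (-z) (neg_ne_zero.mpr hz0) (fun _ => hM) ?_
  rw [hP]
  congr 1

/-- The positive direction, `q` odd, `z` a square. -/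
theorem square_case {n : ℕ} (hn : 4 ≤ n) (he : Even n) (f : (Fin n → F) → (Fin n → F) → F)
    (hf : IsSymplecticForm f) (h2F : (2 : F) ≠ 0)
    (hv : padicValNat 2 (Fintype.card F - 1) ≤ padicValNat 2 n)
    (x : Matrix.SpecialLinearGroup (Fin n) F) (w : F) (hw : w ≠ 0)
    (hx : (x : Matrix (Fin n) (Fin n) F) ^ 2 = (w ^ 2) • (1 : Matrix (Fin n) (Fin n) F)) :
    ∃ Q : GL (Fin n) F, Q⁻¹ * Matrix.SpecialLinearGroup.toGL x * Q ∈ similarityGroup f := by
  classical
  set y : Matrix (Fin n) (Fin n) F := w⁻¹ • (x : Matrix (Fin n) (Fin n) F) with hy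
  have hxy : (x : Matrix (Fin n) (Fin n) F) = w • y := by
    rw [hy, smul_smul, mul_inv_cancel₀ hw, one_smul]
  have hy1 : y ^ 2 = 1 := by
    rw [hy, _root_.smul_pow, hx, smul_smul, inv_pow, inv_mul_cancel₀ (pow_ne_zero _ hw), one_smul]
  have hsplit : (X ^ 2 - 1 : F[X]).Splits := by
    have h1 : (X ^ 2 - 1 : F[X]) = (X - C 1) * (X - C (-1)) := by
      rw [map_neg, C_1]; ring
    rw [h1]
    exact (Splits.X_sub_C _).mul (Splits.X_sub_C _)
  obtain ⟨P, a, ha, hP⟩ := exists_diagonal y 2 (by exact_mod_cast h2F) hsplit hy1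
  have ha' : ∀ i, a i = 1 ∨ a i = -1 := fun i => mul_self_eq_one_iff.mp (by rw [← pow_two]; exact ha i)
  have hne1 : (1 : F) ≠ -1 := by
    intro h
    apply h2F
    linear_combination h
  -- the determinant
  have hdet : (w⁻¹) ^ n = ∏ i, a i := by
    have hPd : (P : Matrix (Fin n) (Fin n) F).det ≠ 0 := (Matrix.isUnits_det_units P).ne_zero
    have h1 := congrArg Matrix.det hP
    rw [Matrix.det_mul, Matrix.det_mul, Matrix.det_diagonal, mul_comm] at h1
    rw [← mul_left_cancel₀ hPd h1, hy, Matrix.det_smul, x.det_coe, mul_one, Fintype.card_fin]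
  have hprod : ∏ i, a i = (-1) ^ (Finset.univ.filter (fun i => a i = -1)).card := by
    have h1 : ∀ i, a i = if a i = -1 then -1 else 1 := by
      intro i
      split_ifs with h
      · exact h
      · exact (ha' i).resolve_right h
    rw [Finset.prod_congr rfl (fun i _ => h1 i), Finset.prod_ite, Finset.prod_const, Finset.prod_const_one, mul_one]
  have hev : Even (Finset.univ.filter (fun i => a i = -1)).card := by
    by_contra hcon
    rw [Nat.not_even_iff_odd] at hcon
    rw [hprod, hcon.neg_one_pow] at hdet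
    have hpos : Fintype.card F - 1 ≠ 0 := by
      have := Fintype.one_lt_card (α := F)
      omega
    obtain ⟨s, hs⟩ : 2 ^ padicValNat 2 (Fintype.card F - 1) ∣ Fintype.card F - 1 := pow_padicValNat_dvd
    obtain ⟨t, ht⟩ : 2 ^ padicValNat 2 (Fintype.card F - 1) ∣ n := (padicValNat_dvd_iff_le (by omega)).mpr hv
    have hsodd : Odd s := by
      rw [← Nat.not_even_iff_odd]
      rintro ⟨s', hs'⟩
      have h1 : 2 ^ (padicValNat 2 (Fintype.card F - 1) + 1) ∣ Fintype.card F - 1 := ⟨s', by
        conv_lhs => rw [hs]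
        rw [hs']
        ring⟩
      have := (padicValNat_dvd_iff_le hpos).mp h1
      omega
    have h2 : ((w⁻¹) ^ n) ^ s = 1 := by
      rw [← pow_mul]
      have h3 : n * s = (Fintype.card F - 1) * t := by
        conv_lhs => rw [ht]
        conv_rhs => rw [hs]
        ring
      rw [h3, pow_mul, FiniteField.pow_card_sub_one_eq_one _ (inv_ne_zero hw), one_pow]
    rw [hdet, hsodd.neg_one_pow] at h2
    exact hne1 h2.symm
  have hsum : (Finset.univ.filter (fun i => a i = -1)).card + (Finset.univ.filter (fun i => a i = 1)).card = n := by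
    have h1 := Finset.card_filter_add_card_filter_not (s := (Finset.univ : Finset (Fin n))) (fun i => a i = -1)
    rw [Finset.card_univ, Fintype.card_fin] at h1
    have h2 : (Finset.univ.filter (fun i => a i = 1)) = Finset.univ.filter (fun i => ¬ a i = -1) := by
      ext i
      simp only [Finset.mem_filter, Finset.mem_univ, true_and]
      constructor
      · intro h h'
        exact hne1 (h.symm.trans h')
      · intro h
        exact (ha' i).resolve_right h
    rw [h2]
    exact h1
  have hfib : ∀ y, Even (Fintype.card {i // a i = y}) := by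
    intro y
    rw [Fintype.card_subtype]
    by_cases hy1 : y = 1
    · subst hy1
      rw [← Nat.not_odd_iff_even]
      intro h
      rw [← hsum] at he
      exact (Nat.not_even_iff_odd.mpr (hev.add_odd h)) he
    · by_cases hy2 : y = -1
      · subst hy2
        exact hev
      · have : (Finset.univ.filter (fun i => a i = y)) = ∅ := by
          rw [Finset.filter_eq_empty_iff]
          intro i _ h
          rcases ha' i with h' | h'
          · exact hy1 (h.symm.trans h')
          · exact hy2 (h.symm.trans h')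
        rw [this, Finset.card_empty]
        exact Even.zero
  obtain ⟨k, e, hek⟩ := exists_pairing a hfib
  refine exists_conj_sim_of_blocks hf x P e (fun i => Matrix.diagonal (fun l => w * a (e (l, i)))) (w ^ 2) (pow_ne_zero _ hw) ?_ ?_
  · intro i
    rw [Matrix.det_diagonal, Fin.prod_univ_two, ← hek i]
    have := ha (e (0, i))
    linear_combination (w ^ 2) * this
  · rw [hxy, Matrix.smul_mul, hP, ← Matrix.mul_smul]
    congr 1
    ext i j
    obtain ⟨⟨i, i'⟩, rfl⟩ := e.surjective i
    obtain ⟨⟨j, j'⟩, rfl⟩ := e.surjective j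
    rw [Matrix.reindex_apply, Matrix.submatrix_apply, Equiv.symm_apply_apply, Equiv.symm_apply_apply,
      Matrix.blockDiagonal_apply, Matrix.smul_apply, Matrix.diagonal_apply, smul_eq_mul]
    by_cases h : i' = j'
    · subst h
      by_cases h' : i = j
      · subst h'
        simp
      · have h3 : e (i, i') ≠ e (j, i') := fun h4 => h' (congrArg Prod.fst (e.injective h4))
        simp [h3, h']
    · have h3 : e (i, i') ≠ e (j, j') := fun h4 => h (congrArg Prod.snd (e.injective h4))
      simp [h3, h]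

/-- Involutions of PSL_n(q) and the symplectic-type subgroups. Here `T = PSL_n(F)` for a field `F` with `q` elements, `n ≥ 4` even, `f` is a nondegenerate alternating form on `F^n`, and `H` is the subgroup of matrices of determinant 1 preserving `f` up to a scalar — a maximal subgroup of type Sp_n(q); Ω is the set of `T`-conjugates of `H` (cosets of `H`), so an element of `T` of prime order `r` (a matrix `x` of determinant 1 with `x^r` scalar, `x` not scalar) fixes a point of Ω when some conjugate of `x` by a matrix of determinant 1 preserves `f` up to a scalar. Suppose the index of `H` is even. Then every involution of `T` is conjugate in `T` into `H` if and only if `(q − 1)_2 ≤ (n)_2`. -/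
theorem result {F : Type*} [Field F] [Fintype F] {p : ℕ} [Fact p.Prime] [CharP F p] {q : ℕ} (hq : Fintype.card F = q)
    (n : ℕ) (hn : 4 ≤ n) (he : Even n) (f : (Fin n → F) → (Fin n → F) → F) (hf : Cfsg.Geo.IsSymplecticForm f)
    (hΩ : 2 ∣ ((Cfsg.Geo.similarityGroup f).comap (Matrix.SpecialLinearGroup.toGL : Matrix.SpecialLinearGroup (Fin n) F →* GL (Fin n) F)).index) :
    (∀ x : Matrix.SpecialLinearGroup (Fin n) F,
      (∃ z : F, ((x ^ 2 : Matrix.SpecialLinearGroup (Fin n) F) : Matrix (Fin n) (Fin n) F) = z • (1 : Matrix (Fin n) (Fin n) F)) →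
      (∀ z : F, (x : Matrix (Fin n) (Fin n) F) ≠ z • (1 : Matrix (Fin n) (Fin n) F)) →
      ∃ P : Matrix.SpecialLinearGroup (Fin n) F, P⁻¹ * x * P ∈ ((Cfsg.Geo.similarityGroup f).comap (Matrix.SpecialLinearGroup.toGL : Matrix.SpecialLinearGroup (Fin n) F →* GL (Fin n) F))) ↔
    padicValNat 2 (q - 1) ≤ padicValNat 2 n := by
  classical
  constructor
  · intro h
    by_contra hcon
    push Not at hcon
    rw [← hq] at hcon
    have hdvd : 2 ∣ Fintype.card F - 1 := by
      have hpos : Fintype.card F - 1 ≠ 0 := by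
        have := Fintype.one_lt_card (α := F)
        omega
      have := (padicValNat_dvd_iff_le (p := 2) (n := 1) hpos).mpr (by omega)
      rwa [pow_one] at this
    obtain ⟨x, hx1, hx2, hx3⟩ := ex_two hn f hf hdvd hcon
    obtain ⟨P, hP⟩ := h x hx1 hx2
    exact hx3 P hP
  · intro hv x hx _
    by_cases hp : p = 2
    · subst hp
      exact even_case hn he f hf x hx
    · have hodd : Odd (Fintype.card F) := by
        obtain ⟨l, -, hl⟩ := FiniteField.card F p
        rw [hl]
        exact ((Fact.out : p.Prime).odd_of_ne_two hp).pow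
      have h2F : (2 : F) ≠ 0 := by
        have h1 : ((2 : ℕ) : F) ≠ 0 := by
          rw [Ne, CharP.cast_eq_zero_iff F p]
          intro h
          exact hp ((Nat.prime_dvd_prime_iff_eq Fact.out Nat.prime_two).mp h)
        exact_mod_cast h1
      have hne : Nonempty (Fin n) := ⟨⟨0, by omega⟩⟩
      have hnz : NeZero n := ⟨by omega⟩
      obtain ⟨z, hz⟩ := hx
      have hz0 := S5964.z_ne_zero (by omega) x hz
      rw [Matrix.SpecialLinearGroup.coe_pow] at hz
      have hmain : ∃ Q : GL (Fin n) F, Q⁻¹ * Matrix.SpecialLinearGroup.toGL x * Q ∈ similarityGroup f := by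
        by_cases hsq : ∃ w : F, w ^ 2 = z
        · obtain ⟨w, hw⟩ := hsq
          refine square_case hn he f hf h2F (hq ▸ hv) x w ?_ (hw ▸ hz)
          rintro rfl
          exact hz0 (by rw [← hw, zero_pow two_ne_zero])
        · push Not at hsq
          exact nonsquare_case f hf x z hz0 hz hsq
      obtain ⟨Q, hQ⟩ := hmain
      refine conj_sl_of_gl _ x ?_ Q hQ
      intro c
      have hsep : (X ^ 2 - C z : F[X]).Separable := separable_X_pow_sub_C z (by exact_mod_cast h2F) hz0
      exact exists_commute_det_of_squarefree _ _ hsep.squarefree (pow_eq_smul_of_aeval.mpr hz) c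

end Cfsg.Agent.S5967
end
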