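import Cfsg.Statements.S5968
import Cfsg.Agent.H953.SimElt
import Cfsg.Agent.S5964
import Cfsg.Agent.S5965
set_option linter.all false

set_option autoImplicit false
open scoped MatrixGroups
open Cfsg

namespace Cfsg.Agent.S5968

open Cfsg.Agent.H953 Cfsg.Geo

variable {F : Type*} [Field F] [Fintype F]

/-- The case `r = p`: a single Jordan block of size three. -/
theorem ex_p {p : ℕ} [Fact p.Prime] [CharP F p] (hp2 : p ≠ 2) (m : ℕ) (f : (Fin (3 + m) → F) → (Fin (3 + m) → F) → F)
    (hf : IsSymplecticForm f) :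
    ∃ x : Matrix.SpecialLinearGroup (Fin (3 + m)) F,
      (∃ z : F, ((x ^ p : Matrix.SpecialLinearGroup (Fin (3 + m)) F) : Matrix (Fin (3 + m)) (Fin (3 + m)) F) = z • (1 : Matrix (Fin (3 + m)) (Fin (3 + m)) F)) ∧
      (∀ z : F, (x : Matrix (Fin (3 + m)) (Fin (3 + m)) F) ≠ z • (1 : Matrix (Fin (3 + m)) (Fin (3 + m)) F)) ∧
      ∀ P : Matrix.SpecialLinearGroup (Fin (3 + m)) F, P⁻¹ * x * P ∉ ((Cfsg.Geo.similarityGroup f).comap (Matrix.SpecialLinearGroup.toGL : Matrix.SpecialLinearGroup (Fin (3 + m)) F →* GL (Fin (3 + m)) F)) := by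
  classical
  have hp3 : 3 ≤ p := by
    have := (Fact.out : p.Prime).two_le
    omega
  let e : Fin 3 ⊕ Fin m ≃ Fin (3 + m) := finSumFinEquiv
  let φ := Matrix.reindexAlgEquiv F F e
  let J : Matrix (Fin 3) (Fin 3) F := !![1, 1, 0; 0, 1, 1; 0, 0, 1]
  let N : Matrix (Fin 3) (Fin 3) F := !![0, 1, 0; 0, 0, 1; 0, 0, 0]
  have hJ : J = 1 + N := by
    ext i j; fin_cases i <;> fin_cases j <;> simp [J, N]
  have hN3 : N ^ 3 = 0 := by
    rw [pow_succ, pow_two]
    ext i j; fin_cases i <;> fin_cases j <;> simp [N, Matrix.mul_apply, Fin.sum_univ_three]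
  have hJp : J ^ p = 1 := by
    have : ExpChar F p := ExpChar.prime Fact.out
    have h1 : CharP (Matrix (Fin 3) (Fin 3) F) p := Matrix.charP p
    rw [hJ, add_pow_char_of_commute p (Commute.one_left N), one_pow]
    obtain ⟨l, rfl⟩ : ∃ l, p = 3 + l := ⟨p - 3, by omega⟩
    rw [pow_add, hN3, zero_mul, add_zero]
  have hJdet : J.det = 1 := by
    simp [J, Matrix.det_fin_three]
  let X0 : Matrix (Fin 3 ⊕ Fin m) (Fin 3 ⊕ Fin m) F := Matrix.fromBlocks J 0 0 1
  have hX0 : X0 ^ p = 1 := by
    have h2 : ∀ l : ℕ, X0 ^ l = Matrix.fromBlocks (J ^ l) 0 0 1 := by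
      intro l
      induction l with
      | zero => rw [pow_zero, pow_zero, Matrix.fromBlocks_one]
      | succ l ih => rw [pow_succ, ih, Matrix.fromBlocks_multiply]; simp [pow_succ]
    rw [h2, hJp, Matrix.fromBlocks_one]
  have hdet : (φ X0).det = 1 := by
    have h1 : (φ X0).det = X0.det := Matrix.det_reindexAlgEquiv F F e X0
    rw [h1, Matrix.det_fromBlocks_zero₂₁, hJdet, Matrix.det_one, one_mul]
  let x : Matrix.SpecialLinearGroup (Fin (3 + m)) F := ⟨φ X0, hdet⟩
  have hx : (x : Matrix (Fin (3 + m)) (Fin (3 + m)) F) = φ X0 := rfl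
  have hxp : (φ X0) ^ p = 1 := by rw [← map_pow, hX0, map_one]
  refine ⟨x, ⟨1, ?_⟩, ?_, ?_⟩
  · rw [Matrix.SpecialLinearGroup.coe_pow, hx, hxp, one_smul]
  · intro z hz
    have h1 := congrFun (congrFun hz (e (Sum.inl 0))) (e (Sum.inl 1))
    have h2 : (x : Matrix (Fin (3 + m)) (Fin (3 + m)) F) (e (Sum.inl 0)) (e (Sum.inl 1)) = 1 := by
      simp [hx, φ, X0, J]
    rw [h2] at h1
    simp at h1
  · intro P hP
    obtain ⟨g, c, hg, hc, hgc⟩ := transport hf x P hP
    have : Nonempty (Fin (3 + m)) := ⟨⟨0, by omega⟩⟩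
    rw [hx] at hgc
    have hc1 : c = 1 := by
      have h1 := scalar_pow hg (φ X0) p hxp c hgc
      have : ExpChar F p := ExpChar.prime Fact.out
      apply frobenius_inj F p
      rw [frobenius_def, frobenius_def, h1, one_pow]
    subst hc1
    simp only [one_mul] at hgc
    let E : Fin 3 ⊕ Fin m → (Fin (3 + m) → F) := fun a => Pi.single (e a) 1
    have hcol : ∀ a b, (φ X0).mulVec (E a) (e b) = X0 b a := by
      intro a b
      have h1 : (φ X0).mulVec (E a) (e b) = (φ X0) (e b) (e a) := by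
        rw [Matrix.mulVec_single_one]; rfl
      rw [h1]
      simp [φ]
    have hE : ∀ a b, E a (e b) = if b = a then 1 else 0 := by
      intro a b
      simp only [E, Pi.single_apply, e.injective.eq_iff]
    have x0 : (φ X0).mulVec (E (Sum.inl 0)) = E (Sum.inl 0) := by
      funext i
      obtain ⟨b, rfl⟩ := e.surjective i
      rw [hcol, hE]
      rcases b with b | b
      · fin_cases b <;> simp [X0, J]
      · simp [X0]
    have x1 : (φ X0).mulVec (E (Sum.inl 1)) = E (Sum.inl 0) + E (Sum.inl 1) := by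
      funext i
      obtain ⟨b, rfl⟩ := e.surjective i
      rw [hcol, Pi.add_apply, hE, hE]
      rcases b with b | b
      · fin_cases b <;> simp [X0, J]
      · simp [X0]
    have x2 : (φ X0).mulVec (E (Sum.inl 2)) = E (Sum.inl 1) + E (Sum.inl 2) := by
      funext i
      obtain ⟨b, rfl⟩ := e.surjective i
      rw [hcol, Pi.add_apply, hE, hE]
      rcases b with b | b
      · fin_cases b <;> simp [X0, J]
      · simp [X0]
    have xj : ∀ j, (φ X0).mulVec (E (Sum.inr j)) = E (Sum.inr j) := by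
      intro j
      funext i
      obtain ⟨b, rfl⟩ := e.surjective i
      rw [hcol, hE]
      rcases b with b | b
      · simp [X0]
      · simp [X0, Matrix.one_apply]
    have f0j : ∀ j, g (E (Sum.inl 0)) (E (Sum.inr j)) = 0 := by
      intro j
      have h1 := hgc (E (Sum.inl 1)) (E (Sum.inr j))
      rw [x1, xj, hg.bilinear.add_left] at h1
      exact left_eq_add.mp (h1.symm.trans (add_comm _ _))
    have f01 : g (E (Sum.inl 0)) (E (Sum.inl 1)) = 0 := by
      have h1 := hgc (E (Sum.inl 0)) (E (Sum.inl 2))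
      rw [x0, x2, hg.bilinear.add_right] at h1
      exact left_eq_add.mp (h1.symm.trans (add_comm _ _))
    have f02 : g (E (Sum.inl 0)) (E (Sum.inl 2)) = 0 := by
      have h1 := hgc (E (Sum.inl 1)) (E (Sum.inl 2))
      rw [x1, x2, hg.bilinear.add_left, hg.bilinear.add_right, hg.bilinear.add_right, f01, hg.alternating, zero_add,
        zero_add] at h1
      exact left_eq_add.mp (h1.symm.trans (add_comm _ _))
    have f00 : g (E (Sum.inl 0)) (E (Sum.inl 0)) = 0 := hg.alternating _
    have hall : ∀ a, g (E (Sum.inl 0)) (E a) = 0 := by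
      intro a
      rcases a with a | a
      · fin_cases a
        · exact f00
        · exact f01
        · exact f02
      · exact f0j a
    have hne : E (Sum.inl 0) ≠ 0 := by
      intro h0
      have h1 := congrFun h0 (e (Sum.inl 0))
      rw [hE, if_pos rfl] at h1
      exact one_ne_zero h1
    obtain ⟨-, v, hv⟩ := hg.nondegenerate _ hne
    apply hv
    have h8 : v = ∑ j, v j • (Pi.single j (1 : F) : Fin (3 + m) → F) := by
      rw [← pi_eq_sum_univ']
    rw [h8, ← toBil_apply hg, map_sum]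
    refine Finset.sum_eq_zero fun j _ => ?_
    rw [map_smul, toBil_apply]
    obtain ⟨b, rfl⟩ := e.surjective j
    have := hall b
    rw [show g (E (Sum.inl 0)) (Pi.single (e b) 1) = 0 from this, smul_zero]

/-- The case `r ∤ q - 1`. -/
theorem ex_odd {n j : ℕ} (hj : Odd j) (hjn : j ≤ n) (f : (Fin n → F) → (Fin n → F) → F)
    (hf : IsSymplecticForm f) (r : ℕ) [Fact r.Prime] (hrF : (r : F) ≠ 0)
    (hrq : ¬ r ∣ Fintype.card F - 1) (hdiv : r ∣ Fintype.card F ^ j - 1) :
    ∃ x : Matrix.SpecialLinearGroup (Fin n) F,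
      (∃ z : F, ((x ^ r : Matrix.SpecialLinearGroup (Fin n) F) : Matrix (Fin n) (Fin n) F) = z • (1 : Matrix (Fin n) (Fin n) F)) ∧
      (∀ z : F, (x : Matrix (Fin n) (Fin n) F) ≠ z • (1 : Matrix (Fin n) (Fin n) F)) ∧
      ∀ P : Matrix.SpecialLinearGroup (Fin n) F, P⁻¹ * x * P ∉ ((Cfsg.Geo.similarityGroup f).comap (Matrix.SpecialLinearGroup.toGL : Matrix.SpecialLinearGroup (Fin n) F →* GL (Fin n) F)) := by
  classical
  have hq : 1 ≤ Fintype.card F := Fintype.card_pos
  set i := orderOf (Fintype.card F : ZMod r) with hi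
  have hij : i ∣ j := dvd_of_orderOf hq hi hdiv
  have hj0 : 0 < j := hj.pos
  have hi0 : 0 < i := Nat.pos_of_dvd_of_pos hij hj0
  have hin : i ≤ n := (Nat.le_of_dvd hj0 hij).trans hjn
  have hiodd : Odd i := Odd.of_dvd_nat hj hij
  obtain ⟨x, hxr, hrank⟩ := exists_elt r hrF hrq hi hi0 hin
  have hxr1 : ((x ^ r : Matrix.SpecialLinearGroup (Fin n) F) : Matrix (Fin n) (Fin n) F) = (1 : F) • 1 := by
    rw [hxr, one_smul]; rfl
  have hn0 : 0 < n := by omega
  refine ⟨x, ⟨1, hxr1⟩, ?_, ?_⟩
  · intro c hc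
    have h1 : c ^ r = 1 := by
      have h2 := hxr1
      rw [Matrix.SpecialLinearGroup.coe_pow, hc, smul_pow, one_pow, one_smul] at h2
      have h6 := congrFun (congrFun h2 ⟨0, hn0⟩) ⟨0, hn0⟩
      simpa using h6
    have h2 : c = 1 := pow_inj_of_not_dvd r hrq (by rw [h1, one_pow])
    rw [hc, h2, one_smul, sub_self, Matrix.rank_zero] at hrank
    omega
  · intro P hP
    have : Nonempty (Fin n) := ⟨⟨0, hn0⟩⟩
    obtain ⟨g, c, hg, hc, hgc⟩ := transport hf x P hP
    rw [Matrix.SpecialLinearGroup.coe_pow, one_smul] at hxr1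
    have hc1 : c = 1 := by
      have h1 := scalar_pow hg _ r hxr1 c hgc
      exact pow_inj_of_not_dvd r hrq (by rw [h1, one_pow])
    subst hc1
    simp only [one_mul] at hgc
    have h1 := even_rank hg _ r (Fact.out : r.Prime).ne_zero hrF hxr1 hgc
    rw [hrank] at h1
    exact (Nat.not_even_iff_odd.mpr hiodd) h1

/-- The case `r ∣ q - 1`, `(n)_r < (q - 1)_r`. -/
theorem ex_small {n : ℕ} (hn : 4 ≤ n) (f : (Fin n → F) → (Fin n → F) → F)
    (hf : IsSymplecticForm f) (r : ℕ) [Fact r.Prime] (hr2 : r ≠ 2)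
    (hrq : r ∣ Fintype.card F - 1) (hv : padicValNat r n < padicValNat r (Fintype.card F - 1)) :
    ∃ x : Matrix.SpecialLinearGroup (Fin n) F,
      (∃ z : F, ((x ^ r : Matrix.SpecialLinearGroup (Fin n) F) : Matrix (Fin n) (Fin n) F) = z • (1 : Matrix (Fin n) (Fin n) F)) ∧
      (∀ z : F, (x : Matrix (Fin n) (Fin n) F) ≠ z • (1 : Matrix (Fin n) (Fin n) F)) ∧
      ∀ P : Matrix.SpecialLinearGroup (Fin n) F, P⁻¹ * x * P ∉ ((Cfsg.Geo.similarityGroup f).comap (Matrix.SpecialLinearGroup.toGL : Matrix.SpecialLinearGroup (Fin n) F →* GL (Fin n) F)) := by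
  classical
  obtain ⟨w, ω, hw0, hω1, hωr, hwω⟩ := S5965.exists_w (F := F) (n := n) (by omega) r hrq hv
  have hωo : orderOf ω = r := orderOf_eq_prime hωr hω1
  have hω0 : ω ≠ 0 := by
    rintro rfl
    rw [zero_pow (Fact.out : r.Prime).ne_zero] at hωr
    exact zero_ne_one hωr
  have hω2 : ω ^ 2 ≠ 1 := by
    intro h
    rw [← orderOf_dvd_iff_pow_eq_one, hωo] at h
    have h1 := Nat.le_of_dvd (by norm_num) h
    have h2 := (Fact.out : r.Prime).two_le
    omega
  obtain ⟨m, rfl⟩ : ∃ m, n = m + 1 := ⟨n - 1, by omega⟩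
  let a : Fin (m + 1) → F := Fin.cons (w * ω) (fun _ => w)
  have hprod : ∏ i, a i = 1 := by
    rw [prod_cons, Finset.prod_const, Finset.card_univ, Fintype.card_fin, ← hwω]
    ring
  have ha0 : ∀ i, a i ≠ 0 := by
    intro i
    refine Fin.cases ?_ (fun i => ?_) i
    · exact mul_ne_zero hw0 hω0
    · exact hw0
  obtain ⟨x, hx⟩ := exists_diag_sl a hprod
  have har : ∀ i, a i ^ r = w ^ r := by
    intro i
    refine Fin.cases ?_ (fun i => ?_) i
    · simp [a, mul_pow, hωr]
    · simp [a]
  refine ⟨x, ⟨w ^ r, ?_⟩, ?_, ?_⟩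
  · rw [Matrix.SpecialLinearGroup.coe_pow, hx, S5965.diag_pow a _ r har]
  · intro c hc
    rw [hx] at hc
    have h3 : a 0 = c := by
      have := congrFun (congrFun hc 0) 0
      simpa using this
    have h4 : a ⟨1, by omega⟩ = c := by
      have := congrFun (congrFun hc ⟨1, by omega⟩) ⟨1, by omega⟩
      simpa using this
    have h5 : a ⟨1, by omega⟩ = w := rfl
    have h6 : a 0 = w * ω := rfl
    rw [h6] at h3
    rw [h5] at h4
    apply hω1
    have : w * ω = w * 1 := by rw [h3, mul_one, h4]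
    exact mul_left_cancel₀ hw0 this
  · intro P hP
    obtain ⟨g, c, hg, hc, hgc⟩ := transport hf x P hP
    rw [hx] at hgc
    obtain ⟨-, hmult⟩ := mult_sim hg a ha0 c hgc
    have hmul : ∀ β, mult a β = (if w * ω = β then 1 else 0) + (if w = β then m else 0) := by
      intro β
      rw [mult_cons, mult_const]
    have hne : w * ω ≠ w := by
      intro h
      exact hω1 (mul_left_cancel₀ hw0 (h.trans (mul_one w).symm))
    have e1 := hmult w hw0
    rw [hmul, hmul, if_neg hne, if_pos rfl, zero_add] at e1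
    have c1 : w = c / w := by
      by_contra hcon
      rw [if_neg hcon] at e1
      split_ifs at e1 <;> omega
    have e2 := hmult (w * ω) (mul_ne_zero hw0 hω0)
    rw [hmul, hmul, if_pos rfl, if_neg (Ne.symm hne), add_zero] at e2
    have c2 : c / (w * ω) = w / ω := by
      rw [← div_div, ← c1]
    rw [c2] at e2
    have c3 : w * ω ≠ w / ω := by
      intro h
      rw [eq_div_iff hω0, mul_assoc, ← pow_two] at h
      exact hω2 (mul_left_cancel₀ hw0 (h.trans (mul_one w).symm))
    have c4 : w ≠ w / ω := by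
      intro h
      rw [eq_div_iff hω0] at h
      exact hne h
    rw [if_neg c3, if_neg c4] at e2
    omega

/-- The case `r ∣ q - 1`, `n ≥ 7`. -/
theorem ex_large {n : ℕ} (hn : 7 ≤ n) (f : (Fin n → F) → (Fin n → F) → F)
    (hf : IsSymplecticForm f) (r : ℕ) [Fact r.Prime] (hr2 : r ≠ 2)
    (hrq : r ∣ Fintype.card F - 1) :
    ∃ x : Matrix.SpecialLinearGroup (Fin n) F,
      (∃ z : F, ((x ^ r : Matrix.SpecialLinearGroup (Fin n) F) : Matrix (Fin n) (Fin n) F) = z • (1 : Matrix (Fin n) (Fin n) F)) ∧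
      (∀ z : F, (x : Matrix (Fin n) (Fin n) F) ≠ z • (1 : Matrix (Fin n) (Fin n) F)) ∧
      ∀ P : Matrix.SpecialLinearGroup (Fin n) F, P⁻¹ * x * P ∉ ((Cfsg.Geo.similarityGroup f).comap (Matrix.SpecialLinearGroup.toGL : Matrix.SpecialLinearGroup (Fin n) F →* GL (Fin n) F)) := by
  classical
  obtain ⟨ω', hω'⟩ := exists_prime_orderOf_dvd_card' (G := Fˣ) r (by
    rw [Nat.card_eq_fintype_card, Fintype.card_units]; exact hrq)
  set ω : F := (ω' : F) with hω
  have hωo : orderOf ω = r := by rw [hω, orderOf_units, hω']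
  have hω0 : ω ≠ 0 := Units.ne_zero ω'
  have hωr : ω ^ r = 1 := by rw [← hωo]; exact pow_orderOf_eq_one ω
  have hr3 : 3 ≤ r := by
    have := (Fact.out : r.Prime).two_le
    omega
  have hω1 : ω ≠ 1 := by
    intro h
    rw [h, orderOf_one] at hωo
    omega
  have hω22 : ω ^ 2 ≠ 1 := by
    intro h
    rw [← orderOf_dvd_iff_pow_eq_one, hωo] at h
    have := Nat.le_of_dvd (by norm_num) h
    omega
  have hω2 : (ω ^ 2)⁻¹ ≠ 1 := by
    intro h
    rw [inv_eq_one] at h
    exact hω22 h
  obtain ⟨m, rfl⟩ : ∃ m, n = m + 1 + 1 + 1 := ⟨n - 3, by omega⟩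
  let a : Fin (m + 1 + 1 + 1) → F := Fin.cons ω (Fin.cons ω (Fin.cons (ω ^ 2)⁻¹ (fun _ : Fin m => (1 : F)) : Fin (m + 1) → F) : Fin (m + 1 + 1) → F)
  have hprod : ∏ i, a i = 1 := by
    rw [prod_cons, prod_cons, prod_cons, Finset.prod_const_one, mul_one]
    field_simp
  have har : ∀ i, a i ^ r = 1 := by
    intro i
    refine Fin.cases ?_ (fun i => ?_) i
    · simp [a, hωr]
    · refine Fin.cases ?_ (fun i => ?_) i
      · simp [a, hωr]
      · refine Fin.cases ?_ (fun i => ?_) i
        · simp only [a, Fin.cons_succ, Fin.cons_zero]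
          rw [inv_pow, ← pow_mul, mul_comm, pow_mul, hωr, one_pow, inv_one]
        · simp [a]
  have ha0 : ∀ i, a i ≠ 0 := by
    intro i h0
    have := har i
    rw [h0, zero_pow (by omega)] at this
    exact zero_ne_one this
  obtain ⟨x, hx⟩ := exists_diag_sl a hprod
  refine ⟨x, ⟨1, ?_⟩, ?_, ?_⟩
  · rw [Matrix.SpecialLinearGroup.coe_pow, hx, S5965.diag_pow a _ r har]
  · intro c hc
    rw [hx] at hc
    have h3 : a 0 = c := by
      have := congrFun (congrFun hc 0) 0
      simpa using this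
    have h4 : a ⟨3, by omega⟩ = c := by
      have := congrFun (congrFun hc ⟨3, by omega⟩) ⟨3, by omega⟩
      simpa using this
    have h5 : a ⟨3, by omega⟩ = 1 := rfl
    have h6 : a 0 = ω := rfl
    apply hω1
    rw [← h6, h3, ← h4, h5]
  · intro P hP
    obtain ⟨g, c, hg, hc, hgc⟩ := transport hf x P hP
    rw [hx] at hgc
    obtain ⟨-, hmult⟩ := mult_sim hg a ha0 c hgc
    have hmul : ∀ β, mult a β = (if ω = β then 1 else 0) + ((if ω = β then 1 else 0) +
        ((if (ω ^ 2)⁻¹ = β then 1 else 0) + (if (1 : F) = β then m else 0))) := by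
      intro β
      rw [mult_cons, mult_cons, mult_cons, mult_const]
    have e1 := hmult 1 one_ne_zero
    rw [hmul, hmul, if_neg hω1, if_neg hω2, if_pos rfl, div_one] at e1
    have c1 : (1 : F) = c := by
      by_contra hcon
      rw [if_neg hcon] at e1
      split_ifs at e1 <;> omega
    have e2 := hmult ω hω0
    rw [hmul, hmul, if_pos rfl, if_neg (Ne.symm hω1), ← c1] at e2
    have c2 : ω ≠ 1 / ω := by
      intro h
      rw [eq_div_iff hω0, ← pow_two] at h
      exact hω22 h
    have c3 : (ω ^ 2)⁻¹ ≠ 1 / ω := by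
      intro h
      rw [one_div, inv_inj, pow_two] at h
      exact hω1 (mul_left_cancel₀ hω0 (h.trans (mul_one ω).symm))
    have c4 : (1 : F) ≠ 1 / ω := by
      intro h
      rw [eq_div_iff hω0, one_mul] at h
      exact hω1 h
    rw [if_neg c2, if_neg c3, if_neg c4] at e2
    omega

/-- Derangements of odd prime order of PSL_n(q) on the cosets of a symplectic-type subgroup. Here `T = PSL_n(F)` for a field `F` with `q` elements, `n ≥ 4` even, `f` is a nondegenerate alternating form on `F^n`, and `H` is the subgroup of matrices of determinant 1 preserving `f` up to a scalar — a maximal subgroup of type Sp_n(q); Ω is the set of `T`-conjugates of `H` (cosets of `H`), so an element of `T` of prime order `r` (a matrix `x` of determinant 1 with `x^r` scalar, `x` not scalar) fixes a point of Ω when some conjugate of `x` by a matrix of determinant 1 preserves `f` up to a scalar. For every odd prime `r` dividing the index of `H`, with `(n, r) ≠ (6, 3)`, there is an element of `T` of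 order `r` with no conjugate in `H`. (For `n = 6`, `r = 3` this can fail: when `(q − 1)_3 = 3` every element of order 3 is conjugate into `H`.) -/
theorem result {F : Type*} [Field F] [Fintype F] {p : ℕ} [Fact p.Prime] [CharP F p] {q : ℕ} (hq : Fintype.card F = q)
    (n : ℕ) (hn : 4 ≤ n) (he : Even n) (f : (Fin n → F) → (Fin n → F) → F) (hf : Cfsg.Geo.IsSymplecticForm f)
    (r : ℕ) [Fact r.Prime] (hr2 : r ≠ 2) (hgap : ¬ (n = 6 ∧ r = 3)) (hΩ : r ∣ ((Cfsg.Geo.similarityGroup f).comap (Matrix.SpecialLinearGroup.toGL : Matrix.SpecialLinearGroup (Fin n) F →* GL (Fin n) F)).index) :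
    ∃ x : Matrix.SpecialLinearGroup (Fin n) F,
      (∃ z : F, ((x ^ r : Matrix.SpecialLinearGroup (Fin n) F) : Matrix (Fin n) (Fin n) F) = z • (1 : Matrix (Fin n) (Fin n) F)) ∧
      (∀ z : F, (x : Matrix (Fin n) (Fin n) F) ≠ z • (1 : Matrix (Fin n) (Fin n) F)) ∧
      ∀ P : Matrix.SpecialLinearGroup (Fin n) F, P⁻¹ * x * P ∉ ((Cfsg.Geo.similarityGroup f).comap (Matrix.SpecialLinearGroup.toGL : Matrix.SpecialLinearGroup (Fin n) F →* GL (Fin n) F)) := by
  have hrP : r.Prime := Fact.out
  by_cases hrp : r = p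
  · subst hrp
    obtain ⟨m, rfl⟩ : ∃ m, n = 3 + m := ⟨n - 3, by omega⟩
    exact ex_p hr2 m f hf
  · have hrF : (r : F) ≠ 0 := by
      rw [Ne, CharP.cast_eq_zero_iff F p]
      intro h
      exact hrp ((Nat.prime_dvd_prime_iff_eq Fact.out hrP).mp h).symm
    by_cases hrq : r ∣ Fintype.card F - 1
    · by_cases hv : padicValNat r n < padicValNat r (Fintype.card F - 1)
      · exact ex_small hn f hf r hr2 hrq hv
      · have hν1 : 1 ≤ padicValNat r (Fintype.card F - 1) := by
          rw [← padicValNat_dvd_iff_le (by have := Fintype.one_lt_card (α := F); omega), pow_one]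
          exact hrq
        have hrn : r ∣ n := by
          have := (padicValNat_dvd_iff_le (p := r) (n := 1) (a := n) (by omega)).mpr (by omega)
          rwa [pow_one] at this
        have hr3 : 3 ≤ r := by
          have := hrP.two_le
          omega
        have h7 : 7 ≤ n := by
          obtain ⟨l, hl⟩ := hrn
          have hl2 : 2 ∣ l := by
            have h1 : 2 ∣ r * l := hl ▸ he.two_dvd
            rcases (Nat.Prime.dvd_mul Nat.prime_two).mp h1 with h2 | h2
            · exact absurd ((Nat.prime_dvd_prime_iff_eq Nat.prime_two hrP).mp h2).symm hr2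
            · exact h2
          obtain ⟨l', rfl⟩ := hl2
          have hl0 : l' ≠ 0 := by rintro rfl; omega
          by_contra hcon
          have h6 : n ≤ 6 := by omega
          have h2 : 2 * r ≤ n := by
            rw [hl]
            calc 2 * r = r * (2 * 1) := by ring
              _ ≤ r * (2 * l') := Nat.mul_le_mul_left _ (by omega)
          exact hgap ⟨by omega, by omega⟩
        exact ex_large h7 f hf r hr2 hrq
    · obtain ⟨j, hj, hjn, hdiv⟩ := exists_odd_of_dvd_index (by omega) hf r hrP hrp hΩ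
      exact ex_odd hj hjn f hf r hrF hrq hdiv

end Cfsg.Agent.S5968
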