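import Cfsg.Statements.S5969
import Cfsg.Agent.H954.FieldSub2
set_option linter.all false
-- import your own Cfsg.Agent.* helpers here

set_option autoImplicit false
open scoped MatrixGroups
open Cfsg

namespace Cfsg.Agent.S5969

open Module Polynomial Cfsg.Agent.H954.FieldSub

/-- Existence of a root of `-1`. -/
theorem exists_pow_eq_neg_one {F : Type*} [Field F] [Fintype F] {q : ℕ} (hq : Fintype.card F = q)
    {n : ℕ} (hn : n ≠ 0) (h : padicValNat 2 n < padicValNat 2 (q - 1)) : ∃ w : F, w ^ n = -1 := by
  obtain ⟨g, hg⟩ := IsCyclic.exists_generator (α := Fˣ)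
  have hord : orderOf g = q - 1 := by
    rw [orderOf_eq_card_of_forall_mem_zpowers hg, Nat.card_units, Nat.card_eq_fintype_card, hq]
  have hq1 : 1 < q := by rw [← hq]; exact Fintype.one_lt_card
  have hq0 : q - 1 ≠ 0 := by omega
  set t := padicValNat 2 n with ht
  have hdiv : 2 ^ (t + 1) ∣ q - 1 := (pow_dvd_pow 2 h).trans pow_padicValNat_dvd
  obtain ⟨m, hm⟩ := hdiv
  obtain ⟨j, hj⟩ : 2 ^ t ∣ n := pow_padicValNat_dvd
  have hjodd : Odd j := by
    rw [← Nat.not_even_iff_odd, even_iff_two_dvd]
    rintro ⟨j', rfl⟩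
    have h1 : 2 ^ (t + 1) ∣ n := ⟨j', by rw [hj]; ring⟩
    have h2 := (padicValNat_dvd_iff_le hn).1 h1
    omega
  have hm0 : m ≠ 0 := by rintro rfl; simp at hm; omega
  have hsq : (g ^ (m * 2 ^ t)) ^ 2 = 1 := by
    rw [← pow_mul]
    have : m * 2 ^ t * 2 = orderOf g := by rw [hord, hm]; ring
    rw [this, pow_orderOf_eq_one]
  have hne : g ^ (m * 2 ^ t) ≠ 1 := by
    intro h1
    have h2 := orderOf_dvd_of_pow_eq_one h1
    rw [hord, hm] at h2
    have h3 := Nat.le_of_dvd (by positivity) h2
    have h4 : 0 < m * 2 ^ t := by positivity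
    rw [pow_succ] at h3
    nlinarith
  have hneg : (g ^ (m * 2 ^ t) : Fˣ) = -1 := by
    have h1 : ((g ^ (m * 2 ^ t) : Fˣ) : F) ^ 2 = 1 := by
      rw [← Units.val_pow_eq_pow_val, hsq]; rfl
    rw [sq] at h1
    rcases mul_self_eq_one_iff.1 h1 with h2 | h2
    · exact absurd (Units.ext h2) hne
    · exact Units.ext (by rw [h2]; rfl)
  refine ⟨((g ^ m : Fˣ) : F), ?_⟩
  have : (g ^ m) ^ n = -1 := by
    rw [hj, ← pow_mul, ← mul_assoc, pow_mul, hneg, hjodd.neg_one_pow]
  rw [← Units.val_pow_eq_pow_val, this]; rfl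

/-- No nontrivial power equal to `-1`. -/
theorem even_of_pow {F : Type*} [Field F] [Fintype F] {q : ℕ} (hq : Fintype.card F = q)
    (h2 : (1 : F) ≠ -1)
    {n : ℕ} (h : padicValNat 2 (q - 1) ≤ padicValNat 2 n) {w : F} (hw : w ≠ 0) {j : ℕ}
    (hj : w ^ n * (-1) ^ j = 1) : Even j := by
  by_contra hjo
  rw [Nat.not_even_iff_odd] at hjo
  rw [hjo.neg_one_pow] at hj
  have hwn : w ^ n = -1 := by
    have : w ^ n * -1 * -1 = 1 * -1 := by rw [hj]
    simpa using this
  have hq1 : 1 < q := by rw [← hq]; exact Fintype.one_lt_card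
  have hq0 : q - 1 ≠ 0 := by omega
  obtain ⟨u, hu⟩ : 2 ^ (padicValNat 2 (q - 1)) ∣ q - 1 := pow_padicValNat_dvd
  have huodd : Odd u := by
    rw [← Nat.not_even_iff_odd, even_iff_two_dvd]
    rintro ⟨j', hj'⟩
    have h1 : 2 ^ (padicValNat 2 (q - 1) + 1) ∣ q - 1 := ⟨j', by
      conv_lhs => rw [hu, hj']
      ring⟩
    have h2 := (padicValNat_dvd_iff_le hq0).1 h1
    omega
  obtain ⟨m, hm⟩ : 2 ^ (padicValNat 2 (q - 1)) ∣ n := (pow_dvd_pow 2 h).trans pow_padicValNat_dvd
  have h3 : w ^ (n * u) = 1 := by
    have : n * u = (q - 1) * m := by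
      conv_lhs => rw [hm]
      conv_rhs => rw [hu]
      ring
    rw [this, pow_mul, ← hq, FiniteField.pow_card_sub_one_eq_one w hw, one_pow]
  rw [pow_mul, hwn, huodd.neg_one_pow] at h3
  exact h2 h3.symm

theorem char_two {F : Type*} [Field F] [Fintype F] {q : ℕ} (hq : Fintype.card F = q) :
    Odd q ↔ (1 : F) ≠ -1 := by
  rw [← hq]
  constructor
  · intro h h1
    have h2 : ringChar F = 2 := by
      have h3 : (2 : F) = 0 := by
        have : (1 : F) + 1 = 0 := by nth_rewrite 1 [h1]; exact neg_add_cancel 1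
        rw [← this]; norm_num
      have := (CharP.ringChar_of_prime_eq_zero Nat.prime_two (by exact_mod_cast h3))
      exact this
    have := FiniteField.even_card_of_char_two h2
    rw [Nat.odd_iff] at h
    omega
  · intro h
    rw [Nat.odd_iff]
    apply FiniteField.odd_card_of_char_ne_two
    intro h2
    apply h
    have : CharP F 2 := by rw [← h2]; exact ringChar.charP F
    exact (CharTwo.neg_eq (1 : F)).symm

/-- An element of `SL_n` in char `≠ 2` with eigenspace of codimension one. -/
theorem refl_example {F : Type*} [Field F] {n : ℕ} (hn : 2 ≤ n) (h2 : (1 : F) ≠ -1) {w : F} (hw : w ^ n = -1) :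
    ∃ x : Matrix.SpecialLinearGroup (Fin n) F,
      (∃ z : F, ((x ^ 2 : Matrix.SpecialLinearGroup (Fin n) F) : Matrix (Fin n) (Fin n) F) =
        z • (1 : Matrix (Fin n) (Fin n) F)) ∧
      (∀ z : F, (x : Matrix (Fin n) (Fin n) F) ≠ z • (1 : Matrix (Fin n) (Fin n) F)) ∧
      finrank F (LinearMap.ker (Matrix.toLin' (x : Matrix (Fin n) (Fin n) F) -
        w • (1 : Module.End F (Fin n → F)))) + 1 = finrank F (Fin n → F) := by
  have hw0 : w ≠ 0 := by
    rintro rfl
    rw [zero_pow (by omega)] at hw
    have : (1 : F) = 0 := by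
      have h3 : -(-1 : F) = -0 := by rw [← hw]
      simpa using h3
    exact one_ne_zero this
  let i₀ : Fin n := ⟨0, by omega⟩
  let i₁ : Fin n := ⟨1, by omega⟩
  have hi : i₁ ≠ i₀ := by intro h; simp [i₀, i₁] at h
  let D : Fin n → F := fun i => if i = i₀ then -w else w
  have hdet : (Matrix.diagonal D).det = 1 := by
    rw [Matrix.det_diagonal]
    have h1 : ∏ i, D i = (∏ i : Fin n, w) * ∏ i : Fin n, (if i = i₀ then (-1 : F) else 1) := by
      rw [← Finset.prod_mul_distrib]
      apply Finset.prod_congr rfl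
      intro i _
      simp only [D]
      split_ifs <;> ring
    rw [h1, Finset.prod_ite_eq']
    simp [hw]
  refine ⟨⟨Matrix.diagonal D, hdet⟩, ⟨w ^ 2, ?_⟩, ?_, ?_⟩
  · refine (Matrix.SpecialLinearGroup.coe_pow _ 2).trans ?_
    show (Matrix.diagonal D) ^ 2 = _
    rw [Matrix.diagonal_pow, Matrix.smul_one_eq_diagonal]
    congr 1
    ext i
    simp only [Pi.pow_apply, D]
    split_ifs <;> ring
  · intro z hz
    have h1 := congrFun (congrFun hz i₀) i₀
    have h3 := congrFun (congrFun hz i₁) i₁
    simp [Matrix.smul_apply, D, hi] at h1 h3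
    rw [← h1] at h3
    apply h2
    have h4 : w * 1 = w * -1 := by rw [mul_one, mul_neg, mul_one]; exact h3
    exact mul_left_cancel₀ hw0 h4
  · rw [Module.finrank_fin_fun]
    apply finrank_ker_of_coord _ i₀
    intro v
    rw [LinearMap.mem_ker, LinearMap.sub_apply, sub_eq_zero]
    constructor
    · intro h
      have h1 := congrFun h i₀
      simp [Matrix.toLin'_apply, Matrix.mulVec_diagonal, D] at h1
      by_contra hv
      apply h2
      have h5 : w * v i₀ ≠ 0 := mul_ne_zero hw0 hv
      have h6 : (1 : F) * (w * v i₀) = -1 * (w * v i₀) := by rw [one_mul, neg_one_mul]; exact h1.symm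
      exact mul_right_cancel₀ h5 h6
    · intro h
      ext i
      simp only [Matrix.toLin'_apply, Matrix.mulVec_diagonal, D]
      by_cases hi' : i = i₀
      · subst hi'; simp [h]
      · simp [hi']

/-- A transvection in characteristic two. -/
theorem transv_example {F : Type*} [Field F] {n : ℕ} (hn : 2 ≤ n) (h2 : (1 : F) = -1) :
    ∃ x : Matrix.SpecialLinearGroup (Fin n) F,
      (∃ z : F, ((x ^ 2 : Matrix.SpecialLinearGroup (Fin n) F) : Matrix (Fin n) (Fin n) F) =
        z • (1 : Matrix (Fin n) (Fin n) F)) ∧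
      (∀ z : F, (x : Matrix (Fin n) (Fin n) F) ≠ z • (1 : Matrix (Fin n) (Fin n) F)) ∧
      finrank F (LinearMap.ker (Matrix.toLin' (x : Matrix (Fin n) (Fin n) F) -
        (1 : F) • (1 : Module.End F (Fin n → F)))) + 1 = finrank F (Fin n → F) := by
  let i₀ : Fin n := ⟨0, by omega⟩
  let i₁ : Fin n := ⟨1, by omega⟩
  have hi : i₀ ≠ i₁ := by intro h; simp [i₀, i₁] at h
  refine ⟨⟨Matrix.transvection i₀ i₁ (1 : F), Matrix.det_transvection_of_ne i₀ i₁ hi 1⟩, ⟨1, ?_⟩, ?_, ?_⟩
  · refine (Matrix.SpecialLinearGroup.coe_pow _ 2).trans ?_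
    show (Matrix.transvection i₀ i₁ (1 : F)) ^ 2 = _
    have h3 : (1 : F) + 1 = 0 := by nth_rewrite 1 [h2]; exact neg_add_cancel 1
    rw [sq, Matrix.transvection_mul_transvection_same i₀ i₁ hi, h3, Matrix.transvection_zero, one_smul]
  · intro z hz
    have h1 := congrFun (congrFun hz i₀) i₁
    simp [Matrix.transvection, hi] at h1
  · rw [Module.finrank_fin_fun]
    apply finrank_ker_of_coord _ i₁
    intro v
    rw [LinearMap.mem_ker, LinearMap.sub_apply, sub_eq_zero]
    constructor
    · intro h
      have h1 := congrFun h i₀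
      simpa [Matrix.toLin'_apply, Matrix.transvection, Matrix.add_mulVec, Matrix.single_mulVec] using h1
    · intro h
      simp [Matrix.toLin'_apply, Matrix.transvection, Matrix.add_mulVec, Matrix.single_mulVec, h]

/-- Involutions of PSL_n(q) and extension-field subgroups of degree 2. Here `T = PSL_n(F)` for a field `F` with `q = p^f` elements (`n ≥ 2`, `(n, q) ≠ (2, 2), (2, 3)`), `k` is a prime dividing `n`, `K` is a subalgebra of the `n × n` matrices that is a field of degree `k` over `F` (an extension-field structure F_{q^k} on `F^n`), and `H` is the subgroup of matrices of determinant 1 normalizing `K` — a subgroup of type GL_{n/k}(q^k) (maximal except in some small cases; maximality is not assumed); Ω is the set of cosets of `H` in `T`, so an element of `T` of prime order `r` (a matrix `x` of determinant 1 with `x^r` scalar, `x` not scalar) fixes a point of Ω when some conjugate of `x` by a matrix of determinant 1 normalizes `K`. Take `k = 2` and suppose the index of `H` is even. Then every involution of `T`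 is conjugate in `T` into `H` if and only if `n = 2`, or `q` is odd and `(q − 1)_2 ≤ (n)_2`. -/
theorem result {F : Type*} [Field F] [Fintype F] {p : ℕ} [Fact p.Prime] [CharP F p] {q : ℕ} (hq : Fintype.card F = q)
    (n : ℕ) (hn : 2 ≤ n) (hT : (n, q) ≠ (2, 2) ∧ (n, q) ≠ (2, 3))
    (k : ℕ) (hk : k.Prime) (hkn : k ∣ n) (K : Subalgebra F (Matrix (Fin n) (Fin n) F)) (hK : Cfsg.Geo.IsFieldSubalgebra k K) (hk2 : k = 2) (hΩ : 2 ∣ ((Cfsg.Geo.subalgebraNormalizer K).comap (Matrix.SpecialLinearGroup.toGL : Matrix.SpecialLinearGroup (Fin n) F →* GL (Fin n) F)).index) :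
    (∀ x : Matrix.SpecialLinearGroup (Fin n) F,
      (∃ z : F, ((x ^ 2 : Matrix.SpecialLinearGroup (Fin n) F) : Matrix (Fin n) (Fin n) F) = z • (1 : Matrix (Fin n) (Fin n) F)) →
      (∀ z : F, (x : Matrix (Fin n) (Fin n) F) ≠ z • (1 : Matrix (Fin n) (Fin n) F)) →
      ∃ P : Matrix.SpecialLinearGroup (Fin n) F, P⁻¹ * x * P ∈ ((Cfsg.Geo.subalgebraNormalizer K).comap (Matrix.SpecialLinearGroup.toGL : Matrix.SpecialLinearGroup (Fin n) F →* GL (Fin n) F))) ↔
    (n = 2 ∨ (Odd q ∧ padicValNat 2 (q - 1) ≤ padicValNat 2 n)) := by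
  subst hk2
  have hn0 : Nonempty (Fin n) := ⟨⟨0, by omega⟩⟩
  have hV : Nontrivial (Fin n → F) := Function.nontrivial
  obtain ⟨L, fL, aL, φ, rfl, hL⟩ := exists_field hK
  have hfL : FiniteDimensional F L := Module.finite_of_finrank_pos (by omega)
  have hFL : Finite L := Module.finite_of_finite F
  have hdimV : finrank F (Fin n → F) = n := Module.finrank_fin_fun F
  simp only [iff_SL]
  constructor
  · intro h
    by_contra hcon
    push Not at hcon
    obtain ⟨hn2, hcon⟩ := hcon
    obtain ⟨x, hx1, hx2, w, hx3⟩ : ∃ x : Matrix.SpecialLinearGroup (Fin n) F,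
      (∃ z : F, ((x ^ 2 : Matrix.SpecialLinearGroup (Fin n) F) : Matrix (Fin n) (Fin n) F) =
        z • (1 : Matrix (Fin n) (Fin n) F)) ∧
      (∀ z : F, (x : Matrix (Fin n) (Fin n) F) ≠ z • (1 : Matrix (Fin n) (Fin n) F)) ∧
      ∃ w : F, finrank F (LinearMap.ker (Matrix.toLin' (x : Matrix (Fin n) (Fin n) F) -
        w • (1 : Module.End F (Fin n → F)))) + 1 = finrank F (Fin n → F) := by
      by_cases hodd : Odd q
      · obtain ⟨w, hw⟩ := exists_pow_eq_neg_one hq (n := n) (by omega) (hcon hodd)
        obtain ⟨x, h1, h2, h3⟩ := refl_example hn ((char_two hq).1 hodd) hw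
        exact ⟨x, h1, h2, w, h3⟩
      · have h2 : (1 : F) = -1 := by
          by_contra h3
          exact hodd ((char_two hq).2 h3)
        obtain ⟨x, h1, h2, h3⟩ := transv_example hn h2
        exact ⟨x, h1, h2, 1, h3⟩
    obtain ⟨ψ, τ, hψ⟩ := h x hx1 hx2
    have := codim_one_case hL ψ (Matrix.toLin' (x : Matrix (Fin n) (Fin n) F))
      (Matrix.SpecialLinearGroup.toLin' x).injective τ hψ w hx3
    rw [hdimV] at this
    exact hn2 this
  · rintro hcase x ⟨z, hz⟩ hx
    set T : Module.End F (Fin n → F) := Matrix.toLin' (x : Matrix (Fin n) (Fin n) F) with hT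
    have hXinj : Function.Injective T := (Matrix.SpecialLinearGroup.toLin' x).injective
    have hX2 : T ^ 2 = z • (1 : Module.End F (Fin n → F)) := by
      rw [Matrix.SpecialLinearGroup.coe_pow] at hz
      have h1 := congrArg (Matrix.toLinAlgEquiv' (R := F) (n := Fin n)) hz
      rw [map_pow, map_smul, map_one] at h1
      exact h1
    have hXns : ∀ c   : F, T ≠ c • (1 : Module.End F (Fin n → F)) := by
      intro c hc
      apply hx c
      apply (Matrix.toLinAlgEquiv' (R := F) (n := Fin n)).injective
      rw [map_smul, map_one]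
      exact hc
    have hz0 : z ≠ 0 := by
      rintro rfl
      rw [zero_smul] at hX2
      obtain ⟨v, hv⟩ := exists_ne (0 : Fin n → F)
      apply hv
      apply hXinj
      apply hXinj
      have := congrFun (congrArg DFunLike.coe hX2) v
      rw [map_zero, map_zero]
      rw [sq] at this
      exact this
    by_cases hsq : ∃ w : F, w ^ 2 = z
    · obtain ⟨w, rfl⟩ := hsq
      have hw0 : w ≠ 0 := by rintro rfl; simp at hz0
      set Y : Module.End F (Fin n → F) := w⁻¹ • T with hY
      have hXY : T = w • Y := by rw [hY, smul_smul, mul_inv_cancel₀ hw0, one_smul]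
      have hY2 : Y ^ 2 = 1 := by
        rw [hY, _root_.smul_pow, hX2, smul_smul, ← mul_pow, inv_mul_cancel₀ hw0, one_pow, one_smul]
      have hYns : ∀ c : F, Y ≠ c • (1 : Module.End F (Fin n → F)) := by
        intro c hc
        apply hXns (w * c)
        rw [hXY, hc, smul_smul]
      rw [hXY]
      apply smul_normalises
      by_cases hn2 : n = 2
      · apply frob_case
        · rw [hdimV, hn2, hL]
        · rw [hL]; exact minpoly_of_sq_one Y hYns hY2
      · obtain ⟨hodd, hval⟩ := hcase.resolve_left hn2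
        have hne := (char_two hq).1 hodd
        have h2 : (2 : F) ≠ 0 := by
          intro h0
          apply hne
          have : (1 : F) + 1 = 0 := by rw [← h0]; norm_num
          exact eq_neg_of_add_eq_zero_left this
        -- eigenspaces
        let W : Submodule F (Fin n → F) := LinearMap.ker (Y - (1 : F) • (1 : Module.End F (Fin n → F)))
        let W' : Submodule F (Fin n → F) := LinearMap.ker (Y - (-1 : F) • (1 : Module.End F (Fin n → F)))
        have hW : ∀ v, v ∈ W ↔ Y v = (1 : F) • v := fun v => by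
          rw [LinearMap.mem_ker, LinearMap.sub_apply, sub_eq_zero]; rfl
        have hW' : ∀ v, v ∈ W' ↔ Y v = (-1 : F) • v := fun v => by
          rw [LinearMap.mem_ker, LinearMap.sub_apply, sub_eq_zero]; rfl
        have hYY : ∀ v, Y (Y v) = v := fun v => by
          have := congrFun (congrArg DFunLike.coe hY2) v
          rw [sq] at this
          exact this
        have hc : IsCompl W W' := by
          refine ⟨?_, ?_⟩
          · rw [Submodule.disjoint_def]
            intro v h1 h3
            rw [hW] at h1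
            rw [hW'] at h3
            rw [h1] at h3
            have h4 : (2 : F) • v = 0 := by
              have : (2 : F) • v = (1 : F) • v - (-1 : F) • v := by module
              rw [this, h3, sub_self]
            exact (smul_eq_zero.1 h4).resolve_left h2
          · rw [codisjoint_iff, eq_top_iff]
            intro v _
            have h1 : v = (2 : F)⁻¹ • (v + Y v) + (2 : F)⁻¹ • (v - Y v) := by
              rw [← smul_add]
              have : v + Y v + (v - Y v) = (2 : F) • v := by module
              rw [this, smul_smul, inv_mul_cancel₀ h2, one_smul]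
            rw [h1]
            refine Submodule.add_mem_sup (Submodule.smul_mem _ _ ?_) (Submodule.smul_mem _ _ ?_)
            · rw [hW, map_add, hYY, one_smul, add_comm]
            · rw [hW', map_sub, hYY]; module
        have hsum : finrank F W + finrank F W' = n := by
          rw [Submodule.finrank_add_eq_of_isCompl hc, hdimV]
        have hdetX : LinearMap.det T = 1 := by
          rw [hT, LinearMap.det_toLin']; exact x.2
        have hdetY : LinearMap.det Y = (-1) ^ finrank F W' := by
          rw [det_of_compl Y W W' hc 1 (-1) (fun v hv => (hW v).1 hv) (fun v hv => (hW' v).1 hv), one_pow, one_mul]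
        have heven : Even (finrank F W') := by
          apply even_of_pow hq hne (n := n) hval hw0
          rw [hXY, LinearMap.det_smul, hdimV, hdetY] at hdetX
          exact hdetX
        obtain ⟨n', rfl⟩ := hkn
        apply split_case Y W W' hc _ _ 1 (-1) (fun v hv => (hW v).1 hv) (fun v hv => (hW' v).1 hv)
        · rw [hL]
          obtain ⟨j, hj⟩ := heven
          omega
        · rw [hL]; exact even_iff_two_dvd.1 heven
    · have hirr : Irreducible (X ^ 2 - C z : F[X]) :=
        X_pow_sub_C_irreducible_of_prime Nat.prime_two (fun b hb => hsq ⟨b, hb⟩)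
      have hmin := minpoly_of_irreducible T two_ne_zero hX2 hirr
      apply comm_case
      · rw [hmin]; exact hirr
      · rw [hmin, natDegree_X_pow_sub_C, hL]


end Cfsg.Agent.S5969
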