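import Cfsg.Statements.S5970
import Cfsg.Agent.H954.Singer
set_option linter.all false
-- import your own Cfsg.Agent.* helpers here

set_option autoImplicit false
open scoped MatrixGroups
open Cfsg

namespace Cfsg.Agent.S5970

open Module Polynomial Cfsg.Agent.H954.FieldSub Cfsg.Agent.H954.Singer

/-- An element of order `r` with a fixed space of dimension at least two, if the order of `q` is not `r - 1`. -/
theorem exists_example {F : Type*} [Field F] [Fintype F] {p : ℕ} [hp : Fact p.Prime] [CharP F p] {q : ℕ}
    (hq : Fintype.card F = q) {n : ℕ} (hn : n.Prime) (hn3 : 3 < n) (hnp : n ≠ p)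
    (ho : orderOf (q : ZMod n) ≠ n - 1) :
    ∃ x : Matrix.SpecialLinearGroup (Fin n) F, x ^ n = 1 ∧ x ≠ 1 ∧
      2 ≤ finrank F (LinearMap.ker (Matrix.toLin' (x : Matrix (Fin n) (Fin n) F) -
        (1 : F) • (1 : Module.End F (Fin n → F)))) := by
  have : Fact n.Prime := ⟨hn⟩
  have hq1 : 1 < q := by rw [← hq]; exact Fintype.one_lt_card
  have hcop : Nat.Coprime q n := coprime_card hq hn hnp
  by_cases h1 : n ∣ q - 1
  · -- `ω ∈ F`
    have hcard : n ∣ Nat.card Fˣ := by rw [Nat.card_units, Nat.card_eq_fintype_card, hq]; exact h1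
    obtain ⟨u, hu⟩ := exists_prime_orderOf_dvd_card' n hcard
    let g : Module.End F (F × F) := LinearMap.prodMap ((u : F) • 1) (((u⁻¹ : Fˣ) : F) • 1)
    have hgdet : LinearMap.det g = 1 := by
      have h2 : LinearMap.det g = LinearMap.det ((u : F) • (1 : Module.End F F)) *
        LinearMap.det (((u⁻¹ : Fˣ) : F) • (1 : Module.End F F)) := LinearMap.det_prodMap _ _
      rw [h2, LinearMap.det_smul, LinearMap.det_smul, map_one]
      simp
    have hgpow : ∀ k, g ^ k = LinearMap.prodMap ((u : F) ^ k • 1) (((u⁻¹ : Fˣ) : F) ^ k • 1) := by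
      intro k
      induction k with
      | zero => rw [pow_zero, pow_zero, pow_zero, one_smul]; rfl
      | succ k ih =>
        rw [pow_succ, ih]
        refine LinearMap.ext fun v => ?_
        simp [g, pow_succ, mul_assoc]
    have hun : (u : F) ^ n = 1 := by
      rw [← Units.val_pow_eq_pow_val, ← hu, pow_orderOf_eq_one]; rfl
    have hg : g ^ n = 1 := by
      rw [hgpow, hun]
      have : (((u⁻¹ : Fˣ) : F)) ^ n = 1 := by
        rw [← Units.val_pow_eq_pow_val, inv_pow, ← hu, pow_orderOf_eq_one]; simp
      rw [this, one_smul]; rfl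
    have hg1 : g ≠ 1 := by
      intro h
      have h2 : g (1, 0) = (1, 0) := by rw [h]; rfl
      have h3 : (u : F) = 1 := by
        have := congrArg Prod.fst h2
        simpa [g] using this
      have h4 : u = 1 := Units.ext h3
      rw [h4, orderOf_one] at hu
      omega
    obtain ⟨x, hx1, hx2, hx3⟩ := exists_ext (F := F) (n := n) (m := 2) (W := F × F) (by simp) (by omega) g hgdet hg hg1
    exact ⟨x, hx1, hx2, le_trans (by omega) hx3⟩
  · -- order `i ≥ 2`
    set i := orderOf (q : ZMod n) with hi
    have hunit : IsUnit (q : ZMod n) := (ZMod.isUnit_iff_coprime q n).2 hcop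
    have hidvd : i ∣ n - 1 := by
      rw [hi]
      obtain ⟨w, hw⟩ := hunit
      rw [← hw, orderOf_units]
      have h2 := orderOf_dvd_card (x := w)
      rwa [ZMod.card_units n] at h2
    have hipos : 0 < i := Nat.pos_of_dvd_of_pos hidvd (by omega)
    have hile : i ≤ n - 2 := by
      have := Nat.le_of_dvd (by omega) hidvd
      omega
    have hdvd : n ∣ q ^ i - 1 := by
      have h2 : ((q : ZMod n)) ^ i = 1 := pow_orderOf_eq_one _
      have h3 : ((q ^ i - 1 : ℕ) : ZMod n) = 0 := by
        rw [Nat.cast_sub (Nat.one_le_pow _ _ (by omega)), Nat.cast_pow, h2]; simp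
      exact (ZMod.natCast_eq_zero_iff _ _).1 h3
    have hcard : n ∣ Nat.card (GL (Fin i) F) := by
      rw [Matrix.card_GL_field]
      refine dvd_trans ?_ (Finset.dvd_prod_of_mem _ (Finset.mem_univ (⟨0, hipos⟩ : Fin i)))
      simpa [hq] using hdvd
    obtain ⟨g, hg⟩ := exists_prime_orderOf_dvd_card' n hcard
    have hgn : g ^ n = 1 := by rw [← hg, pow_orderOf_eq_one]
    let G : Module.End F (Fin i → F) := Matrix.toLin' (g : Matrix (Fin i) (Fin i) F)
    have hGn : G ^ n = 1 := by
      have h2 := congrArg (Matrix.toLinAlgEquiv' (R := F) (n := Fin i)) (congrArg Units.val hgn)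
      rw [Units.val_pow_eq_pow_val, map_pow, Units.val_one, map_one] at h2
      exact h2
    have hG1 : G ≠ 1 := by
      intro h
      have h2 : g = 1 := by
        apply Units.ext
        apply (Matrix.toLinAlgEquiv' (R := F) (n := Fin i)).injective
        rw [Units.val_one, map_one]
        exact h
      rw [h2, orderOf_one] at hg
      omega
    have hdet : LinearMap.det G = 1 := by
      apply eq_one_of_pow hq hn h1
      rw [← map_pow, hGn, map_one]
    obtain ⟨x, hx1, hx2, hx3⟩ := exists_ext (F := F) (n := n) (m := i) (W := Fin i → F) (by simp) (by omega) G hdet hGn hG1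
    exact ⟨x, hx1, hx2, le_trans (by omega) hx3⟩

/-- Elements of order `n` of PSL_n(q), `n` prime, and the normalizer of a Singer cycle. Here `T = PSL_n(F)` for a field `F` with `q = p^f` elements (`n ≥ 2`, `(n, q) ≠ (2, 2), (2, 3)`), `k` is a prime dividing `n`, `K` is a subalgebra of the `n × n` matrices that is a field of degree `k` over `F` (an extension-field structure F_{q^k} on `F^n`), and `H` is the subgroup of matrices of determinant 1 normalizing `K` — a subgroup of type GL_{n/k}(q^k) (maximal except in some small cases; maximality is not assumed); Ω is the set of cosets of `H` in `T`, so an element of `T` of prime order `r` (a matrix `x` of determinant 1 with `x^r` scalar, `x` not scalar) fixes a point of Ω when some conjugate of `x` by a matrix of determinant 1 normalizes `K`. Take `k = n > 3` prime with `n ≠ p` (so `H` is the normalizer of a Singer cycle), and suppose `n` divides the index of `H`. Then every element of `T` of order `n` is conjugate in `T` into `H` if and only if the multiplicative order of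 `q` modulo `n` is `n − 1`. -/
theorem result {F : Type*} [Field F] [Fintype F] {p : ℕ} [Fact p.Prime] [CharP F p] {q : ℕ} (hq : Fintype.card F = q)
    (n : ℕ) (hn : 2 ≤ n) (hT : (n, q) ≠ (2, 2) ∧ (n, q) ≠ (2, 3))
    (k : ℕ) (hk : k.Prime) (hkn : k ∣ n) (K : Subalgebra F (Matrix (Fin n) (Fin n) F)) (hK : Cfsg.Geo.IsFieldSubalgebra k K) (hkn' : k = n) (hn3 : 3 < n) (hnp : n ≠ p) (hΩ : n ∣ ((Cfsg.Geo.subalgebraNormalizer K).comap (Matrix.SpecialLinearGroup.toGL : Matrix.SpecialLinearGroup (Fin n) F →* GL (Fin n) F)).index) :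
    (∀ x : Matrix.SpecialLinearGroup (Fin n) F,
      (∃ z : F, ((x ^ n : Matrix.SpecialLinearGroup (Fin n) F) : Matrix (Fin n) (Fin n) F) = z • (1 : Matrix (Fin n) (Fin n) F)) →
      (∀ z : F, (x : Matrix (Fin n) (Fin n) F) ≠ z • (1 : Matrix (Fin n) (Fin n) F)) →
      ∃ P : Matrix.SpecialLinearGroup (Fin n) F, P⁻¹ * x * P ∈ ((Cfsg.Geo.subalgebraNormalizer K).comap (Matrix.SpecialLinearGroup.toGL : Matrix.SpecialLinearGroup (Fin n) F →* GL (Fin n) F))) ↔
    orderOf (q : ZMod n) = n - 1 := by
  subst hkn'
  have hn0 : Nonempty (Fin k) := ⟨⟨0, by omega⟩⟩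
  have hV : Nontrivial (Fin k → F) := Function.nontrivial
  obtain ⟨L, fL, aL, φ, rfl, hL⟩ := exists_field hK
  have hfL : FiniteDimensional F L := Module.finite_of_finrank_pos (by omega)
  have hFL : Finite L := Module.finite_of_finite F
  have hdimV : finrank F (Fin k → F) = k := Module.finrank_fin_fun F
  simp only [iff_SL]
  constructor
  · intro h
    by_contra hcon
    obtain ⟨x, hx1, hx2, hx3⟩ := exists_example hq hk hn3 hnp hcon
    obtain ⟨ψ, τ, hψ⟩ := h x ⟨1, by rw [hx1, one_smul]; rfl⟩ (ne_smul_of hx2 (by omega))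
    have := eq_smul_of_two_le (by rw [hL]; exact hk) ψ (by rw [hdimV, hL])
      (Matrix.toLin' (x : Matrix (Fin k) (Fin k) F))
      (Matrix.SpecialLinearGroup.toLin' x).injective τ hψ 1 hx3
    exact toLin'_ne_of (ne_smul_of hx2 (by omega)) 1 this
  · rintro ho x ⟨z, hz⟩ hx
    have hndvd : ¬ k ∣ q - 1 := by
      intro h
      rw [order_eq_one hq h] at ho
      omega
    have hz1 : z = 1 := eq_one_of_pow hq hk hndvd (det_pow_of hz)
    subst hz1
    have hT := toLin'_pow_of hz
    rw [one_smul] at hT
    have hT1 := toLin'_ne_of hx 1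
    rw [one_smul] at hT1
    have hmin := minpoly_of_order hq hk (by omega) hnp ho hdimV _ hT hT1
    exact frob_case _ (by rw [hdimV, hL]) (by rw [hL, hmin])

end Cfsg.Agent.S5970
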