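import Cfsg.Statements.S5971
import Cfsg.Agent.H954.Singer
set_option linter.all false
-- import your own Cfsg.Agent.* helpers here

set_option autoImplicit false
open scoped MatrixGroups
open Cfsg

namespace Cfsg.Agent.S5971

open Module Polynomial Cfsg.Agent.H954.FieldSub Cfsg.Agent.H954.Singer

/-- A transvection in characteristic three. -/
theorem transv_example {F : Type*} [Field F] [CharP F 3] :
    ∃ x : Matrix.SpecialLinearGroup (Fin 3) F,
      (∃ z : F, ((x ^ 3 : Matrix.SpecialLinearGroup (Fin 3) F) : Matrix (Fin 3) (Fin 3) F) =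
        z • (1 : Matrix (Fin 3) (Fin 3) F)) ∧
      (∀ z : F, (x : Matrix (Fin 3) (Fin 3) F) ≠ z • (1 : Matrix (Fin 3) (Fin 3) F)) ∧
      finrank F (LinearMap.ker (Matrix.toLin' (x : Matrix (Fin 3) (Fin 3) F) -
        (1 : F) • (1 : Module.End F (Fin 3 → F)))) + 1 = 3 := by
  have hi : (0 : Fin 3) ≠ 1 := by decide
  refine ⟨⟨Matrix.transvection 0 1 (1 : F), Matrix.det_transvection_of_ne 0 1 hi 1⟩, ⟨1, ?_⟩, ?_, ?_⟩
  · refine (Matrix.SpecialLinearGroup.coe_pow _ 3).trans ?_
    show (Matrix.transvection 0 1 (1 : F)) ^ 3 = _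
    have h3 : (1 : F) + 1 + 1 = 0 := by
      have := CharP.cast_eq_zero F 3
      push_cast at this
      linear_combination this
    rw [pow_succ, sq, Matrix.transvection_mul_transvection_same 0 1 hi,
      Matrix.transvection_mul_transvection_same 0 1 hi, h3, Matrix.transvection_zero, one_smul]
  · intro z hz
    have h1 := congrFun (congrFun hz 0) 1
    simp [Matrix.transvection] at h1
  · apply finrank_ker_of_coord _ 1
    intro v
    rw [LinearMap.mem_ker, LinearMap.sub_apply, sub_eq_zero]
    constructor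
    · intro h
      have h1 := congrFun h 0
      simpa [Matrix.toLin'_apply, Matrix.transvection, Matrix.add_mulVec, Matrix.single_mulVec] using h1
    · intro h
      simp [Matrix.toLin'_apply, Matrix.transvection, Matrix.single_mulVec, h]

/-- A diagonal element when `9 ∣ q - 1`. -/
theorem diag_example {F : Type*} [Field F] {w : F} (hw : w ^ 9 = 1) (hw3 : w ^ 3 ≠ 1) :
    ∃ x : Matrix.SpecialLinearGroup (Fin 3) F,
      (∃ z : F, ((x ^ 3 : Matrix.SpecialLinearGroup (Fin 3) F) : Matrix (Fin 3) (Fin 3) F) =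
        z • (1 : Matrix (Fin 3) (Fin 3) F)) ∧
      (∀ z : F, (x : Matrix (Fin 3) (Fin 3) F) ≠ z • (1 : Matrix (Fin 3) (Fin 3) F)) ∧
      finrank F (LinearMap.ker (Matrix.toLin' (x : Matrix (Fin 3) (Fin 3) F) -
        w • (1 : Module.End F (Fin 3 → F)))) + 1 = 3 := by
  have hw0 : w ≠ 0 := by rintro rfl; simp at hw
  let D : Fin 3 → F := fun i => if i = 0 then w ^ 7 else w
  have hdet : (Matrix.diagonal D).det = 1 := by
    rw [Matrix.det_diagonal, Fin.prod_univ_three]
    show w ^ 7 * w * w = 1
    rw [← hw]; ring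
  have hne : w ^ 7 ≠ w := by
    intro h
    apply hw3
    have h1 : w ^ 6 = 1 := by
      have : w ^ 6 * w = 1 * w := by
        rw [one_mul]
        calc w ^ 6 * w = w ^ 7 := by ring
          _ = w := h
      exact mul_right_cancel₀ hw0 this
    calc w ^ 3 = w ^ 9 * w ^ 3 := by rw [hw, one_mul]
      _ = (w ^ 6) ^ 2 := by ring
      _ = 1 := by rw [h1, one_pow]
  refine ⟨⟨Matrix.diagonal D, hdet⟩, ⟨w ^ 3, ?_⟩, ?_, ?_⟩
  · refine (Matrix.SpecialLinearGroup.coe_pow _ 3).trans ?_
    show (Matrix.diagonal D) ^ 3 = _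
    rw [Matrix.diagonal_pow, Matrix.smul_one_eq_diagonal]
    congr 1
    ext i
    simp only [Pi.pow_apply, D]
    split_ifs
    · calc (w ^ 7) ^ 3 = (w ^ 9) ^ 2 * w ^ 3 := by ring
        _ = w ^ 3 := by rw [hw]; ring
    · rfl
  · intro z hz
    have h1 := congrFun (congrFun hz 0) 0
    have h3 := congrFun (congrFun hz 1) 1
    simp [Matrix.smul_apply, D] at h1 h3
    exact hne (h1.trans h3.symm)
  · apply finrank_ker_of_coord _ 0
    intro v
    rw [LinearMap.mem_ker, LinearMap.sub_apply, sub_eq_zero]
    constructor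
    · intro h
      have h1 := congrFun h 0
      simp [Matrix.toLin'_apply, Matrix.mulVec_diagonal, D] at h1
      rcases h1 with h1 | h1
      · exact absurd h1 hne
      · exact h1
    · intro h
      ext i
      simp only [Matrix.toLin'_apply, Matrix.mulVec_diagonal, D]
      by_cases hi' : i = 0
      · subst hi'; simp [h]
      · simp [hi']

/-- `x³ = 1`, `det x = 1`, `x` not scalar : the minimal polynomial is `X³ - 1` if there is a primitive
cube root of unity. -/
theorem minpoly_cube {F : Type*} [Field F] {w : F} (hw : w ^ 3 = 1) (hw1 : w ≠ 1)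
    (x : Matrix.SpecialLinearGroup (Fin 3) F)
    (hx3 : (Matrix.toLin' (x : Matrix (Fin 3) (Fin 3) F)) ^ 3 = 1)
    (hx : ∀ z : F, Matrix.toLin' (x : Matrix (Fin 3) (Fin 3) F) ≠ z • (1 : Module.End F (Fin 3 → F))) :
    minpoly F (Matrix.toLin' (x : Matrix (Fin 3) (Fin 3) F)) = X ^ 3 - 1 := by
  set T := Matrix.toLin' (x : Matrix (Fin 3) (Fin 3) F) with hT
  have hw0 : w ≠ 0 := by rintro rfl; simp at hw
  have hdetT : LinearMap.det T = 1 := by rw [hT, LinearMap.det_toLin']; exact x.2
  have hdeg : T.charpoly.natDegree = 3 := by rw [LinearMap.charpoly_natDegree, Module.finrank_fin_fun]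
  have hmon : T.charpoly.Monic := LinearMap.charpoly_monic T
  have hc0 : T.charpoly.coeff 0 = -1 := by
    have := LinearMap.det_eq_sign_charpoly_coeff T
    rw [hdetT, Module.finrank_fin_fun] at this
    linear_combination this
  have hexp : T.charpoly = X ^ 3 + C (T.charpoly.coeff 2) * X ^ 2 + C (T.charpoly.coeff 1) * X + C (-1) := by
    conv_lhs => rw [T.charpoly.as_sum_range_C_mul_X_pow, hdeg]
    have hc3 : T.charpoly.coeff 3 = 1 := by
      have := hmon.coeff_natDegree
      rwa [hdeg] at this
    simp only [Finset.sum_range_succ, Finset.sum_range_zero, hc0, hc3]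
    simp
    ring
  have hCH := LinearMap.aeval_self_charpoly T
  rw [hexp] at hCH
  simp only [map_add, map_mul, aeval_X_pow, aeval_X, aeval_C, hx3] at hCH
  set a := T.charpoly.coeff 2
  set b := T.charpoly.coeff 1
  have h1 : a • (T * T) + b • T = 0 := by
    have h2 : (1 : Module.End F (Fin 3 → F)) + a • (T ^ 2) + b • T + (-1 : F) • (1 : Module.End F (Fin 3 → F)) = 0 := by
      have h3 : ∀ c : F, (algebraMap F (Module.End F (Fin 3 → F))) c = c • 1 := fun c =>
        Algebra.algebraMap_eq_smul_one c
      rw [h3, h3, h3, smul_mul_assoc, one_mul, smul_mul_assoc, one_mul] at hCH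
      exact hCH
    rw [sq] at h2
    have h3 : (1 : Module.End F (Fin 3 → F)) + a • (T * T) + b • T + (-1 : F) • (1 : Module.End F (Fin 3 → F)) =
      a • (T * T) + b • T := by module
    rw [← h3, h2]
  -- multiply by `T²`
  have h4 : a • T + b • (1 : Module.End F (Fin 3 → F)) = 0 := by
    have h5 : (a • (T * T) + b • T) * (T * T) = 0 := by rw [h1, zero_mul]
    have h6 : T * T * T = 1 := by rw [← hx3, pow_succ, sq]
    have h7 : (a • (T * T) + b • T) * (T * T) = a • T + b • (1 : Module.End F (Fin 3 → F)) := by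
      rw [add_mul, smul_mul_assoc, smul_mul_assoc]
      congr 1
      · congr 1
        calc T * T * (T * T) = T * T * T * T := by simp only [mul_assoc]
          _ = T := by rw [h6, one_mul]
      · rw [← mul_assoc, h6]
    rw [← h7, h5]
  have ha : a = 0 := by
    by_contra ha
    apply hx (-(a⁻¹ * b))
    have h8 : T = a⁻¹ • (a • T + b • (1 : Module.End F (Fin 3 → F))) + (-(a⁻¹ * b)) • (1 : Module.End F (Fin 3 → F)) := by
      rw [smul_add, smul_smul, smul_smul, inv_mul_cancel₀ ha]
      module
    rw [h4, smul_zero, zero_add] at h8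
    exact h8
  have hb : b = 0 := by
    rw [ha, zero_smul, zero_add] at h4
    by_contra hb
    have := smul_right_injective (Module.End F (Fin 3 → F)) hb (h4.trans (smul_zero b).symm)
    exact one_ne_zero this
  have hcp : T.charpoly = X ^ 3 - 1 := by
    rw [hexp, ha, hb]
    simp
    ring
  -- three distinct eigenvalues
  have hroot : ∀ z : F, z ^ 3 = 1 → (minpoly F T).IsRoot z := by
    intro z hz
    rw [← Module.End.hasEigenvalue_iff_isRoot, Module.End.hasEigenvalue_iff_isRoot_charpoly, hcp]
    simp [hz]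
  have hww : w ^ 2 ≠ 1 := by
    intro h
    apply hw1
    calc w = w ^ 2 * w := by rw [h, one_mul]
      _ = 1 := by rw [← hw]; ring
  have hw2w : w ^ 2 ≠ w := by
    intro h
    apply hw1
    have : w * w = 1 * w := by rw [← sq, h, one_mul]
    exact mul_right_cancel₀ hw0 this
  have hm : (minpoly F T).Monic := minpoly.monic (Algebra.IsIntegral.isIntegral T)
  have hcard : 3 ≤ (minpoly F T).natDegree := by
    classical
    have hsub : ({1, w, w ^ 2} : Finset F).val ≤ (minpoly F T).roots := by
      rw [Finset.val_le_iff_val_subset]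
      intro z hz
      rw [mem_roots hm.ne_zero]
      apply hroot
      simp only [Finset.mem_val, Finset.mem_insert, Finset.mem_singleton] at hz
      rcases hz with rfl | rfl | rfl
      · ring
      · exact hw
      · rw [← pow_mul, mul_comm, pow_mul, hw, one_pow]
    have h9 := Multiset.card_le_card hsub
    have h10 : Multiset.card ({1, w, w ^ 2} : Finset F).val = 3 := by
      rw [Finset.card_val, Finset.card_insert_of_notMem, Finset.card_insert_of_notMem, Finset.card_singleton]
      · simpa using fun h => hw2w h.symm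
      · simp only [Finset.mem_insert, Finset.mem_singleton, not_or]
        exact ⟨fun h => hw1 h.symm, fun h => hww h.symm⟩
    rw [h10] at h9
    exact h9.trans (card_roots' _)
  have hdvd : minpoly F T ∣ X ^ 3 - 1 := minpoly.dvd F T (by simp [hx3])
  exact (Polynomial.eq_of_monic_of_dvd_of_natDegree_le hm (monic_X_pow_sub_C (1 : F) (by norm_num)) hdvd
    (by rw [natDegree_X_pow_sub_C]; exact hcard)).symm

/-- Elements of order 3 of PSL_3(q) and the normalizer of a Singer cycle. Here `T = PSL_n(F)` for a field `F` with `q = p^f` elements (`n ≥ 2`, `(n, q) ≠ (2, 2), (2, 3)`), `k` is a prime dividing `n`, `K` is a subalgebra of the `n × n` matrices that is a field of degree `k` over `F` (an extension-field structure F_{q^k} on `F^n`), and `H` is the subgroup of matrices of determinant 1 normalizing `K` — a subgroup of type GL_{n/k}(q^k) (maximal except in some small cases; maximality is not assumed); Ω is the set of cosets of `H` in `T`, so an element of `T` of prime order `r` (a matrix `x` of determinant 1 with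 `x^r` scalar, `x` not scalar) fixes a point of Ω when some conjugate of `x` by a matrix of determinant 1 normalizes `K`. Take `n = k = 3` and suppose 3 divides the index of `H`. Then every element of `T` of order 3 is conjugate in `T` into `H` if and only if `q ≡ 4, 7` or `8 (mod 9)`. -/
theorem result {F : Type*} [Field F] [Fintype F] {p : ℕ} [Fact p.Prime] [CharP F p] {q : ℕ} (hq : Fintype.card F = q)
    (n : ℕ) (hn : n = 3) (k : ℕ) (hk : k.Prime) (hkn : k ∣ n) (K : Subalgebra F (Matrix (Fin n) (Fin n) F)) (hK : Cfsg.Geo.IsFieldSubalgebra k K) (hk3 : k = 3) (hΩ : 3 ∣ ((Cfsg.Geo.subalgebraNormalizer K).comap (Matrix.SpecialLinearGroup.toGL : Matrix.SpecialLinearGroup (Fin n) F →* GL (Fin n) F)).index) :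
    (∀ x : Matrix.SpecialLinearGroup (Fin n) F,
      (∃ z : F, ((x ^ 3 : Matrix.SpecialLinearGroup (Fin n) F) : Matrix (Fin n) (Fin n) F) = z • (1 : Matrix (Fin n) (Fin n) F)) →
      (∀ z : F, (x : Matrix (Fin n) (Fin n) F) ≠ z • (1 : Matrix (Fin n) (Fin n) F)) →
      ∃ P : Matrix.SpecialLinearGroup (Fin n) F, P⁻¹ * x * P ∈ ((Cfsg.Geo.subalgebraNormalizer K).comap (Matrix.SpecialLinearGroup.toGL : Matrix.SpecialLinearGroup (Fin n) F →* GL (Fin n) F))) ↔
    (q % 9 = 4 ∨ q % 9 = 7 ∨ q % 9 = 8) := by
  subst hn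
  subst hk3
  have hn0 : Nonempty (Fin 3) := ⟨0⟩
  have hV : Nontrivial (Fin 3 → F) := Function.nontrivial
  obtain ⟨L, fL, aL, φ, rfl, hL⟩ := exists_field hK
  have hfL : FiniteDimensional F L := Module.finite_of_finrank_pos (by omega)
  have hFL : Finite L := Module.finite_of_finite F
  have hdimV : finrank F (Fin 3 → F) = 3 := Module.finrank_fin_fun F
  have hq1 : 1 < q := by rw [← hq]; exact Fintype.one_lt_card
  have hpow1 : ∀ z : F, z ≠ 0 → z ^ (q - 1) = 1 := fun z hz => by
    rw [← hq]; exact FiniteField.pow_card_sub_one_eq_one z hz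
  -- the negative direction
  have hneg : ∀ w : F, (∃ x : Matrix.SpecialLinearGroup (Fin 3) F,
      (∃ z : F, ((x ^ 3 : Matrix.SpecialLinearGroup (Fin 3) F) : Matrix (Fin 3) (Fin 3) F) =
        z • (1 : Matrix (Fin 3) (Fin 3) F)) ∧
      (∀ z : F, (x : Matrix (Fin 3) (Fin 3) F) ≠ z • (1 : Matrix (Fin 3) (Fin 3) F)) ∧
      finrank F (LinearMap.ker (Matrix.toLin' (x : Matrix (Fin 3) (Fin 3) F) -
        w • (1 : Module.End F (Fin 3 → F)))) + 1 = 3) →
      ¬ (∀ x : Matrix.SpecialLinearGroup (Fin 3) F,
      (∃ z : F, ((x ^ 3 : Matrix.SpecialLinearGroup (Fin 3) F) : Matrix (Fin 3) (Fin 3) F) = z • (1 : Matrix (Fin 3) (Fin 3) F)) →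
      (∀ z : F, (x : Matrix (Fin 3) (Fin 3) F) ≠ z • (1 : Matrix (Fin 3) (Fin 3) F)) →
      ∃ P : Matrix.SpecialLinearGroup (Fin 3) F, P⁻¹ * x * P ∈ ((Cfsg.Geo.subalgebraNormalizer φ.range).comap (Matrix.SpecialLinearGroup.toGL : Matrix.SpecialLinearGroup (Fin 3) F →* GL (Fin 3) F))) := by
    rintro w ⟨x, hx1, hx2, hx3⟩ h
    obtain ⟨ψ, τ, hψ⟩ := (iff_SL φ x).1 (h x hx1 hx2)
    have := eq_smul_of_two_le (by rw [hL]; exact hk) ψ (by rw [hdimV, hL])
      (Matrix.toLin' (x : Matrix (Fin 3) (Fin 3) F))
      (Matrix.SpecialLinearGroup.toLin' x).injective τ hψ w (by omega)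
    exact toLin'_ne_of hx2 w this
  by_cases hp3 : p = 3
  · -- characteristic three
    subst hp3
    obtain ⟨f, hf, hqf⟩ := card_eq (p := 3) hq
    have hq3 : q % 3 = 0 := by
      rw [hqf]
      obtain ⟨f', rfl⟩ : ∃ f', f = f' + 1 := ⟨f - 1, by omega⟩
      rw [pow_succ]; omega
    constructor
    · intro h
      exact absurd h (hneg 1 transv_example)
    · intro h
      omega
  -- the positive direction when `q ≡ 2 mod 3`
  have hpos2 : ¬ 3 ∣ q - 1 → ∀ x : Matrix.SpecialLinearGroup (Fin 3) F,
      (∃ z : F, ((x ^ 3 : Matrix.SpecialLinearGroup (Fin 3) F) : Matrix (Fin 3) (Fin 3) F) = z • (1 : Matrix (Fin 3) (Fin 3) F)) →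
      (∀ z : F, (x : Matrix (Fin 3) (Fin 3) F) ≠ z • (1 : Matrix (Fin 3) (Fin 3) F)) →
      ∃ P : Matrix.SpecialLinearGroup (Fin 3) F, P⁻¹ * x * P ∈ ((Cfsg.Geo.subalgebraNormalizer φ.range).comap (Matrix.SpecialLinearGroup.toGL : Matrix.SpecialLinearGroup (Fin 3) F →* GL (Fin 3) F)) := by
    rintro hndvd x ⟨z, hz⟩ hx
    rw [iff_SL]
    have hz1 : z = 1 := eq_one_of_pow hq hk hndvd (det_pow_of hz)
    subst hz1
    have hT := toLin'_pow_of hz
    rw [one_smul] at hT
    have hT1 := toLin'_ne_of hx 1
    rw [one_smul] at hT1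
    have hcop : Nat.Coprime q 3 := coprime_card (p := p) hq hk (Ne.symm hp3)
    have ho : orderOf (q : ZMod 3) = 3 - 1 := by
      have h3 : q % 3 = 2 := by
        have : ¬ 3 ∣ q := by
          intro h
          have := Nat.Coprime.eq_one_of_dvd hcop.symm h
          omega
        omega
      have h4 : (q : ZMod 3) = 2 := by
        rw [← ZMod.natCast_mod, h3]; rfl
      rw [h4]
      have : orderOf (2 : ZMod 3) = 2 := by
        apply orderOf_eq_prime
        · decide
        · decide
      rw [this]
    have hmin := minpoly_of_order hq hk le_rfl (Ne.symm hp3) ho hdimV _ hT hT1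
    exact frob_case _ (by rw [hdimV, hL]) (by rw [hL, hmin])
  by_cases h3 : 3 ∣ q - 1
  · by_cases h9 : 9 ∣ q - 1
    · constructor
      · intro h
        refine absurd h ?_
        obtain ⟨g, hg⟩ := IsCyclic.exists_generator (α := Fˣ)
        have hord : orderOf g = q - 1 := by
          rw [orderOf_eq_card_of_forall_mem_zpowers hg, Nat.card_units, Nat.card_eq_fintype_card, hq]
        obtain ⟨m, hm⟩ := h9
        have hm0 : 0 < m := by omega
        have hw9 : ((g ^ m : Fˣ) : F) ^ 9 = 1 := by
          rw [← Units.val_pow_eq_pow_val, ← pow_mul]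
          have : m * 9 = orderOf g := by rw [hord, hm]; ring
          rw [this, pow_orderOf_eq_one]; rfl
        have hw3 : ((g ^ m : Fˣ) : F) ^ 3 ≠ 1 := by
          intro h1
          rw [← Units.val_pow_eq_pow_val, ← pow_mul] at h1
          have h2 : g ^ (m * 3) = 1 := Units.ext h1
          have h4 := orderOf_dvd_of_pow_eq_one h2
          rw [hord, hm] at h4
          have := Nat.le_of_dvd (by positivity) h4
          omega
        exact hneg _ (diag_example hw9 hw3)
      · intro h
        omega
    · constructor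
      · intro _
        omega
      · rintro _ x ⟨z, hz⟩ hx
        rw [iff_SL]
        have hT := toLin'_pow_of hz
        have hz3 : z ^ 3 = 1 := det_pow_of hz
        by_cases hcube : ∃ b : F, b ^ 3 = z
        · obtain ⟨b, hb⟩ := hcube
          have hb9 : b ^ 9 = 1 := by rw [show 9 = 3 * 3 by norm_num, pow_mul, hb, hz3]
          have hb0 : b ≠ 0 := by rintro rfl; simp at hb9
          have hbq := hpow1 b hb0
          have hgcd : Nat.gcd 9 (q - 1) = 3 := by
            have h1 : Nat.gcd 9 (q - 1) ∣ 9 := Nat.gcd_dvd_left _ _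
            have h2 : Nat.gcd 9 (q - 1) ∣ q - 1 := Nat.gcd_dvd_right _ _
            have h4 : 3 ∣ Nat.gcd 9 (q - 1) := Nat.dvd_gcd (by norm_num) h3
            have h5 : Nat.gcd 9 (q - 1) ≤ 9 := Nat.le_of_dvd (by norm_num) h1
            have h6 : Nat.gcd 9 (q - 1) ≠ 9 := fun h => h9 (h ▸ h2)
            have h7 : Nat.gcd 9 (q - 1) ≠ 6 := fun h => by rw [h] at h1; omega
            have h8 : 0 < Nat.gcd 9 (q - 1) := Nat.gcd_pos_of_pos_left _ (by norm_num)
            omega
          have hb3 : b ^ 3 = 1 := by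
            have := pow_gcd_eq_one.2 ⟨hb9, hbq⟩
            rwa [hgcd] at this
          have hz1 : z = 1 := by rw [← hb, hb3]
          subst hz1
          rw [one_smul] at hT
          -- a primitive cube root of unity
          obtain ⟨w, hw, hw1⟩ : ∃ w : F, w ^ 3 = 1 ∧ w ≠ 1 := by
            have : Fact (Nat.Prime 3) := ⟨hk⟩
            have hcard : 3 ∣ Nat.card Fˣ := by rw [Nat.card_units, Nat.card_eq_fintype_card, hq]; exact h3
            obtain ⟨u, hu⟩ := exists_prime_orderOf_dvd_card' 3 hcard
            refine ⟨u, ?_, ?_⟩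
            · rw [← Units.val_pow_eq_pow_val, ← hu, pow_orderOf_eq_one]; rfl
            · intro h
              have : u = 1 := Units.ext h
              rw [this, orderOf_one] at hu
              omega
          have hmin := minpoly_cube hw hw1 x hT (toLin'_ne_of hx)
          exact frob_case _ (by rw [hdimV, hL]) (by rw [hL, hmin])
        · have hirr : Irreducible (X ^ 3 - C z : F[X]) :=
            X_pow_sub_C_irreducible_of_prime hk (fun b hb => hcube ⟨b, hb⟩)
          have hmin := minpoly_of_irreducible _ (by norm_num) hT hirr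
          apply comm_case
          · rw [hmin]; exact hirr
          · rw [hmin, natDegree_X_pow_sub_C, hL]
  · constructor
    · intro h
      by_contra hcon
      have hcop : Nat.Coprime q 3 := coprime_card (p := p) hq hk (Ne.symm hp3)
      have h3q : ¬ 3 ∣ q := by
        intro h
        have := Nat.Coprime.eq_one_of_dvd hcop.symm h
        omega
      have hq9 : q % 9 = 2 ∨ q % 9 = 5 := by omega
      have hfinH : Finite (Matrix.SpecialLinearGroup (Fin 3) F) := inferInstance
      have : Fact (Nat.Prime 3) := ⟨hk⟩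
      set H := ((Cfsg.Geo.subalgebraNormalizer φ.range).comap (Matrix.SpecialLinearGroup.toGL : Matrix.SpecialLinearGroup (Fin 3) F →* GL (Fin 3) F)) with hH
      have hcard : 3 ∣ Nat.card (Matrix.SpecialLinearGroup (Fin 3) F) := hΩ.trans H.index_dvd_card
      obtain ⟨g, hg⟩ := exists_prime_orderOf_dvd_card' 3 hcard
      have hg3 : g ^ 3 = 1 := by
        have := pow_orderOf_eq_one g
        rwa [hg] at this
      have hg1 : g ≠ 1 := by
        intro h
        rw [h, orderOf_one] at hg
        omega
      obtain ⟨P, hP⟩ := hpos2 h3 g ⟨1, by rw [hg3, one_smul]; rfl⟩ (by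
        intro z hz
        have hz3 : z ^ 3 = 1 := by
          have h1 := congrArg Matrix.det hz
          rw [Matrix.SpecialLinearGroup.det_coe, Matrix.det_smul, Matrix.det_one, mul_one, Fintype.card_fin] at h1
          exact h1.symm
        have hz1 : z = 1 := eq_one_of_pow hq hk h3 hz3
        apply hg1
        apply Subtype.ext
        rw [hz, hz1, one_smul]; rfl)
      have hH3 : 3 ∣ Nat.card H := by
        have h1 : orderOf (⟨P⁻¹ * g * P, hP⟩ : H) = 3 := by
          rw [← Subgroup.orderOf_coe]
          show orderOf (P⁻¹ * g * P) = 3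
          have : P⁻¹ * g * P = MulAut.conj P⁻¹ g := by simp [MulAut.conj_apply]
          rw [this, MulEquiv.orderOf_eq, hg]
        have h2 := orderOf_dvd_natCard (⟨P⁻¹ * g * P, hP⟩ : H)
        rwa [h1] at h2
      have h9 : 9 ∣ Nat.card (Matrix.SpecialLinearGroup (Fin 3) F) := by
        rw [← H.card_mul_index]
        exact Nat.mul_dvd_mul hH3 hΩ
      have h9' : 9 ∣ Nat.card (GL (Fin 3) F) := by
        refine h9.trans ?_
        exact Subgroup.card_dvd_of_injective (Matrix.SpecialLinearGroup.toGL : Matrix.SpecialLinearGroup (Fin 3) F →* GL (Fin 3) F)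
          Matrix.SpecialLinearGroup.toGL_injective
      rw [Matrix.card_GL_field, Fin.prod_univ_three, hq] at h9'
      have h10 := (ZMod.natCast_eq_zero_iff _ 9).2 h9'
      rw [Nat.cast_mul, Nat.cast_mul, Nat.cast_sub (Nat.pow_le_pow_right (by omega) (by decide)),
        Nat.cast_sub (Nat.pow_le_pow_right (by omega) (by decide)),
        Nat.cast_sub (Nat.pow_le_pow_right (by omega) (by decide)), Nat.cast_pow, Nat.cast_pow, Nat.cast_pow,
        Nat.cast_pow, ← ZMod.natCast_mod q 9] at h10
      rcases hq9 with h11 | h11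
      · rw [h11] at h10
        revert h10; decide
      · rw [h11] at h10
        revert h10; decide
    · intro _ 
      exact hpos2 h3

end Cfsg.Agent.S5971
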