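import Mathlib
import Cfsg.Agent.H955.JSkew2
import Cfsg.Statements.S5975
import Cfsg.Agent.H955.KNorm
import Cfsg.Agent.H955.KMat2
set_option linter.all false

-- part: H955/SelfAdj2
section
/-!
# Four-dimensional symplectic spaces with a self-adjoint `M`, `M² = μ` a non-square

Conjugacy of involutions and of elements of square `-1` in symplectic groups; elements commuting or
anticommuting with `M`.
-/

set_option autoImplicit false

namespace Cfsg.Agent.H955

open Module

universe u v w

section Conj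

variable {F : Type u} [Field F] {V : Type v} [AddCommGroup V] [Module F V]
  [FiniteDimensional F V] {B : LinearMap.BilinForm F V}

omit [FiniteDimensional F V] in
theorem neg_on_comS {x : V ≃ₗ[F] V} (hxx : ∀ v, x (x v) = v) {v : V} (hv : v ∈ comS x) :
    x v = - v := by
  obtain ⟨y, rfl⟩ := mem_comS.1 hv
  rw [map_sub, hxx]
  abel

theorem fix_on_orth (hB : IsSp B) {x : V ≃ₗ[F] V} (hx : x ∈ IsoB B)
    (hW : NdOn B (comS x)) {v : V} (hv : v ∈ orth B (comS x)) : x v = v := by
  rw [← sub_eq_zero]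
  have h3 : x v - v ∈ comS x := sub_mem_comS x v
  have h4 : x v - v ∈ orth B (comS x) :=
    Submodule.sub_mem _ (inv_orth hx (inv_comS x) v hv) hv
  exact Submodule.disjoint_def.1 (disjoint_of_le_orth hW le_rfl hB.eps) _ h3 h4

/-- involutions with commutator spaces of the same dimension are conjugate. -/
theorem exists_conj_invol (h2 : (2 : F) ≠ 0) (hB : IsSp B) {x y : V ≃ₗ[F] V} (hx : x ∈ IsoB B)
    (hy : y ∈ IsoB B) (hxx : ∀ v, x (x v) = v) (hyy : ∀ v, y (y v) = v)
    (hd : finrank F (comS x) = finrank F (comS y)) : ∃ g ∈ IsoB B, g * x * g⁻¹ = y := by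
  have hsq : ∀ z : V ≃ₗ[F] V, (∀ v, z (z v) = v) → z ^ 2 = 1 := by
    intro z hz
    ext v
    rw [pow_two, LinearEquiv.mul_apply, hz]
    rfl
  have hWx := ndOn_comS hB.nd hx (n := 2) (by exact_mod_cast h2) (hsq x hxx)
  have hWy := ndOn_comS hB.nd hy (n := 2) (by exact_mod_cast h2) (hsq y hyy)
  obtain ⟨g, hg, hgW⟩ := exists_iso_map_eq hB hWx hWy hd
  refine ⟨g, hg, ?_⟩
  have horth : ∀ v ∈ orth B (comS y), g.symm v ∈ orth B (comS x) := by
    intro v hv w hw
    have h3 := hg w (g.symm v)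
    rw [LinearEquiv.apply_symm_apply] at h3
    rw [← h3]
    refine hv _ ?_
    rw [← hgW]
    exact ⟨w, hw, rfl⟩
  have hin : ∀ v ∈ comS y, g.symm v ∈ comS x := by
    intro v hv
    rw [← hgW] at hv
    obtain ⟨w, hw, rfl⟩ := hv
    change g.symm (g w) ∈ comS x
    rw [LinearEquiv.symm_apply_apply]
    exact hw
  ext v
  obtain ⟨a, b, rfl⟩ := exists_add_compl (hWy.isCompl hB.eps) v
  rw [map_add, map_add]
  congr 1
  · change g (x (g.symm a)) = y a
    rw [neg_on_comS hxx (hin a a.2), map_neg, LinearEquiv.apply_symm_apply, neg_on_comS hyy a.2]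
  · change g (x (g.symm b)) = y b
    rw [fix_on_orth hB hx hWx (horth b b.2), LinearEquiv.apply_symm_apply,
      fix_on_orth hB hy hWy b.2]

/-- isometries of square `-1` are conjugate. -/
theorem exists_conj_neg [Finite F] (h2 : (2 : F) ≠ 0) (hB : IsSp B) {x y : V ≃ₗ[F] V}
    (hx : x ∈ IsoB B) (hy : y ∈ IsoB B) (hxx : ∀ v, x (x v) = - v) (hyy : ∀ v, y (y v) = - v) :
    ∃ g ∈ IsoB B, g * x * g⁻¹ = y := by
  have key : ∀ z ∈ IsoB B, (∀ v, z (z v) = - v) → JS B (z : V →ₗ[F] V) (-1) := by
    intro z hz hzz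
    refine ⟨hB, fun v => ?_, fun u v => ?_⟩
    · rw [neg_one_smul]; exact hzz v
    · change B (z u) v = - B u (z v)
      have := hz u (z v)
      rw [hzz, map_neg] at this
      rw [← this, neg_neg]
  obtain ⟨g, hg, hgx⟩ := (key x hx hxx).exists_equiv (key y hy hyy) h2 (neg_ne_zero.2 one_ne_zero)
    rfl
  refine ⟨g, hg, ?_⟩
  ext v
  change g (x (g.symm v)) = y v
  have := hgx (g.symm v)
  change g (x (g.symm v)) = y (g (g.symm v)) at this
  rw [this, LinearEquiv.apply_symm_apply]

/-- a nonscalar involution in dimension four. -/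
theorem finrank_comS_four (h2 : (2 : F) ≠ 0) (hB : IsSp B) (hd : finrank F V = 4)
    {x : V ≃ₗ[F] V} (hx : x ∈ IsoB B) (hxx : ∀ v, x (x v) = v)
    (h1 : ∃ v, x v ≠ v) (h3 : ∃ v, x v ≠ - v) : finrank F (comS x) = 2 := by
  have hx2 : x ^ 2 = 1 := by
    ext v
    rw [pow_two, LinearEquiv.mul_apply, hxx]
    rfl
  have hW := ndOn_comS hB.nd hx (n := 2) (by exact_mod_cast h2) hx2
  obtain ⟨a, ha⟩ := hB.even_of_ndOn hW
  have hle := Submodule.finrank_le (comS x)
  have hne0 : finrank F (comS x) ≠ 0 := by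
    intro h
    rw [Submodule.finrank_eq_zero] at h
    obtain ⟨v, hv⟩ := h1
    apply hv
    have h4 := sub_mem_comS x v
    rw [h, Submodule.mem_bot, sub_eq_zero] at h4
    exact h4
  have hne4 : finrank F (comS x) ≠ 4 := by
    intro h
    have h4 : comS x = ⊤ := Submodule.eq_top_of_finrank_eq (by rw [h, hd])
    obtain ⟨v, hv⟩ := h3
    exact hv (neg_on_comS hxx (by rw [h4]; trivial))
  omega

end Conj

section Four

variable {F : Type u} [Field F] {V : Type v} [AddCommGroup V] [Module F V]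
  [FiniteDimensional F V] {B : LinearMap.BilinForm F V} {M : V →ₗ[F] V} {μ : F}

omit [FiniteDimensional F V] in
/-- an adapted basis `w, M w, w', M w'` -/
theorem exists_basis_four (h2 : (2 : F) ≠ 0) (hB : IsSp B) (hd : finrank F V = 4)
    (hM : ∀ v, M (M v) = μ • v) (hns : ¬ IsSquare μ) (hsa : ∀ u v, B (M u) v = B u (M v)) :
    ∃ (w w' : V) (b : Basis (Fin 4) F V), (⇑b = ![w, M w, w', M w']) ∧ B w (M w) = 0 ∧
      B w' (M w') = 0 ∧ B w w' = 1 ∧ B (M w) w' = 0 := by
  have hμ : μ ≠ 0 := by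
    rintro rfl
    exact hns ⟨0, by simp⟩
  have halt : ∀ v, B v (M v) = 0 := by
    intro v
    have h3 : B v (M v) = - B v (M v) := by
      nth_rewrite 1 [← hsa]
      exact hB.swap _ _
    have h4 : (2 : F) * B v (M v) = 0 := by linear_combination h3
    exact (mul_eq_zero.1 h4).resolve_left h2
  have hVne : Nontrivial V := Module.nontrivial_of_finrank_pos (R := F) (by omega)
  obtain ⟨w, hw⟩ := exists_ne (0 : V)
  -- the functionals `B w`, `B (M w)` are independent
  obtain ⟨w', hw1, hw2⟩ : ∃ w', B w w' = 1 ∧ B (M w) w' = 0 := by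
    have h3 : ∃ y, B (M w) y = 0 ∧ B w y ≠ 0 := by
      by_contra hcon
      push Not at hcon
      -- then `B w = c B (M w)`
      obtain ⟨z, hz⟩ : ∃ z, B (M w) z ≠ 0 := by
        by_contra h4
        push Not at h4
        have h5 := hB.nd (M w) h4
        have h6 := hM w
        rw [h5, map_zero] at h6
        exact hw ((smul_eq_zero.1 h6.symm).resolve_left hμ)
      have h7 : ∀ y, B (w - (B w z / B (M w) z) • M w) y = 0 := by
        intro y
        have h8 := hcon (y - (B (M w) y / B (M w) z) • z) (by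
          rw [map_sub, map_smul, smul_eq_mul]
          field_simp
          ring)
        rw [map_sub, map_smul, smul_eq_mul, sub_eq_zero] at h8
        rw [map_sub, map_smul, LinearMap.sub_apply, LinearMap.smul_apply, smul_eq_mul, h8]
        field_simp
        ring
      have h9 := sub_eq_zero.1 (hB.nd _ h7)
      set c := B w z / B (M w) z with hc
      apply hns
      refine ⟨c⁻¹, ?_⟩
      have hc0 : c ≠ 0 := by
        intro h0
        rw [h0, zero_smul] at h9
        exact hw h9
      have h10 : M w = c • (M (M w)) := by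
        nth_rewrite 1 [h9]
        rw [map_smul]
      rw [hM, smul_smul] at h10
      have h11 : (1 - c * (c * μ)) • w = 0 := by
        rw [sub_smul, one_smul, mul_smul, ← h10, ← h9, sub_self]
      have h12 := (smul_eq_zero.1 h11).resolve_right hw
      field_simp
      linear_combination -h12
    obtain ⟨y, hy1, hy2⟩ := h3
    refine ⟨(B w y)⁻¹ • y, ?_, ?_⟩
    · rw [map_smul, smul_eq_mul, inv_mul_cancel₀ hy2]
    · rw [map_smul, hy1, smul_zero]
  have hw3 : B w (M w') = 0 := by rw [← hsa, hw2]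
  have hw4 : B (M w) (M w') = μ := by rw [hsa, hM, map_smul, hw1, smul_eq_mul, mul_one]
  have e1 : B (M w) w = 0 := hB.eps.zero (halt w)
  have e2 : B (M w') w' = 0 := hB.eps.zero (halt w')
  have e3 : B w' w = -1 := by rw [hB.swap, hw1]
  have e4 : B w' (M w) = 0 := hB.eps.zero hw2
  have e5 : B (M w') w = 0 := hB.eps.zero hw3
  have e6 : B (M w') (M w) = - μ := by rw [hB.swap, hw4]
  have hli : LinearIndependent F ![w, M w, w', M w'] := by
    rw [Fintype.linearIndependent_iff]
    intro g hg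
    simp only [Fin.sum_univ_four, Matrix.cons_val_zero, Matrix.cons_val_one, Matrix.cons_val] at hg
    have f0 := congrArg (fun v => B v w') hg
    have f1 := congrArg (fun v => B v (M w')) hg
    have f2 := congrArg (fun v => B v w) hg
    have f3 := congrArg (fun v => B v (M w)) hg
    simp only [map_add, map_smul, LinearMap.add_apply, LinearMap.smul_apply, smul_eq_mul,
      map_zero, LinearMap.zero_apply, hw1, hw2, hw3, hw4, e1, e2, e3, e4, e5, e6, halt, hB.alt,
      mul_zero, add_zero, zero_add, mul_one, mul_neg, neg_eq_zero] at f0 f1 f2 f3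
    intro i
    fin_cases i
    · exact f0
    · exact (mul_eq_zero.1 f1).resolve_right hμ
    · exact f2
    · exact (mul_eq_zero.1 f3).resolve_right hμ
  refine ⟨w, w', basisOfLinearIndependentOfCardEqFinrank hli (by simp [hd]), by simp, halt w,
    halt w', hw1, hw2⟩

/-- an involution anticommuting with `M`, and an element of square `-1` commuting with `M`. -/
theorem exists_elts_four (h2 : (2 : F) ≠ 0) (hB : IsSp B) (hd : finrank F V = 4)
    (hM : ∀ v, M (M v) = μ • v) (hns : ¬ IsSquare μ) (hsa : ∀ u v, B (M u) v = B u (M v)) :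
    (∃ y ∈ IsoB B, (∀ v, y (y v) = v) ∧ (∃ v, y v ≠ v) ∧ (∃ v, y v ≠ - v) ∧
      ∀ v, y (M v) = - M (y v)) ∧
    ∃ z ∈ IsoB B, (∀ v, z (z v) = - v) ∧ ∀ v, z (M v) = M (z v) := by
  have hμ : μ ≠ 0 := by
    rintro rfl
    exact hns ⟨0, by simp⟩
  obtain ⟨w, w', b, hb, h0, h0', h1, h1'⟩ := exists_basis_four h2 hB hd hM hns hsa
  have hw3 : B w (M w') = 0 := by rw [← hsa, h1']
  have hw4 : B (M w) (M w') = μ := by rw [hsa, hM, map_smul, h1, smul_eq_mul, mul_one]
  have e1 : B (M w) w = 0 := hB.eps.zero h0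
  have e2 : B (M w') w' = 0 := hB.eps.zero h0'
  have e3 : B w' w = -1 := by rw [hB.swap, h1]
  have e4 : B w' (M w) = 0 := hB.eps.zero h1'
  have e5 : B (M w') w = 0 := hB.eps.zero hw3
  have e6 : B (M w') (M w) = - μ := by rw [hB.swap, hw4]
  have b0 : b 0 = w := by rw [hb]; rfl
  have b1 : b 1 = M w := by rw [hb]; rfl
  have b2 : b 2 = w' := by rw [hb]; rfl
  have b3 : b 3 = M w' := by rw [hb]; rfl
  have hw0 : w ≠ 0 := by rw [← b0]; exact b.ne_zero 0
  have hMw0 : M w ≠ 0 := by rw [← b1]; exact b.ne_zero 1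
  constructor
  · let Y : V →ₗ[F] V := b.constr F ![w, - M w, w', - M w']
    have Yw : Y w = w := by
      have := b.constr_basis F ![w, - M w, w', - M w'] 0
      rw [b0] at this
      exact this
    have YMw : Y (M w) = - M w := by
      have := b.constr_basis F ![w, - M w, w', - M w'] 1
      rw [b1] at this
      exact this
    have Yw' : Y w' = w' := by
      have := b.constr_basis F ![w, - M w, w', - M w'] 2
      rw [b2] at this
      exact this
    have YMw' : Y (M w') = - M w' := by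
      have := b.constr_basis F ![w, - M w, w', - M w'] 3
      rw [b3] at this
      exact this
    have hYY : Y ∘ₗ Y = LinearMap.id := by
      apply b.ext
      intro i
      fin_cases i
      · change Y (Y (b 0)) = b 0
        rw [b0, Yw, Yw]
      · change Y (Y (b 1)) = b 1
        rw [b1, YMw, map_neg, YMw, neg_neg]
      · change Y (Y (b 2)) = b 2
        rw [b2, Yw', Yw']
      · change Y (Y (b 3)) = b 3
        rw [b3, YMw', map_neg, YMw', neg_neg]
    have hYM : Y ∘ₗ M = - (M ∘ₗ Y) := by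
      apply b.ext
      intro i
      fin_cases i
      · change Y (M (b 0)) = - M (Y (b 0))
        rw [b0, YMw, Yw]
      · change Y (M (b 1)) = - M (Y (b 1))
        rw [b1, YMw, hM, map_smul, Yw, map_neg, hM, neg_neg]
      · change Y (M (b 2)) = - M (Y (b 2))
        rw [b2, YMw', Yw']
      · change Y (M (b 3)) = - M (Y (b 3))
        rw [b3, YMw', hM, map_smul, Yw', map_neg, hM, neg_neg]
    have hYB : LinearMap.compl₁₂ B Y Y = B := by
      apply LinearMap.BilinForm.ext_basis b
      intro i j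
      rw [LinearMap.compl₁₂_apply]
      fin_cases i <;> fin_cases j <;>
      simp only [Fin.zero_eta, Fin.mk_one, Fin.reduceFinMk, b0, b1, b2, b3, Yw, YMw, Yw', YMw', map_neg,
        LinearMap.neg_apply, h0, h0', h1, h1', hw3, hw4, e1, e2, e3, e4, e5, e6, hB.alt, neg_zero,
        neg_neg]
    refine ⟨LinearEquiv.ofLinearMap Y Y hYY hYY, fun u v => LinearMap.congr_fun₂ hYB u v,
      fun v => LinearMap.congr_fun hYY v, ⟨M w, ?_⟩, ⟨w, ?_⟩, fun v => LinearMap.congr_fun hYM v⟩
    · change Y (M w) ≠ M w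
      rw [YMw]
      intro h
      have h5 : (2 : F) • M w = 0 := by
        rw [two_smul]
        nth_rewrite 1 [← h]
        exact neg_add_cancel _
      exact hMw0 ((smul_eq_zero.1 h5).resolve_left h2)
    · change Y w ≠ - w
      rw [Yw]
      intro h
      have h5 : (2 : F) • w = 0 := by
        rw [two_smul]
        nth_rewrite 1 [h]
        exact neg_add_cancel _
      exact hw0 ((smul_eq_zero.1 h5).resolve_left h2)
  · let Z : V →ₗ[F] V := b.constr F ![w', M w', - w, - M w]
    have Zw : Z w = w' := by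
      have := b.constr_basis F ![w', M w', - w, - M w] 0
      rw [b0] at this
      exact this
    have ZMw : Z (M w) = M w' := by
      have := b.constr_basis F ![w', M w', - w, - M w] 1
      rw [b1] at this
      exact this
    have Zw' : Z w' = - w := by
      have := b.constr_basis F ![w', M w', - w, - M w] 2
      rw [b2] at this
      exact this
    have ZMw' : Z (M w') = - M w := by
      have := b.constr_basis F ![w', M w', - w, - M w] 3
      rw [b3] at this
      exact this
    have hZZ : Z ∘ₗ Z = - LinearMap.id := by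
      apply b.ext
      intro i
      fin_cases i
      · change Z (Z (b 0)) = - b 0
        rw [b0, Zw, Zw']
      · change Z (Z (b 1)) = - b 1
        rw [b1, ZMw, ZMw']
      · change Z (Z (b 2)) = - b 2
        rw [b2, Zw', map_neg, Zw]
      · change Z (Z (b 3)) = - b 3
        rw [b3, ZMw', map_neg, ZMw]
    have hZM : Z ∘ₗ M = M ∘ₗ Z := by
      apply b.ext
      intro i
      fin_cases i
      · change Z (M (b 0)) = M (Z (b 0))
        rw [b0, ZMw, Zw]
      · change Z (M (b 1)) = M (Z (b 1))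
        rw [b1, ZMw, hM, map_smul, Zw, hM]
      · change Z (M (b 2)) = M (Z (b 2))
        rw [b2, ZMw', Zw', map_neg]
      · change Z (M (b 3)) = M (Z (b 3))
        rw [b3, ZMw', hM, map_smul, Zw', map_neg, hM, smul_neg]
    have hZB : LinearMap.compl₁₂ B Z Z = B := by
      apply LinearMap.BilinForm.ext_basis b
      intro i j
      rw [LinearMap.compl₁₂_apply]
      fin_cases i <;> fin_cases j <;>
      simp only [Fin.zero_eta, Fin.mk_one, Fin.reduceFinMk, b0, b1, b2, b3, Zw, ZMw, Zw', ZMw', map_neg,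
        LinearMap.neg_apply, h0, h0', h1, h1', hw3, hw4, e1, e2, e3, e4, e5, e6, hB.alt, neg_zero,
        neg_neg]
    refine ⟨LinearEquiv.ofLinearMap Z (-Z) ?_ ?_, fun u v => LinearMap.congr_fun₂ hZB u v,
      fun v => LinearMap.congr_fun hZZ v, fun v => LinearMap.congr_fun hZM v⟩
    · rw [LinearMap.comp_neg, hZZ, neg_neg]
    · rw [LinearMap.neg_comp, hZZ, neg_neg]

end Four

end Cfsg.Agent.H955
end

-- part: S5975
section
-- import your own Cfsg.Agent.* helpers here

set_option autoImplicit false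
open scoped MatrixGroups
open scoped Matrix
open Cfsg

namespace Cfsg.Agent.S5975

open Cfsg.Agent.H955 Cfsg.Agent.LieClassical.OrthFinite ClassicalGeometry.SympBasic Module

/-- scalars in the symplectic group have square one. -/
theorem scalar_sq {F : Type*} [Field F] {d : ℕ} (hd : 0 < d)
    {T : (Fin d ⊕ Fin d → F) ≃ₗ[F] (Fin d ⊕ Fin d → F)}
    (hT : T ∈ IsoB (F := F) (V := Fin d ⊕ Fin d → F) (sympBilin d F)) {z : F}
    (h : ∀ v, T v = z • v) : z * z = 1 := by
  classical
  let i0 : Fin d := ⟨0, hd⟩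
  let v0 : Fin d ⊕ Fin d → F := Pi.single (.inl i0) 1
  let w0 : Fin d ⊕ Fin d → F := Pi.single (.inr i0) 1
  have hv0 : sympForm d F w0 v0 = 1 := by
    rw [sympForm_single_inr_left]
    simp [v0]
  have h3 := hT w0 v0
  rw [h, h] at h3
  change sympForm d F (z • w0) (z • v0) = sympForm d F w0 v0 at h3
  rwa [sympForm_smul_left, sympForm_smul_right, hv0, mul_one] at h3

/-- a scalar has trivial or full commutator space. -/
theorem comS_scalar {F V : Type*} [Field F] [AddCommGroup V] [Module F V] {T : V ≃ₗ[F] V} {z : F}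
    (h : ∀ v, T v = z • v) : comS T = ⊥ ∨ comS T = ⊤ := by
  by_cases hz : z = 1
  · left
    rw [Submodule.eq_bot_iff]
    intro x hx
    obtain ⟨v, rfl⟩ := mem_comS.1 hx
    rw [h, hz, one_smul, sub_self]
  · right
    rw [eq_top_iff]
    intro v _
    refine mem_comS.2 ⟨(z - 1)⁻¹ • v, ?_⟩
    rw [h, smul_smul, ← sub_smul, ← sub_one_mul, mul_inv_cancel₀ (sub_ne_zero.2 hz), one_smul]

/-- existence of a transvection -/
theorem exists_transvection {F : Type*} [Field F] {d : ℕ} (hd : 2 ≤ d) {r : ℕ}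
    (hrF : (r : F) = 0) : ∃ t ∈ Cfsg.spGL d F, t ^ r = 1 ∧
      finrank F (comS (glEquiv (Fin d ⊕ Fin d) F t)) = 1 := by
  classical
  let i0 : Fin d := ⟨0, by omega⟩
  let v0 : Fin d ⊕ Fin d → F := Pi.single (.inl i0) 1
  let w0 : Fin d ⊕ Fin d → F := Pi.single (.inr i0) 1
  have hv0 : sympForm d F w0 v0 = 1 := by
    rw [sympForm_single_inr_left]
    simp [v0]
  have hv00 : v0 ≠ 0 := by
    intro h
    have := congrFun h (.inl i0)
    simp [v0] at this
  let t : Matrix.GeneralLinearGroup (Fin d ⊕ Fin d) F := Matrix.GeneralLinearGroup.mk''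
    (sympTransvection d v0 1) (SymplecticGroup.symplectic_det (sympTransvection_mem v0 1))
  have htv : ∀ v, glEquiv (Fin d ⊕ Fin d) F t v = v + (sympForm d F v v0) • v0 := by
    intro v
    have := sympTransvection_mulVec v0 v (1 : F)
    rw [one_mul] at this
    exact this
  have htpow : ∀ n : ℕ, ((t ^ n : Matrix.GeneralLinearGroup (Fin d ⊕ Fin d) F) :
      Matrix (Fin d ⊕ Fin d) (Fin d ⊕ Fin d) F) = sympTransvection d v0 (n : F) := by
    intro n
    induction n with
    | zero => rw [pow_zero, Nat.cast_zero, sympTransvection_zero]; rfl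
    | succ n ih =>
      rw [pow_succ, Units.val_mul, ih]
      change sympTransvection d v0 (n : F) * sympTransvection d v0 1 = _
      rw [sympTransvection_mul, Nat.cast_succ]
  refine ⟨t, fun u v => sympForm_mulVec (sympTransvection_mem v0 1) u v, ?_, ?_⟩
  · apply Units.ext
    rw [htpow, hrF, sympTransvection_zero]
    rfl
  · have : comS (glEquiv (Fin d ⊕ Fin d) F t) = Submodule.span F {v0} := by
      apply le_antisymm
      · intro x hx
        obtain ⟨v, rfl⟩ := mem_comS.1 hx
        rw [htv, add_sub_cancel_left]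
        exact Submodule.smul_mem _ _ (Submodule.mem_span_singleton_self v0)
      · rw [Submodule.span_singleton_le_iff_mem]
        exact mem_comS.2 ⟨w0, by rw [htv, hv0, one_smul, add_sub_cancel_left]⟩
    rw [this, finrank_span_singleton hv00]

set_option maxHeartbeats 1000000 in
/-- the index -/
theorem index_arith {F : Type*} [Field F] [Fintype F] {q : ℕ} (hq : Fintype.card F = q)
    (d : ℕ) (hd : 2 ≤ d) (k : ℕ) (hk : k.Prime)
    {L : Type*} [Field L] [Algebra F L] (hL : finrank F L = k)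
    (φ : L →ₐ[F] Matrix (Fin d ⊕ Fin d) (Fin d ⊕ Fin d) F)
    (hsa : ∀ (a : L) (u v : Fin d ⊕ Fin d → F),
      sympForm d F ((φ a).mulVec u) v = sympForm d F u ((φ a).mulVec v))
    (halt : ∀ (a : L) (v : Fin d ⊕ Fin d → F), sympForm d F ((φ a).mulVec v) v = 0) :
    k ∣ d ∧ ∀ {r : ℕ} [Fact r.Prime], ¬ r ∣ q →
      r ∣ (Cfsg.Geo.subalgebraNormalizer φ.range).relIndex (Cfsg.spGL d F) →
      ∃ j, 1 ≤ j ∧ j ≤ d ∧ ¬ k ∣ j ∧ r ∣ q ^ (2 * j) - 1 := by
  classical
  have hne : Nonempty (Fin d ⊕ Fin d) := ⟨.inl ⟨0, by omega⟩⟩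
  have hNat : Nat.card F = q := by rw [Nat.card_eq_fintype_card, hq]
  have hq1 : 1 < q := by rw [← hq]; exact Fintype.one_lt_card
  have hfL : FiniteDimensional F L := Module.finite_of_finrank_pos (by rw [hL]; exact hk.pos)
  let φ' : L →ₐ[F] Module.End F (Fin d ⊕ Fin d → F) :=
    (Matrix.toLinAlgEquiv' : Matrix (Fin d ⊕ Fin d) (Fin d ⊕ Fin d) F ≃ₐ[F] _).toAlgHom.comp φ
  let _ : Module L (Fin d ⊕ Fin d → F) :=
    Module.compHom (Fin d ⊕ Fin d → F) (φ' : L →+* Module.End F (Fin d ⊕ Fin d → F))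
  have hsm : ∀ (a : L) (v : Fin d ⊕ Fin d → F), a • v = (φ a).mulVec v := fun a v => rfl
  have : IsScalarTower F L (Fin d ⊕ Fin d → F) := ⟨fun c a v => by
    rw [hsm, hsm, map_smul, Matrix.smul_mulVec]⟩
  have : FiniteDimensional L (Fin d ⊕ Fin d → F) := finiteDimensional_L (F := F)
  obtain ⟨t, ht1⟩ := exists_functional F L
  have ht : t ≠ 0 := by
    rintro rfl
    simp at ht1
  obtain ⟨g, hg⟩ := exists_gform (F := F) (V := Fin d ⊕ Fin d → F) (sympBilin d F)
    (fun (a : L) u v => hsa a u v) ht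
  have hgsp := gform_isSp ht hg (isSp_sympBilin d F) (fun a v => halt a v)
  obtain ⟨e, he⟩ := hgsp.even
  have hdk : d = k * e := by
    have h3 := Module.finrank_mul_finrank F L (Fin d ⊕ Fin d → F)
    rw [hL, finrank_symp, he] at h3
    have h4 : 2 * d = 2 * (k * e) := by rw [← h3]; ring
    omega
  refine ⟨⟨e, hdk⟩, fun {r} _ hrq hΩ => ?_⟩
  obtain ⟨f, hfi, hf⟩ := exists_IsoB_hom (F := F) (V := Fin d ⊕ Fin d → F) hg
  let f' : IsoB g →*
      ((Cfsg.Geo.subalgebraNormalizer φ.range).subgroupOf (Cfsg.spGL d F)) :=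
    { toFun := fun A => ⟨⟨(glEquiv (Fin d ⊕ Fin d) F).symm (f A), by
        rw [mem_spGL_iff, MulEquiv.apply_symm_apply]
        exact (hf A).1⟩, by
        rw [Subgroup.mem_subgroupOf]
        apply mem_normalizer_of_comm
        intro a
        apply Matrix.mulVec_injective
        funext v
        have h5 := (hf A).2 a v
        rw [hsm, hsm] at h5
        rw [← Matrix.mulVec_mulVec, ← Matrix.mulVec_mulVec, ← glEquiv_apply, ← glEquiv_apply,
          MulEquiv.apply_symm_apply]
        exact h5⟩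
      map_one' := by
        apply Subtype.ext
        apply Subtype.ext
        change (glEquiv (Fin d ⊕ Fin d) F).symm (f 1) = 1
        rw [map_one, map_one]
      map_mul' := fun A A' => by
        apply Subtype.ext
        apply Subtype.ext
        change (glEquiv (Fin d ⊕ Fin d) F).symm (f (A * A')) = _
        rw [map_mul, map_mul]
        rfl }
  have hf'i : Function.Injective f' := by
    intro A A' hAA
    apply hfi
    apply (glEquiv (Fin d ⊕ Fin d) F).symm.injective
    exact congrArg (fun x => (x.1.1 : Matrix.GeneralLinearGroup (Fin d ⊕ Fin d) F)) hAA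
  have h3 := Subgroup.card_dvd_of_injective f' hf'i
  have h4 := Subgroup.card_mul_index
    ((Cfsg.Geo.subalgebraNormalizer φ.range).subgroupOf (Cfsg.spGL d F))
  have h5 : (Cfsg.Geo.subalgebraNormalizer φ.range).relIndex (Cfsg.spGL d F) *
      Nat.card (IsoB g) ∣ Nat.card (Cfsg.spGL d F) := by
    rw [← h4, mul_comm]
    exact Nat.mul_dvd_mul_right h3 _
  have hLf : Finite L := Module.finite_of_finite F
  have hLc : Nat.card L = q ^ k := by
    rw [Module.natCard_eq_pow_finrank (K := F) (V := L), hL, hNat]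
  obtain ⟨a, ha⟩ : ∃ a, a = (Cfsg.Geo.subalgebraNormalizer φ.range).relIndex (Cfsg.spGL d F) :=
    ⟨_, rfl⟩
  rw [← ha] at hΩ h5
  rw [card_IsoB hgsp (m := e) (by omega), card_spGL, hNat, hLc, hdk] at h5
  obtain ⟨j, hj1, hj2, hj3, hj4⟩ := exists_of_dvd_sp hq1 hk.pos hrq hΩ h5
  exact ⟨j, hj1, by rw [hdk]; exact hj2, hj3, hj4⟩

/-- the elements of the normalizer: linear, or with large commutator space. -/
theorem dichotomy {F : Type*} [Field F] [Finite F] {d : ℕ} (hd : 2 ≤ d) {k : ℕ} (hk : k.Prime)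
    {L : Type*} [Field L] [Algebra F L] (hL : finrank F L = k)
    (φ : L →ₐ[F] Matrix (Fin d ⊕ Fin d) (Fin d ⊕ Fin d) F)
    (hsa : ∀ (a : L) (u v : Fin d ⊕ Fin d → F),
      sympForm d F ((φ a).mulVec u) v = sympForm d F u ((φ a).mulVec v))
    (halt : ∀ (a : L) (v : Fin d ⊕ Fin d → F), sympForm d F ((φ a).mulVec v) v = 0)
    {x : Matrix.GeneralLinearGroup (Fin d ⊕ Fin d) F} (hx : x ∈ Cfsg.spGL d F)
    (hxN : x ∈ Cfsg.Geo.subalgebraNormalizer φ.range) {r : ℕ} (hr : r.Prime) (hxr : x ^ r = 1) :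
    (k ∣ finrank F (comS (glEquiv (Fin d ⊕ Fin d) F x)) ∧
      ((r : F) ≠ 0 → 2 * k ∣ finrank F (comS (glEquiv (Fin d ⊕ Fin d) F x)))) ∨
    (r = k ∧ d ≤ finrank F (comS (glEquiv (Fin d ⊕ Fin d) F x))) := by
  classical
  have hne : Nonempty (Fin d ⊕ Fin d) := ⟨.inl ⟨0, by omega⟩⟩
  have hfL : FiniteDimensional F L := Module.finite_of_finrank_pos (by rw [hL]; exact hk.pos)
  obtain ⟨σ, hσ⟩ := exists_sigma hxN
  let φ' : L →ₐ[F] Module.End F (Fin d ⊕ Fin d → F) :=
    (Matrix.toLinAlgEquiv' : Matrix (Fin d ⊕ Fin d) (Fin d ⊕ Fin d) F ≃ₐ[F] _).toAlgHom.comp φ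
  let _ : Module L (Fin d ⊕ Fin d → F) :=
    Module.compHom (Fin d ⊕ Fin d → F) (φ' : L →+* Module.End F (Fin d ⊕ Fin d → F))
  have hsm : ∀ (a : L) (v : Fin d ⊕ Fin d → F), a • v = (φ a).mulVec v := fun a v => rfl
  have : IsScalarTower F L (Fin d ⊕ Fin d → F) := ⟨fun c a v => by
    rw [hsm, hsm, map_smul, Matrix.smul_mulVec]⟩
  set T := glEquiv (Fin d ⊕ Fin d) F x with hT
  have hTs : ∀ (a : L) (v : Fin d ⊕ Fin d → F), T (a • v) = σ a • T v := by
    intro a v
    rw [hsm, hsm, hT, glEquiv_apply, glEquiv_apply, Matrix.mulVec_mulVec, Matrix.mulVec_mulVec, hσ]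
  have hTr : T ^ r = 1 := by rw [hT, ← map_pow, hxr, map_one]
  by_cases hs : ∀ a, σ a = a
  · left
    have hTl : ∀ (a : L) (v : Fin d ⊕ Fin d → F), T (a • v) = a • T v := fun a v => by
      rw [hTs, hs]
    have hst := comS_stable (L := L) hTl
    constructor
    · rw [← finrank_toL (L := L) (comS T) hst, hL]
      exact Dvd.intro _ rfl
    · intro hrF
      rw [← hL]
      exact two_mul_dvd_finrank (L := L) (isSp_sympBilin d F) (fun a u v => hsa a u v)
        (fun a v => halt a v) hst (ndOn_comS (isSp_sympBilin d F).nd hx hrF hTr)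
  · right
    push Not at hs
    obtain ⟨a, ha⟩ := hs
    refine ⟨eq_of_sigma hk hL hr (sigma_pow_eq_one hTs hTr) ha, ?_⟩
    have h1 := two_mul_finrank_fixS_le hTs ha
    have h2 := finrank_fixS_add_comS T
    rw [finrank_symp] at h1 h2
    omega

set_option maxHeartbeats 1000000 in
/-- Elements of prime order of PSp_n(q) and the field-extension subgroups of type Sp_{n/k}(q^k). Here `T = PSp_{2d}(F)` for a field `F` with `q` elements (`d ≥ 2`, `(d, q) ≠ (2, 2)`), realised through the matrices preserving the standard alternating form `f`; `k` is a prime and `K` is a subalgebra of the `2d × 2d` matrices that is a field of degree `k` over `F` whose elements are self-adjoint for `f` and satisfy `f(a v, v) = 0` (so `F^{2d}` becomes a vector space over `K ≅ F_{q^k}` on which `f` is the trace of a `K`-bilinear alternating form); `H` is the subgroup of `T` normalizing `K` — the symplectic maps that are `K`-linear or `K`-semilinear, a subgroup of type Sp_{2d/k}(q^k) (maximality is not assumed).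 Ω is the set of cosets of `H` in `T`, so an element of `T` of prime order `r` (`x ∈ T` with `x^r` scalar, `x` not scalar) fixes a point of Ω exactly when some `T`-conjugate of `x` normalizes `K`. Let `r` be a prime dividing the index of `H`. Then every element of `T` of order `r` fixes a point of Ω if and only if `r = 2`, `d = 2`, `k = 2` and `q` is odd. -/
theorem result {F : Type*} [Field F] [Fintype F] {p : ℕ} [Fact p.Prime] [CharP F p] {q : ℕ} (hq : Fintype.card F = q)
    (d : ℕ) (hd : 2 ≤ d) (hT : (d, q) ≠ (2, 2)) (k : ℕ) (hk : k.Prime)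
    (K : Subalgebra F (Matrix (Fin d ⊕ Fin d) (Fin d ⊕ Fin d) F)) (hK : Cfsg.Geo.IsFieldSubalgebra k K)
    (hKf : Cfsg.Geo.IsSelfAdjointFor (Cfsg.sympForm d F) K) (hKalt : ∀ a ∈ K, ∀ v : Fin d ⊕ Fin d → F, Cfsg.sympForm d F (a *ᵥ v) v = 0)
    (r : ℕ) [Fact r.Prime]
    (hΩ : r ∣ (Cfsg.Geo.subalgebraNormalizer K).relIndex (Cfsg.spGL d F)) :
    (∀ x ∈ Cfsg.spGL d F, (∃ z : F, ((x ^ r : GL (Fin d ⊕ Fin d) F) : Matrix (Fin d ⊕ Fin d) (Fin d ⊕ Fin d) F) = z • (1 : Matrix (Fin d ⊕ Fin d) (Fin d ⊕ Fin d) F)) →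
      (∀ z : F, (x : Matrix (Fin d ⊕ Fin d) (Fin d ⊕ Fin d) F) ≠ z • (1 : Matrix (Fin d ⊕ Fin d) (Fin d ⊕ Fin d) F)) →
      ∃ g ∈ Cfsg.spGL d F, g⁻¹ * x * g ∈ Cfsg.Geo.subalgebraNormalizer K) ↔
    (r = 2 ∧ d = 2 ∧ k = 2 ∧ Odd q) := by
  classical
  have hr := (Fact.out : r.Prime)
  have hne : Nonempty (Fin d ⊕ Fin d) := ⟨.inl ⟨0, by omega⟩⟩
  have hNat : Nat.card F = q := by rw [Nat.card_eq_fintype_card, hq]
  have hq1 : 1 < q := by rw [← hq]; exact Fintype.one_lt_card
  constructor
  · intro hall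
    obtain ⟨L, _, _, φ, hφ, hφd⟩ := H954.FieldSub.exists_field hK
    have hsa : ∀ (a : L) (u v : Fin d ⊕ Fin d → F),
        sympForm d F ((φ a).mulVec u) v = sympForm d F u ((φ a).mulVec v) := fun a u v =>
      hKf (φ a) (by rw [← hφ]; exact ⟨a, rfl⟩) u v
    have halt : ∀ (a : L) (v : Fin d ⊕ Fin d → F), sympForm d F ((φ a).mulVec v) v = 0 :=
      fun a v => hKalt (φ a) (by rw [← hφ]; exact ⟨a, rfl⟩) v
    rw [← hφ] at hall hΩ
    obtain ⟨hkd, hidx⟩ := index_arith hq d hd k hk hφd φ hsa halt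
    have hkle : k ≤ d := Nat.le_of_dvd (by omega) hkd
    have hk2 := hk.two_le
    -- the conjugate of `t` in the normalizer
    have key : ∀ t ∈ Cfsg.spGL d F, t ^ r = 1 →
        finrank F (comS (glEquiv (Fin d ⊕ Fin d) F t)) ≠ 0 →
        (Odd r ∨ finrank F (comS (glEquiv (Fin d ⊕ Fin d) F t)) ≠ 2 * d) →
        (k ∣ finrank F (comS (glEquiv (Fin d ⊕ Fin d) F t)) ∧
          ((r : F) ≠ 0 → 2 * k ∣ finrank F (comS (glEquiv (Fin d ⊕ Fin d) F t)))) ∨
        (r = k ∧ d ≤ finrank F (comS (glEquiv (Fin d ⊕ Fin d) F t))) := by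
      intro t ht htr h0 h1
      obtain ⟨g, hg, hgN⟩ := hall t ht ⟨1, by rw [htr, one_smul]; rfl⟩ (by
        intro z hz
        have h3 : ∀ v, glEquiv (Fin d ⊕ Fin d) F t v = z • v := fun v => by
          rw [glEquiv_apply, hz, Matrix.smul_mulVec, Matrix.one_mulVec]
        rcases h1 with h1 | h1
        · apply h0
          rw [comS_eq_bot_of_scalar h3 (scalar_sq (by omega) (mem_spGL_iff.1 ht) h3) h1
            (by rw [← map_pow, htr, map_one]), finrank_bot]
        · rcases comS_scalar h3 with h4 | h4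
          · exact h0 (by rw [h4, finrank_bot])
          · exact h1 (by rw [h4, finrank_top, finrank_symp]))
      have h3 := dichotomy hd hk hφd φ hsa halt (mul_mem (mul_mem (inv_mem hg) ht) hg) hgN hr
        (conj_pow_eq_one htr)
      rw [map_mul, map_mul, map_inv, finrank_comS_conj] at h3
      exact h3
    by_cases hrq : r ∣ q
    · exfalso
      have hrp : r = p := by
        obtain ⟨n, -, hn⟩ := FiniteField.card F p
        rw [← hq, hn] at hrq
        exact (Nat.prime_dvd_prime_iff_eq hr (Fact.out : p.Prime)).1 (hr.dvd_of_dvd_pow hrq)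
      have hrF : (r : F) = 0 := by rw [hrp]; exact CharP.cast_eq_zero F p
      obtain ⟨t, ht, htr, htd⟩ := exists_transvection (F := F) hd hrF
      have h3 := key t ht htr (by omega) (Or.inr (by omega))
      rw [htd] at h3
      rcases h3 with h3 | h3
      · have := Nat.le_of_dvd (by norm_num) h3.1
        omega
      · omega
    · have hrN : ¬ r ∣ Nat.card F := by rw [hNat]; exact hrq
      have hrF : (r : F) ≠ 0 := natCast_ne_zero_of_not_dvd hrN
      have hcpos := cc_pos (q := q) hrq
      -- the minimal element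
      have hmin : cc q r ≤ 2 * d → ((Odd r ∨ cc q r ≠ 2 * d) →
          (2 * k ∣ cc q r ∨ (r = k ∧ d ≤ cc q r))) := by
        intro hc h1
        obtain ⟨T, hT, hTr, hTd⟩ := exists_min_sp (r := r) hrN (isSp_sympBilin d F)
          (by rw [finrank_symp, hNat]; exact hc)
        rw [hNat] at hTd
        have hTt : glEquiv (Fin d ⊕ Fin d) F ((glEquiv (Fin d ⊕ Fin d) F).symm T) = T :=
          MulEquiv.apply_symm_apply _ _
        have h3 := key ((glEquiv (Fin d ⊕ Fin d) F).symm T) (by rw [mem_spGL_iff, hTt]; exact hT)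
          (by rw [← map_pow, hTr, map_one]) (by rw [hTt]; omega) (by rw [hTt, hTd]; exact h1)
        rw [hTt, hTd] at h3
        rcases h3 with h3 | h3
        · exact Or.inl (h3.2 hrF)
        · exact Or.inr h3
      by_cases hr2 : r = 2
      · subst hr2
        have hqo : Odd q := by
          rw [← Nat.not_even_iff_odd, even_iff_two_dvd]
          exact hrq
        have hcc : cc q 2 = 2 := by
          have h3 : (q : ZMod 2) = 1 := by
            obtain ⟨m, rfl⟩ := hqo
            push_cast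
            have : (2 : ZMod 2) = 0 := rfl
            rw [this, zero_mul, zero_add]
          rw [cc, h3, orderOf_one]
          simp
        rcases hmin (by omega) (Or.inr (by omega)) with h3 | h3
        · rw [hcc] at h3
          have := Nat.le_of_dvd (by norm_num) h3
          omega
        · rw [hcc] at h3
          exact ⟨rfl, by omega, h3.1.symm, hqo⟩
      · exfalso
        have hr3 : 2 < r := lt_of_le_of_ne hr.two_le (Ne.symm hr2)
        have hro : Odd r := hr.odd_of_ne_two hr2
        obtain ⟨j, hj1, hj2, hj3, hj4⟩ := hidx hrq hΩ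
        have hcj : cc q r ∣ 2 * j := by
          rw [cc_dvd_iff (even_two_mul j), ← dvd_pow_sub_one_iff (by omega)]
          exact hj4
        have hcle := Nat.le_of_dvd (by omega) hcj
        rcases hmin (by omega) (Or.inl hro) with h3 | h3
        · exact hj3 (Nat.dvd_of_mul_dvd_mul_left (by norm_num) (h3.trans hcj))
        · have h4 := Nat.le_of_dvd (by omega) (cc_dvd_sub_one (q := q) hr3 hrq)
          omega
  · rintro ⟨rfl, rfl, rfl, hodd⟩ x hx ⟨z, hz⟩ hxs
    have h2 : (2 : F) ≠ 0 := by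
      have := natCast_ne_zero_of_not_dvd (F := F) (r := 2) (by
        rw [hNat, ← even_iff_two_dvd, Nat.not_even_iff_odd]
        exact hodd)
      exact_mod_cast this
    obtain ⟨M, hM, μ, hMM, hns, hspan⟩ := exists_gen h2 hK
    have hnorm := fun g => mem_normalizer_iff (g := g) hK hM hMM hspan
    have hM2 : ∀ v, Matrix.toLin' M (Matrix.toLin' M v) = μ • v := fun v => by
      rw [Matrix.toLin'_apply, Matrix.toLin'_apply, Matrix.mulVec_mulVec, hMM, Matrix.smul_mulVec,
        Matrix.one_mulVec]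
    rw [mem_spGL_iff] at hx
    set X := glEquiv (Fin 2 ⊕ Fin 2) F x with hX
    have hXX : ∀ v, X (X v) = z • v := by
      intro v
      have h3 : X (X v) = ((x ^ 2 : Matrix.GeneralLinearGroup (Fin 2 ⊕ Fin 2) F) :
          Matrix (Fin 2 ⊕ Fin 2) (Fin 2 ⊕ Fin 2) F).mulVec v := by
        rw [hX, glEquiv_apply, glEquiv_apply, Matrix.mulVec_mulVec, pow_two, Units.val_mul]
      rw [h3, hz, Matrix.smul_mulVec, Matrix.one_mulVec]
    have hz2 : z = 1 ∨ z = -1 :=
      mul_self_eq_one_iff.1 (scalar_sq (by omega) (mul_mem hx hx) hXX)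
    have hnonsc : ∀ c : F, ∃ v, X v ≠ c • v := by
      intro c
      by_contra hcon
      push Not at hcon
      apply hxs c
      apply Matrix.mulVec_injective
      funext v
      rw [← glEquiv_apply, Matrix.smul_mulVec, Matrix.one_mulVec]
      exact hcon v
    obtain ⟨⟨y, hy, hyy, hy1, hy2, hyM⟩, ⟨w, hw, hww, hwM⟩⟩ := exists_elts_four h2
      (isSp_sympBilin 2 F) (finrank_symp 2 F) hM2 hns (fun u v => hKf M hM u v)
    have hfin : ∀ g ∈ IsoB (F := F) (V := Fin 2 ⊕ Fin 2 → F) (sympBilin 2 F),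
        ((∀ v, (g * X * g⁻¹) (Matrix.toLin' M v) = Matrix.toLin' M ((g * X * g⁻¹) v)) ∨
        (∀ v, (g * X * g⁻¹) (Matrix.toLin' M v) = - Matrix.toLin' M ((g * X * g⁻¹) v))) →
        ∃ g ∈ Cfsg.spGL 2 F, g⁻¹ * x * g ∈ Cfsg.Geo.subalgebraNormalizer K := by
      intro g hg h3
      refine ⟨((glEquiv (Fin 2 ⊕ Fin 2) F).symm g)⁻¹, ?_, ?_⟩
      · rw [mem_spGL_iff, map_inv, MulEquiv.apply_symm_apply]
        exact inv_mem hg
      · rw [hnorm, inv_inv, map_mul, map_mul, map_inv, MulEquiv.apply_symm_apply, ← hX]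
        exact h3
    rcases hz2 with rfl | rfl
    · have hXX' : ∀ v, X (X v) = v := fun v => by rw [hXX, one_smul]
      obtain ⟨g, hg, hgx⟩ := exists_conj_invol h2 (isSp_sympBilin 2 F) hx hy hXX' hyy (by
        rw [finrank_comS_four h2 (isSp_sympBilin 2 F) (finrank_symp 2 F) hx hXX' (by
            obtain ⟨v, hv⟩ := hnonsc 1
            exact ⟨v, by rwa [one_smul] at hv⟩) (by
            obtain ⟨v, hv⟩ := hnonsc (-1)
            exact ⟨v, by rwa [neg_one_smul] at hv⟩),
          finrank_comS_four h2 (isSp_sympBilin 2 F) (finrank_symp 2 F) hy hyy hy1 hy2])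
      exact hfin g hg (Or.inr (by rw [hgx]; exact hyM))
    · obtain ⟨g, hg, hgx⟩ := exists_conj_neg h2 (isSp_sympBilin 2 F) hx hw
        (fun v => by rw [hXX, neg_one_smul]) hww
      exact hfin g hg (Or.inl (by rw [hgx]; exact hwM))

end Cfsg.Agent.S5975
end
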