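import Mathlib
import Cfsg.Prelude.Def_GeometricClasses
import Cfsg.Agent.H956.PrimeElt
import Cfsg.Statements.S5979
import Cfsg.Agent.H956.ConjIrr
import Cfsg.Agent.H956.DiagElt
import Cfsg.Agent.H956.FieldArith
set_option linter.all false

-- part: H956/TensorElt
section
/-!
# Elements of prime order in stabilisers of tensor decompositions

Eigenvalues of elements of `tensorProductSubgroup n₁ n₂ e P`.
-/

set_option autoImplicit false

namespace Cfsg.Agent.H956.TensorElt

open Matrix Polynomial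
open scoped Kronecker MatrixGroups
open Cfsg.Agent.H956.EigMult Cfsg.Agent.H956.PrimeElt

section count

variable {E : Type*} [Field E] {n₁ n₂ : ℕ}

/-- the product multiset -/
noncomputable def prodMs (α : Fin n₁ → E) (β : Fin n₂ → E) : Multiset E :=
  (Finset.univ : Finset (Fin n₁ × Fin n₂)).val.map (fun p => α p.1 * β p.2)

theorem count_prodMs [DecidableEq E] (α : Fin n₁ → E) (β : Fin n₂ → E) (z : E) :
    (prodMs α β).count z = ∑ l, (Finset.univ.filter (fun k => α k * β l = z)).card := by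
  unfold prodMs
  rw [Multiset.count_map]
  have h1 : Multiset.card (Multiset.filter (fun a : Fin n₁ × Fin n₂ => z = α a.1 * β a.2)
      (Finset.univ : Finset (Fin n₁ × Fin n₂)).val) =
      ((Finset.univ : Finset (Fin n₁ × Fin n₂)).filter (fun a => z = α a.1 * β a.2)).card := rfl
  rw [h1, Finset.card_eq_sum_card_fiberwise (f := Prod.snd) (t := Finset.univ) (fun _ _ => Finset.mem_univ _)]
  refine Finset.sum_congr rfl fun l _ => ?_
  refine Finset.card_bij' (fun a _ => a.1) (fun k _ => (k, l)) ?_ ?_ ?_ ?_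
  · intro a ha
    simp only [Finset.mem_filter, Finset.mem_univ, true_and] at ha ⊢
    rw [← ha.2, ← ha.1]
  · intro k hk
    simp only [Finset.mem_filter, Finset.mem_univ, true_and] at hk ⊢
    exact ⟨hk.symm, trivial⟩
  · intro a ha
    simp only [Finset.mem_filter, Finset.mem_univ, true_and] at ha
    ext <;> simp [ha.2]
  · intro k hk
    rfl

/-- if `α` is constant, multiplicities are divisible by `n₁`. -/
theorem dvd_count_of_const [DecidableEq E] (α : Fin n₁ → E) (β : Fin n₂ → E) (a : E) (h : ∀ k, α k = a) (z : E) :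
    n₁ ∣ (prodMs α β).count z := by
  rw [count_prodMs]
  refine Finset.dvd_sum fun l _ => ?_
  by_cases hz : a * β l = z
  · have : (Finset.univ.filter (fun k => α k * β l = z)) = Finset.univ := by
      ext k; simp [h k, hz]
    rw [this]
    simp
  · have : (Finset.univ.filter (fun k => α k * β l = z)) = ∅ := by
      ext k; simp [h k, hz]
    rw [this]
    simp

/-- if `α` takes all the values in `S` then for every `w` at least `n₂ (|S| - 1)` products are not `w`. -/
theorem count_add_le [DecidableEq E] (α : Fin n₁ → E) (β : Fin n₂ → E) (hβ : ∀ l, β l ≠ 0) (S : Finset E)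
    (hS : ∀ z ∈ S, ∃ k, α k = z) (w : E) :
    (prodMs α β).count w + n₂ * (S.card - 1) ≤ n₁ * n₂ := by
  rw [count_prodMs]
  have key : ∀ l : Fin n₂, (Finset.univ.filter (fun k => α k * β l = w)).card + (S.card - 1) ≤ n₁ := by
    intro l
    have h1 : (Finset.univ.filter (fun k => α k * β l = w)).card +
        (Finset.univ.filter (fun k => ¬ α k * β l = w)).card = n₁ := by
      rw [Finset.card_filter_add_card_filter_not]
      simp
    have h2 : S.erase (w / β l) ⊆ (Finset.univ.filter (fun k => ¬ α k * β l = w)).image α := by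
      intro z hz
      obtain ⟨hz1, hz2⟩ := Finset.mem_erase.1 hz
      obtain ⟨k, hk⟩ := hS z hz2
      refine Finset.mem_image.2 ⟨k, ?_, hk⟩
      simp only [Finset.mem_filter, Finset.mem_univ, true_and]
      intro h3
      apply hz1
      rw [← hk, eq_div_iff (hβ l)]
      exact h3
    have h3 := (Finset.card_le_card h2).trans Finset.card_image_le
    have h4 := Finset.pred_card_le_card_erase (s := S) (a := w / β l)
    omega
  have h5 := Finset.sum_le_sum (s := Finset.univ) (fun l _ => key l)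
  rw [Finset.sum_add_distrib] at h5
  simp only [Finset.sum_const, Finset.card_univ, Fintype.card_fin, smul_eq_mul] at h5
  calc _ ≤ n₂ * n₁ := h5
    _ = n₁ * n₂ := mul_comm _ _

end count

section tens

variable {ι : Type} [Fintype ι] [DecidableEq ι] {F : Type*} [Field F]

/-- membership in the stabiliser of a tensor decomposition -/
theorem mem_tensor_iff {n₁ n₂ : ℕ} (e : ι ≃ Fin n₁ × Fin n₂) (P : GL ι F) (y : GL ι F) :
    y ∈ Cfsg.Geo.tensorProductSubgroup n₁ n₂ e P ↔
      ∃ (a : GL (Fin n₁) F) (b : GL (Fin n₂) F), (y : Matrix ι ι F) = (P : Matrix ι ι F) *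
        Matrix.reindex e.symm e.symm ((a : Matrix (Fin n₁) (Fin n₁) F) ⊗ₖ (b : Matrix (Fin n₂) (Fin n₂) F)) *
        ((P⁻¹ : GL ι F) : Matrix ι ι F) := by
  unfold Cfsg.Geo.tensorProductSubgroup
  constructor
  · rintro ⟨z, ⟨w, ⟨a, b, hw⟩, rfl⟩, rfl⟩
    refine ⟨a, b, ?_⟩
    rw [← hw]
    rfl
  · rintro ⟨a, b, h⟩
    let w : GL (Fin n₁ × Fin n₂) F := ⟨(a : Matrix (Fin n₁) (Fin n₁) F) ⊗ₖ (b : Matrix (Fin n₂) (Fin n₂) F),
      ((a⁻¹ : GL (Fin n₁) F) : Matrix (Fin n₁) (Fin n₁) F) ⊗ₖ ((b⁻¹ : GL (Fin n₂) F) : Matrix (Fin n₂) (Fin n₂) F),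
      by rw [← Matrix.mul_kronecker_mul, ← Units.val_mul, ← Units.val_mul, mul_inv_cancel, mul_inv_cancel,
          Units.val_one, Units.val_one, Matrix.one_kronecker_one],
      by rw [← Matrix.mul_kronecker_mul, ← Units.val_mul, ← Units.val_mul, inv_mul_cancel, inv_mul_cancel,
          Units.val_one, Units.val_one, Matrix.one_kronecker_one]⟩
    refine ⟨Cfsg.Geo.glReindex e.symm w, ⟨w, ⟨a, b, rfl⟩, rfl⟩, ?_⟩
    ext1
    rw [h]
    rfl

/-- an element of the stabiliser of the tensor decomposition with given factors -/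
theorem exists_mem_tensor {n₁ n₂ : ℕ} (e : ι ≃ Fin n₁ × Fin n₂) (P : GL ι F) (a : GL (Fin n₁) F) (b : GL (Fin n₂) F) :
    ∃ y ∈ Cfsg.Geo.tensorProductSubgroup n₁ n₂ e P, (y : Matrix ι ι F) = (P : Matrix ι ι F) *
        Matrix.reindex e.symm e.symm ((a : Matrix (Fin n₁) (Fin n₁) F) ⊗ₖ (b : Matrix (Fin n₂) (Fin n₂) F)) *
        ((P⁻¹ : GL ι F) : Matrix ι ι F) := by
  let w : GL (Fin n₁ × Fin n₂) F := ⟨(a : Matrix (Fin n₁) (Fin n₁) F) ⊗ₖ (b : Matrix (Fin n₂) (Fin n₂) F),
    ((a⁻¹ : GL (Fin n₁) F) : Matrix (Fin n₁) (Fin n₁) F) ⊗ₖ ((b⁻¹ : GL (Fin n₂) F) : Matrix (Fin n₂) (Fin n₂) F),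
    by rw [← Matrix.mul_kronecker_mul, ← Units.val_mul, ← Units.val_mul, mul_inv_cancel, mul_inv_cancel,
        Units.val_one, Units.val_one, Matrix.one_kronecker_one],
    by rw [← Matrix.mul_kronecker_mul, ← Units.val_mul, ← Units.val_mul, inv_mul_cancel, inv_mul_cancel,
        Units.val_one, Units.val_one, Matrix.one_kronecker_one]⟩
  refine ⟨MulAut.conj P (Cfsg.Geo.glReindex e.symm w), ?_, rfl⟩
  exact (mem_tensor_iff e P _).2 ⟨a, b, rfl⟩

/-- A Kronecker product which is a nonzero scalar has scalar factors. -/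
theorem scalar_of_kronecker {n₁ n₂ : ℕ} (h₁ : 0 < n₁) (h₂ : 0 < n₂) (A : Matrix (Fin n₁) (Fin n₁) F)
    (B : Matrix (Fin n₂) (Fin n₂) F) {s : F} (hs : s ≠ 0) (h : A ⊗ₖ B = s • (1 : Matrix (Fin n₁ × Fin n₂) _ F)) :
    ∃ a b : F, a * b = s ∧ A = a • (1 : Matrix (Fin n₁) (Fin n₁) F) ∧ B = b • (1 : Matrix (Fin n₂) (Fin n₂) F) := by
  have hent : ∀ i j k l, A i j * B k l = if (i = j ∧ k = l) then s else 0 := by
    intro i j k l
    have := congrFun (congrFun h (i, k)) (j, l)
    rw [Matrix.kroneckerMap_apply, Matrix.smul_apply, Matrix.one_apply] at this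
    rw [this]
    simp [Prod.ext_iff]
  let i0 : Fin n₁ := ⟨0, h₁⟩
  let k0 : Fin n₂ := ⟨0, h₂⟩
  have h0 : A i0 i0 * B k0 k0 = s := by rw [hent]; simp
  have hA : A i0 i0 ≠ 0 := by intro hz; rw [hz, zero_mul] at h0; exact hs h0.symm
  have hB : B k0 k0 ≠ 0 := by intro hz; rw [hz, mul_zero] at h0; exact hs h0.symm
  refine ⟨A i0 i0, B k0 k0, h0, ?_, ?_⟩
  · ext i j
    apply mul_right_cancel₀ hB
    rw [hent, Matrix.smul_apply, Matrix.one_apply, ← h0]
    by_cases hij : i = j <;> simp [hij]
  · ext k l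
    apply mul_left_cancel₀ hA
    rw [hent, Matrix.smul_apply, Matrix.one_apply, ← h0]
    by_cases hkl : k = l <;> simp [hkl]

variable [Fintype F] (E : Type*) [Field E] [Algebra F E] [IsAlgClosed E]

/-- **Eigenvalues of the elements with a scalar power in the stabiliser of a tensor decomposition.** -/
theorem exists_eig_of_conj {q : ℕ} (hq : Fintype.card F = q) {n₁ n₂ : ℕ} (h₁ : 0 < n₁) (h₂ : 0 < n₂)
    (e : ι ≃ Fin n₁ × Fin n₂) (P g x : GL ι F) {r : ℕ} (hr : (r : F) ≠ 0) {s : F}
    (hx : (x : Matrix ι ι F) ^ r = s • (1 : Matrix ι ι F))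
    (hg : g⁻¹ * x * g ∈ Cfsg.Geo.tensorProductSubgroup n₁ n₂ e P) :
    ∃ (α : Fin n₁ → E) (β : Fin n₂ → E) (a b : F), a * b = s ∧ s ≠ 0 ∧ (∀ k, α k ^ r = algebraMap F E a) ∧
      (∀ l, β l ^ r = algebraMap F E b) ∧ eig E (x : Matrix ι ι F) = prodMs α β ∧
      (Finset.univ.val.map α).map (fun z => z ^ q) = Finset.univ.val.map α ∧
      (Finset.univ.val.map β).map (fun z => z ^ q) = Finset.univ.val.map β := by
  obtain ⟨A, B, hAB⟩ := (mem_tensor_iff e P _).1 hg
  have hι : Nonempty ι := ⟨e.symm (⟨0, h₁⟩, ⟨0, h₂⟩)⟩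
  have hs : s ≠ 0 := by
    rintro rfl
    rw [zero_smul] at hx
    have h1 : ((x ^ r : GL ι F) : Matrix ι ι F) = 0 := by rw [Units.val_pow_eq_pow_val]; exact hx
    have h2 := (x ^ r).isUnit
    rw [h1] at h2
    exact not_isUnit_zero h2
  -- the Kronecker product has the same power
  have hpow : ((A : Matrix (Fin n₁) (Fin n₁) F) ⊗ₖ (B : Matrix (Fin n₂) (Fin n₂) F)) ^ r =
      s • (1 : Matrix (Fin n₁ × Fin n₂) (Fin n₁ × Fin n₂) F) := by
    have h3 : ((g⁻¹ * x * g : GL ι F) : Matrix ι ι F) ^ r = s • (1 : Matrix ι ι F) := by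
      have h4 : (g⁻¹ * x * g) ^ r = g⁻¹ * x ^ r * g := by
        have := conj_pow (a := g⁻¹) (b := x) (i := r)
        rwa [inv_inv] at this
      rw [← Units.val_pow_eq_pow_val, h4, Units.val_mul, Units.val_mul, Units.val_pow_eq_pow_val, hx,
        Matrix.mul_smul, Matrix.smul_mul, Matrix.mul_one, ← Units.val_mul, inv_mul_cancel, Units.val_one]
    rw [hAB] at h3
    have h5 : ∀ k : ℕ, ((P : Matrix ι ι F) *
        Matrix.reindex e.symm e.symm ((A : Matrix (Fin n₁) (Fin n₁) F) ⊗ₖ (B : Matrix (Fin n₂) (Fin n₂) F)) *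
        ((P⁻¹ : GL ι F) : Matrix ι ι F)) ^ k = (P : Matrix ι ι F) *
        Matrix.reindex e.symm e.symm (((A : Matrix (Fin n₁) (Fin n₁) F) ⊗ₖ (B : Matrix (Fin n₂) (Fin n₂) F)) ^ k) *
        ((P⁻¹ : GL ι F) : Matrix ι ι F) := by
      intro k
      have hre : ∀ M : Matrix (Fin n₁ × Fin n₂) (Fin n₁ × Fin n₂) F,
        Matrix.reindex e.symm e.symm M = Matrix.reindexAlgEquiv F F e.symm M := fun _ => rfl
      rw [hre, hre, map_pow]
      induction k with
      | zero =>
        rw [pow_zero, pow_zero, Matrix.mul_one, ← Units.val_mul, mul_inv_cancel, Units.val_one]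
      | succ k ih =>
        rw [pow_succ, ih, pow_succ]
        have hPP : ((P⁻¹ : GL ι F) : Matrix ι ι F) * (P : Matrix ι ι F) = 1 := by
          rw [← Units.val_mul, inv_mul_cancel, Units.val_one]
        generalize (Matrix.reindexAlgEquiv F F e.symm) ((A : Matrix (Fin n₁) (Fin n₁) F) ⊗ₖ
          (B : Matrix (Fin n₂) (Fin n₂) F)) = M
        calc (P : Matrix ι ι F) * M ^ k * ((P⁻¹ : GL ι F) : Matrix ι ι F) *
              ((P : Matrix ι ι F) * M * ((P⁻¹ : GL ι F) : Matrix ι ι F))
            = (P : Matrix ι ι F) * M ^ k * (((P⁻¹ : GL ι F) : Matrix ι ι F) * (P : Matrix ι ι F)) * M *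
              ((P⁻¹ : GL ι F) : Matrix ι ι F) := by simp only [Matrix.mul_assoc]
          _ = _ := by rw [hPP]; simp only [Matrix.mul_assoc, Matrix.one_mul, Matrix.mul_one]
    rw [h5] at h3
    have h6 : Matrix.reindexAlgEquiv F F e.symm
        (((A : Matrix (Fin n₁) (Fin n₁) F) ⊗ₖ (B : Matrix (Fin n₂) (Fin n₂) F)) ^ r) = s • (1 : Matrix ι ι F) := by
      have hPP : ((P⁻¹ : GL ι F) : Matrix ι ι F) * (P : Matrix ι ι F) = 1 := by
        rw [← Units.val_mul, inv_mul_cancel, Units.val_one]
      have h7 : ((P⁻¹ : GL ι F) : Matrix ι ι F) * ((P : Matrix ι ι F) *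
        Matrix.reindex e.symm e.symm (((A : Matrix (Fin n₁) (Fin n₁) F) ⊗ₖ (B : Matrix (Fin n₂) (Fin n₂) F)) ^ r) *
        ((P⁻¹ : GL ι F) : Matrix ι ι F)) * (P : Matrix ι ι F) =
          ((P⁻¹ : GL ι F) : Matrix ι ι F) * (s • (1 : Matrix ι ι F)) * (P : Matrix ι ι F) := by rw [h3]
      rw [Matrix.mul_smul, Matrix.smul_mul, Matrix.mul_one, hPP] at h7
      rw [← h7]
      change Matrix.reindex e.symm e.symm _ = _
      generalize Matrix.reindex e.symm e.symm (((A : Matrix (Fin n₁) (Fin n₁) F) ⊗ₖ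
        (B : Matrix (Fin n₂) (Fin n₂) F)) ^ r) = M
      calc M = (((P⁻¹ : GL ι F) : Matrix ι ι F) * (P : Matrix ι ι F)) * M *
            (((P⁻¹ : GL ι F) : Matrix ι ι F) * (P : Matrix ι ι F)) := by rw [hPP, Matrix.one_mul, Matrix.mul_one]
        _ = _ := by simp only [Matrix.mul_assoc]
    have h8 : Matrix.reindexAlgEquiv F F e.symm (s • (1 : Matrix (Fin n₁ × Fin n₂) (Fin n₁ × Fin n₂) F)) =
        s • (1 : Matrix ι ι F) := by rw [map_smul, map_one]
    exact (Matrix.reindexAlgEquiv F F e.symm).injective (h6.trans h8.symm)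
  have hpow2 : ((A : Matrix (Fin n₁) (Fin n₁) F) ^ r) ⊗ₖ ((B : Matrix (Fin n₂) (Fin n₂) F) ^ r) =
      s • (1 : Matrix (Fin n₁ × Fin n₂) (Fin n₁ × Fin n₂) F) := by
    rw [← hpow]
    have : ∀ k : ℕ, ((A : Matrix (Fin n₁) (Fin n₁) F) ^ k) ⊗ₖ ((B : Matrix (Fin n₂) (Fin n₂) F) ^ k) =
      ((A : Matrix (Fin n₁) (Fin n₁) F) ⊗ₖ (B : Matrix (Fin n₂) (Fin n₂) F)) ^ k := by
      intro k
      induction k with
      | zero => simp [Matrix.one_kronecker_one]
      | succ k ih => rw [pow_succ, pow_succ, pow_succ, Matrix.mul_kronecker_mul, ih]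
    exact this r
  obtain ⟨a, b, hab, hAa, hBb⟩ := scalar_of_kronecker h₁ h₂ _ _ hs hpow2
  have ha : a ≠ 0 := by rintro rfl; rw [zero_mul] at hab; exact hs hab.symm
  have hb : b ≠ 0 := by rintro rfl; rw [mul_zero] at hab; exact hs hab.symm
  obtain ⟨S, α, hSα, hα⟩ := exists_diag E hr ha _ hAa
  obtain ⟨T, β, hTβ, hβ⟩ := exists_diag E hr hb _ hBb
  refine ⟨α, β, a, b, hab, hs, hα, hβ, ?_, ?_, ?_⟩
  · rw [← eig_conj' g (x : Matrix ι ι F)]
    have h9 : ((g⁻¹ : GL ι F) : Matrix ι ι F) * (x : Matrix ι ι F) * (g : Matrix ι ι F) =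
        ((g⁻¹ * x * g : GL ι F) : Matrix ι ι F) := by rw [Units.val_mul, Units.val_mul]
    rw [h9, hAB, eig_conj, eig_reindex, eig_kronecker _ _ S α T β hSα hTβ]
    rfl
  · rw [← eig_of_diag _ S α hSα, eig_frob hq]
  · rw [← eig_of_diag _ T β hTβ, eig_frob hq]

/-- **First obstruction**: an eigenvalue whose multiplicity is not divisible by `n₁`, and an eigenvalue `w` with
multiplicity `> n₁ n₂ - n₂`. -/
theorem false_of_conj {q : ℕ} (hq : Fintype.card F = q) {n₁ n₂ : ℕ} (h₁ : 0 < n₁) (h₂ : 0 < n₂)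
    (e : ι ≃ Fin n₁ × Fin n₂) (P g x : GL ι F) {r : ℕ} (hr : (r : F) ≠ 0) {s : F}
    (hx : (x : Matrix ι ι F) ^ r = s • (1 : Matrix ι ι F))
    (hg : g⁻¹ * x * g ∈ Cfsg.Geo.tensorProductSubgroup n₁ n₂ e P) [DecidableEq E] (z w : E)
    (hz : ¬ n₁ ∣ (eig E (x : Matrix ι ι F)).count z)
    (hw : n₁ * n₂ < (eig E (x : Matrix ι ι F)).count w + n₂) : False := by
  obtain ⟨α, β, a, b, hab, hs, hα, hβ, heig, -, -⟩ := exists_eig_of_conj E hq h₁ h₂ e P g x hr hx hg
  rw [heig] at hz hw
  by_cases hc : ∀ k, α k = α ⟨0, h₁⟩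
  · exact hz (dvd_count_of_const α β _ hc z)
  · push Not at hc
    obtain ⟨k, hk⟩ := hc
    have hb : b ≠ 0 := by rintro rfl; rw [mul_zero] at hab; exact hs hab.symm
    have hr0 : r ≠ 0 := by rintro rfl; simp at hr
    have hβ0 : ∀ l, β l ≠ 0 := by
      intro l hl
      have := hβ l
      rw [hl, zero_pow hr0] at this
      exact hb ((algebraMap F E).injective (by rw [← this, map_zero]))
    have := count_add_le α β hβ0 {α k, α ⟨0, h₁⟩} (by
      intro y hy
      rcases Finset.mem_insert.1 hy with h | h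
      · exact ⟨k, h.symm⟩
      · exact ⟨_, (Finset.mem_singleton.1 h).symm⟩) w
    rw [Finset.card_pair hk] at this
    omega

/-- an `r`-th root in `F` when `r` is prime to `q - 1`. -/
theorem exists_root {q r : ℕ} (hq : Fintype.card F = q) [Fact r.Prime] (h1 : orderOf (q : ZMod r) ≠ 1) (a : F)
    (ha : a ≠ 0) : ∃ t : F, t ^ r = a ∧ t ≠ 0 := by
  have hinj : Function.Injective (fun u : Fˣ => u ^ r) := by
    intro u v huv
    have h2 : (u / v) ^ r = 1 := by
      simp only at huv
      rw [div_pow, huv, div_self']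
    have h3 : ((u / v : Fˣ) : F) ^ r = 1 := by
      rw [← Units.val_pow_eq_pow_val, h2, Units.val_one]
    have h4 := det_eq_one_of_pow hq h1 h3
    have h5 : u / v = 1 := Units.ext (by rw [h4, Units.val_one])
    exact div_eq_one.1 h5
  have hsurj := Finite.surjective_of_injective hinj
  obtain ⟨u, hu⟩ := hsurj (Units.mk0 a ha)
  refine ⟨u, ?_, u.ne_zero⟩
  have := congrArg Units.val hu
  simpa using this

/-- **Second obstruction**, `i = ord_r(q) ≥ 2`: an eigenvalue whose multiplicity is not divisible by `n₁`, and `1` has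
multiplicity `> n₁ n₂ - n₂ (i - 1)`. -/
theorem false_of_conj_orbit {q : ℕ} (hq : Fintype.card F = q) {n₁ n₂ : ℕ} (h₁ : 0 < n₁) (h₂ : 0 < n₂)
    (e : ι ≃ Fin n₁ × Fin n₂) (P g x : GL ι F) {r : ℕ} [Fact r.Prime] (hr : (r : F) ≠ 0)
    (h1 : orderOf (q : ZMod r) ≠ 1) (hx : (x : Matrix ι ι F) ^ r = (1 : Matrix ι ι F))
    (hg : g⁻¹ * x * g ∈ Cfsg.Geo.tensorProductSubgroup n₁ n₂ e P) [DecidableEq E] (z : E)
    (hz : ¬ n₁ ∣ (eig E (x : Matrix ι ι F)).count z)
    (hw : n₁ * n₂ < (eig E (x : Matrix ι ι F)).count 1 + n₂ * (orderOf (q : ZMod r) - 1)) : False := by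
  have hrp : r.Prime := Fact.out
  obtain ⟨α, β, a, b, hab, hs, hα, hβ, heig, hfα, hfβ⟩ := exists_eig_of_conj E hq h₁ h₂ e P g x hr (s := 1)
    (by rw [one_smul]; exact hx) hg
  rw [heig] at hz hw
  have ha : a ≠ 0 := by rintro rfl; rw [zero_mul] at hab; exact hs hab.symm
  have hb : b ≠ 0 := by rintro rfl; rw [mul_zero] at hab; exact hs hab.symm
  have hr0 : r ≠ 0 := hrp.ne_zero
  have hβ0 : ∀ l, β l ≠ 0 := by
    intro l hl
    have := hβ l
    rw [hl, zero_pow hr0] at this
    exact hb ((algebraMap F E).injective (by rw [← this, map_zero]))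
  obtain ⟨t, ht, ht0⟩ := exists_root hq h1 a ha
  have htE : algebraMap F E t ≠ 0 := by
    intro h
    exact ht0 ((algebraMap F E).injective (by rw [h, map_zero]))
  by_cases hc : ∀ k, α k = algebraMap F E t
  · exact hz (dvd_count_of_const α β _ hc z)
  · push Not at hc
    obtain ⟨k, hk⟩ := hc
    -- `ζ = α k / t` is a primitive `r`-th root of unity
    let ζ : E := α k / algebraMap F E t
    have hζ1 : ζ ≠ 1 := by
      intro h
      exact hk ((div_eq_one_iff_eq htE).1 h)
    have hζr : ζ ^ r = 1 := by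
      rw [div_pow, hα, ← map_pow, ht, div_self]
      intro h
      exact ha ((algebraMap F E).injective (by rw [h, map_zero]))
    have hζ : IsPrimitiveRoot ζ r := by
      have h2 : orderOf ζ = r := orderOf_eq_prime hζr hζ1
      rw [← h2]
      exact IsPrimitiveRoot.orderOf ζ
    have htq : (algebraMap F E t) ^ q = algebraMap F E t := by
      rw [← map_pow, ← hq, FiniteField.pow_card]
    -- all `t ζ ^ (q ^ j)` are values of `α`
    have hval : ∀ j : ℕ, ∃ k', α k' = algebraMap F E t * ζ ^ (q ^ j) := by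
      intro j
      induction j with
      | zero => exact ⟨k, by rw [pow_zero, pow_one, mul_div_cancel₀ _ htE]⟩
      | succ j ih =>
        obtain ⟨k', hk'⟩ := ih
        have hmem : (α k') ^ q ∈ Finset.univ.val.map α := by
          rw [← hfα]
          exact Multiset.mem_map_of_mem _ (Multiset.mem_map_of_mem _ (Finset.mem_univ_val k'))
        obtain ⟨k'', -, hk''⟩ := Multiset.mem_map.1 hmem
        refine ⟨k'', ?_⟩
        rw [hk'', hk', mul_pow, htq, pow_succ, pow_mul]
    let S : Finset E := (Finset.range (orderOf (q : ZMod r))).image (fun j => algebraMap F E t * ζ ^ (q ^ j))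
    have hS : S.card = orderOf (q : ZMod r) := by
      rw [Finset.card_image_of_injOn, Finset.card_range]
      intro j hj l hl hjl
      simp only [Finset.coe_range, Set.mem_Iio] at hj hl
      exact pow_inj_of_prim hζ hj hl (mul_left_cancel₀ htE hjl)
    have := count_add_le α β hβ0 S (by
      intro y hy
      obtain ⟨j, -, rfl⟩ := Finset.mem_image.1 hy
      exact hval j) 1
    rw [hS] at this
    omega

end tens

section unip

variable {ι : Type} [Fintype ι] [DecidableEq ι] {F : Type*} [Field F]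

/-- If `A ⊗ B - 1` has rank less than `n₂`, then `A` is scalar. -/
theorem scalar_of_rank_lt {n₁ n₂ : ℕ} (A : Matrix (Fin n₁) (Fin n₁) F) (B : Matrix (Fin n₂) (Fin n₂) F)
    (hrank : (A ⊗ₖ B - 1).rank < n₂) : ∀ u : Fin n₁ → F, ∃ c : F, A *ᵥ u = c • u := by
  intro u
  by_cases hu : u = 0
  · exact ⟨0, by rw [hu]; simp⟩
  -- the linear map `w ↦ (A ⊗ B - 1) (u ⊗ w)` is not injective
  let L : (Fin n₂ → F) →ₗ[F] (Fin n₁ × Fin n₂ → F) :=
    { toFun := fun w p => u p.1 * w p.2
      map_add' := by intro x y; ext p; simp [mul_add]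
      map_smul' := by intro c x; ext p; simp; ring }
  let M : (Fin n₂ → F) →ₗ[F] (Fin n₁ × Fin n₂ → F) := (Matrix.toLin' (A ⊗ₖ B - 1)).comp L
  have hker : LinearMap.ker M ≠ ⊥ := by
    intro h
    have h1 := LinearMap.finrank_range_add_finrank_ker M
    rw [h, finrank_bot, add_zero, Module.finrank_fintype_fun_eq_card, Fintype.card_fin] at h1
    have h2 : Module.finrank F (LinearMap.range M) ≤ (A ⊗ₖ B - 1).rank := by
      rw [Matrix.rank, ← Matrix.toLin'_apply']
      exact Submodule.finrank_mono (LinearMap.range_comp_le_range _ _)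
    omega
  obtain ⟨w, hw, hw0⟩ := Submodule.exists_mem_ne_zero_of_ne_bot hker
  rw [LinearMap.mem_ker] at hw
  have hw1 : ∀ i j, (A *ᵥ u) i * (B *ᵥ w) j = u i * w j := by
    intro i j
    have h1 := congrFun hw (i, j)
    change ((A ⊗ₖ B - 1) *ᵥ (fun p : Fin n₁ × Fin n₂ => u p.1 * w p.2)) (i, j) = 0 at h1
    rw [Matrix.sub_mulVec, Matrix.one_mulVec, Pi.sub_apply, sub_eq_zero] at h1
    rw [← h1]
    simp only [Matrix.mulVec, dotProduct, Matrix.kroneckerMap_apply]
    rw [Finset.sum_mul_sum, Fintype.sum_prod_type]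
    refine Finset.sum_congr rfl fun k _ => Finset.sum_congr rfl fun l _ => ?_
    ring
  obtain ⟨j, hj⟩ : ∃ j, w j ≠ 0 := by
    by_contra hcon
    push Not at hcon
    exact hw0 (funext hcon)
  obtain ⟨i, hi⟩ : ∃ i, u i ≠ 0 := by
    by_contra hcon
    push Not at hcon
    exact hu (funext hcon)
  have hBj : (B *ᵥ w) j ≠ 0 := by
    intro h
    have := hw1 i j
    rw [h, mul_zero] at this
    exact mul_ne_zero hi hj this.symm
  refine ⟨w j / (B *ᵥ w) j, ?_⟩
  ext i'
  rw [Pi.smul_apply, smul_eq_mul, div_mul_eq_mul_div, eq_div_iff hBj, hw1 i' j, mul_comm]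

/-- A matrix having every vector as an eigenvector is scalar. -/
theorem scalar_of_forall {κ : Type*} [Fintype κ] [DecidableEq κ] (A : Matrix κ κ F)
    (h : ∀ u : κ → F, ∃ c : F, A *ᵥ u = c • u) : ∃ c : F, A = c • (1 : Matrix κ κ F) := by
  rcases isEmpty_or_nonempty κ with hκ | ⟨⟨k0⟩⟩
  · exact ⟨0, by ext i; exact hκ.elim i⟩
  have hoff : ∀ i j, i ≠ j → A i j = 0 := by
    intro i j hij
    obtain ⟨c, hc⟩ := h (Pi.single j 1)
    have := congrFun hc i
    simpa [Matrix.mulVec_single, Pi.single_apply, hij] using this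
  have hdiag : ∀ i j, A i i = A j j := by
    intro i j
    by_cases hij : i = j
    · rw [hij]
    obtain ⟨c, hc⟩ := h (Pi.single i 1 + Pi.single j 1)
    have h1 := congrFun hc i
    have h2 := congrFun hc j
    rw [Matrix.mulVec_add] at h1 h2
    simp only [Matrix.mulVec_single, Pi.add_apply, Pi.smul_apply, Pi.single_apply, Matrix.col_apply,
      MulOpposite.op_one, one_smul, hij, Ne.symm hij, smul_eq_mul, if_true, if_false, add_zero, zero_add, mul_one,
      hoff i j hij, hoff j i (Ne.symm hij)] at h1 h2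
    rw [h1, h2]
  refine ⟨A k0 k0, ?_⟩
  ext i j
  rw [Matrix.smul_apply, Matrix.one_apply]
  by_cases hij : i = j
  · rw [if_pos hij, ← hij, hdiag i k0]; simp
  · rw [if_neg hij, hoff i j hij]; simp

/-- **Transvections do not stabilise tensor decompositions**: if `x - 1` has rank one and `2 ≤ n₁, n₂`, then `x` is not
conjugate into the stabiliser of a tensor decomposition. -/
theorem false_of_conj_rank_one {n₁ n₂ : ℕ} (h₁ : 2 ≤ n₁) (h₂ : 2 ≤ n₂)
    (e : ι ≃ Fin n₁ × Fin n₂) (P g x : GL ι F) (hx : ((x : Matrix ι ι F) - 1).rank = 1)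
    (hg : g⁻¹ * x * g ∈ Cfsg.Geo.tensorProductSubgroup n₁ n₂ e P) : False := by
  obtain ⟨A, B, hAB⟩ := (mem_tensor_iff e P _).1 hg
  -- `A ⊗ B - 1` has rank one
  have hrank : ((A : Matrix (Fin n₁) (Fin n₁) F) ⊗ₖ (B : Matrix (Fin n₂) (Fin n₂) F) - 1).rank = 1 := by
    rw [← hx]
    have h3 : ((g⁻¹ * x * g : GL ι F) : Matrix ι ι F) - 1 =
        ((g⁻¹ : GL ι F) : Matrix ι ι F) * ((x : Matrix ι ι F) - 1) * (g : Matrix ι ι F) := by
      rw [Matrix.mul_sub, Matrix.sub_mul, Matrix.mul_one, ← Units.val_mul g⁻¹ g, inv_mul_cancel, Units.val_one,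
        Units.val_mul, Units.val_mul]
    have h4 : ((g⁻¹ * x * g : GL ι F) : Matrix ι ι F) - 1 = (P : Matrix ι ι F) *
        Matrix.reindex e.symm e.symm ((A : Matrix (Fin n₁) (Fin n₁) F) ⊗ₖ (B : Matrix (Fin n₂) (Fin n₂) F) - 1) *
        ((P⁻¹ : GL ι F) : Matrix ι ι F) := by
      rw [hAB]
      have h5 : Matrix.reindex e.symm e.symm ((A : Matrix (Fin n₁) (Fin n₁) F) ⊗ₖ (B : Matrix (Fin n₂) (Fin n₂) F) - 1) =
        Matrix.reindex e.symm e.symm ((A : Matrix (Fin n₁) (Fin n₁) F) ⊗ₖ (B : Matrix (Fin n₂) (Fin n₂) F)) - 1 := by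
        have : ∀ M : Matrix (Fin n₁ × Fin n₂) (Fin n₁ × Fin n₂) F,
          Matrix.reindex e.symm e.symm M = Matrix.reindexAlgEquiv F F e.symm M := fun _ => rfl
        rw [this, this, map_sub, map_one]
      rw [h5, Matrix.mul_sub, Matrix.sub_mul, Matrix.mul_one, ← Units.val_mul P P⁻¹, mul_inv_cancel, Units.val_one]
    have h6 : (((g⁻¹ : GL ι F) : Matrix ι ι F) * ((x : Matrix ι ι F) - 1) * (g : Matrix ι ι F)).rank =
        ((x : Matrix ι ι F) - 1).rank := by
      rw [Matrix.rank_mul_eq_left_of_isUnit_det _ _ ((Matrix.isUnit_iff_isUnit_det _).1 g.isUnit),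
        Matrix.rank_mul_eq_right_of_isUnit_det _ _ ((Matrix.isUnit_iff_isUnit_det _).1 (g⁻¹).isUnit)]
    rw [← h6, ← h3, h4, Matrix.rank_mul_eq_left_of_isUnit_det _ _ ((Matrix.isUnit_iff_isUnit_det _).1 (P⁻¹).isUnit),
      Matrix.rank_mul_eq_right_of_isUnit_det _ _ ((Matrix.isUnit_iff_isUnit_det _).1 P.isUnit), Matrix.rank_reindex]
  obtain ⟨a, ha⟩ := scalar_of_forall _ (scalar_of_rank_lt (A : Matrix (Fin n₁) (Fin n₁) F)
    (B : Matrix (Fin n₂) (Fin n₂) F) (by rw [hrank]; omega))
  -- the other factor: `B ⊗ A`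
  have hrank' : ((B : Matrix (Fin n₂) (Fin n₂) F) ⊗ₖ (A : Matrix (Fin n₁) (Fin n₁) F) - 1).rank = 1 := by
    rw [← hrank, ← Matrix.rank_reindex (Equiv.prodComm (Fin n₂) (Fin n₁)) (Equiv.prodComm (Fin n₂) (Fin n₁))]
    congr 1
    ext ⟨i, k⟩ ⟨j, l⟩
    simp [Matrix.kroneckerMap_apply, Matrix.one_apply, mul_comm, and_comm]
  obtain ⟨b, hb⟩ := scalar_of_forall _ (scalar_of_rank_lt (B : Matrix (Fin n₂) (Fin n₂) F)
    (A : Matrix (Fin n₁) (Fin n₁) F) (by rw [hrank']; omega))
  have hsc : (A : Matrix (Fin n₁) (Fin n₁) F) ⊗ₖ (B : Matrix (Fin n₂) (Fin n₂) F) - 1 =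
      (a * b - 1) • (1 : Matrix (Fin n₁ × Fin n₂) (Fin n₁ × Fin n₂) F) := by
    rw [ha, hb, Matrix.smul_kronecker, Matrix.kronecker_smul, Matrix.one_kronecker_one, smul_smul, sub_smul, one_smul]
  rw [hsc] at hrank
  by_cases hab : a * b - 1 = 0
  · rw [hab, zero_smul, Matrix.rank_zero] at hrank
    omega
  · have h7 : ((a * b - 1) • (1 : Matrix (Fin n₁ × Fin n₂) (Fin n₁ × Fin n₂) F)).rank =
        Fintype.card (Fin n₁ × Fin n₂) := by
      apply Matrix.rank_of_isUnit
      rw [Matrix.isUnit_iff_isUnit_det, Matrix.det_smul, Matrix.det_one, mul_one]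
      exact (isUnit_iff_ne_zero.2 hab).pow _
    rw [h7, Fintype.card_prod, Fintype.card_fin, Fintype.card_fin] at hrank
    nlinarith

end unip

end Cfsg.Agent.H956.TensorElt
end

-- part: S5979
section
set_option autoImplicit false
open scoped MatrixGroups
open Cfsg

namespace Cfsg.Agent.S5979

open Matrix Polynomial
open scoped Kronecker
open Cfsg.Agent.H956.EigMult Cfsg.Agent.H956.PrimeElt Cfsg.Agent.H956.TensorElt Cfsg.Agent.H956.Conj
open Cfsg.Agent.H956.DiagElt Cfsg.Agent.H956.FieldArith Cfsg.Agent.H956.ConjIrr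

theorem mem_sl {ι : Type} [Fintype ι] [DecidableEq ι] {F : Type*} [Field F] (x : GL ι F) :
    x ∈ Cfsg.Geo.specialLinear ι F ↔ (x : Matrix ι ι F).det = 1 := by
  unfold Cfsg.Geo.specialLinear
  rw [MonoidHom.mem_ker, ← Units.val_inj]
  rfl

variable {F : Type*} [Field F] [Fintype F]

theorem forward {p : ℕ} [Fact p.Prime] [CharP F p] {q : ℕ} (hq : Fintype.card F = q)
    (n a b : ℕ) (hab : n = a * b) (ha : 2 ≤ a) (hlt : a < b) (e : Fin n ≃ Fin a × Fin b) (P : GL (Fin n) F)
    (r : ℕ) [Fact r.Prime]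
    (hΩ : r ∣ (Cfsg.Geo.tensorProductSubgroup a b e P).relIndex (Cfsg.Geo.specialLinear (Fin n) F))
    (H : ∀ x ∈ Cfsg.Geo.specialLinear (Fin n) F, (∃ z : F, ((x ^ r : GL (Fin n) F) : Matrix (Fin n) (Fin n) F) = z • (1 : Matrix (Fin n) (Fin n) F)) →
      (∀ z : F, (x : Matrix (Fin n) (Fin n) F) ≠ z • (1 : Matrix (Fin n) (Fin n) F)) →
      ∃ g ∈ Cfsg.Geo.specialLinear (Fin n) F, g⁻¹ * x * g ∈ Cfsg.Geo.tensorProductSubgroup a b e P) :
    (r = 2 ∧ a = 2 ∧ Odd q ∧ padicValNat 2 (q - 1) ≤ padicValNat 2 n) := by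
  classical
  have hrp : r.Prime := Fact.out
  have hb : 3 ≤ b := by omega
  have hn : 6 ≤ n := by rw [hab]; nlinarith
  have hbn : b < n := by rw [hab]; nlinarith
  have hcard : Fintype.card (Fin n) = n := Fintype.card_fin n
  by_cases hr : (r : F) = 0
  · exfalso
    have hrp' : r = p := by
      have h1 := (CharP.cast_eq_zero_iff F p r).1 hr
      exact ((Nat.prime_dvd_prime_iff_eq Fact.out hrp).1 h1).symm
    subst hrp'
    obtain ⟨x, hx1, hx2, hx3, hx4⟩ := exists_transvection (F := F) r (⟨0, by omega⟩ : Fin n) ⟨1, by omega⟩ (by simp)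
    obtain ⟨g, -, hg⟩ := H x ((mem_sl x).2 hx2) ⟨1, by rw [hx3, one_smul, Units.val_one]⟩ (by
      intro z hz
      have h1 := congrFun (congrFun hz (⟨0, by omega⟩ : Fin n)) ⟨1, by omega⟩
      rw [hx1] at h1
      simp [Matrix.transvection, Matrix.single_apply] at h1)
    exact false_of_conj_rank_one ha (by omega) e P g x hx4 hg
  · by_cases h1 : orderOf (q : ZMod r) = 1
    · have hrq : r ∣ q - 1 := by
        have hq1 : 0 < q := by rw [← hq]; exact Fintype.card_pos
        have := (dvd_pow_sub_one_iff (r := r) hq1 1).2 (by rw [h1])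
        rwa [pow_one] at this
      -- the basic contradiction for diagonal elements
      have key : ∀ (m : Multiset F) (w z s : F), (∀ c ∈ m, c ^ r = s) → s ≠ 0 → Multiset.card m = n → m.prod = 1 →
          ¬ a ∣ m.count z → n < m.count w + b → (∃ c ∈ m, c ≠ w) → False := by
        intro m w z s hm hs hc hprod hz hw hne
        obtain ⟨x, d, hxd, hd0, hdm, hdet⟩ := exists_diag_elt (ι := Fin n) m (by
          intro c hc0 h0
          have := hm c hc0
          rw [h0, zero_pow hrp.ne_zero] at this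
          exact hs this.symm) (by rw [hc, hcard])
        have hpow : (x : Matrix (Fin n) (Fin n) F) ^ r = s • (1 : Matrix (Fin n) (Fin n) F) := by
          rw [hxd]
          exact diagonal_pow_eq d r s fun i => hm _ (by rw [← hdm]; exact Multiset.mem_map_of_mem _ (Finset.mem_univ_val i))
        have hwm : w ∈ m := by
          rw [← Multiset.count_pos]
          omega
        obtain ⟨c, hcm, hcw⟩ := hne
        obtain ⟨g, -, hg⟩ := H x ((mem_sl x).2 (by rw [hdet, hprod])) ⟨s, by rw [Units.val_pow_eq_pow_val, hpow]⟩ (by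
          intro y hy
          rw [← hdm] at hcm hwm
          obtain ⟨i, -, hi⟩ := Multiset.mem_map.1 hcm
          obtain ⟨j, -, hj⟩ := Multiset.mem_map.1 hwm
          have e1 := congrFun (congrFun hy i) i
          have e2 := congrFun (congrFun hy j) j
          rw [hxd] at e1 e2
          simp only [Matrix.diagonal_apply_eq, Matrix.smul_apply, Matrix.one_apply_eq, smul_eq_mul, mul_one] at e1 e2
          exact hcw (by rw [← hi, ← hj, e1, e2]))
        have heig := eig_of_eq_diagonal (E := AlgebraicClosure F) (x : Matrix (Fin n) (Fin n) F) d m hxd hdm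
        have hinj : Function.Injective (algebraMap F (AlgebraicClosure F)) := (algebraMap F (AlgebraicClosure F)).injective
        refine false_of_conj (AlgebraicClosure F) hq (by omega) (by omega) e P g x hr hpow hg
          (algebraMap F (AlgebraicClosure F) z) (algebraMap F (AlgebraicClosure F) w) ?_ ?_
        · rw [heig, Multiset.count_map_eq_count' _ _ hinj]
          exact hz
        · rw [heig, Multiset.count_map_eq_count' _ _ hinj, ← hab]
          exact hw
      by_cases hr2 : r = 2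
      · subst hr2
        have h20 : (2 : F) ≠ 0 := by exact_mod_cast hr
        have hneg : (-1 : F) ≠ 1 := neg_one_ne_one h20
        have ha2 : a = 2 := by
          by_contra hane
          refine key (Multiset.replicate 2 (-1) + Multiset.replicate (n - 2) 1) 1 (-1) 1 ?_ one_ne_zero ?_ ?_ ?_ ?_ ?_
          · intro c hc
            rcases Multiset.mem_add.1 hc with h | h
            · rw [Multiset.eq_of_mem_replicate h]; norm_num
            · rw [Multiset.eq_of_mem_replicate h]; norm_num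
          · rw [Multiset.card_add, Multiset.card_replicate, Multiset.card_replicate]; omega
          · rw [Multiset.prod_add, Multiset.prod_replicate, Multiset.prod_replicate]; norm_num
          · rw [Multiset.count_add, Multiset.count_replicate, Multiset.count_replicate, if_pos rfl, if_neg hneg.symm]
            intro hd
            have := Nat.le_of_dvd (by norm_num) hd
            omega
          · rw [Multiset.count_add, Multiset.count_replicate, Multiset.count_replicate, if_neg hneg, if_pos rfl]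
            omega
          · exact ⟨-1, by simp, hneg⟩
        refine ⟨rfl, ha2, odd_of_two_ne_zero hq h20, ?_⟩
        by_contra hv
        push Not at hv
        obtain ⟨s, hs, hs0⟩ := exists_pow_eq_neg_one hq (n := n) (by omega) hv
        have hsne : -s ≠ s := by
          intro h
          have : (2 : F) * s = 0 := by linear_combination -h
          rcases mul_eq_zero.1 this with h' | h'
          · exact h20 h'
          · exact hs0 h'
        refine key (-s ::ₘ Multiset.replicate (n - 1) s) s (-s) (s ^ 2) ?_ (pow_ne_zero _ hs0) ?_ ?_ ?_ ?_ ?_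
        · intro c hc
          rcases Multiset.mem_cons.1 hc with h | h
          · rw [h]; ring
          · rw [Multiset.eq_of_mem_replicate h]
        · rw [Multiset.card_cons, Multiset.card_replicate]; omega
        · rw [Multiset.prod_cons, Multiset.prod_replicate]
          have : s ^ n = s * s ^ (n - 1) := by rw [← pow_succ']; congr 1; omega
          rw [hs] at this
          linear_combination this
        · rw [Multiset.count_cons_self, Multiset.count_replicate, if_neg hsne.symm]
          intro hd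
          have := Nat.le_of_dvd (by norm_num) hd
          omega
        · rw [Multiset.count_cons_of_ne hsne.symm, Multiset.count_replicate, if_pos rfl]
          omega
        · exact ⟨-s, by simp, hsne⟩
      · exfalso
        obtain ⟨ζ, hζ⟩ := exists_prim hq hrq
        have hr3 : 3 ≤ r := by
          have := hrp.two_le
          omega
        have hζ0 : ζ ≠ 0 := hζ.ne_zero hrp.ne_zero
        have hζ1 : ζ ≠ 1 := hζ.ne_one (by omega)
        have hζi : ζ⁻¹ ≠ ζ := by
          intro h
          have h2 : ζ ^ 2 = 1 := by rw [pow_two]; nth_rewrite 1 [← h]; exact inv_mul_cancel₀ hζ0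
          have := Nat.le_of_dvd (by norm_num) (hζ.dvd_of_pow_eq_one _ h2)
          omega
        have hζi1 : ζ⁻¹ ≠ 1 := by rwa [Ne, inv_eq_one]
        refine key (ζ ::ₘ ζ⁻¹ ::ₘ Multiset.replicate (n - 2) 1) 1 ζ 1 ?_ one_ne_zero ?_ ?_ ?_ ?_ ?_
        · intro c hc
          rcases Multiset.mem_cons.1 hc with h | h
          · rw [h]; exact hζ.pow_eq_one
          · rcases Multiset.mem_cons.1 h with h | h
            · rw [h, inv_pow, hζ.pow_eq_one, inv_one]
            · rw [Multiset.eq_of_mem_replicate h, one_pow]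
        · rw [Multiset.card_cons, Multiset.card_cons, Multiset.card_replicate]; omega
        · rw [Multiset.prod_cons, Multiset.prod_cons, Multiset.prod_replicate, one_pow, mul_one, mul_inv_cancel₀ hζ0]
        · rw [Multiset.count_cons_self, Multiset.count_cons_of_ne hζi.symm, Multiset.count_replicate,
            if_neg hζ1.symm]
          intro hd
          have := Nat.le_of_dvd (by norm_num) hd
          omega
        · rw [Multiset.count_cons_of_ne hζ1.symm, Multiset.count_cons_of_ne hζi1.symm, Multiset.count_replicate,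
            if_pos rfl]
          omega
        · exact ⟨ζ, by simp, hζ1⟩
    · exfalso
      have hi : orderOf (q : ZMod r) ≤ n := by
        apply orderOf_le_of_dvd_card_GL hq hr
        exact hΩ.trans ((Subgroup.relIndex_dvd_card _ _).trans (Subgroup.card_subgroup_dvd_card _))
      obtain ⟨x, hxdet, hxr, O, hO, hxO⟩ := exists_block (AlgebraicClosure F) (ι := Fin n) hq hr h1 (by rwa [hcard])
      have hi0 : orderOf (q : ZMod r) ≠ 0 := by
        exact (orderOf_pos' (not_dvd_card hq hr)).ne'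
      have hcO := hO.card_eq
      obtain ⟨z, hz⟩ : ∃ z, z ∈ O := by
        apply Multiset.card_pos_iff_exists_mem.1
        omega
      have hz1 : z ≠ 1 := (hO.prim z hz).ne_one hrp.one_lt
      have h1O : (1 : AlgebraicClosure F) ∉ O := fun h => (hO.prim 1 h).ne_one hrp.one_lt rfl
      obtain ⟨g, -, hg⟩ := H x ((mem_sl x).2 hxdet) ⟨1, by rw [hxr, one_smul, Units.val_one]⟩
        (ne_scalar_of_mem (E := AlgebraicClosure F) (z := z) (w := z ^ q)
          (by rw [hxO]; exact Multiset.mem_add.2 (Or.inl hz))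
          (by rw [hxO]; exact Multiset.mem_add.2 (Or.inl (hO.frob z hz)))
          (hO.frob_ne (by omega) hz).symm)
      refine false_of_conj_orbit (AlgebraicClosure F) hq (by omega) (by omega) e P g x hr h1
        (by rw [← Units.val_pow_eq_pow_val, hxr, Units.val_one]) hg z ?_ ?_
      · rw [hxO, Multiset.count_add, Multiset.count_replicate, if_neg hz1.symm, Multiset.count_eq_one_of_mem hO.nodup hz]
        intro hd
        have := Nat.le_of_dvd (by norm_num) hd
        omega
      · rw [hxO, Multiset.count_add, Multiset.count_eq_zero_of_notMem h1O, Multiset.count_replicate, if_pos rfl, hcard,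
          ← hab]
        have h2 : 2 ≤ orderOf (q : ZMod r) := by omega
        have h3 : 3 * (orderOf (q : ZMod r) - 1) ≤ b * (orderOf (q : ZMod r) - 1) := Nat.mul_le_mul_right _ hb
        omega

/-- multiplicities of `f ∘ snd`. -/
theorem map_snd {α : Type*} [DecidableEq α] {n₁ n₂ : ℕ} (f : Fin n₂ → α) :
    (Finset.univ : Finset (Fin n₁ × Fin n₂)).val.map (fun p => f p.2) = n₁ • (Finset.univ : Finset (Fin n₂)).val.map f := by
  ext z
  rw [Multiset.count_nsmul, Multiset.count_map, Multiset.count_map]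
  have h1 : Multiset.card (Multiset.filter (fun a : Fin n₁ × Fin n₂ => z = f a.2)
      (Finset.univ : Finset (Fin n₁ × Fin n₂)).val) =
      ((Finset.univ : Finset (Fin n₁ × Fin n₂)).filter (fun a => z = f a.2)).card := rfl
  have h2 : Multiset.card (Multiset.filter (fun a : Fin n₂ => z = f a)
      (Finset.univ : Finset (Fin n₂)).val) = ((Finset.univ : Finset (Fin n₂)).filter (fun a => z = f a)).card := rfl
  rw [h1, h2]
  have h3 : ((Finset.univ : Finset (Fin n₁ × Fin n₂)).filter (fun a => z = f a.2)) =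
      (Finset.univ : Finset (Fin n₁)) ×ˢ ((Finset.univ : Finset (Fin n₂)).filter (fun a => z = f a)) := by
    ext ⟨i, j⟩
    simp
  rw [h3, Finset.card_product, Finset.card_univ, Fintype.card_fin]

/-- a family with values in `{s, t}` -/
theorem map_two_valued {κ α : Type*} [Fintype κ] [DecidableEq α] {s t : α} (hst : s ≠ t) (d : κ → α)
    (hd : ∀ i, d i = s ∨ d i = t) :
    (Finset.univ : Finset κ).val.map d = Multiset.replicate ((Finset.univ.filter (fun i => d i = t)).card) t +
      Multiset.replicate (Fintype.card κ - (Finset.univ.filter (fun i => d i = t)).card) s := by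
  have h0 : (Finset.univ.filter (fun i => d i = t)).card + (Finset.univ.filter (fun i => ¬ d i = t)).card =
      Fintype.card κ := by
    rw [Finset.card_filter_add_card_filter_not]; rfl
  ext z
  rw [Multiset.count_map, Multiset.count_add, Multiset.count_replicate, Multiset.count_replicate]
  have h1 : Multiset.card (Multiset.filter (fun a : κ => z = d a) (Finset.univ : Finset κ).val) =
      ((Finset.univ : Finset κ).filter (fun a => z = d a)).card := rfl
  rw [h1]
  by_cases hz : t = z
  · subst hz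
    rw [if_pos rfl, if_neg hst, add_zero]
    congr 1
    ext i
    simp [eq_comm]
  · rw [if_neg hz, zero_add]
    by_cases hz2 : s = z
    · subst hz2
      rw [if_pos rfl]
      have h2 : (Finset.univ.filter (fun a => s = d a)) = (Finset.univ.filter (fun i => ¬ d i = t)) := by
        ext i
        simp only [Finset.mem_filter, Finset.mem_univ, true_and]
        rcases hd i with h | h
        · rw [h]; simp [hst]
        · rw [h]; simp [hst]
      rw [h2]
      omega
    · rw [if_neg hz2, Finset.card_eq_zero]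
      ext i
      simp only [Finset.mem_filter, Finset.mem_univ, true_and, Finset.notMem_empty, iff_false]
      rcases hd i with h | h
      · rw [h]; exact fun h' => hz2 h'.symm
      · rw [h]; exact fun h' => hz h'.symm

theorem backward {q : ℕ} (hq : Fintype.card F = q)
    (n b : ℕ) (hab : n = 2 * b) (hlt : 2 < b) (e : Fin n ≃ Fin 2 × Fin b) (P : GL (Fin n) F)
    (hodd : Odd q) (hv : padicValNat 2 (q - 1) ≤ padicValNat 2 n)
    (x : GL (Fin n) F) (hx : x ∈ Cfsg.Geo.specialLinear (Fin n) F)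
    (hz : ∃ z : F, ((x ^ 2 : GL (Fin n) F) : Matrix (Fin n) (Fin n) F) = z • (1 : Matrix (Fin n) (Fin n) F)) :
    ∃ g ∈ Cfsg.Geo.specialLinear (Fin n) F, g⁻¹ * x * g ∈ Cfsg.Geo.tensorProductSubgroup 2 b e P := by
  classical
  have h20 := two_ne_zero_of_odd hq hodd
  have hne : Nonempty (Fin n) := ⟨⟨0, by omega⟩⟩
  obtain ⟨z, hz⟩ := hz
  rw [Units.val_pow_eq_pow_val] at hz
  rw [mem_sl] at hx
  have hz0 : z ≠ 0 := by
    rintro rfl
    rw [zero_smul] at hz
    have h2 := congrArg Matrix.det hz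
    rw [Matrix.det_pow, hx, one_pow, Matrix.det_zero] at h2
    exact one_ne_zero h2
  by_cases hsq : IsSquare z
  · obtain ⟨s, rfl⟩ := hsq
    have hs0 : s ≠ 0 := by rintro rfl; simp at hz0
    have hsne : s ≠ -s := by
      intro h
      have : (2 : F) * s = 0 := by linear_combination h
      rcases mul_eq_zero.1 this with h' | h'
      · exact h20 h'
      · exact hs0 h'
    obtain ⟨S, d, hSd, hd⟩ := exists_of_sq_eq h20 hs0 (x : Matrix (Fin n) (Fin n) F) (by rw [hz, pow_two])
    set k := (Finset.univ.filter (fun i => d i = -s)).card with hk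
    have hkn : k ≤ n := by
      calc k ≤ (Finset.univ : Finset (Fin n)).card := Finset.card_filter_le _ _
        _ = n := by simp
    have hmap := map_two_valued hsne d hd
    rw [← hk, Fintype.card_fin] at hmap
    -- `k` is even
    have hdet : (x : Matrix (Fin n) (Fin n) F).det = s ^ n * (-1) ^ k := by
      rw [hSd, Matrix.det_mul, Matrix.det_mul, mul_right_comm, ← Matrix.det_mul, mul_inv_self', Matrix.det_one, one_mul,
        Matrix.det_diagonal]
      have : ∏ i, d i = ((Finset.univ : Finset (Fin n)).val.map d).prod := rfl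
      rw [this, hmap, Multiset.prod_add, Multiset.prod_replicate, Multiset.prod_replicate, neg_pow, mul_assoc,
        ← pow_add, mul_comm]
      congr 2
      omega
    rw [hx] at hdet
    have hkev : Even k := by
      by_contra hodd
      rw [Nat.not_even_iff_odd] at hodd
      rw [hodd.neg_one_pow] at hdet
      exact pow_ne_neg_one hq h20 (by omega) hv s (by linear_combination hdet)
    obtain ⟨k', hk'⟩ := hkev
    obtain ⟨β, hβ⟩ := exists_family (ι := Fin b) (Multiset.replicate k' (-s) + Multiset.replicate (b - k') s) (by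
      rw [Multiset.card_add, Multiset.card_replicate, Multiset.card_replicate, Fintype.card_fin]; omega)
    have hβ0 : ∀ l, β l ≠ 0 := by
      intro l
      have h1 : β l ∈ Multiset.replicate k' (-s) + Multiset.replicate (b - k') s := by
        rw [← hβ]; exact Multiset.mem_map_of_mem _ (Finset.mem_univ_val l)
      rcases Multiset.mem_add.1 h1 with h | h
      · rw [Multiset.eq_of_mem_replicate h]; exact neg_ne_zero.2 hs0
      · rw [Multiset.eq_of_mem_replicate h]; exact hs0
    obtain ⟨y, hy, hyeq⟩ := exists_mem_tensor e P (1 : GL (Fin 2) F) (diagU β hβ0)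
    have hyd : (y : Matrix (Fin n) (Fin n) F) = (P : Matrix (Fin n) (Fin n) F) *
        Matrix.diagonal (fun i => β (e i).2) * ((P⁻¹ : GL (Fin n) F) : Matrix (Fin n) (Fin n) F) := by
      rw [hyeq]
      congr 2
      rw [coe_diagU, Units.val_one, ← Matrix.diagonal_one, Matrix.diagonal_kronecker_diagonal]
      ext i j
      simp only [Matrix.reindex_apply, Matrix.submatrix_apply, Matrix.diagonal_apply, one_mul, Equiv.symm_symm]
      simp
    obtain ⟨g, hg1, hg2⟩ := conj_of_diag x y S P d _ hSd hyd (by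
      have h1 : (Finset.univ : Finset (Fin n)).val.map (fun i => β (e i).2) =
          ((Finset.univ : Finset (Fin n)).val.map e).map (fun p => β p.2) := by rw [Multiset.map_map]; rfl
      rw [h1, Multiset.map_univ_val_equiv, map_snd, hβ, hmap, smul_add, Multiset.nsmul_replicate,
        Multiset.nsmul_replicate]
      congr 2
      · omega
      · omega)
    exact ⟨g, (mem_sl g).2 hg1, by rw [hg2]; exact hy⟩
  · have hirr : Irreducible (X ^ 2 - C z : F[X]) := by
      apply X_pow_sub_C_irreducible_of_prime Nat.prime_two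
      intro b hb
      exact hsq ⟨b, by rw [← hb, pow_two]⟩
    let J : Matrix (Fin 2) (Fin 2) F := !![0, z; 1, 0]
    let JU : GL (Fin 2) F := Matrix.GeneralLinearGroup.mkOfDetNeZero J (by
      simp [J, Matrix.det_fin_two, hz0])
    obtain ⟨y, hy, hyeq⟩ := exists_mem_tensor e P JU (1 : GL (Fin b) F)
    have hy2 : (y : Matrix (Fin n) (Fin n) F) ^ 2 = z • (1 : Matrix (Fin n) (Fin n) F) := by
      have hJ : (JU : Matrix (Fin 2) (Fin 2) F) * (JU : Matrix (Fin 2) (Fin 2) F) = z • (1 : Matrix (Fin 2) (Fin 2) F) := by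
        change J * J = _
        simp only [J]
        ext i j
        fin_cases i <;> fin_cases j <;> simp [Matrix.mul_apply, Fin.sum_univ_two]
      have hre : ∀ M : Matrix (Fin 2 × Fin b) (Fin 2 × Fin b) F,
        Matrix.reindex e.symm e.symm M = Matrix.reindexAlgEquiv F F e.symm M := fun _ => rfl
      rw [hyeq, pow_two, hre]
      calc (P : Matrix (Fin n) (Fin n) F) * Matrix.reindexAlgEquiv F F e.symm
            ((JU : Matrix (Fin 2) (Fin 2) F) ⊗ₖ ((1 : GL (Fin b) F) : Matrix (Fin b) (Fin b) F)) *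
            ((P⁻¹ : GL (Fin n) F) : Matrix (Fin n) (Fin n) F) *
            ((P : Matrix (Fin n) (Fin n) F) * Matrix.reindexAlgEquiv F F e.symm
            ((JU : Matrix (Fin 2) (Fin 2) F) ⊗ₖ ((1 : GL (Fin b) F) : Matrix (Fin b) (Fin b) F)) *
            ((P⁻¹ : GL (Fin n) F) : Matrix (Fin n) (Fin n) F))
          = (P : Matrix (Fin n) (Fin n) F) * Matrix.reindexAlgEquiv F F e.symm
            ((JU : Matrix (Fin 2) (Fin 2) F) ⊗ₖ ((1 : GL (Fin b) F) : Matrix (Fin b) (Fin b) F)) *
            (((P⁻¹ : GL (Fin n) F) : Matrix (Fin n) (Fin n) F) *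
            (P : Matrix (Fin n) (Fin n) F)) * Matrix.reindexAlgEquiv F F e.symm
            ((JU : Matrix (Fin 2) (Fin 2) F) ⊗ₖ ((1 : GL (Fin b) F) : Matrix (Fin b) (Fin b) F)) *
            ((P⁻¹ : GL (Fin n) F) : Matrix (Fin n) (Fin n) F) := by simp only [Matrix.mul_assoc]
        _ = (P : Matrix (Fin n) (Fin n) F) * (Matrix.reindexAlgEquiv F F e.symm
            ((JU : Matrix (Fin 2) (Fin 2) F) ⊗ₖ ((1 : GL (Fin b) F) : Matrix (Fin b) (Fin b) F)) *
            Matrix.reindexAlgEquiv F F e.symm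
            ((JU : Matrix (Fin 2) (Fin 2) F) ⊗ₖ ((1 : GL (Fin b) F) : Matrix (Fin b) (Fin b) F))) *
            ((P⁻¹ : GL (Fin n) F) : Matrix (Fin n) (Fin n) F) := by
            rw [inv_mul_self', Matrix.mul_one]; simp only [Matrix.mul_assoc]
        _ = _ := by
            rw [← map_mul, ← Matrix.mul_kronecker_mul, hJ, Units.val_one, Matrix.one_mul, Matrix.smul_kronecker,
              Matrix.one_kronecker_one, map_smul, map_one, Matrix.mul_smul, Matrix.smul_mul, Matrix.mul_one,
              mul_inv_self']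
    have haev : ∀ w : GL (Fin n) F, (w : Matrix (Fin n) (Fin n) F) ^ 2 = z • (1 : Matrix (Fin n) (Fin n) F) →
        aeval (w : Matrix (Fin n) (Fin n) F) (X ^ 2 - C z : F[X]) = 0 := by
      intro w hw
      rw [map_sub, map_pow, aeval_X, aeval_C, hw, Algebra.algebraMap_eq_smul_one, sub_self]
    obtain ⟨g, hg1, hg2⟩ := exists_conj_sl hirr x y (haev x hz) (haev y hy2)
    exact ⟨g, (mem_sl g).2 hg1, by rw [hg2]; exact hy⟩

/-- Elements of prime order of PSL_n(q) and the stabilizers of tensor decompositions with factors of different dimensions. Here `T = PSL_n(F)` for a field `F` with `q` elements and `n = a·b` with `2 ≤ a < b`; a tensor decomposition `F^n ≅ F^a ⊗ F^b` is given by a bijection `e` of index sets and a change of basis `P`, and `H` is the subgroup of matrices of determinant 1 in its stabilizer (the conjugate by `P` of the group of Kronecker products `g₁ ⊗ g₂`) — a subgroup of type GL_a(q) ⊗ GL_b(q) (maximality is not assumed); Ω is the set of cosets of `H` in `T`, so an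 element of `T` of prime order `r` (a matrix `x` of determinant 1 with `x^r` scalar, `x` not scalar) fixes a point of Ω exactly when some conjugate of `x` by a matrix of determinant 1 lies in `H`. Let `r` be a prime dividing the index of `H`. Then every element of `T` of order `r` fixes a point of Ω if and only if `r = 2`, `a = 2`, `q` is odd and `(q − 1)_2 ≤ (n)_2` (2-parts). -/
theorem result {F : Type*} [Field F] [Fintype F] {p : ℕ} [Fact p.Prime] [CharP F p] {q : ℕ} (hq : Fintype.card F = q)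
    (n a b : ℕ) (hab : n = a * b) (ha : 2 ≤ a) (hlt : a < b) (e : Fin n ≃ Fin a × Fin b) (P : GL (Fin n) F)
    (r : ℕ) [Fact r.Prime]
    (hΩ : r ∣ (Cfsg.Geo.tensorProductSubgroup a b e P).relIndex (Cfsg.Geo.specialLinear (Fin n) F)) :
    (∀ x ∈ Cfsg.Geo.specialLinear (Fin n) F, (∃ z : F, ((x ^ r : GL (Fin n) F) : Matrix (Fin n) (Fin n) F) = z • (1 : Matrix (Fin n) (Fin n) F)) →
      (∀ z : F, (x : Matrix (Fin n) (Fin n) F) ≠ z • (1 : Matrix (Fin n) (Fin n) F)) →
      ∃ g ∈ Cfsg.Geo.specialLinear (Fin n) F, g⁻¹ * x * g ∈ Cfsg.Geo.tensorProductSubgroup a b e P) ↔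
    (r = 2 ∧ a = 2 ∧ Odd q ∧ padicValNat 2 (q - 1) ≤ padicValNat 2 n) := by
  constructor
  · exact fun H => forward hq n a b hab ha hlt e P r hΩ H
  · rintro ⟨rfl, rfl, hodd, hv⟩ x hx hz -
    exact backward hq n b hab hlt e P hodd hv x hx hz

end Cfsg.Agent.S5979
end
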