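import Mathlib
import Cfsg.Agent.S5979
import Cfsg.Agent.H955.Sp
import Cfsg.Agent.H953.Rank
import Cfsg.Agent.H956.PrimeElt
import Cfsg.Agent.H956.EigDual
import Cfsg.Agent.H956.SmallPrime
import Cfsg.Agent.ClassicalGeometry.Discriminant
import Cfsg.Statements.S5980
import Cfsg.Agent.H956.OrthSim
set_option linter.all false

-- part: H956/TensorElt2
section
/-!
# Tensor decompositions: exchanging the factors, structure of elements of prime order
-/

set_option autoImplicit false

namespace Cfsg.Agent.H956.TensorElt2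

open Matrix Polynomial
open scoped MatrixGroups Kronecker
open Cfsg.Agent.H956.EigMult Cfsg.Agent.H956.PrimeElt Cfsg.Agent.H956.TensorElt

section swap

variable {ι : Type} [Fintype ι] [DecidableEq ι] {F : Type*} [Field F]

theorem mem_swap {n₁ n₂ : ℕ} (e : ι ≃ Fin n₁ × Fin n₂) (P : GL ι F) (y : GL ι F)
    (h : y ∈ Cfsg.Geo.tensorProductSubgroup n₁ n₂ e P) :
    y ∈ Cfsg.Geo.tensorProductSubgroup n₂ n₁ (e.trans (Equiv.prodComm _ _)) P := by
  rw [mem_tensor_iff] at h ⊢
  obtain ⟨a, b, hab⟩ := h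
  refine ⟨b, a, ?_⟩
  rw [hab]
  congr 2
  ext i j
  simp only [Matrix.reindex_apply, Matrix.submatrix_apply, Matrix.kroneckerMap_apply, Equiv.symm_symm,
    Equiv.trans_apply, Equiv.prodComm_apply, Prod.fst_swap, Prod.snd_swap]
  exact mul_comm _ _

end swap

section tens

variable {ι : Type} [Fintype ι] [DecidableEq ι] {F : Type*} [Field F] [Fintype F]
variable (E : Type*) [Field E] [Algebra F E] [IsAlgClosed E]

/-- **Elements of order `r` of a tensor product group**, `i = ord_r(q) ≥ 2`: all multiplicities are divisible by `n₁`, or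
`i ≤ n₁` and the multiplicity of one is at most `n₁ n₂ - n₂ (i - 1)`. -/
theorem orbit_cases {q : ℕ} (hq : Fintype.card F = q) {n₁ n₂ : ℕ} (h₁ : 0 < n₁) (h₂ : 0 < n₂)
    (e : ι ≃ Fin n₁ × Fin n₂) (P g x : GL ι F) {r : ℕ} [Fact r.Prime] (hr : (r : F) ≠ 0)
    (h1 : orderOf (q : ZMod r) ≠ 1) (hx : (x : Matrix ι ι F) ^ r = (1 : Matrix ι ι F))
    (hg : g⁻¹ * x * g ∈ Cfsg.Geo.tensorProductSubgroup n₁ n₂ e P) [DecidableEq E] :
    (∀ z, n₁ ∣ (eig E (x : Matrix ι ι F)).count z) ∨
    (orderOf (q : ZMod r) ≤ n₁ ∧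
      (eig E (x : Matrix ι ι F)).count 1 + n₂ * (orderOf (q : ZMod r) - 1) ≤ n₁ * n₂) := by
  have hrp : r.Prime := Fact.out
  obtain ⟨α, β, a, b, hab, hs, hα, hβ, heig, hfα, hfβ⟩ := exists_eig_of_conj E hq h₁ h₂ e P g x hr (s := 1)
    (by rw [one_smul]; exact hx) hg
  rw [heig]
  have ha : a ≠ 0 := by rintro rfl; rw [zero_mul] at hab; exact hs hab.symm
  have hb : b ≠ 0 := by rintro rfl; rw [mul_zero] at hab; exact hs hab.symm
  have hr0 : r ≠ 0 := hrp.ne_zero
  have hβ0 : ∀ l, β l ≠ 0 := by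
    intro l hl
    have := hβ l
    rw [hl, zero_pow hr0] at this
    exact hb ((algebraMap F E).injective (by rw [← this, map_zero]))
  obtain ⟨t, ht, ht0⟩ := exists_root hq h1 a ha
  have htE : algebraMap F E t ≠ 0 := by
    intro h
    exact ht0 ((algebraMap F E).injective (by rw [h, map_zero]))
  by_cases hc : ∀ k, α k = algebraMap F E t
  · exact Or.inl (fun z => dvd_count_of_const α β _ hc z)
  · right
    push Not at hc
    obtain ⟨k, hk⟩ := hc
    -- `ζ = α k / t` is a primitive `r`-th root of unity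
    let ζ : E := α k / algebraMap F E t
    have hζ1 : ζ ≠ 1 := by
      intro h
      exact hk ((div_eq_one_iff_eq htE).1 h)
    have hζr : ζ ^ r = 1 := by
      rw [div_pow, hα, ← map_pow, ht, div_self]
      intro h
      exact ha ((algebraMap F E).injective (by rw [h, map_zero]))
    have hζ : IsPrimitiveRoot ζ r := by
      have h2 : orderOf ζ = r := orderOf_eq_prime hζr hζ1
      rw [← h2]
      exact IsPrimitiveRoot.orderOf ζ
    have htq : (algebraMap F E t) ^ q = algebraMap F E t := by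
      rw [← map_pow, ← hq, FiniteField.pow_card]
    -- all `t ζ ^ (q ^ j)` are values of `α`
    have hval : ∀ j : ℕ, ∃ k', α k' = algebraMap F E t * ζ ^ (q ^ j) := by
      intro j
      induction j with
      | zero => exact ⟨k, by rw [pow_zero, pow_one, mul_div_cancel₀ _ htE]⟩
      | succ j ih =>
        obtain ⟨k', hk'⟩ := ih
        have hmem : (α k') ^ q ∈ Finset.univ.val.map α := by
          rw [← hfα]
          exact Multiset.mem_map_of_mem _ (Multiset.mem_map_of_mem _ (Finset.mem_univ_val k'))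
        obtain ⟨k'', -, hk''⟩ := Multiset.mem_map.1 hmem
        refine ⟨k'', ?_⟩
        rw [hk'', hk', mul_pow, htq, pow_succ, pow_mul]
    let S : Finset E := (Finset.range (orderOf (q : ZMod r))).image (fun j => algebraMap F E t * ζ ^ (q ^ j))
    have hS : S.card = orderOf (q : ZMod r) := by
      rw [Finset.card_image_of_injOn, Finset.card_range]
      intro j hj l hl hjl
      simp only [Finset.coe_range, Set.mem_Iio] at hj hl
      exact pow_inj_of_prim hζ hj hl (mul_left_cancel₀ htE hjl)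
    have hmem : ∀ y ∈ S, ∃ k', α k' = y := by
      intro y hy
      obtain ⟨j, -, rfl⟩ := Finset.mem_image.1 hy
      exact hval j
    have := count_add_le α β hβ0 S hmem 1
    rw [hS] at this
    refine ⟨?_, this⟩
    rw [← hS]
    calc S.card ≤ (Finset.univ.image α).card := Finset.card_le_card (fun y hy => by
          obtain ⟨k', hk'⟩ := hmem y hy
          exact Finset.mem_image.2 ⟨k', Finset.mem_univ _, hk'⟩)
      _ ≤ (Finset.univ : Finset (Fin n₁)).card := Finset.card_image_le
      _ = n₁ := by simp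

/-- both factors: an eigenvalue of multiplicity prime to both, and a large multiplicity of one give a contradiction. -/
theorem false_of_conj_two {q : ℕ} (hq : Fintype.card F = q) {n₁ n₂ : ℕ} (h₁ : 0 < n₁) (h₂ : 0 < n₂)
    (e : ι ≃ Fin n₁ × Fin n₂) (P g x : GL ι F) {r : ℕ} [Fact r.Prime] (hr : (r : F) ≠ 0)
    (h1 : orderOf (q : ZMod r) ≠ 1) (hx : (x : Matrix ι ι F) ^ r = (1 : Matrix ι ι F))
    (hg : g⁻¹ * x * g ∈ Cfsg.Geo.tensorProductSubgroup n₁ n₂ e P) [DecidableEq E] (z : E)
    (hz₁ : ¬ n₁ ∣ (eig E (x : Matrix ι ι F)).count z) (hz₂ : ¬ n₂ ∣ (eig E (x : Matrix ι ι F)).count z)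
    (hw : n₁ < orderOf (q : ZMod r) ∨ n₂ < orderOf (q : ZMod r) ∨
      n₁ * n₂ < (eig E (x : Matrix ι ι F)).count 1 + n₂ * (orderOf (q : ZMod r) - 1) ∨
      n₁ * n₂ < (eig E (x : Matrix ι ι F)).count 1 + n₁ * (orderOf (q : ZMod r) - 1)) : False := by
  rcases orbit_cases E hq h₁ h₂ e P g x hr h1 hx hg with h | ⟨h, h'⟩
  · exact hz₁ (h z)
  rcases orbit_cases E hq h₂ h₁ _ P g x hr h1 hx (mem_swap e P _ hg) with k | ⟨k, k'⟩
  · exact hz₂ (k z)
  rw [mul_comm n₂ n₁] at k'
  omega

end tens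

end Cfsg.Agent.H956.TensorElt2
end

-- part: H956/SpElt
section
/-!
# Elements of odd prime order of symplectic groups with a simple eigenvalue
-/

set_option autoImplicit false

namespace Cfsg.Agent.H956.SpElt

open Matrix Polynomial
open scoped MatrixGroups
open Cfsg.Agent.H956.EigMult Cfsg.Agent.H956.PrimeElt Cfsg.Agent.H956.Conj

section mult

variable {E : Type*} [DecidableEq E]

theorem sum_count_le (m : Multiset E) (S : Finset E) : ∑ y ∈ S, m.count y ≤ Multiset.card m := by
  rw [← Multiset.toFinset_sum_count_eq m]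
  apply Finset.sum_le_sum_of_ne_zero
  intro x _ hx
  rw [Multiset.mem_toFinset]
  by_contra h
  exact hx (Multiset.count_eq_zero_of_notMem h)

/-- equal multiplicities on `S` -/
theorem card_mul_add_le (m : Multiset E) (S : Finset E) (w : E) (hw : w ∉ S) (k : ℕ) (hk : ∀ y ∈ S, m.count y = k) :
    S.card * k + m.count w ≤ Multiset.card m := by
  have h1 := sum_count_le m (insert w S)
  rw [Finset.sum_insert hw, Finset.sum_congr rfl hk, Finset.sum_const, smul_eq_mul] at h1
  omega

end mult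

section elt

variable {ι : Type*} [Fintype ι] [DecidableEq ι] {F : Type*} [Field F]
variable (E : Type*) [Field E] [Algebra F E] [IsAlgClosed E]

/-- **the multiplicity of the eigenvalue one** of a matrix with `x ^ r = 1`. -/
theorem count_one {r : ℕ} (hr : (r : F) ≠ 0) (x : Matrix ι ι F) (hx : x ^ r = 1) [DecidableEq E] :
    (eig E x).count 1 + (x - 1).rank = Fintype.card ι := by
  classical
  obtain ⟨S, d, hSd, hd⟩ := exists_diag E hr one_ne_zero x (by rw [hx, one_smul])
  rw [eig_of_diag x S d hSd]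
  have h1 : (x - 1).rank = (Matrix.diagonal (fun i => d i - 1) : Matrix ι ι E).rank := by
    rw [← Cfsg.Agent.H953.rank_map (algebraMap F E) (x - 1)]
    have h2 : (x - 1).map (algebraMap F E) = (S : Matrix ι ι E) * Matrix.diagonal (fun i => d i - 1) *
        ((S⁻¹ : GL ι E) : Matrix ι ι E) := by
      rw [Matrix.map_sub _ (map_sub _), hSd, Matrix.map_one _ (map_zero _) (map_one _)]
      have h3 : (Matrix.diagonal (fun i => d i - 1) : Matrix ι ι E) = Matrix.diagonal d - 1 := by
        rw [← Matrix.diagonal_one, Matrix.diagonal_sub]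
      rw [h3, Matrix.mul_sub, Matrix.sub_mul, Matrix.mul_one, mul_inv_self']
    rw [h2, Matrix.rank_mul_eq_left_of_isUnit_det, Matrix.rank_mul_eq_right_of_isUnit_det]
    · exact (Matrix.isUnit_iff_isUnit_det _).1 S.isUnit
    · exact (Matrix.isUnit_iff_isUnit_det _).1 (S⁻¹).isUnit
  rw [h1, Matrix.rank_diagonal, Multiset.count_map]
  have h4 : Multiset.card (Multiset.filter (fun a => 1 = d a) (Finset.univ : Finset ι).val) =
      ((Finset.univ : Finset ι).filter (fun a => 1 = d a)).card := rfl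
  rw [h4, Fintype.card_subtype, ← Finset.card_univ, ← Finset.card_filter_add_card_filter_not
    (s := (Finset.univ : Finset ι)) (fun a => 1 = d a)]
  congr 2
  ext i
  simp only [Finset.mem_filter, Finset.mem_univ, true_and, sub_ne_zero]
  rw [ne_comm]

end elt

section sp

variable {F : Type*} [Field F] [Fintype F]
variable (E : Type*) [Field E] [Algebra F E] [IsAlgClosed E]

open Cfsg.Agent.H955 Cfsg.Agent.LieClassical.OrthFinite Cfsg.Agent.ClassicalGeometry.SympBasic

omit [Fintype F] in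
/-- `xᵀ J x = J` for the elements of `spGL`. -/
theorem transpose_mul_J {d : ℕ} {x : GL (Fin d ⊕ Fin d) F} (hx : x ∈ Cfsg.spGL d F) :
    (x : Matrix (Fin d ⊕ Fin d) (Fin d ⊕ Fin d) F)ᵀ * Matrix.J (Fin d) F *
      (x : Matrix (Fin d ⊕ Fin d) (Fin d ⊕ Fin d) F) = Matrix.J (Fin d) F := by
  have h : ∀ u v : Fin d ⊕ Fin d → F,
      ((x : Matrix (Fin d ⊕ Fin d) (Fin d ⊕ Fin d) F) *ᵥ u) ⬝ᵥ (Matrix.J (Fin d) F *ᵥ
        ((x : Matrix (Fin d ⊕ Fin d) (Fin d ⊕ Fin d) F) *ᵥ v)) = u ⬝ᵥ (Matrix.J (Fin d) F *ᵥ v) := hx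
  ext i j
  have h1 := h (Pi.single i 1) (Pi.single j 1)
  rw [← Matrix.vecMul_transpose, ← Matrix.dotProduct_mulVec, Matrix.mulVec_mulVec, Matrix.mulVec_mulVec] at h1
  simpa using h1

omit [Fintype F] in
/-- `J` as an invertible matrix -/
theorem exists_J (d : ℕ) : ∃ G : GL (Fin d ⊕ Fin d) F, (G : Matrix (Fin d ⊕ Fin d) (Fin d ⊕ Fin d) F) = Matrix.J (Fin d) F :=
  ⟨Matrix.GeneralLinearGroup.mk'' (Matrix.J (Fin d) F) (Matrix.isUnit_det_J (Fin d) F), rfl⟩

/-- **An element of order `r` of `Sp_{2d}(q)` with a simple eigenvalue and `c` eigenvalues `≠ 1`.** -/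
theorem exists_sp_elt [DecidableEq E] {q r d : ℕ} (hq : Fintype.card F = q) [Fact r.Prime] (hr : (r : F) ≠ 0) (hr2 : r ≠ 2)
    (hd : cc q r ≤ 2 * d) :
    ∃ x ∈ Cfsg.spGL d F, x ^ r = 1 ∧
      (eig E (x : Matrix (Fin d ⊕ Fin d) (Fin d ⊕ Fin d) F)).count 1 + cc q r = 2 * d ∧
      ∃ z ∈ eig E (x : Matrix (Fin d ⊕ Fin d) (Fin d ⊕ Fin d) F), z ≠ 1 ∧ IsPrimitiveRoot z r ∧
        (eig E (x : Matrix (Fin d ⊕ Fin d) (Fin d ⊕ Fin d) F)).count z = 1 := by
  have hrp : r.Prime := Fact.out
  have hNq : Nat.card F = q := by rw [Nat.card_eq_fintype_card, hq]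
  have hrq : ¬ r ∣ q := PrimeElt.not_dvd_card hq hr
  obtain ⟨T, hT, hTr, hTc⟩ := exists_min_sp (r := r) (by rw [hNq]; exact hrq) (isSp_sympBilin d F)
    (by rw [hNq, finrank_symp]; exact hd)
  rw [hNq] at hTc
  let x : GL (Fin d ⊕ Fin d) F := (glEquiv (Fin d ⊕ Fin d) F).symm T
  have hxT : glEquiv (Fin d ⊕ Fin d) F x = T := MulEquiv.apply_symm_apply _ _
  have hxT' : ∀ v, (x : Matrix (Fin d ⊕ Fin d) (Fin d ⊕ Fin d) F) *ᵥ v = T v := by
    intro v
    rw [← hxT]
    rfl
  have hx : x ∈ Cfsg.spGL d F := mem_spGL_iff.2 (by rw [hxT]; exact hT)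
  have hxr : x ^ r = 1 := by
    simp only [x]
    rw [← map_pow, hTr, map_one]
  have hxr' : (x : Matrix (Fin d ⊕ Fin d) (Fin d ⊕ Fin d) F) ^ r = 1 := by
    rw [← Units.val_pow_eq_pow_val, hxr, Units.val_one]
  have hrank : ((x : Matrix (Fin d ⊕ Fin d) (Fin d ⊕ Fin d) F) - 1).rank = cc q r := by
    rw [← hTc, Matrix.rank]
    have h1 : Matrix.mulVecLin ((x : Matrix (Fin d ⊕ Fin d) (Fin d ⊕ Fin d) F) - 1) =
        (T : (Fin d ⊕ Fin d → F) →ₗ[F] (Fin d ⊕ Fin d → F)) - LinearMap.id := by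
      apply LinearMap.ext
      intro v
      rw [Matrix.mulVecLin_apply, Matrix.sub_mulVec, Matrix.one_mulVec, hxT']
      rfl
    rw [h1]
    rfl
  set m := eig E (x : Matrix (Fin d ⊕ Fin d) (Fin d ⊕ Fin d) F) with hm
  have hcard : Fintype.card (Fin d ⊕ Fin d) = 2 * d := by
    rw [Fintype.card_sum, Fintype.card_fin]; ring
  have hcount : m.count 1 + cc q r = 2 * d := by
    rw [← hrank, ← hcard]
    exact count_one E hr _ hxr'
  have hcc : 0 < cc q r := cc_pos hrq
  have hmc : Multiset.card m = 2 * d := by rw [hm, card_eig, hcard]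
  have hmr : ∀ z ∈ m, z ^ r = 1 := by
    intro z hz
    have := pow_eq_of_mem_eig hr one_ne_zero (x : Matrix (Fin d ⊕ Fin d) (Fin d ⊕ Fin d) F)
      (by rw [hxr', one_smul]) hz
    rwa [map_one] at this
  -- an eigenvalue `≠ 1`
  obtain ⟨z, hz, hz1⟩ : ∃ z ∈ m, z ≠ 1 := by
    by_contra hcon
    push Not at hcon
    have h1 : m = Multiset.replicate (Multiset.card m) 1 := Multiset.eq_replicate_card.2 hcon
    have h2 : m.count 1 = Multiset.card m := by
      rw [h1]; simp
    omega
  have hz0 : z ≠ 0 := by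
    rintro rfl
    have := hmr 0 hz
    rw [zero_pow hrp.ne_zero] at this
    exact zero_ne_one this
  have hzp : IsPrimitiveRoot z r := by
    have h2 : orderOf z = r := orderOf_eq_prime (hmr z hz) hz1
    rw [← h2]
    exact IsPrimitiveRoot.orderOf z
  -- Frobenius and inversion
  have hfrob : ∀ y, m.count (y ^ q) = m.count y := by
    intro y
    have hinj : Function.Injective (fun z : E => z ^ q) := by
      obtain ⟨p, hp⟩ := CharP.exists F
      have := hp
      have : Fact p.Prime := ⟨CharP.char_is_prime F p⟩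
      obtain ⟨⟨n, hn⟩, hn2⟩ := FiniteField.card F p
      have : CharP E p := charP_of_injective_algebraMap (algebraMap F E).injective p
      have h3 : (fun z : E => z ^ q) = ⇑(iterateFrobenius E p n) := by
        ext z
        rw [iterateFrobenius_def, ← hq, hn2.2]
        rfl
      rw [h3]
      exact (iterateFrobenius E p n).injective
    have h1 := eig_frob (E := E) hq (x : Matrix (Fin d ⊕ Fin d) (Fin d ⊕ Fin d) F)
    rw [← hm] at h1
    conv_lhs => rw [← h1]
    exact Multiset.count_map_eq_count' (fun z : E => z ^ q) m hinj y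
  have hfrob' : ∀ j y, m.count (y ^ (q ^ j)) = m.count y := by
    intro j
    induction j with
    | zero => intro y; rw [pow_zero, pow_one]
    | succ j ih => intro y; rw [pow_succ, pow_mul, hfrob, ih]
  have hinv : ∀ y, m.count y⁻¹ = m.count y := by
    intro y
    obtain ⟨G, hG⟩ := exists_J (F := F) d
    have h1 := eig_dual (E := E) hr one_ne_zero _ _ G (by rw [hxr', one_smul]) one_ne_zero
      (by rw [hG, transpose_mul_J hx, one_smul])
    rw [← hm] at h1
    have h2 : (fun z : E => algebraMap F E 1 / z) = fun z => z⁻¹ := by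
      ext z
      rw [map_one, one_div]
    rw [h2] at h1
    conv_lhs => rw [h1]
    exact Multiset.count_map_eq_count' (fun z : E => z⁻¹) m inv_injective y
  let S : Finset E := (Finset.range (orderOf (q : ZMod r))).image (fun j => z ^ (q ^ j))
  have hS : S.card = orderOf (q : ZMod r) := by
    rw [Finset.card_image_of_injOn, Finset.card_range]
    intro j hj l hl hjl
    simp only [Finset.coe_range, Set.mem_Iio] at hj hl
    exact pow_inj_of_prim hzp hj hl hjl
  have hSk : ∀ y ∈ S, m.count y = m.count z := by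
    intro y hy
    obtain ⟨j, -, rfl⟩ := Finset.mem_image.1 hy
    exact hfrob' j z
  have hS1 : (1 : E) ∉ S := by
    intro h
    obtain ⟨j, -, hj⟩ := Finset.mem_image.1 h
    have h1 := hzp.dvd_of_pow_eq_one _ hj
    exact hrq (hrp.dvd_of_dvd_pow h1)
  -- the final count
  have hfin : cc q r * m.count z + m.count 1 ≤ 2 * d := by
    rw [← hmc]
    by_cases he : Even (orderOf (q : ZMod r))
    · have h1 : cc q r = S.card := by rw [hS]; unfold cc; rw [if_pos he]
      rw [h1]
      exact card_mul_add_le m S 1 hS1 _ hSk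
    · have hdisj : Disjoint S (S.image (fun y => y⁻¹)) := by
        rw [Finset.disjoint_left]
        intro y hy hy'
        obtain ⟨j, -, rfl⟩ := Finset.mem_image.1 hy
        obtain ⟨y', hy'', hyy⟩ := Finset.mem_image.1 hy'
        obtain ⟨k, -, rfl⟩ := Finset.mem_image.1 hy''
        have h1 : z ^ (q ^ j + q ^ k) = 1 := by
          rw [pow_add, ← hyy, inv_mul_cancel₀ (pow_ne_zero _ hz0)]
        have h3 := hzp.dvd_of_pow_eq_one _ h1
        rw [← ZMod.natCast_eq_zero_iff] at h3
        push_cast at h3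
        have h4 : (q : ZMod r) ^ j = -(q : ZMod r) ^ k := by linear_combination h3
        have h5 : ∀ l, ((q : ZMod r) ^ l) ^ orderOf (q : ZMod r) = 1 := by
          intro l
          rw [← pow_mul, mul_comm, pow_mul, pow_orderOf_eq_one, one_pow]
        have h6 := h5 j
        rw [h4, Odd.neg_pow (Nat.not_even_iff_odd.1 he), h5] at h6
        have h2 : ((2 : ℕ) : ZMod r) = 0 := by
          push_cast
          linear_combination -h6
        rw [ZMod.natCast_eq_zero_iff] at h2
        exact hr2 ((Nat.prime_dvd_prime_iff_eq hrp Nat.prime_two).1 h2)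
      have h1 : cc q r = (S ∪ S.image (fun y => y⁻¹)).card := by
        rw [Finset.card_union_of_disjoint hdisj, Finset.card_image_of_injective _ inv_injective, hS]
        unfold cc
        rw [if_neg he]
        ring
      rw [h1]
      refine card_mul_add_le m _ 1 ?_ _ ?_
      · intro h
        rcases Finset.mem_union.1 h with h | h
        · exact hS1 h
        · obtain ⟨y, hy, hy'⟩ := Finset.mem_image.1 h
          rw [inv_eq_one] at hy'
          exact hS1 (hy' ▸ hy)
      · intro y hy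
        rcases Finset.mem_union.1 hy with h | h
        · exact hSk y h
        · obtain ⟨y', hy', rfl⟩ := Finset.mem_image.1 h
          rw [hinv]
          exact hSk y' hy'
  refine ⟨x, hx, hxr, hcount, z, hz, hz1, hzp, ?_⟩
  have hpos : 1 ≤ m.count z := Multiset.one_le_count_iff_mem.2 hz
  have h7 : cc q r * m.count z ≤ cc q r * 1 := by omega
  exact le_antisymm (Nat.le_of_mul_le_mul_left h7 hcc) hpos

end sp

end Cfsg.Agent.H956.SpElt
end

-- part: H956/SpConj
section
/-!
# Conjugacy of involutions and of square roots of `-1` in symplectic groups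
-/

set_option autoImplicit false

namespace Cfsg.Agent.H956.SpConj

open Module Cfsg.Agent.H955

universe u v w

section invol

variable {F : Type u} [Field F] {V : Type v} [AddCommGroup V] [Module F V] [FiniteDimensional F V]
  {V' : Type w} [AddCommGroup V'] [Module F V'] [FiniteDimensional F V']

/-- **Involutions of symplectic spaces with commutator spaces of the same dimension are conjugate.** -/
theorem conj_of_sq_one (h2 : (2 : F) ≠ 0) {B : LinearMap.BilinForm F V} {B' : LinearMap.BilinForm F V'}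
    (hB : IsSp B) (hB' : IsSp B') {T : V ≃ₗ[F] V} {T' : V' ≃ₗ[F] V'} (hT : T ∈ IsoB B) (hT' : T' ∈ IsoB B')
    (hTT : T ^ 2 = 1) (hTT' : T' ^ 2 = 1) (hd : finrank F V = finrank F V')
    (hc : finrank F (comS T) = finrank F (comS T')) :
    ∃ e : V ≃ₗ[F] V', (∀ u v, B' (e u) (e v) = B u v) ∧ ∀ v, e (T v) = T' (e v) := by
  have h2' : ((2 : ℕ) : F) ≠ 0 := by exact_mod_cast h2
  have hsq : ∀ v, T (T v) = v := fun v => by
    have := LinearEquiv.congr_fun hTT v
    rwa [pow_two, LinearEquiv.mul_apply] at this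
  have hsq' : ∀ v, T' (T' v) = v := fun v => by
    have := LinearEquiv.congr_fun hTT' v
    rwa [pow_two, LinearEquiv.mul_apply] at this
  have hW := ndOn_comS hB.nd hT h2' hTT
  have hW' := ndOn_comS hB'.nd hT' h2' hTT'
  have h1 := hB.finrank_orth hW
  have h1' := hB'.finrank_orth hW'
  obtain ⟨e₁, he₁⟩ := exists_sp_equiv (hB.res hW) (hB'.res hW') hc
  obtain ⟨e₂, he₂⟩ := exists_sp_equiv (hB.res (hB.ndOn_orth hW)) (hB'.res (hB'.ndOn_orth hW')) (by omega)
  obtain ⟨e, he, h3, h4, -⟩ := exists_glue hB hB' hW hW' e₁ he₁ e₂ he₂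
  refine ⟨e, he, ?_⟩
  -- the action of `T`
  have hneg : ∀ w ∈ comS T, T w = -w := by
    intro w hw
    obtain ⟨y, rfl⟩ := mem_comS.1 hw
    rw [map_sub, hsq, neg_sub]
  have hneg' : ∀ w ∈ comS T', T' w = -w := by
    intro w hw
    obtain ⟨y, rfl⟩ := mem_comS.1 hw
    rw [map_sub, hsq', neg_sub]
  have hpos : ∀ w ∈ orth B (comS T), T w = w := by
    intro w hw
    have : T w - w = 0 := by
      apply hW _ (sub_mem_comS T w)
      intro y hy
      have h5 : B y (T w) = 0 := by
        have h6 := hneg y hy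
        have h7 : y = T (-y) := by rw [map_neg, h6, neg_neg]
        rw [h7, hT, map_neg, LinearMap.neg_apply, hw y hy, neg_zero]
      rw [hB.swap, map_sub, h5, hw y hy, sub_zero, neg_zero]
    exact sub_eq_zero.1 this
  have hpos' : ∀ w ∈ orth B' (comS T'), T' w = w := by
    intro w hw
    have : T' w - w = 0 := by
      apply hW' _ (sub_mem_comS T' w)
      intro y hy
      have h5 : B' y (T' w) = 0 := by
        have h6 := hneg' y hy
        have h7 : y = T' (-y) := by rw [map_neg, h6, neg_neg]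
        rw [h7, hT', map_neg, LinearMap.neg_apply, hw y hy, neg_zero]
      rw [hB'.swap, map_sub, h5, hw y hy, sub_zero, neg_zero]
    exact sub_eq_zero.1 this
  intro v
  obtain ⟨a, b, rfl⟩ := exists_add_compl (hW.isCompl hB.eps) v
  rw [map_add, map_add, map_add, map_add, hneg a a.2, hpos b b.2, map_neg, h3, h4, hneg' _ (e₁ a).2, hpos' _ (e₂ b).2]

end invol

section negOne

variable {F : Type u} [Field F]

/-- a basis of a plane -/
theorem exists_plane_basis {V : Type v} [AddCommGroup V] [Module F V] [FiniteDimensional F V]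
    {B : LinearMap.BilinForm F V} (hB : IsSp B) {u w : V} (h : B u w = 1) :
    ∃ b : Basis (Fin 2) F (Submodule.span F {u, w}), (b 0 : V) = u ∧ (b 1 : V) = w := by
  have hu : u ∈ Submodule.span F {u, w} := Submodule.subset_span (by simp)
  have hw : w ∈ Submodule.span F {u, w} := Submodule.subset_span (by simp)
  let vec : Fin 2 → Submodule.span F {u, w} := ![⟨u, hu⟩, ⟨w, hw⟩]
  have hli : LinearIndependent F vec := by
    rw [LinearIndependent.pair_iff]
    intro a b hab
    have hab' : a • u + b • w = 0 := congrArg Subtype.val hab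
    have h3 : B w u = -1 := by rw [hB.swap, h]
    have h1 : B (a • u + b • w) u = 0 := by rw [hab', map_zero, LinearMap.zero_apply]
    have h2 : B (a • u + b • w) w = 0 := by rw [hab', map_zero, LinearMap.zero_apply]
    simp only [map_add, map_smul, LinearMap.add_apply, LinearMap.smul_apply, hB.alt, smul_eq_mul,
      mul_zero, zero_add, add_zero, h, h3, mul_one, mul_neg, neg_eq_zero] at h1 h2
    exact ⟨h2, h1⟩
  let b := basisOfLinearIndependentOfCardEqFinrank hli (by
    rw [Fintype.card_fin, finrank_pair hB (by rw [h]; exact one_ne_zero)])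
  refine ⟨b, ?_, ?_⟩
  · simp [b, vec]
  · simp [b, vec]

theorem conj_neg_one [Finite F] (h2 : (2 : F) ≠ 0) (n : ℕ) :
    ∀ {V : Type v} [AddCommGroup V] [Module F V] [FiniteDimensional F V]
      {V' : Type w} [AddCommGroup V'] [Module F V'] [FiniteDimensional F V']
      (B : LinearMap.BilinForm F V) (B' : LinearMap.BilinForm F V') (_ : IsSp B) (_ : IsSp B')
      (T : V →ₗ[F] V) (T' : V' →ₗ[F] V') (_ : ∀ u v, B (T u) (T v) = B u v)
      (_ : ∀ u v, B' (T' u) (T' v) = B' u v) (_ : ∀ v, T (T v) = -v) (_ : ∀ v, T' (T' v) = -v)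
      (_ : finrank F V = 2 * n) (_ : finrank F V' = 2 * n),
      ∃ e : V ≃ₗ[F] V', (∀ u v, B' (e u) (e v) = B u v) ∧ ∀ v, e (T v) = T' (e v) := by
  induction n with
  | zero =>
    intro V _ _ _ V' _ _ _ B B' _ _ T T' _ _ _ _ hd hd'
    have hs : Subsingleton V := by
      rw [← Module.finrank_zero_iff (R := F)]; omega
    have hs' : Subsingleton V' := by
      rw [← Module.finrank_zero_iff (R := F)]; omega
    refine ⟨LinearEquiv.ofFinrankEq _ _ (hd.trans hd'.symm), fun u v => ?_, fun v => Subsingleton.elim _ _⟩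
    rw [Subsingleton.elim u 0, map_zero, map_zero, map_zero, LinearMap.zero_apply, LinearMap.zero_apply]
  | succ n ih =>
    intro V _ _ _ V' _ _ _ B B' hB hB' T T' hT hT' hTT hTT' hd hd'
    -- vectors with `B u (T u) = 1`
    have hex : ∃ u, B u (T u) = 1 := by
      let g : LinearMap.BilinForm F V := B.compRight T
      have hg : ∀ u v, g u v = B u (T v) := fun u v => rfl
      have hS : g.IsSymm := by
        refine ⟨fun u v => ?_⟩
        rw [hg, hg, ← hT u, hTT, map_neg, hB.swap (T u) v, neg_neg]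
      have hnd : g.Nondegenerate := by
        refine (LinearMap.IsRefl.nondegenerate_iff_separatingLeft hS.isRefl).2 fun x hx => ?_
        apply hB.nd
        intro y
        have h5 : y = T (-(T y)) := by rw [map_neg, hTT, neg_neg]
        rw [h5]
        exact hx _
      exact Cfsg.Agent.ClassicalGeometry.Discriminant.exists_value h2 g hS hnd (by omega) 1
    have hex' : ∃ u, B' u (T' u) = 1 := by
      let g : LinearMap.BilinForm F V' := B'.compRight T'
      have hg : ∀ u v, g u v = B' u (T' v) := fun u v => rfl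
      have hS : g.IsSymm := by
        refine ⟨fun u v => ?_⟩
        rw [hg, hg, ← hT' u, hTT', map_neg, hB'.swap (T' u) v, neg_neg]
      have hnd : g.Nondegenerate := by
        refine (LinearMap.IsRefl.nondegenerate_iff_separatingLeft hS.isRefl).2 fun x hx => ?_
        apply hB'.nd
        intro y
        have h5 : y = T' (-(T' y)) := by rw [map_neg, hTT', neg_neg]
        rw [h5]
        exact hx _
      exact Cfsg.Agent.ClassicalGeometry.Discriminant.exists_value h2 g hS hnd (by omega) 1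
    obtain ⟨u, hu⟩ := hex
    obtain ⟨u', hu'⟩ := hex'
    obtain ⟨W, hWdef⟩ : ∃ W, W = Submodule.span F {u, T u} := ⟨_, rfl⟩
    obtain ⟨W', hWdef'⟩ : ∃ W', W' = Submodule.span F {u', T' u'} := ⟨_, rfl⟩
    obtain ⟨b, hb0, hb1⟩ : ∃ b : Basis (Fin 2) F W, (b 0 : V) = u ∧ (b 1 : V) = T u := by
      rw [hWdef]; exact exists_plane_basis hB hu
    obtain ⟨b', hb0', hb1'⟩ : ∃ b : Basis (Fin 2) F W', (b 0 : V') = u' ∧ (b 1 : V') = T' u' := by
      rw [hWdef']; exact exists_plane_basis hB' hu'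
    have hW : NdOn B W := by rw [hWdef]; exact ndOn_pair hB (by rw [hu]; exact one_ne_zero)
    have hW' : NdOn B' W' := by rw [hWdef']; exact ndOn_pair hB' (by rw [hu']; exact one_ne_zero)
    have hfW : finrank F W = 2 := by rw [hWdef]; exact finrank_pair hB (by rw [hu]; exact one_ne_zero)
    have hfW' : finrank F W' = 2 := by rw [hWdef']; exact finrank_pair hB' (by rw [hu']; exact one_ne_zero)
    let e₁ : W ≃ₗ[F] W' := b.equiv b' (Equiv.refl _)
    have hform : ∀ x : W, ∃ s t : F, (x : V) = s • u + t • T u ∧ (e₁ x : V') = s • u' + t • T' u' := by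
      intro x
      refine ⟨b.repr x 0, b.repr x 1, ?_, ?_⟩
      · have h5 := b.sum_repr x
        rw [Fin.sum_univ_two] at h5
        have h6 := congrArg Subtype.val h5
        rw [Submodule.coe_add, Submodule.coe_smul, Submodule.coe_smul, hb0, hb1] at h6
        exact h6.symm
      · have h5 := b.sum_repr x
        rw [Fin.sum_univ_two] at h5
        have h6 := congrArg (fun y => (e₁ y : V')) h5
        simp only [map_add, map_smul] at h6
        rw [← h6, Submodule.coe_add, Submodule.coe_smul, Submodule.coe_smul]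
        simp only [e₁, Basis.equiv_apply, Equiv.refl_apply]
        rw [hb0', hb1']
    have hBu : B (T u) u = -1 := by rw [hB.swap, hu]
    have hBu' : B' (T' u') u' = -1 := by rw [hB'.swap, hu']
    have he₁ : ∀ x y : W, B' (e₁ x : V') (e₁ y : V') = B (x : V) (y : V) := by
      intro x y
      obtain ⟨s, t, hx, hx'⟩ := hform x
      obtain ⟨s', t', hy, hy'⟩ := hform y
      rw [hx, hx', hy, hy']
      simp only [map_add, map_smul, LinearMap.add_apply, LinearMap.smul_apply, hB.alt, hB'.alt, smul_eq_mul, hu, hu',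
        hBu, hBu']
    have hTW : ∀ x ∈ W, T x ∈ W := by
      intro x hx
      rw [hWdef] at hx
      obtain ⟨s, t, rfl⟩ := Submodule.mem_span_pair.1 hx
      rw [map_add, map_smul, map_smul, hTT, hWdef]
      exact Submodule.add_mem _ (Submodule.smul_mem _ _ (Submodule.subset_span (by simp)))
        (Submodule.smul_mem _ _ (Submodule.neg_mem _ (Submodule.subset_span (by simp))))
    have hTW' : ∀ x ∈ W', T' x ∈ W' := by
      intro x hx
      rw [hWdef'] at hx
      obtain ⟨s, t, rfl⟩ := Submodule.mem_span_pair.1 hx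
      rw [map_add, map_smul, map_smul, hTT', hWdef']
      exact Submodule.add_mem _ (Submodule.smul_mem _ _ (Submodule.subset_span (by simp)))
        (Submodule.smul_mem _ _ (Submodule.neg_mem _ (Submodule.subset_span (by simp))))
    have hTO : ∀ x ∈ orth B W, T x ∈ orth B W := by
      intro x hx w hw
      have h5 : w = T (-(T w)) := by rw [map_neg, hTT, neg_neg]
      rw [h5, hT]
      exact hx _ (W.neg_mem (hTW w hw))
    have hTO' : ∀ x ∈ orth B' W', T' x ∈ orth B' W' := by
      intro x hx w hw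
      have h5 : w = T' (-(T' w)) := by rw [map_neg, hTT', neg_neg]
      rw [h5, hT']
      exact hx _ (W'.neg_mem (hTW' w hw))
    have hdO := hB.finrank_orth hW
    have hdO' := hB'.finrank_orth hW'
    obtain ⟨e₂, he₂, he₂'⟩ := ih (resB B (orth B W)) (resB B' (orth B' W')) (hB.res (hB.ndOn_orth hW))
      (hB'.res (hB'.ndOn_orth hW')) (T.restrict hTO) (T'.restrict hTO') (fun x y => hT x y) (fun x y => hT' x y)
      (fun x => Subtype.ext (hTT x)) (fun x => Subtype.ext (hTT' x)) (by omega) (by omega)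
    obtain ⟨e, he, h3, h4, -⟩ := exists_glue hB hB' hW hW' e₁ he₁ e₂ he₂
    refine ⟨e, he, fun v => ?_⟩
    obtain ⟨x, y, rfl⟩ := exists_add_compl (hW.isCompl hB.eps) v
    rw [map_add, map_add, map_add, map_add]
    congr 1
    · obtain ⟨s, t, hx, hx'⟩ := hform x
      obtain ⟨s', t', hy, hy'⟩ := hform ⟨T x, hTW x x.2⟩
      have h5 : e (T (x : V)) = (e₁ ⟨T x, hTW x x.2⟩ : V') := h3 ⟨T x, hTW x x.2⟩
      rw [h5, h3, hy', hx', map_add, map_smul, map_smul, hTT']
      -- compare coordinates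
      have hy2 : T (x : V) = s' • u + t' • T u := hy
      rw [hx, map_add, map_smul, map_smul, hTT] at hy2
      have h6 := congrArg (fun v => B v u) hy2
      have h7 := congrArg (fun v => B v (T u)) hy2
      simp only [map_add, map_smul, LinearMap.add_apply, LinearMap.smul_apply, hB.alt, smul_eq_mul, hu, hBu, map_neg,
        LinearMap.neg_apply, mul_zero, mul_one, mul_neg, neg_zero, add_zero, zero_add, neg_inj] at h6 h7
      rw [← h6, ← h7, smul_neg, neg_smul, add_comm]
    · have h5 : e (T (y : V)) = (e₂ (T.restrict hTO y) : V') := h4 (T.restrict hTO y)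
      rw [h5, he₂', h4]
      rfl

end negOne

end Cfsg.Agent.H956.SpConj
end

-- part: S5980
section
set_option autoImplicit false
open scoped MatrixGroups
open Cfsg

namespace Cfsg.Agent.S5980

open Matrix Polynomial
open scoped Kronecker
open Cfsg.Agent.H956.EigMult Cfsg.Agent.H956.PrimeElt Cfsg.Agent.H956.TensorElt Cfsg.Agent.H956.Conj
open Cfsg.Agent.H956.DiagElt Cfsg.Agent.H956.FieldArith Cfsg.Agent.H956.TensorElt2 Cfsg.Agent.H956.SpElt
open Cfsg.Agent.ClassicalGeometry.SympBasic Cfsg.Agent.H955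

variable {F : Type*} [Field F]

/-- diagonal symplectic matrices -/
theorem diag_mem_sp {d : ℕ} (δ : Fin d ⊕ Fin d → F) (hδ : ∀ i, δ i ≠ 0)
    (h : ∀ i, δ (Sum.inl i) * δ (Sum.inr i) = 1) : diagU δ hδ ∈ Cfsg.spGL d F := by
  intro u v
  change sympForm d F ((diagU δ hδ : Matrix _ _ F) *ᵥ u) ((diagU δ hδ : Matrix _ _ F) *ᵥ v) = sympForm d F u v
  rw [coe_diagU, sympForm_eq_sum, sympForm_eq_sum]
  refine Finset.sum_congr rfl fun i _ => ?_
  simp only [Matrix.mulVec_diagonal]
  linear_combination (u (Sum.inr i) * v (Sum.inl i) - u (Sum.inl i) * v (Sum.inr i)) * h i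

/-- transvections in the symplectic group -/
theorem transvection_mem_sp {d : ℕ} (i : Fin d) (x : GL (Fin d ⊕ Fin d) F)
    (hx : (x : Matrix (Fin d ⊕ Fin d) (Fin d ⊕ Fin d) F) = Matrix.transvection (Sum.inl i) (Sum.inr i) 1) :
    x ∈ Cfsg.spGL d F := by
  intro u v
  change sympForm d F ((x : Matrix _ _ F) *ᵥ u) ((x : Matrix _ _ F) *ᵥ v) = sympForm d F u v
  have h1 : (x : Matrix (Fin d ⊕ Fin d) (Fin d ⊕ Fin d) F) = sympTransvection d (Pi.single (Sum.inl i) 1) 1 := by
    rw [hx, sympTransvection_def, Matrix.transvection, one_smul]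
    congr 1
    ext k l
    rw [Matrix.vecMulVec_apply, Matrix.single_apply]
    rcases l with l | l
    · have h0 : (Pi.single (Sum.inl i) (1 : F) : Fin d ⊕ Fin d → F) (Sum.inr l) = 0 :=
        Pi.single_eq_of_ne (by simp) _
      rw [J_mulVec_inl, h0, neg_zero, mul_zero, if_neg]
      rintro ⟨-, h⟩
      exact absurd h (by simp)
    · rw [J_mulVec_inr]
      by_cases hk : Sum.inl i = k
      · subst hk
        by_cases hl : i = l
        · subst hl
          simp
        · rw [if_neg (by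
            rintro ⟨-, h⟩
            exact hl (Sum.inr_injective h)), Pi.single_eq_same, Pi.single_eq_of_ne (by
            intro h
            exact hl (Sum.inl_injective h).symm), mul_zero]
      · rw [if_neg (by
          rintro ⟨h, -⟩
          exact hk h), Pi.single_eq_of_ne (fun h => hk h.symm), zero_mul]
  rw [h1]
  exact sympForm_mulVec (sympTransvection_mem _ _) u v

theorem forward [Fintype F] {p : ℕ} [Fact p.Prime] [CharP F p] {q : ℕ} (hq : Fintype.card F = q)
    (hodd : Odd q) (d : ℕ) (hd : 2 ≤ d) (a b : ℕ) (hab : 2 * d = a * b) (ha : Even a) (ha2 : 2 ≤ a) (hb : 3 ≤ b)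
    (e : (Fin d ⊕ Fin d) ≃ Fin a × Fin b) (P : GL (Fin d ⊕ Fin d) F)
    (r : ℕ) [Fact r.Prime]
    (hΩ : r ∣ (Cfsg.Geo.tensorProductSubgroup a b e P).relIndex (Cfsg.spGL d F))
    (H : ∀ x ∈ Cfsg.spGL d F, (∃ z : F, ((x ^ r : GL (Fin d ⊕ Fin d) F) : Matrix (Fin d ⊕ Fin d) (Fin d ⊕ Fin d) F) = z • (1 : Matrix (Fin d ⊕ Fin d) (Fin d ⊕ Fin d) F)) →
      (∀ z : F, (x : Matrix (Fin d ⊕ Fin d) (Fin d ⊕ Fin d) F) ≠ z • (1 : Matrix (Fin d ⊕ Fin d) (Fin d ⊕ Fin d) F)) →
      ∃ g ∈ Cfsg.spGL d F, g⁻¹ * x * g ∈ Cfsg.Geo.tensorProductSubgroup a b e P) : r = 2 ∧ a = 2 := by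
  classical
  have hrp : r.Prime := Fact.out
  have h2 := two_ne_zero_of_odd hq hodd
  by_contra hneg
  by_cases hrF : (r : F) = 0
  · have hrp' : r = p := by
      have h1 := (CharP.cast_eq_zero_iff F p r).1 hrF
      exact ((Nat.prime_dvd_prime_iff_eq Fact.out hrp).1 h1).symm
    subst hrp'
    let i0 : Fin d := ⟨0, by omega⟩
    obtain ⟨x, hx1, hx2, hx3, hx4⟩ := exists_transvection (F := F) r (Sum.inl i0 : Fin d ⊕ Fin d) (Sum.inr i0) (by simp)
    obtain ⟨g, -, hg⟩ := H x (transvection_mem_sp i0 x hx1) ⟨1, by rw [hx3, one_smul, Units.val_one]⟩ (by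
      intro z hz
      have h1 := congrFun (congrFun hz (Sum.inl i0)) (Sum.inr i0)
      rw [hx1] at h1
      simp [Matrix.transvection] at h1)
    exact false_of_conj_rank_one ha2 (by omega) e P g x hx4 hg
  -- a diagonal element
  have key : ∀ ζ : F, ζ ^ r = 1 → ζ ≠ 1 → (¬ a ∣ (if ζ = ζ⁻¹ then 2 else 1)) → False := by
    intro ζ hζr hζ1 hdvd
    have hζ0 : ζ ≠ 0 := by
      rintro rfl
      rw [zero_pow hrp.ne_zero] at hζr
      exact zero_ne_one hζr
    have hζi1 : ζ⁻¹ ≠ 1 := by rwa [Ne, inv_eq_one]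
    let i0 : Fin d := ⟨0, by omega⟩
    let i1 : Fin d := ⟨1, by omega⟩
    have hi01 : i1 ≠ i0 := by simp [i0, i1]
    let δ : Fin d ⊕ Fin d → F := Sum.elim (Function.update (fun _ => 1) i0 ζ) (Function.update (fun _ => 1) i0 ζ⁻¹)
    have hδl : ∀ i, δ (Sum.inl i) = if i = i0 then ζ else 1 := by
      intro i
      simp only [δ, Sum.elim_inl, Function.update_apply]
    have hδr : ∀ i, δ (Sum.inr i) = if i = i0 then ζ⁻¹ else 1 := by
      intro i
      simp only [δ, Sum.elim_inr, Function.update_apply]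
    have hδ0 : ∀ i, δ i ≠ 0 := by
      rintro (i | i)
      · rw [hδl]; split_ifs
        · exact hζ0
        · exact one_ne_zero
      · rw [hδr]; split_ifs
        · exact inv_ne_zero hζ0
        · exact one_ne_zero
    have hδ : ∀ i, δ (Sum.inl i) * δ (Sum.inr i) = 1 := by
      intro i
      rw [hδl, hδr]
      split_ifs
      · exact mul_inv_cancel₀ hζ0
      · exact mul_one 1
    have hδpow : ∀ i, δ i ^ r = 1 := by
      rintro (i | i)
      · rw [hδl]; split_ifs
        · exact hζr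
        · exact one_pow r
      · rw [hδr]; split_ifs
        · rw [inv_pow, hζr, inv_one]
        · exact one_pow r
    let x := diagU δ hδ0
    have hx : (x : Matrix (Fin d ⊕ Fin d) (Fin d ⊕ Fin d) F) = Matrix.diagonal δ := coe_diagU δ hδ0
    have hpow : (x : Matrix (Fin d ⊕ Fin d) (Fin d ⊕ Fin d) F) ^ r = (1 : F) • (1 : Matrix (Fin d ⊕ Fin d) (Fin d ⊕ Fin d) F) := by
      rw [hx]
      exact diagonal_pow_eq δ r 1 hδpow
    obtain ⟨g, -, hg⟩ := H x (diag_mem_sp δ hδ0 hδ) ⟨1, by rw [Units.val_pow_eq_pow_val, hpow]⟩ (by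
      intro z hz
      have e1 := congrFun (congrFun hz (Sum.inl i0)) (Sum.inl i0)
      have e2 := congrFun (congrFun hz (Sum.inl i1)) (Sum.inl i1)
      rw [hx] at e1 e2
      simp only [Matrix.diagonal_apply_eq, Matrix.smul_apply, Matrix.one_apply_eq, smul_eq_mul, mul_one] at e1 e2
      rw [hδl, if_pos rfl] at e1
      rw [hδl, if_neg hi01] at e2
      exact hζ1 (by rw [e1, e2]))
    have heig : eig (AlgebraicClosure F) (x : Matrix (Fin d ⊕ Fin d) (Fin d ⊕ Fin d) F) =
        ((Finset.univ : Finset (Fin d ⊕ Fin d)).val.map δ).map (algebraMap F (AlgebraicClosure F)) :=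
      eig_of_eq_diagonal _ δ _ hx rfl
    have hinj : Function.Injective (algebraMap F (AlgebraicClosure F)) := (algebraMap F (AlgebraicClosure F)).injective
    have hcnt : ∀ w : F, (eig (AlgebraicClosure F) (x : Matrix (Fin d ⊕ Fin d) (Fin d ⊕ Fin d) F)).count (algebraMap F _ w) =
        ((Finset.univ : Finset (Fin d ⊕ Fin d)).filter (fun k => w = δ k)).card := by
      intro w
      rw [heig, Multiset.count_map_eq_count' _ _ hinj, Multiset.count_map]
      rfl
    have hcard : Fintype.card (Fin d ⊕ Fin d) = 2 * d := by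
      rw [Fintype.card_sum, Fintype.card_fin]; ring
    refine false_of_conj (AlgebraicClosure F) hq (by omega) (by omega) e P g x hrF hpow hg
      (algebraMap F (AlgebraicClosure F) ζ) (algebraMap F (AlgebraicClosure F) 1) ?_ ?_
    · rw [hcnt]
      have h3 : ((Finset.univ : Finset (Fin d ⊕ Fin d)).filter (fun k => ζ = δ k)).card = if ζ = ζ⁻¹ then 2 else 1 := by
        by_cases hζζ : ζ = ζ⁻¹
        · rw [if_pos hζζ]
          have h4 : ((Finset.univ : Finset (Fin d ⊕ Fin d)).filter (fun k => ζ = δ k)) = {Sum.inl i0, Sum.inr i0} := by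
            ext k
            simp only [Finset.mem_filter, Finset.mem_univ, true_and, Finset.mem_insert, Finset.mem_singleton]
            rcases k with k | k
            · rw [hδl]
              by_cases hk : k = i0
              · simp [hk]
              · rw [if_neg hk]
                constructor
                · intro h; exact absurd h hζ1
                · rintro (h | h)
                  · exact absurd (Sum.inl_injective h) hk
                  · exact absurd h (by simp)
            · rw [hδr]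
              by_cases hk : k = i0
              · simp [hk, ← hζζ]
              · rw [if_neg hk]
                constructor
                · intro h; exact absurd h hζ1
                · rintro (h | h)
                  · exact absurd h (by simp)
                  · exact absurd (Sum.inr_injective h) hk
          rw [h4, Finset.card_pair (by simp)]
        · rw [if_neg hζζ]
          have h4 : ((Finset.univ : Finset (Fin d ⊕ Fin d)).filter (fun k => ζ = δ k)) = {Sum.inl i0} := by
            ext k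
            simp only [Finset.mem_filter, Finset.mem_univ, true_and, Finset.mem_singleton]
            rcases k with k | k
            · rw [hδl]
              by_cases hk : k = i0
              · simp [hk]
              · rw [if_neg hk]
                constructor
                · intro h; exact absurd h hζ1
                · intro h
                  exact absurd (Sum.inl_injective h) hk
            · rw [hδr]
              by_cases hk : k = i0
              · rw [if_pos hk]
                constructor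
                · intro h; exact absurd h hζζ
                · intro h; exact absurd h (by simp)
              · rw [if_neg hk]
                constructor
                · intro h; exact absurd h hζ1
                · intro h; exact absurd h (by simp)
          rw [h4, Finset.card_singleton]
      rw [h3]
      exact hdvd
    · rw [hcnt, ← hab]
      have h5 : ((Finset.univ : Finset (Fin d ⊕ Fin d)).filter (fun k => ¬ (1 : F) = δ k)).card ≤ 2 := by
        have h4 : ((Finset.univ : Finset (Fin d ⊕ Fin d)).filter (fun k => ¬ (1 : F) = δ k)) ⊆ {Sum.inl i0, Sum.inr i0} := by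
          intro k hk
          simp only [Finset.mem_filter, Finset.mem_univ, true_and] at hk
          simp only [Finset.mem_insert, Finset.mem_singleton]
          rcases k with k | k
          · rw [hδl] at hk
            by_cases h : k = i0
            · exact Or.inl (by rw [h])
            · rw [if_neg h] at hk
              exact absurd rfl hk
          · rw [hδr] at hk
            by_cases h : k = i0
            · exact Or.inr (by rw [h])
            · rw [if_neg h] at hk
              exact absurd rfl hk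
        exact (Finset.card_le_card h4).trans Finset.card_le_two
      have h6 := Finset.card_filter_add_card_filter_not (s := (Finset.univ : Finset (Fin d ⊕ Fin d))) (fun k => (1 : F) = δ k)
      rw [Finset.card_univ, hcard] at h6
      omega
  by_cases hr2 : r = 2
  · subst hr2
    have hneg1 : (-1 : F) ≠ 1 := neg_one_ne_one h2
    refine key (-1) (by norm_num) hneg1 ?_
    rw [if_pos (by norm_num)]
    intro h
    have h1 := Nat.le_of_dvd (by norm_num) h
    exact hneg ⟨rfl, by omega⟩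
  have hrq : ¬ r ∣ q := not_dvd_card hq hrF
  have hq0 : 0 < q := by rw [← hq]; exact Fintype.card_pos
  by_cases h1 : orderOf (q : ZMod r) = 1
  · have hrq1 : r ∣ q - 1 := by
      have := (dvd_pow_sub_one_iff (r := r) hq0 1).2 (by rw [h1])
      rwa [pow_one] at this
    obtain ⟨ζ, hζ⟩ := exists_prim hq hrq1
    have hζ0 : ζ ≠ 0 := hζ.ne_zero hrp.ne_zero
    refine key ζ hζ.pow_eq_one (hζ.ne_one hrp.one_lt) ?_
    rw [if_neg]
    · intro h
      have := Nat.le_of_dvd (by norm_num) h
      omega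
    · intro h
      have h2 : ζ ^ 2 = 1 := by rw [pow_two]; nth_rewrite 2 [h]; exact mul_inv_cancel₀ hζ0
      have h3 := Nat.le_of_dvd (by norm_num) (hζ.dvd_of_pow_eq_one _ h2)
      have := hrp.two_le
      omega
  -- `i ≥ 2`
  have hi0 : orderOf (q : ZMod r) ≠ 0 := (orderOf_pos' hrq).ne'
  have hcc : cc q r ≤ 2 * d := by
    have h3 : r ∣ Nat.card (Cfsg.spGL d F) := hΩ.trans (Subgroup.relIndex_dvd_card _ _)
    rw [card_spGL, Nat.card_eq_fintype_card, hq] at h3
    rcases (Nat.Prime.dvd_mul hrp).1 h3 with h | h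
    · exact absurd (hrp.dvd_of_dvd_pow h) hrq
    rw [Prime.dvd_finsetProd_iff (Nat.prime_iff.1 hrp)] at h
    obtain ⟨j, hj, hj'⟩ := h
    have hjd := Finset.mem_range.1 hj
    have h4 := (dvd_pow_sub_one_iff hq0 _).1 hj'
    unfold cc
    split_ifs with he
    · have := Nat.le_of_dvd (by omega) h4
      omega
    · have h5 : orderOf (q : ZMod r) ∣ j + 1 :=
        Nat.Coprime.dvd_of_dvd_mul_left (Nat.coprime_two_right.2 (Nat.not_even_iff_odd.1 he)) h4
      have := Nat.le_of_dvd (by omega) h5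
      omega
  obtain ⟨x, hx, hxr, hc1, z, hz, hz1, hzp, hcz⟩ := exists_sp_elt (AlgebraicClosure F) hq hrF hr2 hcc
  have hxr' : (x : Matrix (Fin d ⊕ Fin d) (Fin d ⊕ Fin d) F) ^ r = 1 := by
    rw [← Units.val_pow_eq_pow_val, hxr, Units.val_one]
  have hz0 : z ≠ 0 := hzp.ne_zero hrp.ne_zero
  have hnsc : ∀ s : F, (x : Matrix (Fin d ⊕ Fin d) (Fin d ⊕ Fin d) F) ≠ s • (1 : Matrix (Fin d ⊕ Fin d) (Fin d ⊕ Fin d) F) := by
    intro s hs
    rw [hs, eig_scalar] at hcz
    have h3 := hz
    rw [hs, eig_scalar] at h3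
    rw [Multiset.eq_of_mem_replicate h3, Multiset.count_replicate, if_pos rfl, Fintype.card_sum, Fintype.card_fin] at hcz
    omega
  obtain ⟨g, -, hg⟩ := H x hx ⟨1, by rw [hxr, one_smul, Units.val_one]⟩ hnsc
  refine false_of_conj_two (AlgebraicClosure F) hq (by omega) (by omega) e P g x hrF h1 hxr' hg z ?_ ?_ ?_
  · rw [hcz]
    intro h
    have := Nat.le_of_dvd (by norm_num) h
    omega
  · rw [hcz]
    intro h
    have := Nat.le_of_dvd (by norm_num) h
    omega
  · rw [← hab]
    have h3 : 3 * (orderOf (q : ZMod r) - 1) ≤ b * (orderOf (q : ZMod r) - 1) := Nat.mul_le_mul_right _ hb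
    unfold cc at hc1
    by_cases he : Even (orderOf (q : ZMod r))
    · rw [if_pos he] at hc1
      omega
    · rw [if_neg he] at hc1
      have hodd' := Nat.not_even_iff_odd.1 he
      obtain ⟨k, hk⟩ := hodd'
      by_cases h4 : orderOf (q : ZMod r) = 3
      · by_cases hb3 : b = 3
        · obtain ⟨l, hl⟩ := ha
          by_cases ha' : a = 2
          · left; omega
          · right; right; right
            have h5 : 4 ≤ a := by omega
            have h6 : 4 * (orderOf (q : ZMod r) - 1) ≤ a * (orderOf (q : ZMod r) - 1) := Nat.mul_le_mul_right _ h5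
            omega
        · have h6 : 4 * (orderOf (q : ZMod r) - 1) ≤ b * (orderOf (q : ZMod r) - 1) :=
            Nat.mul_le_mul_right _ (by omega)
          omega
      · omega

/-- tensor products of isometries are isometries. -/
theorem mem_sp_of_tensor {d a b : ℕ} (e : (Fin d ⊕ Fin d) ≃ Fin a × Fin b) (P : GL (Fin d ⊕ Fin d) F)
    (f₁ : (Fin a → F) → (Fin a → F) → F) (f₂ : (Fin b → F) → (Fin b → F) → F)
    (hS : Cfsg.Geo.IsTensorFormStructure id (Cfsg.sympForm d F) f₁ f₂ e P)
    (A : Matrix (Fin a) (Fin a) F) (B : Matrix (Fin b) (Fin b) F)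
    (hA : Aᵀ * Cfsg.Geo.gramMatrix f₁ * A = Cfsg.Geo.gramMatrix f₁)
    (hB : Bᵀ * Cfsg.Geo.gramMatrix f₂ * B = Cfsg.Geo.gramMatrix f₂)
    (y : GL (Fin d ⊕ Fin d) F) (hy : (y : Matrix (Fin d ⊕ Fin d) (Fin d ⊕ Fin d) F) =
      (P : Matrix (Fin d ⊕ Fin d) (Fin d ⊕ Fin d) F) * Matrix.reindex e.symm e.symm (A ⊗ₖ B) *
        ((P⁻¹ : GL (Fin d ⊕ Fin d) F) : Matrix (Fin d ⊕ Fin d) (Fin d ⊕ Fin d) F)) : y ∈ Cfsg.spGL d F := by
  obtain ⟨c, hc, hS⟩ := hS
  have hform : ∀ (G : Matrix (Fin a × Fin b) (Fin a × Fin b) F) (x y : Fin a × Fin b → F),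
      Cfsg.Geo.formOfGram id G x y = x ⬝ᵥ (G *ᵥ y) := by
    intro G x y
    simp only [Cfsg.Geo.formOfGram, dotProduct, Matrix.mulVec, Finset.mul_sum, id_eq, mul_assoc]
  have hrep : ∀ u : Fin d ⊕ Fin d → F, (P : Matrix (Fin d ⊕ Fin d) (Fin d ⊕ Fin d) F) *ᵥ
      (((((P⁻¹ : GL (Fin d ⊕ Fin d) F) : Matrix (Fin d ⊕ Fin d) (Fin d ⊕ Fin d) F) *ᵥ u) ∘ e.symm) ∘ e) = u := by
    intro u
    have h1 : (((((P⁻¹ : GL (Fin d ⊕ Fin d) F) : Matrix (Fin d ⊕ Fin d) (Fin d ⊕ Fin d) F) *ᵥ u) ∘ e.symm) ∘ e) =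
        (((P⁻¹ : GL (Fin d ⊕ Fin d) F) : Matrix (Fin d ⊕ Fin d) (Fin d ⊕ Fin d) F) *ᵥ u) := by
      ext i
      simp
    rw [h1, Matrix.mulVec_mulVec, mul_inv_self', Matrix.one_mulVec]
  have hact : ∀ u : Fin d ⊕ Fin d → F, (y : Matrix (Fin d ⊕ Fin d) (Fin d ⊕ Fin d) F) *ᵥ u =
      (P : Matrix (Fin d ⊕ Fin d) (Fin d ⊕ Fin d) F) *ᵥ (((A ⊗ₖ B) *ᵥ
        ((((P⁻¹ : GL (Fin d ⊕ Fin d) F) : Matrix (Fin d ⊕ Fin d) (Fin d ⊕ Fin d) F) *ᵥ u) ∘ e.symm)) ∘ e) := by
    intro u
    rw [hy, ← Matrix.mulVec_mulVec, ← Matrix.mulVec_mulVec, Matrix.reindex_apply, Equiv.symm_symm,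
      Matrix.submatrix_mulVec_equiv]
  intro u v
  change sympForm d F ((y : Matrix _ _ F) *ᵥ u) ((y : Matrix _ _ F) *ᵥ v) = sympForm d F u v
  conv_rhs => rw [← hrep u, ← hrep v]
  rw [hact, hact, hS, hS, hform, hform]
  congr 1
  rw [← Matrix.vecMul_transpose, ← Matrix.dotProduct_mulVec, Matrix.mulVec_mulVec, Matrix.mulVec_mulVec]
  congr 2
  have h2 : (A ⊗ₖ B)ᵀ = Aᵀ ⊗ₖ Bᵀ := by
    ext i j
    rfl
  rw [h2, ← Matrix.mul_kronecker_mul, ← Matrix.mul_kronecker_mul, hA, hB]

theorem conj_mul_conj {κ : Type*} [Fintype κ] [DecidableEq κ] (P : GL κ F) (M N : Matrix κ κ F) :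
    (P : Matrix κ κ F) * M * ((P⁻¹ : GL κ F) : Matrix κ κ F) * ((P : Matrix κ κ F) * N * ((P⁻¹ : GL κ F) : Matrix κ κ F)) =
      (P : Matrix κ κ F) * (M * N) * ((P⁻¹ : GL κ F) : Matrix κ κ F) := by
  calc (P : Matrix κ κ F) * M * ((P⁻¹ : GL κ F) : Matrix κ κ F) * ((P : Matrix κ κ F) * N * ((P⁻¹ : GL κ F) : Matrix κ κ F))
      = (P : Matrix κ κ F) * M * (((P⁻¹ : GL κ F) : Matrix κ κ F) * (P : Matrix κ κ F)) * N *
        ((P⁻¹ : GL κ F) : Matrix κ κ F) := by simp only [Matrix.mul_assoc]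
    _ = _ := by rw [inv_mul_self', Matrix.mul_one, ← Matrix.mul_assoc]

/-- a bilinear form in terms of its Gram matrix -/
theorem bil_eq {κ : Type} [Fintype κ] [DecidableEq κ] {f : (κ → F) → (κ → F) → F} (hf : Cfsg.Geo.IsBilinearForm f)
    (u v : κ → F) : f u v = u ⬝ᵥ (Cfsg.Geo.gramMatrix f *ᵥ v) := by
  let B : (κ → F) →ₗ[F] (κ → F) →ₗ[F] F :=
    LinearMap.mk₂ F f (fun x y v => hf.add_left x y v) (fun c x v => by rw [hf.smul_left, smul_eq_mul])
      (fun x y v => hf.add_right x y v) (fun c x v => by rw [hf.smul_right, smul_eq_mul])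
  have hB : ∀ u v, B u v = f u v := fun u v => rfl
  rw [← hB]
  have hu : u = ∑ i, u i • (Pi.single i (1 : F) : κ → F) := pi_eq_sum_univ' u
  have hv : v = ∑ i, v i • (Pi.single i (1 : F) : κ → F) := pi_eq_sum_univ' v
  have h1 : B u v = ∑ i, u i * ∑ j, v j * B (Pi.single i 1) (Pi.single j 1) := by
    conv_lhs => rw [hu, hv]
    simp only [map_sum, map_smul, LinearMap.sum_apply, LinearMap.smul_apply, smul_eq_mul, Finset.mul_sum]
    rw [Finset.sum_comm]
    refine Finset.sum_congr rfl fun i _ => Finset.sum_congr rfl fun j _ => ?_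
    ring
  rw [h1]
  simp only [dotProduct, Matrix.mulVec, Cfsg.Geo.gramMatrix, hB]
  refine Finset.sum_congr rfl fun i _ => ?_
  congr 1
  refine Finset.sum_congr rfl fun j _ => mul_comm _ _

open Cfsg.Agent.LieClassical.OrthFinite

/-- conjugacy in `spGL` from a conjugating isometry. -/
theorem conj_of_iso {d : ℕ} (x y : GL (Fin d ⊕ Fin d) F)
    (h : ∃ g : (Fin d ⊕ Fin d → F) ≃ₗ[F] (Fin d ⊕ Fin d → F),
      (∀ u v, sympBilin d F (g u) (g v) = sympBilin d F u v) ∧
      ∀ v, g ((x : Matrix (Fin d ⊕ Fin d) (Fin d ⊕ Fin d) F) *ᵥ v) = (y : Matrix (Fin d ⊕ Fin d) (Fin d ⊕ Fin d) F) *ᵥ (g v)) :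
    ∃ g ∈ Cfsg.spGL d F, g⁻¹ * x * g = y := by
  obtain ⟨g, hg, hgx⟩ := h
  let G := (glEquiv (Fin d ⊕ Fin d) F).symm g
  have hG : glEquiv (Fin d ⊕ Fin d) F G = g := MulEquiv.apply_symm_apply _ _
  have hG' : ∀ v, (G : Matrix (Fin d ⊕ Fin d) (Fin d ⊕ Fin d) F) *ᵥ v = g v := by
    intro v
    rw [← hG]
    rfl
  refine ⟨G⁻¹, inv_mem (mem_spGL_iff.2 (by rw [hG]; exact hg)), ?_⟩
  rw [inv_inv]
  have key : G * x = y * G := by
    ext1
    apply Matrix.toLin'.injective
    apply LinearMap.ext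
    intro v
    rw [Matrix.toLin'_apply, Matrix.toLin'_apply, Units.val_mul, Units.val_mul, ← Matrix.mulVec_mulVec,
      ← Matrix.mulVec_mulVec, hG', hG', hgx]
  rw [key, mul_inv_cancel_right]

theorem finrank_comS {d : ℕ} (x : GL (Fin d ⊕ Fin d) F) :
    Module.finrank F (comS (glEquiv (Fin d ⊕ Fin d) F x)) =
      ((x : Matrix (Fin d ⊕ Fin d) (Fin d ⊕ Fin d) F) - 1).rank := by
  rw [Matrix.rank]
  have h1 : Matrix.mulVecLin ((x : Matrix (Fin d ⊕ Fin d) (Fin d ⊕ Fin d) F) - 1) =
      (glEquiv (Fin d ⊕ Fin d) F x : (Fin d ⊕ Fin d → F) →ₗ[F] (Fin d ⊕ Fin d → F)) - LinearMap.id := by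
    apply LinearMap.ext
    intro v
    rw [Matrix.mulVecLin_apply, Matrix.sub_mulVec, Matrix.one_mulVec]
    rfl
  rw [h1]
  rfl

theorem backward [Fintype F] {q : ℕ} (hq : Fintype.card F = q)
    (hodd : Odd q) (d : ℕ) (hd : 2 ≤ d) (b : ℕ) (hab : 2 * d = 2 * b)
    (e : (Fin d ⊕ Fin d) ≃ Fin 2 × Fin b) (P : GL (Fin d ⊕ Fin d) F)
    (f₁ : (Fin 2 → F) → (Fin 2 → F) → F) (f₂ : (Fin b → F) → (Fin b → F) → F)
    (hf₁ : Cfsg.Geo.IsSymplecticForm f₁) (hf₂ : Cfsg.Geo.IsSymmetricForm f₂)
    (hS : Cfsg.Geo.IsTensorFormStructure id (Cfsg.sympForm d F) f₁ f₂ e P)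
    (x : GL (Fin d ⊕ Fin d) F) (hx : x ∈ Cfsg.spGL d F) {z : F}
    (hxz : (x : Matrix (Fin d ⊕ Fin d) (Fin d ⊕ Fin d) F) ^ 2 = z • (1 : Matrix (Fin d ⊕ Fin d) (Fin d ⊕ Fin d) F)) :
    ∃ g ∈ Cfsg.spGL d F, g⁻¹ * x * g ∈ Cfsg.Geo.tensorProductSubgroup 2 b e P := by
  classical
  have h2 := two_ne_zero_of_odd hq hodd
  have hbd : b = d := by omega
  have : Nonempty (Fin b) := ⟨⟨0, by omega⟩⟩
  -- `z = ± 1`
  have hz : z = 1 ∨ z = -1 := by
    have h1 := transpose_mul_J hx
    have h3 : ((x : Matrix (Fin d ⊕ Fin d) (Fin d ⊕ Fin d) F) ^ 2)ᵀ * Matrix.J (Fin d) F *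
        (x : Matrix (Fin d ⊕ Fin d) (Fin d ⊕ Fin d) F) ^ 2 = Matrix.J (Fin d) F := by
      rw [pow_two, Matrix.transpose_mul]
      calc (x : Matrix (Fin d ⊕ Fin d) (Fin d ⊕ Fin d) F)ᵀ * (x : Matrix (Fin d ⊕ Fin d) (Fin d ⊕ Fin d) F)ᵀ *
            Matrix.J (Fin d) F * ((x : Matrix (Fin d ⊕ Fin d) (Fin d ⊕ Fin d) F) *
            (x : Matrix (Fin d ⊕ Fin d) (Fin d ⊕ Fin d) F))
          = (x : Matrix (Fin d ⊕ Fin d) (Fin d ⊕ Fin d) F)ᵀ * ((x : Matrix (Fin d ⊕ Fin d) (Fin d ⊕ Fin d) F)ᵀ *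
            Matrix.J (Fin d) F * (x : Matrix (Fin d ⊕ Fin d) (Fin d ⊕ Fin d) F)) *
            (x : Matrix (Fin d ⊕ Fin d) (Fin d ⊕ Fin d) F) := by simp only [Matrix.mul_assoc]
        _ = _ := by rw [h1, h1]
    rw [hxz, Matrix.transpose_smul, Matrix.transpose_one, Matrix.smul_mul, Matrix.one_mul, Matrix.mul_smul,
      Matrix.mul_one, smul_smul] at h3
    have h4 := congrFun (congrFun h3 (Sum.inr ⟨0, by omega⟩)) (Sum.inl ⟨0, by omega⟩)
    have h5 : Matrix.J (Fin d) F (Sum.inr ⟨0, by omega⟩) (Sum.inl ⟨0, by omega⟩) = 1 := by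
      simp [Matrix.J]
    rw [Matrix.smul_apply, h5, smul_eq_mul, mul_one] at h4
    exact mul_self_eq_one_iff.1 h4
  rcases hz with rfl | rfl
  · -- involutions
    rw [one_smul] at hxz
    have hxx : x ^ 2 = 1 := by
      ext1
      rw [Units.val_pow_eq_pow_val, hxz, Units.val_one]
    -- the rank is even
    let T := glEquiv (Fin d ⊕ Fin d) F x
    have hT : T ∈ IsoB (F := F) (V := Fin d ⊕ Fin d → F) (sympBilin d F) := mem_spGL_iff.1 hx
    have hTT : T ^ 2 = 1 := by
      simp only [T]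
      rw [← map_pow, hxx, map_one]
    have h2' : ((2 : ℕ) : F) ≠ 0 := by exact_mod_cast h2
    have hnd := ndOn_comS (isSp_sympBilin d F).nd hT h2' hTT
    obtain ⟨k, hk⟩ := (isSp_sympBilin d F).even_of_ndOn hnd
    rw [finrank_comS] at hk
    have hkb : k ≤ b := by
      have := Matrix.rank_le_card_width ((x : Matrix (Fin d ⊕ Fin d) (Fin d ⊕ Fin d) F) - 1)
      rw [Fintype.card_sum, Fintype.card_fin] at this
      omega
    -- the orthogonal involution
    have hG2T : (Cfsg.Geo.gramMatrix f₂)ᵀ = Cfsg.Geo.gramMatrix f₂ := by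
      ext i j
      exact hf₂.symm _ _
    have hG2 : (Cfsg.Geo.gramMatrix f₂).det ≠ 0 := by
      intro h
      obtain ⟨v, hv, hv'⟩ := Matrix.exists_mulVec_eq_zero_iff.2 h
      obtain ⟨-, ⟨w, hw⟩⟩ := hf₂.nondegenerate v hv
      apply hw
      rw [hf₂.symm, bil_eq hf₂.bilinear, hv', dotProduct_zero]
    let i0 : Fin b := ⟨0, by omega⟩
    obtain ⟨P₂, -, hP₂⟩ := Cfsg.Agent.H956.OrthSim.exists_diag h2 (Cfsg.Geo.gramMatrix f₂) hG2T hG2
      (Function.update (fun _ => (1 : F)) i0 (Cfsg.Geo.gramMatrix f₂).det)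
      (by rw [Finset.prod_update_of_mem (Finset.mem_univ i0)]; simp)
    let δ : Fin b → F := fun j => if (j : ℕ) < k then -1 else 1
    have hδ0 : ∀ j, δ j ≠ 0 := by
      intro j
      simp only [δ]
      split_ifs
      · exact neg_ne_zero.2 one_ne_zero
      · exact one_ne_zero
    have hδδ : ∀ j, δ j * δ j = 1 := by
      intro j
      simp only [δ]
      split_ifs <;> ring
    let D := diagU δ hδ0
    have hD : (D : Matrix (Fin b) (Fin b) F) = Matrix.diagonal δ := coe_diagU δ hδ0
    have hDD : D * D = 1 := by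
      ext1
      rw [Units.val_mul, hD, Matrix.diagonal_mul_diagonal, Units.val_one]
      simp only [hδδ]
      exact Matrix.diagonal_one
    let B₂ : GL (Fin b) F := P₂ * D * P₂⁻¹
    have hBB : B₂ * B₂ = 1 := by
      calc B₂ * B₂ = P₂ * (D * D) * P₂⁻¹ := by simp only [B₂]; group
        _ = 1 := by rw [hDD, mul_one, mul_inv_cancel]
    obtain ⟨y, hyH, hy⟩ := exists_mem_tensor e P (1 : GL (Fin 2) F) B₂
    have hysp : y ∈ Cfsg.spGL d F := by
      refine mem_sp_of_tensor e P f₁ f₂ hS ((1 : GL (Fin 2) F) : Matrix (Fin 2) (Fin 2) F)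
        (B₂ : Matrix (Fin b) (Fin b) F) (by
          rw [Units.val_one, Matrix.transpose_one, Matrix.one_mul, Matrix.mul_one]) ?_ y hy
      have hPt : ((P₂⁻¹ : GL (Fin b) F) : Matrix (Fin b) (Fin b) F)ᵀ * (P₂ : Matrix (Fin b) (Fin b) F)ᵀ = 1 := by
        rw [← Matrix.transpose_mul, mul_inv_self', Matrix.transpose_one]
      calc (B₂ : Matrix (Fin b) (Fin b) F)ᵀ * Cfsg.Geo.gramMatrix f₂ * (B₂ : Matrix (Fin b) (Fin b) F)
          = ((P₂⁻¹ : GL (Fin b) F) : Matrix (Fin b) (Fin b) F)ᵀ * (Matrix.diagonal δ *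
            ((P₂ : Matrix (Fin b) (Fin b) F)ᵀ * Cfsg.Geo.gramMatrix f₂ * (P₂ : Matrix (Fin b) (Fin b) F)) *
            Matrix.diagonal δ) * ((P₂⁻¹ : GL (Fin b) F) : Matrix (Fin b) (Fin b) F) := by
            simp only [B₂]
            rw [Units.val_mul, Units.val_mul, Matrix.transpose_mul, Matrix.transpose_mul, hD, Matrix.diagonal_transpose]
            simp only [Matrix.mul_assoc]
        _ = ((P₂⁻¹ : GL (Fin b) F) : Matrix (Fin b) (Fin b) F)ᵀ *
            ((P₂ : Matrix (Fin b) (Fin b) F)ᵀ * Cfsg.Geo.gramMatrix f₂ * (P₂ : Matrix (Fin b) (Fin b) F)) *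
            ((P₂⁻¹ : GL (Fin b) F) : Matrix (Fin b) (Fin b) F) := by
            congr 2
            rw [hP₂, Matrix.diagonal_mul_diagonal, Matrix.diagonal_mul_diagonal]
            congr 1
            ext j
            rw [mul_comm, ← mul_assoc, hδδ, one_mul]
        _ = (((P₂⁻¹ : GL (Fin b) F) : Matrix (Fin b) (Fin b) F)ᵀ * (P₂ : Matrix (Fin b) (Fin b) F)ᵀ) *
            Cfsg.Geo.gramMatrix f₂ * ((P₂ : Matrix (Fin b) (Fin b) F) *
              ((P₂⁻¹ : GL (Fin b) F) : Matrix (Fin b) (Fin b) F)) := by simp only [Matrix.mul_assoc]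
        _ = _ := by rw [hPt, mul_inv_self', Matrix.one_mul, Matrix.mul_one]
    have hyy : y ^ 2 = 1 := by
      ext1
      rw [pow_two, Units.val_mul, hy]
      have h6 : Matrix.reindex e.symm e.symm (((1 : GL (Fin 2) F) : Matrix (Fin 2) (Fin 2) F) ⊗ₖ
          (B₂ : Matrix (Fin b) (Fin b) F)) * Matrix.reindex e.symm e.symm (((1 : GL (Fin 2) F) :
          Matrix (Fin 2) (Fin 2) F) ⊗ₖ (B₂ : Matrix (Fin b) (Fin b) F)) = 1 := by
        rw [Matrix.reindex_apply, Matrix.submatrix_mul_equiv, ← Matrix.mul_kronecker_mul, Units.val_one, Matrix.one_mul,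
          ← Units.val_mul, hBB, Units.val_one, Matrix.one_kronecker_one, Matrix.submatrix_one_equiv]
      rw [conj_mul_conj, h6, Matrix.mul_one, mul_inv_self', Units.val_one]
    have hrank : ((y : Matrix (Fin d ⊕ Fin d) (Fin d ⊕ Fin d) F) - 1).rank = k + k := by
      have h6 : (y : Matrix (Fin d ⊕ Fin d) (Fin d ⊕ Fin d) F) - 1 =
          (P : Matrix (Fin d ⊕ Fin d) (Fin d ⊕ Fin d) F) * Matrix.reindex e.symm e.symm
            ((1 : Matrix (Fin 2) (Fin 2) F) ⊗ₖ ((B₂ : Matrix (Fin b) (Fin b) F) - 1)) *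
          ((P⁻¹ : GL (Fin d ⊕ Fin d) F) : Matrix (Fin d ⊕ Fin d) (Fin d ⊕ Fin d) F) := by
        have h7 : Matrix.reindex e.symm e.symm ((1 : Matrix (Fin 2) (Fin 2) F) ⊗ₖ ((B₂ : Matrix (Fin b) (Fin b) F) - 1)) =
            Matrix.reindex e.symm e.symm ((1 : Matrix (Fin 2) (Fin 2) F) ⊗ₖ (B₂ : Matrix (Fin b) (Fin b) F)) - 1 := by
          ext i j
          simp only [Matrix.reindex_apply, Matrix.submatrix_apply, Matrix.kroneckerMap_apply, Matrix.sub_apply,
            Equiv.symm_symm, mul_sub]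
          congr 1
          rw [Matrix.one_apply, Matrix.one_apply, Matrix.one_apply]
          by_cases hij : i = j
          · subst hij; simp
          · rw [if_neg hij]
            by_cases h8 : (e i).1 = (e j).1
            · rw [if_neg (fun h9 => hij (e.injective (Prod.ext h8 h9))), mul_zero]
            · rw [if_neg h8, zero_mul]
        rw [h7, Matrix.mul_sub, Matrix.sub_mul, Matrix.mul_one, mul_inv_self', hy, Units.val_one]
      have h9 : ((B₂ : Matrix (Fin b) (Fin b) F) - 1) = (P₂ : Matrix (Fin b) (Fin b) F) *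
          Matrix.diagonal (fun j => δ j - 1) * ((P₂⁻¹ : GL (Fin b) F) : Matrix (Fin b) (Fin b) F) := by
        have h10 : (Matrix.diagonal (fun j => δ j - 1) : Matrix (Fin b) (Fin b) F) = Matrix.diagonal δ - 1 := by
          rw [← Matrix.diagonal_one, Matrix.diagonal_sub]
        rw [h10, Matrix.mul_sub, Matrix.sub_mul, Matrix.mul_one, mul_inv_self']
        simp only [B₂]
        rw [Units.val_mul, Units.val_mul, hD]
      have hdetU : ∀ {κ : Type} [Fintype κ] [DecidableEq κ] (g : GL κ F), IsUnit (g : Matrix κ κ F).det :=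
        fun g => (Matrix.isUnit_iff_isUnit_det _).1 g.isUnit
      rw [h6, Matrix.rank_mul_eq_left_of_isUnit_det _ _ (hdetU _), Matrix.rank_mul_eq_right_of_isUnit_det _ _ (hdetU _),
        Matrix.rank_reindex]
      have h11 : (1 : Matrix (Fin 2) (Fin 2) F) ⊗ₖ ((B₂ : Matrix (Fin b) (Fin b) F) - 1) =
          ((1 : Matrix (Fin 2) (Fin 2) F) ⊗ₖ (P₂ : Matrix (Fin b) (Fin b) F)) *
          (Matrix.diagonal (fun p : Fin 2 × Fin b => δ p.2 - 1)) *
          ((1 : Matrix (Fin 2) (Fin 2) F) ⊗ₖ ((P₂⁻¹ : GL (Fin b) F) : Matrix (Fin b) (Fin b) F)) := by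
        have h12 : (Matrix.diagonal (fun p : Fin 2 × Fin b => δ p.2 - 1) : Matrix (Fin 2 × Fin b) (Fin 2 × Fin b) F) =
            (1 : Matrix (Fin 2) (Fin 2) F) ⊗ₖ Matrix.diagonal (fun j => δ j - 1) := by
          rw [← Matrix.diagonal_one, Matrix.diagonal_kronecker_diagonal]
          simp
        rw [h12, ← Matrix.mul_kronecker_mul, ← Matrix.mul_kronecker_mul, Matrix.one_mul, Matrix.one_mul, h9]
      rw [h11, Matrix.rank_mul_eq_left_of_isUnit_det, Matrix.rank_mul_eq_right_of_isUnit_det, Matrix.rank_diagonal]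
      · rw [Fintype.card_subtype]
        have h13 : (Finset.univ.filter (fun p : Fin 2 × Fin b => δ p.2 - 1 ≠ 0)) =
            (Finset.univ : Finset (Fin 2)) ×ˢ (Finset.univ.filter (fun j : Fin b => (j : ℕ) < k)) := by
          ext ⟨i, j⟩
          simp only [Finset.mem_filter, Finset.mem_univ, true_and, Finset.mem_product, δ]
          by_cases h : (j : ℕ) < k
          · rw [if_pos h]
            simp only [h, iff_true]
            intro h14
            apply h2
            linear_combination -h14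
          · rw [if_neg h]
            simp [h]
        rw [h13, Finset.card_product, Finset.card_univ, Fintype.card_fin]
        have h14 : (Finset.univ.filter (fun j : Fin b => (j : ℕ) < k)).card = k := by
          rw [Fin.card_filter_val_lt]
          exact min_eq_right hkb
        rw [h14]
        ring
      · rw [Matrix.det_kronecker]
        exact IsUnit.mul (by rw [Matrix.det_one]; exact isUnit_one.pow _) ((hdetU P₂).pow _)
      · rw [Matrix.det_kronecker]
        exact IsUnit.mul (by rw [Matrix.det_one]; exact isUnit_one.pow _) ((hdetU (P₂⁻¹)).pow _)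
    obtain ⟨g, hg, hg'⟩ := conj_of_iso x y (by
      obtain ⟨g, hg, hg'⟩ := Cfsg.Agent.H956.SpConj.conj_of_sq_one h2
        (isSp_sympBilin d F) (isSp_sympBilin d F) hT (mem_spGL_iff.1 hysp) hTT
        (by rw [← map_pow, hyy, map_one]) rfl (by
          rw [finrank_comS, finrank_comS, hrank, hk])
      exact ⟨g, hg, hg'⟩)
    exact ⟨g, hg, by rw [hg']; exact hyH⟩
  · -- square roots of `-1`
    let J₂ : Matrix (Fin 2) (Fin 2) F := !![0, -1; 1, 0]
    have hJdet : J₂.det = 1 := by simp [J₂, Matrix.det_fin_two]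
    let A : GL (Fin 2) F := Matrix.GeneralLinearGroup.mkOfDetNeZero J₂ (by rw [hJdet]; exact one_ne_zero)
    obtain ⟨y, hyH, hy⟩ := exists_mem_tensor e P A 1
    have hAJ : (A : Matrix (Fin 2) (Fin 2) F) = J₂ := rfl
    have hJJ : J₂ * J₂ = -1 := by
      ext i j
      fin_cases i <;> fin_cases j <;> simp [J₂, Matrix.mul_apply, Fin.sum_univ_two]
    have hy2 : (y : Matrix (Fin d ⊕ Fin d) (Fin d ⊕ Fin d) F) * y = -1 := by
      rw [hy]
      have h6 : Matrix.reindex e.symm e.symm ((A : Matrix (Fin 2) (Fin 2) F) ⊗ₖ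
          ((1 : GL (Fin b) F) : Matrix (Fin b) (Fin b) F)) * Matrix.reindex e.symm e.symm ((A : Matrix (Fin 2) (Fin 2) F) ⊗ₖ
          ((1 : GL (Fin b) F) : Matrix (Fin b) (Fin b) F)) = -1 := by
        rw [Matrix.reindex_apply, Matrix.submatrix_mul_equiv, ← Matrix.mul_kronecker_mul, Units.val_one, Matrix.one_mul,
          hAJ, hJJ]
        ext i j
        simp only [Matrix.submatrix_apply, Matrix.kroneckerMap_apply, Matrix.neg_apply, Matrix.one_apply,
          Equiv.symm_symm]
        by_cases hij : i = j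
        · subst hij; simp
        · rw [if_neg hij]
          by_cases h8 : (e i).1 = (e j).1
          · rw [if_neg (fun h9 => hij (e.injective (Prod.ext h8 h9))), mul_zero, neg_zero]
          · rw [if_neg h8, neg_zero, zero_mul]
      rw [conj_mul_conj, h6, Matrix.mul_neg, Matrix.mul_one, Matrix.neg_mul, mul_inv_self']
    have hysp : y ∈ Cfsg.spGL d F := by
      refine mem_sp_of_tensor e P f₁ f₂ hS (A : Matrix (Fin 2) (Fin 2) F)
        ((1 : GL (Fin b) F) : Matrix (Fin b) (Fin b) F) ?_ (by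
          rw [Units.val_one, Matrix.transpose_one, Matrix.one_mul, Matrix.mul_one]) y hy
      rw [hAJ]
      have e00 : Cfsg.Geo.gramMatrix f₁ 0 0 = 0 := hf₁.alternating _
      have e11 : Cfsg.Geo.gramMatrix f₁ 1 1 = 0 := hf₁.alternating _
      have e01 : Cfsg.Geo.gramMatrix f₁ 0 1 = - Cfsg.Geo.gramMatrix f₁ 1 0 := hf₁.skew _ _
      ext i j
      fin_cases i <;> fin_cases j <;> simp [J₂, Matrix.mul_apply, Fin.sum_univ_two, e00, e11, e01]
    obtain ⟨g, hg, hg'⟩ := conj_of_iso x y (by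
      obtain ⟨g, hg, hg'⟩ := Cfsg.Agent.H956.SpConj.conj_neg_one h2 d (sympBilin d F) (sympBilin d F)
        (isSp_sympBilin d F) (isSp_sympBilin d F) (Matrix.mulVecLin (x : Matrix (Fin d ⊕ Fin d) (Fin d ⊕ Fin d) F))
        (Matrix.mulVecLin (y : Matrix (Fin d ⊕ Fin d) (Fin d ⊕ Fin d) F)) (fun u v => hx u v) (fun u v => hysp u v)
        (fun v => by
          rw [Matrix.mulVecLin_apply, Matrix.mulVecLin_apply, Matrix.mulVec_mulVec, ← pow_two, hxz, neg_one_smul,
            Matrix.neg_mulVec, Matrix.one_mulVec])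
        (fun v => by
          rw [Matrix.mulVecLin_apply, Matrix.mulVecLin_apply, Matrix.mulVec_mulVec, hy2, Matrix.neg_mulVec,
            Matrix.one_mulVec])
        (finrank_symp d F) (finrank_symp d F)
      exact ⟨g, hg, hg'⟩)
    exact ⟨g, hg, by rw [hg']; exact hyH⟩

/-- Elements of prime order of PSp_n(q), q odd, and the stabilizers of tensor decompositions Sp_a(q) ⊗ O_b(q). Here `T = PSp_{2d}(F)` for a field `F` with `q` elements, `q` odd, `d ≥ 2`, realised through the matrices preserving the standard alternating form `f`; `2d = a·b` with `a` even, `b ≥ 3`, and the bijection `e` and change of basis `P` exhibit `f` as a non-zero scalar multiple of the tensor product of a non-degenerate alternating form `f₁` on `F^a` and a non-degenerate symmetric bilinear form `f₂` on `F^b`; `H` is the subgroup of `T` stabilizing this tensor decomposition (the elements of `T` in the conjugate by `P` of the group of Kronecker products) — a subgroup of type Sp_a(q) ⊗ O^ε_b(q) (maximality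 is not assumed). Ω is the set of cosets of `H` in `T`, so an element of `T` of prime order `r` (`x ∈ T` with `x^r` scalar, `x` not scalar) fixes a point of Ω exactly when some `T`-conjugate of `x` lies in `H`. Let `r` be a prime dividing the index of `H`. Then every element of `T` of order `r` fixes a point of Ω if and only if `r = 2` and `a = 2`. -/
theorem result {F : Type*} [Field F] [Fintype F] {p : ℕ} [Fact p.Prime] [CharP F p] {q : ℕ} (hq : Fintype.card F = q)
    (hodd : Odd q) (d : ℕ) (hd : 2 ≤ d) (a b : ℕ) (hab : 2 * d = a * b) (ha : Even a) (ha2 : 2 ≤ a) (hb : 3 ≤ b)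
    (e : (Fin d ⊕ Fin d) ≃ Fin a × Fin b) (P : GL (Fin d ⊕ Fin d) F)
    (f₁ : (Fin a → F) → (Fin a → F) → F) (f₂ : (Fin b → F) → (Fin b → F) → F)
    (hf₁ : Cfsg.Geo.IsSymplecticForm f₁) (hf₂ : Cfsg.Geo.IsSymmetricForm f₂)
    (hS : Cfsg.Geo.IsTensorFormStructure id (Cfsg.sympForm d F) f₁ f₂ e P)
    (r : ℕ) [Fact r.Prime]
    (hΩ : r ∣ (Cfsg.Geo.tensorProductSubgroup a b e P).relIndex (Cfsg.spGL d F)) :
    (∀ x ∈ Cfsg.spGL d F, (∃ z : F, ((x ^ r : GL (Fin d ⊕ Fin d) F) : Matrix (Fin d ⊕ Fin d) (Fin d ⊕ Fin d) F) = z • (1 : Matrix (Fin d ⊕ Fin d) (Fin d ⊕ Fin d) F)) →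
      (∀ z : F, (x : Matrix (Fin d ⊕ Fin d) (Fin d ⊕ Fin d) F) ≠ z • (1 : Matrix (Fin d ⊕ Fin d) (Fin d ⊕ Fin d) F)) →
      ∃ g ∈ Cfsg.spGL d F, g⁻¹ * x * g ∈ Cfsg.Geo.tensorProductSubgroup a b e P) ↔ (r = 2 ∧ a = 2) := by
  refine ⟨forward hq hodd d hd a b hab ha ha2 hb e P r hΩ, ?_⟩
  rintro ⟨rfl, rfl⟩ x hx ⟨z, hz⟩ _
  exact backward hq hodd d hd b hab e P f₁ f₂ hf₁ hf₂ hS x hx (by rw [← Units.val_pow_eq_pow_val, hz])

end Cfsg.Agent.S5980
end
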