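import Cfsg.Statements.S5985
import Cfsg.Agent.H957.Points
import Cfsg.Agent.H957.Std
import Cfsg.Agent.H957.InvTwo
import Cfsg.Agent.ClassicalGeometry.QuadPlusBasic
set_option linter.all false

set_option autoImplicit false
open scoped MatrixGroups
open Cfsg

namespace Cfsg.Agent.S5985

/-- Elements of prime order of Ω⁺_n(q), q even, with no fixed nonsingular 1-space. Here `T = PΩ⁺_n(F)`, `n = 2d ≥ 8`, realised through `Ω⁺_n(q)`, the commutator subgroup of the isometry group of `Q = Σ xᵢyᵢ` over the field `F` with `q` elements; an element of `T` of prime order `r` is an element `x` of `Ω⁺_n(q)` with `x^r` scalar and `x` not scalar; `q` is even (so the centre is trivial). Let Ω be the set of 1-dimensional subspaces spanned by a vector `v` with `Q(v) ≠ 0`, and let `r` be a prime dividing their number. Then every element of `T` of order `r` fixes some nonsingular 1-space if and only if `r = 2` and `n ≡ 2 (mod 4)` (that is, `d` is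 odd). -/
theorem result {F : Type*} [Field F] [Fintype F] {p : ℕ} [Fact p.Prime] [CharP F p] {q : ℕ} (hq : Fintype.card F = q)
    (hp : p = 2) (d : ℕ) (hd : 4 ≤ d) (r : ℕ) [Fact r.Prime]
    (hrΩ : r ∣ Nat.card {W : Submodule F (Fin d ⊕ Fin d → F) // Module.finrank F ↥W = 1 ∧ ∃ v ∈ W, Cfsg.quadFormPlus d F v ≠ 0}) :
    (∀ x : GL (Fin d ⊕ Fin d) F, x ∈ Cfsg.Geo.omegaGL (Cfsg.quadFormPlus d F) →
      (∃ z : F, ((x ^ r : GL (Fin d ⊕ Fin d) F) : Matrix (Fin d ⊕ Fin d) (Fin d ⊕ Fin d) F) = z • (1 : Matrix (Fin d ⊕ Fin d) (Fin d ⊕ Fin d) F)) →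
      (∀ z : F, (x : Matrix (Fin d ⊕ Fin d) (Fin d ⊕ Fin d) F) ≠ z • (1 : Matrix (Fin d ⊕ Fin d) (Fin d ⊕ Fin d) F)) →
      ∃ W : Submodule F (Fin d ⊕ Fin d → F), (Module.finrank F ↥W = 1 ∧ ∃ v ∈ W, Cfsg.quadFormPlus d F v ≠ 0) ∧ W.map (Matrix.toLin' (x : Matrix (Fin d ⊕ Fin d) (Fin d ⊕ Fin d) F)) ≤ W) ↔ (r = 2 ∧ Odd d) := by
  subst hq
  have h2 : (2 : F) = 0 := by
    subst hp
    exact CharTwo.two_eq_zero
  set Q := Cfsg.Agent.LieClassical.OrthForms.plusForm d F with hQdef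
  have hQc : Cfsg.quadFormPlus d F = ⇑Q :=
    (Cfsg.Agent.LieClassical.OrthForms.coe_plusForm d F).symm
  have hQ : (QuadraticMap.polarBilin Q).Nondegenerate := Cfsg.Agent.H957.nondegenerate_plus d
  have hcardι : Fintype.card (Fin d ⊕ Fin d) = 2 * d := by
    simp only [Fintype.card_sum, Fintype.card_fin]; omega
  have hne : ∃ v, Q v ≠ 0 := by
    by_contra hcon
    push Not at hcon
    have h1 : (Pi.single (Sum.inr ⟨0, by omega⟩) (1 : F) : Fin d ⊕ Fin d → F) = 0 := by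
      apply hQ.1
      intro y
      rw [QuadraticMap.polarBilin_apply_apply, QuadraticMap.polar, hcon, hcon, hcon]
      ring
    have h3 := congrFun h1 (Sum.inr ⟨0, by omega⟩)
    simp at h3
  rw [hQc] at hrΩ ⊢
  constructor
  · intro H
    have hr2 : r = 2 := by
      by_contra hr2
      obtain ⟨x, hx, hxr, hxs, hxf⟩ := Cfsg.Agent.H957.exists_no_point h2 Q hQ (by rw [hcardι]; omega) hr2 hrΩ
      obtain ⟨W, ⟨hW1, hW2⟩, hW3⟩ := H x hx ⟨1, by rw [hxr]; simp⟩ hxs
      exact hxf W hW2 hW1 hW3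
    refine ⟨hr2, ?_⟩
    subst hr2
    by_contra hodd
    rw [Nat.not_odd_iff_even] at hodd
    set g := Cfsg.Agent.H957.uEquiv (d := d) h2 with hg
    have hgQ : g ∈ Cfsg.Agent.H957.isoQ Q := fun v => Cfsg.Agent.H957.plusForm_uFun h2 hodd v
    have hgI := Cfsg.Agent.H957.glOf_mem hgQ
    have hgfix : ∀ v, g v = v → ∀ i, v (.inr i) = 0 := fun v hv i => Cfsg.Agent.H957.uFun_fixed hv i
    have hgO : Cfsg.Agent.H957.glOf g ∈ Cfsg.Geo.omegaGL (⇑Q) := by
      rw [Cfsg.Agent.H957.mem_omegaGL]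
      refine ⟨hgI, ?_⟩
      have : Nonempty (Fin d ⊕ Fin d) := ⟨Sum.inl ⟨0, by omega⟩⟩
      apply Cfsg.Agent.H957.mem_Omega_of_dsign h2 Q hQ (by rw [hcardι]; omega)
      rw [Cfsg.Agent.ClassicalGeometry.OrthDickson.dsign_def, hcardι]
      have hfr : Module.finrank F (Cfsg.Agent.ClassicalGeometry.OrthCharTwo.fixSp
          (⟨Cfsg.Agent.H957.glOf g, hgI⟩ : Cfsg.isometryGroup F (⇑Q))) = d := by
        refine Eq.trans ?_ (Cfsg.Agent.ClassicalGeometry.QuadPlusBasic.finrank_stdX (m := d) (F := F))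
        have hEq : Cfsg.Agent.ClassicalGeometry.OrthCharTwo.fixSp
            (⟨Cfsg.Agent.H957.glOf g, hgI⟩ : Cfsg.isometryGroup F (⇑Q)) =
            Cfsg.Agent.ClassicalGeometry.QuadPlusBasic.stdX d F := ?_
        · rw [hEq]
        ext v
        rw [Cfsg.Agent.ClassicalGeometry.OrthCharTwo.mem_fixSp, Cfsg.Agent.ClassicalGeometry.OrthCharTwo.act_def,
          Cfsg.Agent.ClassicalGeometry.QuadPlusBasic.mem_stdX]
        change (Cfsg.Agent.H957.glOf g : Matrix _ _ F).mulVec v = v ↔ _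
        rw [Cfsg.Agent.H957.glOf_mulVec]
        exact ⟨hgfix v, fun h => Cfsg.Agent.H957.uFun_of_zero h⟩
      rw [hfr, pow_add, pow_mul]
      obtain ⟨k, hk⟩ := hodd
      rw [hk, ← two_mul, pow_mul]
      simp
    have hg1 : ∀ c : F, ∀ v, Q v ≠ 0 → g v = c • v → False := by
      intro c v hv hc
      have h1 : Q (c • v) = Q v := by rw [← hc]; exact hgQ v
      rw [QuadraticMap.map_smul, smul_eq_mul] at h1
      have h3 : c * c = 1 := mul_right_cancel₀ hv (by rw [h1, one_mul])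
      have h4 : c = 1 := Cfsg.Agent.H957.eq_of_sq_eq h2 (by rw [h3, one_mul])
      rw [h4, one_smul] at hc
      apply hv
      rw [Cfsg.Agent.LieClassical.OrthForms.coe_plusForm, Cfsg.Agent.LieClassical.OrthForms.quadFormPlus_apply]
      exact Finset.sum_eq_zero fun i _ => by rw [hgfix v hc i, mul_zero]
    obtain ⟨v₀, hv₀⟩ := hne
    obtain ⟨W, ⟨hW, v, hv, hv0⟩, hmap⟩ := H (Cfsg.Agent.H957.glOf g) hgO
      ⟨1, by rw [← Cfsg.Agent.H957.glOf_pow, Cfsg.Agent.H957.uEquiv_sq h2, Cfsg.Agent.H957.glOf_one]; simp⟩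
      (fun z hz => hg1 z v₀ hv₀ (by
        rw [← Cfsg.Agent.H957.glOf_mulVec, hz, Matrix.smul_mulVec, Matrix.one_mulVec]))
    have hv' : v ≠ 0 := by rintro rfl; simp at hv0
    have h1 : (Matrix.toLin' (Cfsg.Agent.H957.glOf g : Matrix _ _ F)) v ∈ W := hmap (Submodule.mem_map_of_mem hv)
    rw [Matrix.toLin'_apply, Cfsg.Agent.H957.glOf_mulVec] at h1
    have hne' : (⟨v, hv⟩ : W) ≠ 0 := fun h => hv' (congrArg Subtype.val h)
    obtain ⟨c, hc⟩ := (finrank_eq_one_iff_of_nonzero' (⟨v, hv⟩ : W) hne').1 hW ⟨g v, h1⟩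
    exact hg1 c v hv0 (congrArg Subtype.val hc).symm
  · rintro ⟨rfl, hodd⟩ x hx ⟨z, hz⟩ -
    have hiso := Cfsg.Agent.H957.isometry_of_omegaGL hx
    have hx2 := Cfsg.Agent.H957.sq_eq_one_of_scalar h2 Q hne x hiso hz
    set T : Module.End F (Fin d ⊕ Fin d → F) := Matrix.toLin' (x : Matrix _ _ F) with hT
    have hTT : T * T = 1 := by
      rw [hT, Module.End.mul_eq_comp, ← Matrix.toLin'_mul, ← Units.val_mul, ← pow_two, hx2, Units.val_one,
        Matrix.toLin'_one]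
      rfl
    obtain ⟨v, hTv, hv0⟩ : ∃ v, T v = v ∧ Q v ≠ 0 := by
      by_contra hcon
      push Not at hcon
      obtain ⟨m, hm⟩ := Cfsg.Agent.H957.even_of_fixed_ts h2 Q hQ T hiso hTT hcon
      rw [Module.finrank_fintype_fun_eq_card, hcardι] at hm
      obtain ⟨k, hk⟩ := hodd
      omega
    have hv' : v ≠ 0 := by rintro rfl; simp at hv0
    refine ⟨Submodule.span F {v}, ⟨finrank_span_singleton hv', v, Submodule.mem_span_singleton_self v, hv0⟩, ?_⟩
    rw [Submodule.map_span, Set.image_singleton, hTv]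

end Cfsg.Agent.S5985
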