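import Cfsg.Statements.S5986
import Cfsg.Agent.H957.Points
import Cfsg.Agent.H957.Std
set_option linter.all false

set_option autoImplicit false
open scoped MatrixGroups
open Cfsg

namespace Cfsg.Agent.S5986

/-- Elements of prime order of Ω⁻_n(q), q even, with no fixed nonsingular 1-space. Here `T = PΩ⁻_n(F)`, `n = 2d ≥ 8`, realised through `Ω⁻_n(q)`, the commutator subgroup of the isometry group of `Q = Σ_{i<d−1} xᵢyᵢ + z₁² + a z₁z₂ + b z₂²` with `z₁² + a z₁z₂ + b z₂²` anisotropic, over the field `F` with `q` elements; an element of `T` of prime order `r` is an element `x` of `Ω⁻_n(q)` with `x^r` scalar and `x` not scalar; `q` is even (so the centre is trivial). Let Ω be the set of 1-dimensional subspaces spanned by a vector `v` with `Q(v) ≠ 0`, and let `r` be a prime dividing their number. Then every element of `T` of order `r` fixes some nonsingular 1-space if and only if `r = 2`. -/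
theorem result {F : Type*} [Field F] [Fintype F] {p : ℕ} [Fact p.Prime] [CharP F p] {q : ℕ} (hq : Fintype.card F = q)
    (hp : p = 2) (d : ℕ) (hd : 4 ≤ d) (a b : F) (hab : ∀ x y : F, x ^ 2 + a * x * y + b * y ^ 2 = 0 → x = 0 ∧ y = 0) (r : ℕ) [Fact r.Prime]
    (hrΩ : r ∣ Nat.card {W : Submodule F ((Fin (d - 1) ⊕ Fin (d - 1)) ⊕ Fin 2 → F) // Module.finrank F ↥W = 1 ∧ ∃ v ∈ W, Cfsg.quadFormMinus (d - 1) F a b v ≠ 0}) :
    (∀ x : GL ((Fin (d - 1) ⊕ Fin (d - 1)) ⊕ Fin 2) F, x ∈ Cfsg.Geo.omegaGL (Cfsg.quadFormMinus (d - 1) F a b) →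
      (∃ z : F, ((x ^ r : GL ((Fin (d - 1) ⊕ Fin (d - 1)) ⊕ Fin 2) F) : Matrix ((Fin (d - 1) ⊕ Fin (d - 1)) ⊕ Fin 2) ((Fin (d - 1) ⊕ Fin (d - 1)) ⊕ Fin 2) F) = z • (1 : Matrix ((Fin (d - 1) ⊕ Fin (d - 1)) ⊕ Fin 2) ((Fin (d - 1) ⊕ Fin (d - 1)) ⊕ Fin 2) F)) →
      (∀ z : F, (x : Matrix ((Fin (d - 1) ⊕ Fin (d - 1)) ⊕ Fin 2) ((Fin (d - 1) ⊕ Fin (d - 1)) ⊕ Fin 2) F) ≠ z • (1 : Matrix ((Fin (d - 1) ⊕ Fin (d - 1)) ⊕ Fin 2) ((Fin (d - 1) ⊕ Fin (d - 1)) ⊕ Fin 2) F)) →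
      ∃ W : Submodule F ((Fin (d - 1) ⊕ Fin (d - 1)) ⊕ Fin 2 → F), (Module.finrank F ↥W = 1 ∧ ∃ v ∈ W, Cfsg.quadFormMinus (d - 1) F a b v ≠ 0) ∧ W.map (Matrix.toLin' (x : Matrix ((Fin (d - 1) ⊕ Fin (d - 1)) ⊕ Fin 2) ((Fin (d - 1) ⊕ Fin (d - 1)) ⊕ Fin 2) F)) ≤ W) ↔ r = 2 := by
  subst hq
  have h2 : (2 : F) = 0 := by
    subst hp
    exact CharTwo.two_eq_zero
  set Q := Cfsg.Agent.LieClassical.OrthForms.minusForm (d - 1) F a b with hQdef
  have hQc : Cfsg.quadFormMinus (d - 1) F a b = ⇑Q :=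
    (Cfsg.Agent.LieClassical.OrthForms.coe_minusForm (d - 1) F a b).symm
  have hQ := Cfsg.Agent.H957.nondegenerate_minus (d - 1) a b hab
  have hcardι : Fintype.card ((Fin (d - 1) ⊕ Fin (d - 1)) ⊕ Fin 2) = 2 * d := by
    simp only [Fintype.card_sum, Fintype.card_fin]; omega
  rw [hQc] at hrΩ ⊢
  constructor
  · intro H
    by_contra hr2
    obtain ⟨x, hx, hxr, hxs, hxf⟩ := Cfsg.Agent.H957.exists_no_point h2 Q hQ (by rw [hcardι]; omega) hr2 hrΩ
    obtain ⟨W, ⟨hW1, hW2⟩, hW3⟩ := H x hx ⟨1, by rw [hxr]; simp⟩ hxs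
    exact hxf W hW2 hW1 hW3
  · rintro rfl x hx ⟨z, hz⟩ -
    have hiso := Cfsg.Agent.H957.isometry_of_omegaGL hx
    have hne : ∃ v, Q v ≠ 0 := by
      by_contra hcon
      push Not at hcon
      have h1 : (Pi.single (Sum.inr 0) (1 : F) : (Fin (d - 1) ⊕ Fin (d - 1)) ⊕ Fin 2 → F) = 0 := by
        apply hQ.1
        intro y
        rw [QuadraticMap.polarBilin_apply_apply, QuadraticMap.polar, hcon, hcon, hcon]
        ring
      have h3 := congrFun h1 (Sum.inr 0)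
      simp at h3
    have hx2 := Cfsg.Agent.H957.sq_eq_one_of_scalar h2 Q hne x hiso hz
    set T : Module.End F ((Fin (d - 1) ⊕ Fin (d - 1)) ⊕ Fin 2 → F) :=
      Matrix.toLin' (x : Matrix _ _ F) with hT
    have hTT : T * T = 1 := by
      rw [hT, Module.End.mul_eq_comp, ← Matrix.toLin'_mul, ← Units.val_mul, ← pow_two, hx2, Units.val_one,
        Matrix.toLin'_one]
      rfl
    have hdim := Cfsg.Agent.H957.finrank_ker_of_sq h2 T hTT
    rw [Module.finrank_fintype_fun_eq_card, hcardι] at hdim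
    obtain ⟨v, hv, hv0⟩ : ∃ v ∈ LinearMap.ker (T - 1), Q v ≠ 0 := by
      by_contra hcon
      push Not at hcon
      have := Cfsg.Agent.H957.finrank_le_minus (d - 1) a b hab hcon
      omega
    have hv' : v ≠ 0 := by rintro rfl; simp at hv0
    have hTv : T v = v := by
      rw [LinearMap.mem_ker, LinearMap.sub_apply, sub_eq_zero] at hv
      exact hv
    refine ⟨Submodule.span F {v}, ⟨finrank_span_singleton hv', v, Submodule.mem_span_singleton_self v, hv0⟩, ?_⟩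
    rw [Submodule.map_span, Set.image_singleton, hTv]

end Cfsg.Agent.S5986
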