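import Cfsg.Agent.H954.TSing5
import Cfsg.Agent.H954.TSing4
import Cfsg.Agent.H955.QElt
import Cfsg.Agent.ClassicalGeometry.OmegaIndex
import Cfsg.Agent.H957.Bridge
import Mathlib
import Cfsg.Agent.H954.TSing9
import Cfsg.Statements.S5987
import Cfsg.Agent.H954.PCount
import Cfsg.Agent.H958.Bridge
set_option linter.all false

-- part: H957/TwoNeg
section
/-!
# Isometries with `x ^ 2 = 1` or `x ^ 2 = -1`, odd characteristic

`Q` a nondegenerate quadratic form over a finite field of odd characteristic.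

* `exists_ts_invol` : `T ^ 2 = 1`: invariant totally singular subspaces;
* `exists_ts_neg` : `T ^ 2 = -1`: invariant totally singular subspaces;
* `even_finrank_of_sq_neg` : invariant subspaces have even dimension if `-1` is not a square;
* `exists_sq_neg` : existence of `T` for `dim V = 2 d` and (plus type iff `d` even), `-1` not a square;
* `card_quadric`: for `-1`, `2` nonsquares, `T ^ 2 = -1`: the number of solutions of `Q v = c`.
-/

set_option autoImplicit false

namespace Cfsg.Agent.H957.TwoNeg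

open Module QuadraticMap Cfsg.Agent.LieClassical.OrthCore Cfsg.Agent.H955 Cfsg.Agent.H954.TSing

universe u v w

variable {F : Type u} [Field F]
  {V : Type v} [AddCommGroup V] [Module F V] {Q : QuadraticForm F V}

/-- `Q v = 0` on a one-dimensional space etc.: polar identity for `T ^ 2 = -1`. -/
theorem polar_self_sq_neg (h2 : (2 : F) ≠ 0) {T : V ≃ₗ[F] V} (hT : T ∈ O Q) (hTT : ∀ v, T (T v) = -v) (v : V) :
    polar Q v (T v) = 0 := by
  have h1 : polar Q (T v) (T (T v)) = polar Q v (T v) := by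
    simp only [polar, ← map_add]
    rw [hT (v + T v), hT (T v), hT v]
  rw [hTT, polar_neg_right, polar_comm] at h1
  have h3 : 2 * polar Q v (T v) = 0 := by linear_combination -h1
  exact (mul_eq_zero.1 h3).resolve_left h2

theorem polar_sq_neg {T : V ≃ₗ[F] V} (hT : T ∈ O Q) (hTT : ∀ v, T (T v) = -v) (u v : V) :
    polar Q u (T v) = - polar Q (T u) v := by
  have h1 : polar Q (T u) (T (T v)) = polar Q u (T v) := by
    simp only [polar, ← map_add]
    rw [hT, hT, hT]
  rw [hTT, polar_neg_right] at h1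
  exact h1.symm

/-- **`T ^ 2 = -1`**: maximal invariant totally singular subspaces. -/
theorem exists_ts_neg [Finite F] [FiniteDimensional F V] (h2 : (2 : F) ≠ 0) (hQn : Nondeg Q) {T : V ≃ₗ[F] V}
    (hT : T ∈ O Q) (hTT : ∀ v, T (T v) = -v) :
    ∃ W : Submodule F V, (∀ w ∈ W, T w ∈ W) ∧ (∀ w ∈ W, Q w = 0) ∧ finrank F V ≤ 2 * finrank F W + 2 := by
  have h4 : ((4 : ℕ) : F) ≠ 0 := by
    have : ((4 : ℕ) : F) = 2 * 2 := by norm_num
    rw [this]; exact mul_ne_zero h2 h2
  have hx4 : (T : Module.End F V) ^ 4 = 1 := by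
    ext v
    simp only [pow_succ, pow_zero, one_mul, Module.End.mul_apply, LinearEquiv.coe_coe, hTT, map_neg, neg_neg,
      Module.End.one_apply]
  obtain ⟨W, -, hW, hWs, M, -, hM, -, -, hd, hmax⟩ := exists_max (Q := Q) (x := (T : Module.End F V)) (r := 4)
    (fun v => hT v) h4 (by norm_num) hx4 (U := ⊤) (fun w _ => trivial)
    (nondeg_of_equiv (Submodule.topEquiv (R := F) (M := V)).symm (fun v => rfl) hQn)
  rw [finrank_top] at hd
  refine ⟨W, hW, hWs, ?_⟩
  by_contra hcon
  obtain ⟨v, hv0, hv⟩ := exists_singular (res Q M) (by omega)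
  have hvQ : Q (v : V) = 0 := hv
  have h3 : Submodule.span F {(v : V), T (v : V)} = ⊥ := by
    apply hmax
    · rw [Submodule.span_le]
      rintro w (rfl | rfl)
      · exact v.2
      · exact hM _ v.2
    · intro w hw
      obtain ⟨a, b, rfl⟩ := Submodule.mem_span_pair.1 hw
      show T (a • (v : V) + b • T (v : V)) ∈ _
      rw [map_add, map_smul, map_smul, hTT]
      exact Submodule.mem_span_pair.2 ⟨-b, a, by rw [smul_neg, neg_smul, add_comm]⟩
    · intro w hw
      obtain ⟨a, b, rfl⟩ := Submodule.mem_span_pair.1 hw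
      rw [Q_add, QuadraticMap.map_smul, QuadraticMap.map_smul, hT, hvQ, polar_smul_left, polar_smul_right,
        polar_self_sq_neg h2 hT hTT]
      simp
  apply hv0
  apply Subtype.ext
  have h5 : (v : V) ∈ Submodule.span F {(v : V), T (v : V)} := Submodule.subset_span (by simp)
  rw [h3] at h5
  exact (Submodule.mem_bot F).1 h5

/-- invariant subspaces of every even dimension. -/
theorem exists_inv_sub [FiniteDimensional F V] (hns : ¬ IsSquare (-1 : F)) {T : V ≃ₗ[F] V}
    (hTT : ∀ v, T (T v) = -v) {W : Submodule F V} (hW : ∀ w ∈ W, T w ∈ W) (j : ℕ) (hj : 2 * j ≤ finrank F W) :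
    ∃ U ≤ W, (∀ w ∈ U, T w ∈ U) ∧ finrank F U = 2 * j := by
  induction j with
  | zero => exact ⟨⊥, bot_le, fun w hw => by rw [(Submodule.mem_bot F).1 hw, map_zero]; exact Submodule.zero_mem _,
      by simp⟩
  | succ j ih =>
    obtain ⟨U, hUW, hU, hUd⟩ := ih (by omega)
    obtain ⟨w, hw, hwU⟩ : ∃ w ∈ W, w ∉ U := by
      by_contra hcon
      push Not at hcon
      have := Submodule.finrank_mono (show W ≤ U from hcon)
      omega
    -- independence modulo `U`
    have key : ∀ a b : F, a • w + b • T w ∈ U → a = 0 ∧ b = 0 := by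
      intro a b hab
      have h1 : T (a • w + b • T w) ∈ U := hU _ hab
      rw [map_add, map_smul, map_smul, hTT] at h1
      have h3 : (a * a + b * b) • w ∈ U := by
        have := U.sub_mem (U.smul_mem a hab) (U.smul_mem b h1)
        convert this using 1
        simp only [smul_add, smul_smul, smul_neg, add_smul, mul_comm b a]
        abel
      by_cases h0 : a * a + b * b = 0
      · by_cases hb : b = 0
        · subst hb
          exact ⟨by simpa using h0, rfl⟩
        · exfalso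
          apply hns
          refine ⟨a * b⁻¹, ?_⟩
          field_simp
          linear_combination -h0
      · exfalso
        apply hwU
        have := U.smul_mem (a * a + b * b)⁻¹ h3
        rwa [smul_smul, inv_mul_cancel₀ h0, one_smul] at this
    have hli : LinearIndependent F ![w, T w] := by
      rw [LinearIndependent.pair_iff]
      intro a b hab
      exact key a b (by rw [hab]; exact U.zero_mem)
    have hfr : finrank F (Submodule.span F {w, T w}) = 2 := by
      have h5 := finrank_span_eq_card hli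
      rwa [Matrix.range_cons_cons_empty, Fintype.card_fin] at h5
    have hinf : U ⊓ Submodule.span F {w, T w} = ⊥ := by
      rw [eq_bot_iff]
      rintro v ⟨hv, hv'⟩
      obtain ⟨a, b, rfl⟩ := Submodule.mem_span_pair.1 hv'
      obtain ⟨ha, hb⟩ := key a b hv
      rw [ha, hb]; simp
    refine ⟨U ⊔ Submodule.span F {w, T w}, ?_, ?_, ?_⟩
    · refine sup_le hUW ?_
      rw [Submodule.span_le]
      rintro v (rfl | rfl)
      · exact hw
      · exact hW _ hw
    · intro v hv
      obtain ⟨u, hu, s, hs, rfl⟩ := Submodule.mem_sup.1 hv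
      obtain ⟨a, b, rfl⟩ := Submodule.mem_span_pair.1 hs
      rw [map_add, map_add, map_smul, map_smul, hTT]
      refine Submodule.add_mem_sup (hU u hu) (Submodule.mem_span_pair.2 ⟨-b, a, ?_⟩)
      rw [smul_neg, neg_smul, add_comm]
    · have h5 := Submodule.finrank_sup_add_finrank_inf_eq U (Submodule.span F {w, T w})
      rw [hinf, finrank_bot, hUd, hfr] at h5
      omega

/-- invariant subspaces have even dimension. -/
theorem even_finrank_of_sq_neg [FiniteDimensional F V] (hns : ¬ IsSquare (-1 : F)) {T : V ≃ₗ[F] V}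
    (hTT : ∀ v, T (T v) = -v) {W : Submodule F V} (hW : ∀ w ∈ W, T w ∈ W) : Even (finrank F W) := by
  by_contra hodd
  rw [Nat.not_even_iff_odd] at hodd
  obtain ⟨j, hj⟩ := hodd
  apply hns
  let S : Module.End F W := (T : Module.End F V).restrict hW
  have hSS : S * S = (-1 : F) • 1 := by
    ext w
    show ((T (T (w : V)) : V)) = ((-1 : F) • (w : V))
    rw [hTT, neg_smul, one_smul]
  have h1 := congrArg LinearMap.det hSS
  rw [map_mul, LinearMap.det_smul, map_one, mul_one, hj, (odd_two_mul_add_one j).neg_one_pow] at h1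
  exact ⟨LinearMap.det S, h1.symm⟩

/-- the form `x ^ 2 + y ^ 2` -/
noncomputable abbrev sumSq (F : Type u) [Field F] : QuadraticForm F (F × F) :=
  osum (QuadraticMap.sq (R := F)) (QuadraticMap.sq (R := F))

theorem sumSq_apply (v : F × F) : sumSq F v = v.1 * v.1 + v.2 * v.2 := rfl

theorem sumSq_aniso (hns : ¬ IsSquare (-1 : F)) (v : F × F) (hv : sumSq F v = 0) : v = 0 := by
  rw [sumSq_apply] at hv
  by_cases hb : v.2 = 0
  · rw [hb, mul_zero, add_zero, mul_self_eq_zero] at hv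
    exact Prod.ext hv hb
  · exfalso
    apply hns
    refine ⟨v.1 * v.2⁻¹, ?_⟩
    field_simp
    linear_combination -hv

/-- **Existence of `T` with `T ^ 2 = -1`.** -/
theorem exists_sq_neg_model [Finite F] (hns : ¬ IsSquare (-1 : F)) (d : ℕ) :
    ∃ (X : Type u) (_ : AddCommGroup X) (_ : Module F X) (_ : FiniteDimensional F X) (R : QuadraticForm F X),
      Nondeg R ∧ finrank F X = 2 * d ∧ (IsPlus R ↔ Even d) ∧ ∃ T : X ≃ₗ[F] X, T ∈ O R ∧ ∀ v, T (T v) = -v := by
  induction d with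
  | zero =>
    have h0 : finrank F PUnit.{u + 1} = 0 := Module.finrank_zero_of_subsingleton
    refine ⟨PUnit, inferInstance, inferInstance, inferInstance, 0, ?_, ?_, ?_, 1, one_mem _, fun v => rfl⟩
    · intro x _; rfl
    · rw [h0]
    · exact iff_of_true (isPlus_of_finrank_zero h0) Even.zero
  | succ d ih =>
    obtain ⟨X, _, _, _, R, hR, hRd, hRp, T, hT, hTT⟩ := ih
    have hfr : finrank F (F × F) = 2 := by rw [Module.finrank_prod, Module.finrank_self]
    have hS : Nondeg (sumSq F) := nondeg_of_aniso hfr (sumSq_aniso hns)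
    have hSP : ¬ IsPlus (sumSq F) := not_isPlus_of_aniso (sumSq_aniso hns) (by rw [hfr]; norm_num)
    let rot : (F × F) ≃ₗ[F] (F × F) :=
      (LinearEquiv.prodComm F F F).trans ((LinearEquiv.neg F).prodCongr (LinearEquiv.refl F F))
    have hrot : ∀ v : F × F, rot v = (-v.2, v.1) := fun v => rfl
    refine ⟨X × (F × F), inferInstance, inferInstance, inferInstance, osum R (sumSq F), nondeg_osum hR hS, ?_, ?_,
      T.prodCongr rot, ?_, ?_⟩
    · rw [Module.finrank_prod, hRd, hfr]; ring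
    · rw [isPlus_osum_iff hR hS ⟨d, by omega⟩ ⟨1, by omega⟩, hRp]
      simp only [hSP, iff_false, Nat.even_add_one]
    · intro v
      show R (T v.1) + sumSq F (rot v.2) = R v.1 + sumSq F v.2
      rw [hT, hrot, sumSq_apply, sumSq_apply]
      ring
    · intro v
      show ((T (T v.1), rot (rot v.2)) : X × (F × F)) = -v
      rw [hTT, hrot, hrot]
      rfl

theorem exists_sq_neg [Finite F] [FiniteDimensional F V] (hns : ¬ IsSquare (-1 : F)) (hQ : Nondeg Q) {d : ℕ}
    (hd : finrank F V = 2 * d) (hP : IsPlus Q ↔ Even d) : ∃ T ∈ O Q, ∀ v, T (T v) = -v := by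
  obtain ⟨X, _, _, _, R, hR, hRd, hRp, T, hT, hTT⟩ := exists_sq_neg_model (F := F) hns d
  obtain ⟨e, he⟩ := exists_equiv_of_isPlus_iff hQ hR ⟨d, by omega⟩ (by rw [hd, hRd]) (hP.trans hRp.symm)
  refine ⟨(e.trans T).trans e.symm, fun v => ?_, fun v => ?_⟩
  · rw [LinearEquiv.trans_apply, LinearEquiv.trans_apply, ← he, LinearEquiv.apply_symm_apply, hT, he]
  · simp only [LinearEquiv.trans_apply, LinearEquiv.apply_symm_apply, hTT, map_neg, LinearEquiv.symm_apply_apply]

/-- If `T ^ 2 = -1` and `-1` is not a square, the type is determined by the dimension. -/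
theorem isPlus_iff_of_sq_neg [Finite F] [FiniteDimensional F V] (h2 : (2 : F) ≠ 0) (hns : ¬ IsSquare (-1 : F))
    (hQ : Nondeg Q) {d : ℕ} (hd : finrank F V = 2 * d) {T : V ≃ₗ[F] V} (hT : T ∈ O Q) (hTT : ∀ v, T (T v) = -v)
    (he : Even d) : IsPlus Q := by
  obtain ⟨W, hW, hWs, hWd⟩ := exists_ts_neg h2 hQ hT hTT
  obtain ⟨k, hk⟩ := even_finrank_of_sq_neg hns hTT hW
  obtain ⟨l, hl⟩ := he
  exact isPlus_of_le hQ hWs (by omega)

/-- If `T ^ 2 = -1` and `-1` is a square then the type is plus. -/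
theorem isPlus_of_isSquare [Finite F] [FiniteDimensional F V] (h2 : (2 : F) ≠ 0) (hs : IsSquare (-1 : F))
    (hQ : Nondeg Q) {T : V ≃ₗ[F] V} (hT : T ∈ O Q) (hTT : ∀ v, T (T v) = -v) : IsPlus Q := by
  obtain ⟨i, hi⟩ := hs
  have hi0 : i ≠ 0 := by
    rintro rfl
    rw [mul_zero] at hi
    exact (neg_ne_zero.2 one_ne_zero) hi
  -- eigenspaces
  have key : ∀ j : F, j * j = -1 → ∀ v : V, T v = j • v → Q v = 0 := by
    intro j hj v hv
    have h1 := hT v
    rw [hv, QuadraticMap.map_smul, smul_eq_mul, hj] at h1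
    have h3 : 2 * Q v = 0 := by linear_combination -h1
    exact (mul_eq_zero.1 h3).resolve_left h2
  let E₁ : Submodule F V := LinearMap.ker ((T : Module.End F V) - i • (1 : Module.End F V))
  let E₂ : Submodule F V := LinearMap.ker ((T : Module.End F V) - (-i) • (1 : Module.End F V))
  have hm₁ : ∀ v, v ∈ E₁ ↔ T v = i • v := fun v => by
    rw [LinearMap.mem_ker, LinearMap.sub_apply, sub_eq_zero]; rfl
  have hm₂ : ∀ v, v ∈ E₂ ↔ T v = (-i) • v := fun v => by
    rw [LinearMap.mem_ker, LinearMap.sub_apply, sub_eq_zero]; rfl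
  have hsup : E₁ ⊔ E₂ = ⊤ := by
    rw [eq_top_iff]
    intro v _
    refine Submodule.mem_sup.2 ⟨(2⁻¹ : F) • (v - i • T v), ?_, (2⁻¹ : F) • (v + i • T v), ?_, ?_⟩
    · have h6 : i • (2⁻¹ : F) • (v - i • T v) = (2⁻¹ : F) • (i • v - (i * i) • T v) := by module
      rw [hm₁, map_smul, map_sub, map_smul, hTT, h6, ← hi]
      module
    · have h6 : (-i) • (2⁻¹ : F) • (v + i • T v) = (2⁻¹ : F) • (-(i • v) - (i * i) • T v) := by module
      rw [hm₂, map_smul, map_add, map_smul, hTT, h6, ← hi]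
      module
    · rw [← smul_add]
      have h3 : v - i • T v + (v + i • T v) = (2 : F) • v := by rw [two_smul]; abel
      rw [h3, smul_smul, inv_mul_cancel₀ h2, one_smul]
  have h3 := Submodule.finrank_add_le_finrank_add_finrank E₁ E₂
  rw [hsup, finrank_top] at h3
  have h4 := two_mul_finrank_le hQ (U := E₁) (fun v hv => key i hi.symm v ((hm₁ v).1 hv))
  have h5 := two_mul_finrank_le hQ (U := E₂) (fun v hv => key (-i) (by rw [neg_mul_neg]; exact hi.symm) v
    ((hm₂ v).1 hv))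
  exact isPlus_of_le hQ (U := E₁) (fun v hv => key i hi.symm v ((hm₁ v).1 hv)) (by omega)

end Cfsg.Agent.H957.TwoNeg
end

-- part: H957/TwoNeg2
section
/-!
# Isometries with `x ^ 2 = 1` or `x ^ 2 = -1`, odd characteristic, II

* `exists_ts_invol_minus` : involutions, minus type;
* `sign_of_free_four` : the sign of a permutation all of whose cycles have length 4;
* `card_quadric` : the number of solutions of `Q v = 1`;
* `not_mem_Omega` : an element `x` with `x ^ 2 = -1` is not in `Ω` if `q ≡ 3` mod 8, minus type.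
-/

set_option autoImplicit false

namespace Cfsg.Agent.H957.TwoNeg

open Module QuadraticMap Cfsg.Agent.LieClassical.OrthCore Cfsg.Agent.H955 Cfsg.Agent.H954.TSing

universe u v w

section Invol

variable {F : Type u} [Field F]
  {V : Type v} [AddCommGroup V] [Module F V] {Q : QuadraticForm F V}

/-- **involutions, minus type** -/
theorem exists_ts_invol_minus [Finite F] [FiniteDimensional F V] (h2 : (2 : F) ≠ 0) (hQ : Nondeg Q) {d m : ℕ}
    (hd : finrank F V = 2 * d) (hP : ¬ IsPlus Q) (hm : m + 1 ≤ d) {T : V ≃ₗ[F] V} (hT : T ∈ O Q)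
    (hTT : ∀ v, T (T v) = v) :
    ∃ W : Submodule F V, finrank F W = m ∧ (∀ w ∈ W, Q w = 0) ∧ ∀ w ∈ W, T w ∈ W := by
  have h2' : ((2 : ℕ) : F) ≠ 0 := by exact_mod_cast h2
  have hT2 : T ^ 2 = 1 := by
    ext v
    rw [pow_two]
    exact hTT v
  have hc := nondeg_comS hQ hT h2' hT2
  have hf : Nondeg (res Q (fixS T)) := by
    rw [← perp_comS hQ hT]; exact nondeg_perp hQ hc
  have hcompl := isCompl_fixS_comS h2' hT2
  have hfd := finrank_fixS_add_comS T
  rw [hd] at hfd
  have hev : Even (finrank F V) := ⟨d, by omega⟩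
  obtain ⟨W₁, W₂, h₁, h₂, hs₁, hs₂, hdim⟩ : ∃ W₁ W₂ : Submodule F V, W₁ ≤ fixS T ∧ W₂ ≤ comS T ∧
      (∀ w ∈ W₁, Q w = 0) ∧ (∀ w ∈ W₂, Q w = 0) ∧ d ≤ finrank F W₁ + finrank F W₂ + 1 := by
    rcases Nat.even_or_odd (finrank F (comS T)) with he | ho
    · have hfe : Even (finrank F (fixS T)) := by
        obtain ⟨k, hk⟩ := he
        exact ⟨d - k, by omega⟩
      obtain ⟨W₁, hW₁, hs₁, hp₁, hd₁⟩ := exists_ts_type hf hfe
      obtain ⟨W₂, hW₂, hs₂, hp₂, hd₂⟩ := exists_ts_type hc he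
      refine ⟨W₁, W₂, hW₁, hW₂, hs₁, hs₂, ?_⟩
      have h3 := isPlus_iff_perp hQ hc hev he
      rw [perp_comS hQ hT] at h3
      by_cases h4 : IsPlus (res Q (fixS T))
      · have := hp₁ h4
        omega
      · by_cases h5 : IsPlus (res Q (comS T))
        · have := hp₂ h5
          omega
        · exact absurd (h3.2 (iff_of_false h5 h4)) hP
    · have hfo : Odd (finrank F (fixS T)) := by
        obtain ⟨k, hk⟩ := ho
        exact ⟨d - k - 1, by omega⟩
      obtain ⟨W₁, hW₁, hs₁, hd₁⟩ := exists_ts_fix_odd hf hfo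
      obtain ⟨W₂, hW₂, hs₂, hd₂⟩ := exists_ts_fix_odd hc ho
      exact ⟨W₁, W₂, hW₁, hW₂, hs₁, hs₂, by omega⟩
  obtain ⟨m₁, m₂, hm₁, hm₂, hmm⟩ : ∃ m₁ m₂, m₁ ≤ finrank F W₁ ∧ m₂ ≤ finrank F W₂ ∧ m = m₁ + m₂ := by
    rcases le_total m (finrank F W₁) with h | h
    · exact ⟨m, 0, h, Nat.zero_le _, rfl⟩
    · exact ⟨finrank F W₁, m - finrank F W₁, le_rfl, by omega, by omega⟩
  obtain ⟨U₁, hU₁, hU₁d⟩ := H951.exists_sub W₁ (a := m₁) hm₁
  obtain ⟨U₂, hU₂, hU₂d⟩ := H951.exists_sub W₂ (a := m₂) hm₂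
  have hT₁ : ∀ w ∈ U₁, T w = w := fun w hw => mem_fixS.1 (h₁ (hU₁ hw))
  have hT₂ : ∀ w ∈ U₂, T w = -w := fun w hw => by
    obtain ⟨v, hv⟩ := mem_comS.1 (h₂ (hU₂ hw))
    rw [← hv, map_sub, hTT, neg_sub]
  refine ⟨U₁ ⊔ U₂, ?_, ?_, ?_⟩
  · have h5 := Submodule.finrank_sup_add_finrank_inf_eq U₁ U₂
    have h6 : U₁ ⊓ U₂ = ⊥ := by
      rw [eq_bot_iff, ← hcompl.inf_eq_bot]
      exact inf_le_inf (hU₁.trans h₁) (hU₂.trans h₂)
    rw [h6, finrank_bot, hU₁d, hU₂d] at h5
    omega
  · intro w hw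
    obtain ⟨a, ha, b, hb, rfl⟩ := Submodule.mem_sup.1 hw
    have h7 : polar Q a b = 0 := by
      have h8 : a ∈ perp Q (comS T) := by rw [perp_comS hQ hT]; exact h₁ (hU₁ ha)
      rw [polar_comm]
      exact h8 b (h₂ (hU₂ hb))
    rw [Q_add, hs₁ a (hU₁ ha), hs₂ b (hU₂ hb), h7]
    simp
  · intro w hw
    obtain ⟨a, ha, b, hb, rfl⟩ := Submodule.mem_sup.1 hw
    rw [map_add, hT₁ a ha, hT₂ b hb]
    exact Submodule.add_mem_sup ha (U₂.neg_mem hb)

end Invol

/-! ### signs -/

open Equiv Equiv.Perm in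
/-- all cycles of length 4 -/
theorem sign_of_free_four {α : Type*} [Fintype α] [DecidableEq α] (σ : Equiv.Perm α)
    (h4 : ∀ x, σ (σ (σ (σ x))) = x) (h2 : ∀ x, σ (σ x) ≠ x) :
    4 ∣ Fintype.card α ∧ Equiv.Perm.sign σ = (-1) ^ (Fintype.card α / 4) := by
  have hσ4 : σ ^ 4 = 1 := by
    ext x
    simp only [pow_succ, pow_zero, one_mul, Equiv.Perm.mul_apply, Equiv.Perm.one_apply]
    rw [h4]
  have hall : ∀ n ∈ σ.cycleType, n = 4 := by
    intro n hn
    have h1 : n ∣ 4 := (dvd_of_mem_cycleType hn).trans (orderOf_dvd_of_pow_eq_one hσ4)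
    have h3 := two_le_of_mem_cycleType hn
    have h5 : n ≤ 4 := Nat.le_of_dvd (by norm_num) h1
    have h6 : n ≠ 3 := by rintro rfl; omega
    have h7 : n ≠ 2 := by
      rintro rfl
      obtain ⟨c, τ, hcτ, hd, hc, hc2⟩ := mem_cycleType_iff.1 hn
      have ho : orderOf c = 2 := by rw [hc.orderOf, hc2]
      obtain ⟨x, hx, -⟩ := hc
      have hx' : x ∈ c.support := mem_support.2 hx
      have hτx : ∀ y, y ∈ c.support → τ y = y := fun y hy => by
        rcases hd y with h | h
        · exact absurd h (mem_support.1 hy)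
        · exact h
      have h8 : c (c x) = x := by
        have := congrArg (fun f : Equiv.Perm α => f x) (pow_orderOf_eq_one c)
        rw [ho, pow_two] at this
        exact this
      apply h2 x
      have hcx : c x ∈ c.support := apply_mem_support.2 hx'
      rw [hcτ, Equiv.Perm.mul_apply, Equiv.Perm.mul_apply, hτx x hx', hτx (c x) hcx, h8]
    omega
  have hrep : σ.cycleType = Multiset.replicate σ.cycleType.card 4 := Multiset.eq_replicate_of_mem hall
  have hfix : Fintype.card (Function.fixedPoints σ) = 0 := by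
    rw [Fintype.card_eq_zero_iff]
    refine ⟨fun x => ?_⟩
    have hx : σ x.1 = x.1 := x.2
    exact h2 x.1 (by rw [hx, hx])
  constructor
  · have h1 := card_fixedPoints σ
    have h3 := sum_cycleType_le σ
    rw [hfix] at h1
    have h5 : σ.cycleType.sum = σ.cycleType.card * 4 := by
      conv_lhs => rw [hrep]
      rw [Multiset.sum_replicate, smul_eq_mul]
    exact ⟨σ.cycleType.card, by omega⟩
  · rw [sign_of_cycleType_eq_replicate (by norm_num) hrep, if_neg (by decide), hfix, Nat.sub_zero]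

/-! ### the number of solutions -/

section Count

variable {F : Type u} [Field F] [Fintype F]
  {V : Type v} [AddCommGroup V] [Module F V] [FiniteDimensional F V] {Q : QuadraticForm F V}

omit [FiniteDimensional F V] [AddCommGroup V] [Module F V] in
theorem isSquare_mul_of_not {a b : F} (ha : ¬ IsSquare a) (hb : ¬ IsSquare b) : IsSquare (a * b) := by
  classical
  have ha0 : a ≠ 0 := by rintro rfl; exact ha ⟨0, by simp⟩
  have hb0 : b ≠ 0 := by rintro rfl; exact hb ⟨0, by simp⟩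
  have h1 : quadraticChar F (a * b) = 1 := by
    rw [map_mul, quadraticChar_neg_one_iff_not_isSquare.2 ha, quadraticChar_neg_one_iff_not_isSquare.2 hb]
    norm_num
  exact (quadraticChar_one_iff_isSquare (mul_ne_zero ha0 hb0)).1 h1

omit [Fintype F] [FiniteDimensional F V] in
/-- the anti-isometry `(1 + T) / √-2` -/
theorem Q_one_add (h2 : (2 : F) ≠ 0) {T : V ≃ₗ[F] V} (hT : T ∈ O Q) (hTT : ∀ v, T (T v) = -v) (v : V) :
    Q (v + T v) = 2 * Q v := by
  rw [Q_add, hT, polar_self_sq_neg h2 hT hTT]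
  ring

/-- **the number of solutions of `Q v = 1`**, minus type. -/
theorem card_quadric (h2 : (2 : F) ≠ 0) (hns : ¬ IsSquare (-1 : F)) (hns2 : ¬ IsSquare (2 : F)) (hQ : Nondeg Q) {d : ℕ}
    (hd0 : 1 ≤ d) (hd : finrank F V = 2 * d) (hP : ¬ IsPlus Q) {T : V ≃ₗ[F] V} (hT : T ∈ O Q)
    (hTT : ∀ v, T (T v) = -v) :
    Nat.card {v : V // Q v = 1} = Fintype.card F ^ (d - 1) * (Fintype.card F ^ d + 1) := by
  classical
  have hfinV : Finite V := Module.finite_of_finite F
  -- `-2` is a square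
  obtain ⟨s, hs⟩ : IsSquare (-2 : F) := by
    have h3 := isSquare_mul_of_not hns hns2
    rwa [neg_one_mul] at h3
  have hs0 : s ≠ 0 := by
    rintro rfl
    rw [mul_zero, neg_eq_zero] at hs
    exact h2 hs
  -- the anti-isometry
  have hz : ∀ v, Q (s⁻¹ • (v + T v)) = - Q v := by
    intro v
    rw [QuadraticMap.map_smul, Q_one_add h2 hT hTT, smul_eq_mul]
    field_simp
    linear_combination (-Q v) * hs
  have hzinj : Function.Injective fun v : V => s⁻¹ • (v + T v) := by
    intro a b hab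
    have h1 : a + T a = b + T b := by
      have := congrArg (fun v => s • v) hab
      simpa only [smul_smul, mul_inv_cancel₀ hs0, one_smul] using this
    have h3 : (2 : F) • a = (2 : F) • b := by
      have h4 := congrArg T h1
      rw [map_add, map_add, hTT, hTT] at h4
      have h5 : (2 : F) • a = (a + T a) - (T a + -a) := by rw [two_smul]; abel
      have h6 : (2 : F) • b = (b + T b) - (T b + -b) := by rw [two_smul]; abel
      rw [h5, h6, h1, h4]
    have h7 := congrArg (fun v => (2⁻¹ : F) • v) h3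
    simpa only [smul_smul, inv_mul_cancel₀ h2, one_smul] using h7
  have hle : ∀ c : F, Nat.card {v : V // Q v = c} ≤ Nat.card {v : V // Q v = -c} := by
    intro c
    refine Nat.card_le_card_of_injective (fun v => ⟨s⁻¹ • (v.1 + T v.1), by rw [hz, v.2]⟩) ?_
    intro a b hab
    exact Subtype.ext (hzinj (congrArg Subtype.val hab))
  have hneg : ∀ c : F, Nat.card {v : V // Q v = -c} = Nat.card {v : V // Q v = c} := by
    intro c
    apply le_antisymm _ (hle c)
    have := hle (-c)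
    rwa [neg_neg] at this
  have hsq : ∀ t : F, t ≠ 0 → Nat.card {v : V // Q v = t * t} = Nat.card {v : V // Q v = 1} := by
    intro t ht
    refine Nat.card_congr
      { toFun := fun v => ⟨t⁻¹ • v.1, by rw [QuadraticMap.map_smul, v.2, smul_eq_mul]; field_simp⟩
        invFun := fun v => ⟨t • v.1, by rw [QuadraticMap.map_smul, v.2, smul_eq_mul, mul_one]⟩
        left_inv := fun v => Subtype.ext (by simp [smul_smul, ht])
        right_inv := fun v => Subtype.ext (by simp [smul_smul, ht]) }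
  have hall : ∀ c : F, c ≠ 0 → Nat.card {v : V // Q v = c} = Nat.card {v : V // Q v = 1} := by
    intro c hc
    by_cases h : IsSquare c
    · obtain ⟨t, rfl⟩ := h
      exact hsq t (fun h => hc (by rw [h, mul_zero]))
    · have h3 : IsSquare (-c) := by
        have h3 := isSquare_mul_of_not hns h
        rwa [neg_one_mul] at h3
      obtain ⟨t, ht⟩ := h3
      rw [← hneg, ht]
      exact hsq t (fun h => hc (by rw [h, mul_zero, neg_eq_zero] at ht; exact ht))
  have htot : Nat.card V = Nat.card {v : V // Q v = 0} + (Fintype.card F - 1) * Nat.card {v : V // Q v = 1} := by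
    rw [← Nat.card_congr (Equiv.sigmaFiberEquiv (fun v : V => Q v)), Nat.card_sigma,
      ← Finset.add_sum_erase _ _ (Finset.mem_univ (0 : F))]
    congr 1
    rw [Finset.sum_congr rfl (g := fun _ => Nat.card {v : V // Q v = 1}), Finset.sum_const,
      Finset.card_erase_of_mem (Finset.mem_univ _), Finset.card_univ, smul_eq_mul]
    intro c hc
    exact hall c (Finset.ne_of_mem_erase hc)
  have hV : Nat.card V = Fintype.card F ^ (2 * d) := by
    rw [Module.natCard_eq_pow_finrank (K := F) (V := V), hd, Nat.card_eq_fintype_card]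
  rw [card_sing_minus hQ hd0 hd hP, hV] at htot
  have hq := Fintype.one_lt_card (α := F)
  set q := Fintype.card F with hqdef
  set N := Nat.card {v : V // Q v = 1} with hN
  obtain ⟨e, rfl⟩ : ∃ e, d = e + 1 := ⟨d - 1, by omega⟩
  have e1 : 2 * (e + 1) - 1 = 2 * e + 1 := by omega
  rw [e1, Nat.add_sub_cancel] at htot
  rw [Nat.add_sub_cancel]
  have hle' : q ^ (e + 1) ≤ q ^ (2 * e + 1) + q ^ e := by
    have : q ^ (e + 1) ≤ q ^ (2 * e + 1) := Nat.pow_le_pow_right (by omega) (by omega)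
    omega
  have hge : 1 ≤ q := by omega
  zify [hle', hge] at htot ⊢
  have h9 : ((q : ℤ) - 1) * (N : ℤ) = ((q : ℤ) - 1) * ((q : ℤ) ^ e * ((q : ℤ) ^ (e + 1) + 1)) := by
    have h10 : (q : ℤ) ^ (2 * (e + 1)) = (q : ℤ) * (q : ℤ) ^ (2 * e + 1) := by ring
    have h11 : (q : ℤ) ^ (2 * e + 1) = (q : ℤ) ^ e * (q : ℤ) ^ (e + 1) := by ring
    have h12 : (q : ℤ) ^ (e + 1) = (q : ℤ) * (q : ℤ) ^ e := by ring
    rw [h10, h11] at htot
    linear_combination -htot + h12
  exact mul_left_cancel₀ (by have : (1 : ℤ) < q := by exact_mod_cast hq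
                             omega) h9

end Count

end Cfsg.Agent.H957.TwoNeg
end

-- part: H957/TwoMinus
section
/-!
# `r = 2`, odd characteristic, minus type: totally singular `m`-spaces
-/

set_option autoImplicit false

namespace Cfsg.Agent.H957.TwoNeg

open Module QuadraticMap Matrix Cfsg.Agent.LieClassical.OrthCore Cfsg.Agent.H955 Cfsg.Agent.H954.TSing
  Cfsg.Agent.H957
open Cfsg.Agent.ClassicalGeometry.SpinorSign
open scoped MatrixGroups

universe u

variable {ι : Type} [Fintype ι] [DecidableEq ι] {F : Type u} [Field F] [Fintype F] {Q : QuadraticForm F (ι → F)}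

omit [Fintype F] in
theorem eOf_mem_O {x : GL ι F} (hx : x ∈ Cfsg.isometryGroup F (⇑Q)) : eOf x ∈ O Q :=
  fun v => (mem_isometryGroup.1 hx) v

/-- elements with square `-1` are not in `Ω` if `q ≡ 3` mod 8, minus type. -/
theorem not_mem_omegaGL (h2 : (2 : F) ≠ 0) (hns : ¬ IsSquare (-1 : F)) (hns2 : ¬ IsSquare (2 : F)) (hQ : Nondeg Q)
    {d : ℕ} (hd0 : 1 ≤ d) (hd : finrank F (ι → F) = 2 * d) (hodd : Odd d) (hq8 : Fintype.card F % 8 = 3)
    (hP : ¬ IsPlus Q) {x : GL ι F}
    (hTT : ∀ v, (x : Matrix ι ι F) *ᵥ ((x : Matrix ι ι F) *ᵥ v) = -v) : x ∉ Cfsg.Geo.omegaGL (⇑Q) := by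
  classical
  intro hx
  obtain ⟨hxI, hxO⟩ := mem_omegaGL.1 hx
  have hcard : 2 ≤ Fintype.card ι := by
    rw [Module.finrank_fintype_fun_eq_card] at hd; omega
  rw [ClassicalGeometry.OmegaIndex.mem_Omega_iff h2 Q (nondeg_iff.1 hQ) hcard one_ne_zero] at hxO
  have hfin : Fintype {x : ι → F // Q x = 1} := Fintype.ofFinite _
  have h1 := hxO.2
  rw [spinorSign_apply] at h1
  have hN := card_quadric h2 hns hns2 hQ hd0 hd hP (eOf_mem_O hxI) (fun v => hTT v)
  have hσ : ∀ y : {x : ι → F // Q x = 1},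
      ((quadricPerm (⇑Q) (1 : F) ⟨x, hxI⟩ (quadricPerm (⇑Q) (1 : F) ⟨x, hxI⟩ y) : {x : ι → F // Q x = 1}) : ι → F) =
        -(y : ι → F) := fun y => by
    rw [coe_quadricPerm, coe_quadricPerm]
    exact hTT y
  obtain ⟨h4, hs⟩ := sign_of_free_four (quadricPerm (⇑Q) (1 : F) ⟨x, hxI⟩) (fun y => by
    apply Subtype.ext
    rw [hσ, hσ, neg_neg]) (fun y hy => by
    have h3 := congrArg Subtype.val hy
    rw [hσ] at h3
    have h5 : (2 : F) • (y : ι → F) = 0 := by
      rw [two_smul]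
      nth_rewrite 1 [← h3]
      rw [neg_add_cancel]
    have h6 : (y : ι → F) = 0 := (smul_eq_zero.1 h5).resolve_left h2
    have h7 := y.2
    rw [h6, map_zero] at h7
    exact zero_ne_one h7)
  rw [hs] at h1
  rw [Nat.card_eq_fintype_card] at hN
  -- parity
  have h8 : Fintype.card {x : ι → F // Q x = 1} % 8 = 4 := by
    rw [hN]
    obtain ⟨k, rfl⟩ := hodd
    have h9 : ∀ j : ℕ, (Fintype.card F ^ (2 * j)) % 8 = 1 := by
      intro j
      rw [pow_mul, Nat.pow_mod, Nat.pow_mod (Fintype.card F), hq8]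
      norm_num
    have h10 : (Fintype.card F ^ (2 * k + 1)) % 8 = 3 := by
      rw [pow_succ, Nat.mul_mod, h9, hq8]
    rw [Nat.add_sub_cancel, Nat.mul_mod, h9, Nat.add_mod, h10]
  have h9 : Odd (Fintype.card {x : ι → F // Q x = 1} / 4) := by
    rw [Nat.odd_iff]
    omega
  rw [h9.neg_one_pow] at h1
  exact absurd h1 (by decide)

omit [Fintype F] in
/-- squares are in `Ω` -/
theorem sq_mem_omegaGL (hQ : Nondeg Q) (h : Nat.card F ≠ 2 ∨ Fintype.card ι ≠ 4) {y : GL ι F}
    (hy : y ∈ Cfsg.isometryGroup F (⇑Q)) : y ^ 2 ∈ Cfsg.Geo.omegaGL (⇑Q) := by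
  rw [mem_omegaGL]
  refine ⟨(Cfsg.isometryGroup F (⇑Q)).pow_mem hy 2, ?_⟩
  have h1 := sq_mem_commutator (ClassicalGeometry.GenReflections.closure_refls_eq_top Q (nondeg_iff.1 hQ) h) (by
    rintro s ⟨v, hv, hs⟩
    have : s = ClassicalGeometry.Reflection.reflIso Q v hv := Subtype.ext (Units.ext hs)
    rw [this, pow_two]
    exact ClassicalGeometry.Reflection.reflIso_mul_self Q v hv) (⟨y, hy⟩ : Cfsg.isometryGroup F (⇑Q))
  exact h1

/-- **`r = 2`, odd characteristic, minus type.** -/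
theorem two_minus (h2 : (2 : F) ≠ 0) (hQ : Nondeg Q) {d m : ℕ} (hd : finrank F (ι → F) = 2 * d) (hd4 : 4 ≤ d)
    (hP : ¬ IsPlus Q) (hm : m + 1 ≤ d) :
    (∀ x : GL ι F, x ∈ Cfsg.Geo.omegaGL ⇑Q →
      (∃ z : F, ((x ^ 2 : GL ι F) : Matrix ι ι F) = z • (1 : Matrix ι ι F)) →
      (∀ z : F, (x : Matrix ι ι F) ≠ z • (1 : Matrix ι ι F)) →
      ∃ W : Submodule F (ι → F), (finrank F W = m ∧ ∀ w ∈ W, Q w = 0) ∧
        W.map (Matrix.toLin' (x : Matrix ι ι F)) ≤ W) ↔
    (Even d ∨ Even m ∨ Fintype.card F % 8 ≠ 7) := by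
  classical
  have hcardι : Fintype.card ι = 2 * d := by
    rw [← hd, Module.finrank_fintype_fun_eq_card]
  have hne4 : Nat.card F ≠ 2 ∨ Fintype.card ι ≠ 4 := Or.inr (by omega)
  constructor
  · intro H
    by_contra hcon
    push Not at hcon
    obtain ⟨hdo, hmo, hq7⟩ := hcon
    rw [Nat.not_even_iff_odd] at hdo hmo
    have hns : ¬ IsSquare (-1 : F) := by
      rw [FiniteField.isSquare_neg_one_iff]
      omega
    obtain ⟨t, ht⟩ : IsSquare (2 : F) := by
      rw [FiniteField.isSquare_two_iff]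
      omega
    have ht0 : t ≠ 0 := by
      rintro rfl
      rw [mul_zero] at ht
      exact h2 ht
    obtain ⟨T, hT, hTT⟩ := exists_sq_neg hns hQ hd (iff_of_false hP (Nat.not_even_iff_odd.2 hdo))
    -- the square root of `T`
    let y : (ι → F) ≃ₗ[F] (ι → F) := LinearEquiv.ofLinearMap
      (t⁻¹ • ((1 : Module.End F (ι → F)) + (T : Module.End F (ι → F))))
      (t⁻¹ • ((1 : Module.End F (ι → F)) - (T : Module.End F (ι → F))))
      (by
        refine LinearMap.ext fun v => ?_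
        show t⁻¹ • (t⁻¹ • (v - T v) + T (t⁻¹ • (v - T v))) = v
        rw [map_smul, map_sub, hTT, ← smul_add, smul_smul]
        have h3 : v - T v + (T v - -v) = (2 : F) • v := by rw [two_smul]; abel
        rw [h3, smul_smul, ht]
        have : t⁻¹ * t⁻¹ * (t * t) = 1 := by field_simp
        rw [this, one_smul])
      (by
        refine LinearMap.ext fun v => ?_
        show t⁻¹ • (t⁻¹ • (v + T v) - T (t⁻¹ • (v + T v))) = v
        rw [map_smul, map_add, hTT, ← smul_sub, smul_smul]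
        have h3 : v + T v - (T v + -v) = (2 : F) • v := by rw [two_smul]; abel
        rw [h3, smul_smul, ht]
        have : t⁻¹ * t⁻¹ * (t * t) = 1 := by field_simp
        rw [this, one_smul])
    have hy : ∀ v, y v = t⁻¹ • (v + T v) := fun v => rfl
    have hyQ : ∀ v, Q (y v) = Q v := by
      intro v
      rw [hy, QuadraticMap.map_smul, Q_one_add h2 hT hTT, smul_eq_mul, ht]
      field_simp
    have hyy : ∀ v, y (y v) = T v := by
      intro v
      rw [hy, hy, map_smul, map_add, hTT, ← smul_add, smul_smul]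
      have h3 : v + T v + (T v + -v) = (2 : F) • T v := by rw [two_smul]; abel
      rw [h3, smul_smul, ht]
      have : t⁻¹ * t⁻¹ * (t * t) = 1 := by field_simp
      rw [this, one_smul]
    have hyI : glOf y ∈ Cfsg.isometryGroup F (⇑Q) := by
      rw [mem_isometryGroup]
      intro v
      rw [glOf_mulVec]; exact hyQ v
    have hxO := sq_mem_omegaGL hQ hne4 hyI
    have hxT : ∀ v, (((glOf y) ^ 2 : GL ι F) : Matrix ι ι F) *ᵥ v = T v := by
      intro v
      rw [pow_two, Units.val_mul, ← Matrix.mulVec_mulVec, glOf_mulVec, glOf_mulVec, hyy]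
    obtain ⟨v₀, hv₀⟩ : ∃ v, Q v ≠ 0 := by
      by_contra hcon
      push Not at hcon
      apply hP
      exact isPlus_of_le hQ (U := ⊤) (fun u _ => hcon u) (by rw [finrank_top]; omega)
    have hv₀' : v₀ ≠ 0 := by rintro rfl; exact hv₀ (map_zero Q)
    obtain ⟨W, ⟨hWd, hWs⟩, hW⟩ := H _ hxO ⟨-1, by
      apply Matrix.ext_of_mulVec_single
      intro i
      rw [pow_two, Units.val_mul, ← Matrix.mulVec_mulVec, hxT, hxT, hTT, Matrix.smul_mulVec, Matrix.one_mulVec,
        neg_smul, one_smul]⟩ (by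
      intro z hz
      have h3 : ∀ v, T v = z • v := fun v => by
        rw [← hxT, hz, Matrix.smul_mulVec, Matrix.one_mulVec]
      have h4 := hTT v₀
      rw [h3, h3, smul_smul] at h4
      have h5 : (z * z + 1) • v₀ = 0 := by rw [add_smul, h4, one_smul, neg_add_cancel]
      apply hns
      refine ⟨z, ?_⟩
      linear_combination -((smul_eq_zero.1 h5).resolve_right hv₀'))
    have hW' : ∀ w ∈ W, T w ∈ W := by
      intro w hw
      rw [← hxT w, ← Matrix.toLin'_apply]
      exact hW (Submodule.mem_map_of_mem hw)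
    have h5 := even_finrank_of_sq_neg hns hTT hW'
    rw [hWd] at h5
    exact (Nat.not_even_iff_odd.2 hmo) h5
  · rintro hcrit x hx ⟨z, hz⟩ -
    obtain ⟨hxI, -⟩ := mem_omegaGL.1 hx
    have hT : eOf x ∈ O Q := eOf_mem_O hxI
    have hxx : ∀ v, eOf x (eOf x v) = z • v := by
      intro v
      rw [eOf_apply, eOf_apply, Matrix.mulVec_mulVec, ← pow_two, ← Units.val_pow_eq_pow_val, hz, Matrix.smul_mulVec,
        Matrix.one_mulVec]
    obtain ⟨v₀, hv₀⟩ : ∃ v, Q v ≠ 0 := by
      by_contra hcon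
      push Not at hcon
      apply hP
      exact isPlus_of_le hQ (U := ⊤) (fun u _ => hcon u) (by rw [finrank_top]; omega)
    have hzz : z * z = 1 := by
      have h1 : Q (eOf x (eOf x v₀)) = Q v₀ := by rw [hT, hT]
      rw [hxx, QuadraticMap.map_smul, smul_eq_mul] at h1
      exact mul_right_cancel₀ hv₀ (by rw [h1, one_mul])
    have hfin : ∀ W : Submodule F (ι → F), (∀ w ∈ W, eOf x w ∈ W) → W.map (Matrix.toLin' (x : Matrix ι ι F)) ≤ W := by
      rintro W hW _ ⟨w, hw, rfl⟩
      exact hW w hw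
    rcases mul_self_eq_one_iff.1 hzz with hz1 | hz1
    · obtain ⟨W, hWd, hWs, hW⟩ := exists_ts_invol_minus h2 hQ hd hP hm hT (fun v => by rw [hxx, hz1, one_smul])
      exact ⟨W, ⟨hWd, hWs⟩, hfin W hW⟩
    · have hTT : ∀ v, eOf x (eOf x v) = -v := fun v => by rw [hxx, hz1, neg_smul, one_smul]
      have hns : ¬ IsSquare (-1 : F) := fun h => hP (isPlus_of_isSquare h2 h hQ hT hTT)
      have hdo : ¬ Even d := fun h => hP (isPlus_iff_of_sq_neg h2 hns hQ hd hT hTT h)
      have hs2 : IsSquare (2 : F) := by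
        by_contra hns2
        have hq8 : Fintype.card F % 8 = 3 := by
          have h3 := hns2
          rw [FiniteField.isSquare_two_iff] at h3
          have h4 := hns
          rw [FiniteField.isSquare_neg_one_iff] at h4
          omega
        exact not_mem_omegaGL h2 hns hns2 hQ (by omega) hd (Nat.not_even_iff_odd.1 hdo) hq8 hP hTT hx
      have hq7 : ¬ Fintype.card F % 8 ≠ 7 := by
        rw [FiniteField.isSquare_two_iff] at hs2
        rw [FiniteField.isSquare_neg_one_iff] at hns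
        omega
      obtain ⟨j, hj⟩ : Even m := (hcrit.resolve_left hdo).resolve_right hq7
      obtain ⟨W, hW, hWs, hWd⟩ := exists_ts_neg h2 hQ hT hTT
      obtain ⟨U, hUW, hU, hUd⟩ := exists_inv_sub hns hTT hW j (by omega)
      exact ⟨U, ⟨by omega, fun w hw => hWs w (hUW hw)⟩, hfin U hU⟩

end Cfsg.Agent.H957.TwoNeg
end

-- part: H957/TSArithMinus
section
/-!
# Arithmetic of the criterion for totally singular subspaces, minus type
(adapted from helper954's `H954/TSArith.lean`)
-/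

set_option autoImplicit false

namespace Cfsg.Agent.H957.TSMinus

/-- sufficiency, minus type, `i` even -/
theorem arith_suff_minus {i t d m A : ℕ} (hi : 2 ≤ i) (he : Even i)
    (hcrit : t + 2 * (m / i) ≤ 2 * d / i ∧
      ((2 * (m % i) ≤ i ∧ 2 * d % i = 0 ∧ Even (2 * d / i) ∧ t + 2 * (m / i) < 2 * d / i) ∨
        (2 * (m % i) ≤ 2 * d % i ∧ Odd (2 * d / i)) ∨
        (2 * (m % i) < 2 * d % i ∧ Even (2 * d / i))))
    (hA : i * A ≤ 2 * d) (hA2 : i * A = 2 * d → Odd A) :
    ∃ b w, b ≤ (A + 1 - t) / 2 ∧ m = i * b + w ∧ 2 * w + i * A + 2 * ((A + 1) % 2) ≤ 2 * d := by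
  have hi0 : 0 < i := by omega
  have hm := Nat.div_add_mod m i
  have hn := Nat.div_add_mod (2 * d) i
  have hl := Nat.mod_lt m hi0
  have hs := Nat.mod_lt (2 * d) hi0
  have hsev : Even (2 * d % i) := by
    obtain ⟨j, hj⟩ := he
    have h1 : i * (2 * d / i) = 2 * (j * (2 * d / i)) := by
      generalize 2 * d / i = z
      rw [hj]; ring
    exact ⟨d - j * (2 * d / i), by omega⟩
  set m' := m / i with hm'
  set l := m % i with hl'
  set n' := 2 * d / i with hn'
  set s := 2 * d % i with hs'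
  obtain ⟨s2, hs2⟩ := hsev
  have hAn : A ≤ n' := by
    rw [hn', Nat.le_div_iff_mul_le hi0, mul_comm]; exact hA
  obtain ⟨a, ha⟩ := Nat.exists_eq_add_of_le hAn
  obtain ⟨e, he'⟩ := Nat.exists_eq_add_of_le hcrit.1
  have hia : i * n' = i * A + i * a := by rw [ha]; ring
  -- multiples of `i`
  have hmul : ∀ k : ℕ, k = 0 ∨ (k = 1 ∧ i * k = i) ∨ (2 ≤ k ∧ 2 * i ≤ i * k) := by
    intro k
    rcases Nat.lt_or_ge k 1 with h | h
    · left; omega
    · rcases Nat.lt_or_ge k 2 with h2 | h2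
      · right; left
        have : k = 1 := by omega
        subst this
        exact ⟨rfl, mul_one i⟩
      · right; right
        refine ⟨h2, ?_⟩
        rw [mul_comm 2 i]
        exact Nat.mul_le_mul_left i h2
  by_cases hu : m' ≤ (A + 1 - t) / 2
  · refine ⟨m', l, hu, hm.symm, ?_⟩
    rcases hcrit.2 with ⟨c1, c2, c3, c4⟩ | ⟨c1, c2⟩ | ⟨c1, c2⟩
    · obtain ⟨k, hk⟩ := c3
      rcases hmul a with h | ⟨h, h'⟩ | ⟨h, h'⟩
      · -- `a = 0`
        exfalso
        have h1 : i * A = 2 * d := by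
          rw [h, add_zero] at ha
          rw [← ha]; omega
        obtain ⟨k', hk'⟩ := hA2 h1
        omega
      · have : (A + 1) % 2 = 0 := by omega
        omega
      · have : (A + 1) % 2 ≤ 1 := by omega
        omega
    · obtain ⟨k, hk⟩ := c2
      rcases hmul a with h | ⟨h, h'⟩ | ⟨h, h'⟩
      · have h1 : (A + 1) % 2 = 0 := by omega
        have h2 : i * a = 0 := by rw [h, mul_zero]
        omega
      · have : (A + 1) % 2 ≤ 1 := by omega
        omega
      · have : (A + 1) % 2 ≤ 1 := by omega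
        omega
    · have : (A + 1) % 2 ≤ 1 := by omega
      have : 0 ≤ i * a := Nat.zero_le _
      omega
  · push Not at hu
    obtain ⟨u, hu'⟩ : ∃ u, m' = (A + 1 - t) / 2 + u := ⟨m' - (A + 1 - t) / 2, by omega⟩
    obtain ⟨κ, hκ⟩ : ∃ κ, a = 2 * u + e + κ := ⟨a - (2 * u + e), by omega⟩
    have hκ2 : (κ + A + t) % 2 = 0 := by omega
    have hia2 : i * a = 2 * (i * u) + i * e + i * κ := by rw [hκ]; ring
    refine ⟨(A + 1 - t) / 2, i * u + l, le_rfl, ?_, ?_⟩
    · rw [← hm, hu']; ring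
    · rcases hcrit.2 with ⟨c1, c2, c3, c4⟩ | ⟨c1, c2⟩ | ⟨c1, c2⟩
      · obtain ⟨k, hk⟩ := c3
        rcases hmul e with h | ⟨h, h'⟩ | ⟨h, h'⟩
        · omega
        · rcases hmul κ with g | ⟨g, g'⟩ | ⟨g, g'⟩
          · have h3 : (A + 1) % 2 = 0 := by omega
            have h4 : i * κ = 0 := by rw [g, mul_zero]
            omega
          · have : (A + 1) % 2 ≤ 1 := by omega
            omega
          · have : (A + 1) % 2 ≤ 1 := by omega
            omega
        · have : (A + 1) % 2 ≤ 1 := by omega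
          omega
      · obtain ⟨k, hk⟩ := c2
        rcases hmul e with h | ⟨h, h'⟩ | ⟨h, h'⟩
        · rcases hmul κ with g | ⟨g, g'⟩ | ⟨g, g'⟩
          · have h3 : (A + 1) % 2 = 0 := by omega
            have h4 : i * κ = 0 := by rw [g, mul_zero]
            omega
          · have : (A + 1) % 2 ≤ 1 := by omega
            omega
          · have : (A + 1) % 2 ≤ 1 := by omega
            omega
        · have : (A + 1) % 2 ≤ 1 := by omega
          omega
        · have : (A + 1) % 2 ≤ 1 := by omega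
          omega
      · have : (A + 1) % 2 ≤ 1 := by omega
        omega

/-- necessity, minus type, `i` even -/
theorem arith_nec_minus {i t d m : ℕ} (hi : 2 ≤ i) (he : Even i) (him : i ≤ m) (hmd : m + 1 ≤ d)
    (H : ∀ A, 1 ≤ A → (i * A < 2 * d ∨ (i * A = 2 * d ∧ Odd A)) →
      ∃ b w, b ≤ (A + 1 - t) / 2 ∧ m = i * b + w ∧ 2 * w + i * A + 2 * ((A + 1) % 2) ≤ 2 * d) :
    t + 2 * (m / i) ≤ 2 * d / i ∧
      ((2 * (m % i) ≤ i ∧ 2 * d % i = 0 ∧ Even (2 * d / i) ∧ t + 2 * (m / i) < 2 * d / i) ∨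
        (2 * (m % i) ≤ 2 * d % i ∧ Odd (2 * d / i)) ∨
        (2 * (m % i) < 2 * d % i ∧ Even (2 * d / i))) := by
  have hi0 : 0 < i := by omega
  have hm := Nat.div_add_mod m i
  have hn := Nat.div_add_mod (2 * d) i
  have hl := Nat.mod_lt m hi0
  have hs := Nat.mod_lt (2 * d) hi0
  have hsev : Even (2 * d % i) := by
    obtain ⟨j, hj⟩ := he
    have h1 : i * (2 * d / i) = 2 * (j * (2 * d / i)) := by
      generalize 2 * d / i = z
      rw [hj]; ring
    exact ⟨d - j * (2 * d / i), by omega⟩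
  have hm'1 : 1 ≤ m / i := by rw [Nat.le_div_iff_mul_le hi0]; omega
  have hn'2 : 2 ≤ 2 * d / i := by rw [Nat.le_div_iff_mul_le hi0]; omega
  set m' := m / i with hm'
  set l := m % i with hl'
  set n' := 2 * d / i with hn'
  set s := 2 * d % i with hs'
  obtain ⟨s2, hs2⟩ := hsev
  -- the general step
  have key : ∀ A a, 1 ≤ A → A + a = n' → (a = 0 → s = 0 → Odd A) → a ≤ 2 → (a = 2 → s = 0 ∧ (A + 1) % 2 = 1) →
      m' ≤ (A + 1 - t) / 2 ∧ 2 * l + 2 * ((A + 1) % 2) ≤ i * a + s := by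
    intro A a hA1 hAa h0 h2 h3
    have hiA : i * n' = i * A + i * a := by rw [← hAa]; ring
    have hadm : i * A < 2 * d ∨ (i * A = 2 * d ∧ Odd A) := by
      rcases Nat.eq_zero_or_pos a with ha | ha
      · rcases Nat.eq_zero_or_pos s with hs0 | hs0
        · right
          refine ⟨?_, h0 ha hs0⟩
          have : i * a = 0 := by rw [ha, mul_zero]
          omega
        · left
          have : i * a = 0 := by rw [ha, mul_zero]
          omega
      · left
        have : i * 1 ≤ i * a := Nat.mul_le_mul_left i ha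
        omega
    obtain ⟨b, w, hb, hmw, hw⟩ := H A hA1 hadm
    have hbm : b ≤ m' := by
      rw [hm', Nat.le_div_iff_mul_le hi0, mul_comm]; omega
    obtain ⟨u, hu⟩ := Nat.exists_eq_add_of_le hbm
    have hiu : i * m' = i * b + i * u := by rw [hu]; ring
    have hw' : w = i * u + l := by omega
    have hu0 : u = 0 := by
      by_contra hne
      have h4 : i * 1 ≤ i * u := Nat.mul_le_mul_left i (Nat.one_le_iff_ne_zero.2 hne)
      rcases Nat.lt_or_ge a 2 with ha | ha
      · have h5 : i * a ≤ i * 1 := Nat.mul_le_mul_left i (by omega)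
        omega
      · have ha2 : a = 2 := by omega
        obtain ⟨h6, h7⟩ := h3 ha2
        have h5 : i * a = 2 * i := by rw [ha2, mul_comm]
        omega
    refine ⟨by omega, ?_⟩
    have : i * u = 0 := by rw [hu0, mul_zero]
    omega
  rcases (Nat.even_or_odd n').symm with hev | hodd
  · obtain ⟨k, hk⟩ := hev
    obtain ⟨k1, k2⟩ := key n' 0 (by omega) rfl (fun _ _ => ⟨k, hk⟩) (by omega) (fun h => by omega)
    obtain ⟨k3, k4⟩ := key (n' - 1) 1 (by omega) (by omega) (fun h => by omega) (by omega) (fun h => by omega)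
    refine ⟨by omega, Or.inr (Or.inl ⟨by omega, ⟨k, hk⟩⟩)⟩
  · obtain ⟨k, hk⟩ := hodd
    obtain ⟨k3, k4⟩ := key (n' - 1) 1 (by omega) (by omega) (fun h => by omega) (by omega) (fun h => by omega)
    refine ⟨by omega, ?_⟩
    rcases Nat.eq_zero_or_pos s with hs0 | hs0
    · have hn2 : n' ≠ 2 := by
        intro h
        have : i * n' = 2 * i := by rw [h, mul_comm]
        omega
      obtain ⟨k5, k6⟩ := key (n' - 2) 2 (by omega) (by omega) (fun h => by omega) (by omega)
        (fun h => ⟨hs0, by omega⟩)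
      left
      refine ⟨by omega, hs0, ⟨k, hk⟩, by omega⟩
    · obtain ⟨k1, k2⟩ := key n' 0 (by omega) rfl (fun _ h => by omega) (by omega) (fun h => by omega)
      right; right
      exact ⟨by omega, ⟨k, hk⟩⟩

end Cfsg.Agent.H957.TSMinus
end

-- part: H957/TSMinus
section
/-!
# Totally singular `m`-spaces, minus type, `r` odd

The analogue for minus type of helper954's `H954/TSing10.lean`, with the same tools.
-/

set_option autoImplicit false

namespace Cfsg.Agent.H957.TSMinus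

open Module QuadraticMap Polynomial Cfsg.Agent.LieClassical.OrthCore Cfsg.Agent.H955 Cfsg.Agent.H954.TSing

universe u v w

variable {F : Type u} [Field F] [Fintype F] {r : ℕ} [hrp : Fact r.Prime]
  {V : Type v} [AddCommGroup V] [Module F V] [FiniteDimensional F V] {Q : QuadraticForm F V}

/-- Totally singular subspaces in spaces of even dimension. -/
theorem exists_ts_of_lt (hQ : Nondeg Q) {d m : ℕ} (hd : finrank F V = 2 * d) (hm : m + 1 ≤ d) :
    ∃ W : Submodule F V, finrank F W = m ∧ ∀ w ∈ W, Q w = 0 := by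
  obtain ⟨W, -, hW, -, hWd⟩ := exists_ts_type (Q := Q) (U := ⊤)
    (nondeg_of_equiv (Submodule.topEquiv (R := F) (M := V)).symm (fun v => rfl) hQ)
    (by rw [finrank_top, hd]; exact ⟨d, by omega⟩)
  rw [finrank_top, hd] at hWd
  obtain ⟨W', hW', hW'd⟩ := H951.exists_sub W (a := m) (by omega)
  exact ⟨W', hW'd, fun w hw => hW w (hW' hw)⟩

/-- **minus type, `r` odd** -/
theorem main_minus (h2 : 2 < r) (hr : (r : F) ≠ 0) (hQ : Nondeg Q) {d m : ℕ} (hd : finrank F V = 2 * d)
    (hP : ¬ IsPlus Q) (hmd : m + 1 ≤ d) (hdvd : r ∣ Nat.card (TSm Q m)) {i c : ℕ}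
    (hi : i = orderOf (Fintype.card F : ZMod r)) (hc : c = if Even i then i else 2 * i) :
    (∀ T ∈ O Q, T ^ r = 1 → T ≠ 1 → ∃ W ∈ TSm Q m, ∀ w ∈ W, T w ∈ W) ↔
    ((Odd i ∧ i ≤ m ∧ ((2 * d) % c = 0 ∨ 2 * (m % i) < (2 * d) % c)) ∨
     (Even i ∧ i ≤ m ∧ (r - 1) / i + 2 * (m / i) ≤ (2 * d) / i ∧
       ((2 * (m % i) ≤ i ∧ (2 * d) % c = 0 ∧ Even ((2 * d) / i) ∧ (r - 1) / i + 2 * (m / i) < (2 * d) / i) ∨
        (2 * (m % i) ≤ (2 * d) % c ∧ Odd ((2 * d) / i)) ∨
        (2 * (m % i) < (2 * d) % c ∧ Even ((2 * d) / i))))) := by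
  have hi0 : 0 < i := by rw [hi]; exact H951.ord_pos (F := F) hr
  have hev : Even (finrank F V) := ⟨d, by omega⟩
  -- the fixed space
  have hfix : ∀ (T : V ≃ₗ[F] V), T ∈ O Q → T ^ r = 1 → Nondeg (res Q (fixS T)) := by
    intro T hT hTr
    have := nondeg_fx (x := (T : Module.End F V)) hQ (fun v => hT v) hr (coe_pow_eq_one hTr)
    rwa [fx_coe] at this
  constructor
  · intro H
    have him : i ≤ m := by
      rw [hi]
      refine ord_le hQ hr hdvd fun T hT hTr => ?_
      by_cases h1 : T = 1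
      · subst h1
        obtain ⟨W, hWd, hW⟩ := exists_ts_of_lt hQ hd hmd
        exact ⟨W, ⟨hWd, hW⟩, fun w hw => hw⟩
      · exact H T hT hTr h1
    rcases Nat.even_or_odd i with he | ho
    · right
      rw [if_pos he] at hc
      replace hc := hc.symm
      subst hc
      have hi2 : 2 ≤ i := by obtain ⟨j, hj⟩ := he; omega
      refine ⟨he, him, arith_nec_minus hi2 he him hmd fun A hA hadm => ?_⟩
      obtain ⟨T, hTO, hTr, hT1, hTd, hTW⟩ := exists_sharp (Q := Q) (r := r) (A := A) h2 hr (by rw [← hi]; exact he) hQ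
        hA (by
          left
          rw [← hi, hd]
          refine ⟨⟨d, by omega⟩, ?_⟩
          rcases hadm with h | ⟨h, h'⟩
          · exact Or.inl h
          · exact Or.inr ⟨h, iff_of_false hP (Nat.not_even_iff_odd.2 h')⟩)
      rw [← hi] at hTd hTW
      obtain ⟨W, hW, hWT⟩ := H T hTO hTr hT1
      obtain ⟨b, hb, W₀, hW₀, hW₀s, hWd⟩ := hTW W hWT hW.2
      refine ⟨b, finrank F W₀, hb, by rw [← hWd, hW.1], ?_⟩
      have hf := hfix T hTO hTr
      have hfd := finrank_fixS_add_comS T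
      rw [hd, hTd] at hfd
      rcases Nat.even_or_odd A with hAe | hAo
      · have hfe : Even (finrank F (fixS T)) := by
          obtain ⟨j, hj⟩ := he
          have : i * A = 2 * (j * A) := by rw [hj]; ring
          exact ⟨d - j * A, by omega⟩
        have hfp := isPlus_fx_iff (x := (T : Module.End F V)) h2 hQ hev (fun v => hTO v) hr (coe_pow_eq_one hTr)
          hi.symm he (by rw [cm_coe]; exact hTd)
        rw [fx_coe] at hfp
        have h3 := ts_lt_half hf hW₀ hW₀s hfe (fun h => hP ((hfp.1 h).2 hAe))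
        obtain ⟨k, hk⟩ := hAe
        omega
      · have h3 := ts_le_half hf hW₀ hW₀s
        obtain ⟨k, hk⟩ := hAo
        omega
    · left
      rw [if_neg (Nat.not_even_iff_odd.2 ho)] at hc
      subst hc
      refine ⟨ho, him, ?_⟩
      have hdi : 1 ≤ (d - 1) / i := by rw [Nat.le_div_iff_mul_le hi0]; omega
      have hdm := Nat.div_add_mod (d - 1) i
      have hdm' := Nat.div_add_mod d i
      obtain ⟨T, hTO, hTr, hT1, hTd, hTW⟩ := exists_sharp_odd (Q := Q) (r := r) (A := (d - 1) / i) h2 hr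
        (by rw [← hi]; exact ho) hQ hdi (by
          left
          rw [← hi, hd]
          exact ⟨⟨d, by omega⟩, Or.inl (by omega)⟩)
      rw [← hi] at hTd hTW
      obtain ⟨W, hW, hWT⟩ := H T hTO hTr hT1
      obtain ⟨b, W₀, hW₀, hW₀s, hWd⟩ := hTW W hWT hW.2
      have hx := coe_pow_eq_one hTr
      have hxQ : ∀ v, Q ((T : Module.End F V) v) = Q v := fun v => hTO v
      have hf := hfix T hTO hTr
      have hfd := finrank_fixS_add_comS T
      rw [hd, hTd] at hfd
      have hfe : Even (finrank F (fixS T)) := ⟨d - i * ((d - 1) / i), by omega⟩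
      have hfp : ¬ IsPlus (res Q (fixS T)) := by
        obtain ⟨A, hA, hAP, -⟩ := exists_inv_ts_of_odd (x := (T : Module.End F V)) h2 hr (by rw [← hi]; exact ho)
          hQ hxQ hx
        rw [cm_coe] at hA hAP
        have h3 := isPlus_iff_perp hQ (nondeg_comS hQ hTO hr hTr) hev (by rw [hA]; exact even_two_mul _)
        rw [perp_comS hQ hTO] at h3
        exact fun h => hP (h3.2 ⟨fun _ => h, fun _ => hAP⟩)
      have h3 := ts_lt_half hf hW₀ hW₀s hfe hfp
      rw [hW.1] at hWd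
      have h4 : finrank F W₀ < i := by
        have := Nat.mod_lt (d - 1) hi0
        omega
      have h5 : m % i = finrank F W₀ := by
        rw [hWd, Nat.mul_add_mod, Nat.mod_eq_of_lt h4]
      rw [Nat.mul_mod_mul_left, h5]
      rcases Nat.eq_zero_or_pos (d % i) with h6 | h6
      · left; omega
      · right
        have h7 : (d - 1) % i = d % i - 1 := by
          have h8 : d - 1 = i * (d / i) + (d % i - 1) := by omega
          rw [h8, Nat.mul_add_mod, Nat.mod_eq_of_lt (by have := Nat.mod_lt d hi0; omega)]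
        omega
  · intro hcrit T hTO hTr hT1
    have hx := coe_pow_eq_one hTr
    have hxQ : ∀ v, Q ((T : Module.End F V) v) = Q v := fun v => hTO v
    have hf := hfix T hTO hTr
    have hfd := finrank_fixS_add_comS T
    rcases Nat.even_or_odd i with he | ho
    · have hcr := hcrit.resolve_left (fun h => (Nat.not_even_iff_odd.2 h.1) he)
      rw [if_pos he] at hc
      replace hc := hc.symm
      subst hc
      obtain ⟨-, him, hcr⟩ := hcr
      have hi2 : 2 ≤ i := by obtain ⟨j, hj⟩ := he; omega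
      obtain ⟨A, hA⟩ := H951.ord_dvd_finrank hx H951.inv_cm (H951.inf_fx_of_le_cm hr hx le_rfl)
      rw [← hi] at hA
      have hA' : finrank F (comS T) = i * A := by rw [← cm_coe]; exact hA
      rw [hd, hA'] at hfd
      have hfe : Even (finrank F (fixS T)) := by
        obtain ⟨j, hj⟩ := he
        have : i * A = 2 * (j * A) := by rw [hj]; ring
        exact ⟨d - j * A, by omega⟩
      have hfp := isPlus_fx_iff (x := (T : Module.End F V)) h2 hQ hev hxQ hr hx
        hi.symm he hA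
      rw [fx_coe] at hfp
      obtain ⟨b, w, hb, hmw, hw⟩ := arith_suff_minus (t := (r - 1) / i) (m := m) (A := A) hi2 he hcr
        (by omega) (fun h => by
          have h0 : finrank F (fixS T) = 0 := by omega
          rw [← Nat.not_even_iff_odd]
          exact fun hAe => hP ((hfp.1 (isPlus_of_finrank_zero h0)).2 hAe))
      obtain ⟨W₀, hW₀, hW₀s, hW₀p, hW₀d⟩ := exists_ts_type hf hfe
      have hwle : w ≤ finrank F W₀ := by
        rcases Nat.even_or_odd A with hAe | hAo
        · obtain ⟨k, hk⟩ := hAe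
          omega
        · have := hW₀p (hfp.2 (iff_of_false hP (Nat.not_even_iff_odd.2 hAo)))
          obtain ⟨k, hk⟩ := hAo
          omega
      obtain ⟨W, hWd, hWs, hWi⟩ := exists_inv_ts_of_even (x := (T : Module.End F V)) (m := m) (b := b) h2 hr hQ hxQ hx
        (by rw [← hi]; exact hA) (by rw [fx_coe]; exact hW₀) hW₀s (by rw [← hi]; exact hb) hwle
        (by rw [← hi]; exact hmw)
      exact ⟨W, ⟨hWd, hWs⟩, hWi⟩
    · have hcr := hcrit.resolve_right (fun h => (Nat.not_even_iff_odd.2 ho) h.1)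
      rw [if_neg (Nat.not_even_iff_odd.2 ho)] at hc
      subst hc
      obtain ⟨-, him, hcr⟩ := hcr
      rw [Nat.mul_mod_mul_left] at hcr
      obtain ⟨A, hA, hAP, hW⟩ := exists_inv_ts_of_odd (x := (T : Module.End F V)) h2 hr (by rw [← hi]; exact ho)
        hQ hxQ hx
      rw [← hi] at hA hW
      rw [cm_coe] at hA hAP
      rw [hd, hA] at hfd
      have hfe : Even (finrank F (fixS T)) := ⟨d - i * A, by omega⟩
      obtain ⟨W₀, hW₀, hW₀s, -, hW₀d⟩ := exists_ts_type hf hfe
      have hfp : ¬ IsPlus (res Q (fixS T)) := by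
        have h3 := isPlus_iff_perp hQ (nondeg_comS hQ hTO hr hTr) hev ⟨i * A, by omega⟩
        rw [perp_comS hQ hTO] at h3
        exact fun h => hP (h3.2 ⟨fun _ => h, fun _ => hAP⟩)
      have hfpos : finrank F (fixS T) ≠ 0 := fun h => hfp (isPlus_of_finrank_zero h)
      have hdm := Nat.div_add_mod (d - 1) i
      have hdm' := Nat.div_add_mod d i
      have hmm := Nat.div_add_mod m i
      have hml := Nat.mod_lt m hi0
      have hAd : A ≤ (d - 1) / i := by rw [Nat.le_div_iff_mul_le hi0, mul_comm]; omega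
      have hmod : m % i ≤ (d - 1) % i := by
        rcases Nat.eq_zero_or_pos (d % i) with h6 | h6
        · have hdi : 1 ≤ d / i := by rw [Nat.le_div_iff_mul_le hi0]; omega
          have h7 : (d - 1) % i = i - 1 := by
            have h8 : d - 1 = i * (d / i - 1) + (i - 1) := by
              have h9 : i * (d / i) = i * (d / i - 1) + i := by
                rw [← Nat.mul_succ]; congr 1; omega
              omega
            rw [h8, Nat.mul_add_mod, Nat.mod_eq_of_lt (by omega)]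
          omega
        · have h7 : (d - 1) % i = d % i - 1 := by
            have h8 : d - 1 = i * (d / i) + (d % i - 1) := by omega
            rw [h8, Nat.mul_add_mod, Nat.mod_eq_of_lt (by have := Nat.mod_lt d hi0; omega)]
          omega
      obtain ⟨b, w, hb, hmw, hw⟩ : ∃ b w, b ≤ A ∧ m = i * b + w ∧ w ≤ finrank F W₀ := by
        by_cases h : m / i ≤ A
        · refine ⟨m / i, m % i, h, hmm.symm, ?_⟩
          have : i * A ≤ i * ((d - 1) / i) := Nat.mul_le_mul_left i hAd
          omega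
        · push Not at h
          have : i * A ≤ i * (m / i) := Nat.mul_le_mul_left i h.le
          exact ⟨A, m - i * A, le_rfl, by omega, by omega⟩
      obtain ⟨W, hWd, hWs, hWi⟩ := hW (by rw [fx_coe]; exact hW₀) hW₀s hb hw hmw
      exact ⟨W, ⟨hWd, hWs⟩, hWi⟩

end Cfsg.Agent.H957.TSMinus
end

-- part: S5987
section
set_option autoImplicit false
open scoped MatrixGroups
open Cfsg

namespace Cfsg.Agent.S5987

/-- The statement with `d = k + 1`. -/
theorem aux {F : Type*} [Field F] [Fintype F] {p : ℕ} [Fact p.Prime] [CharP F p] {q : ℕ} (hq : Fintype.card F = q)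
    (d m k : ℕ) (hk : d = k + 1) (hd : 4 ≤ d) (hm : 1 ≤ m) (hmd : m + 1 ≤ d) (a b : F) (hab : ∀ x y : F, x ^ 2 + a * x * y + b * y ^ 2 = 0 → x = 0 ∧ y = 0)
    (r : ℕ) [Fact r.Prime]
    (hrΩ : r ∣ Nat.card {W : Submodule F ((Fin k ⊕ Fin k) ⊕ Fin 2 → F) // Module.finrank F ↥W = m ∧ Cfsg.Geo.IsTotallySingularQuad (Cfsg.quadFormMinus k F a b) W})
    (i c : ℕ) (hi : i = orderOf (q : ZMod r)) (hc : c = if Even i then i else 2 * i) :
    (∀ x : GL ((Fin k ⊕ Fin k) ⊕ Fin 2) F, x ∈ Cfsg.Geo.omegaGL (Cfsg.quadFormMinus k F a b) →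
      (∃ z : F, ((x ^ r : GL ((Fin k ⊕ Fin k) ⊕ Fin 2) F) : Matrix ((Fin k ⊕ Fin k) ⊕ Fin 2) ((Fin k ⊕ Fin k) ⊕ Fin 2) F) = z • (1 : Matrix ((Fin k ⊕ Fin k) ⊕ Fin 2) ((Fin k ⊕ Fin k) ⊕ Fin 2) F)) →
      (∀ z : F, (x : Matrix ((Fin k ⊕ Fin k) ⊕ Fin 2) ((Fin k ⊕ Fin k) ⊕ Fin 2) F) ≠ z • (1 : Matrix ((Fin k ⊕ Fin k) ⊕ Fin 2) ((Fin k ⊕ Fin k) ⊕ Fin 2) F)) →
      ∃ W : Submodule F ((Fin k ⊕ Fin k) ⊕ Fin 2 → F), (Module.finrank F ↥W = m ∧ Cfsg.Geo.IsTotallySingularQuad (Cfsg.quadFormMinus k F a b) W) ∧ W.map (Matrix.toLin' (x : Matrix ((Fin k ⊕ Fin k) ⊕ Fin 2) ((Fin k ⊕ Fin k) ⊕ Fin 2) F)) ≤ W) ↔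
    ((r = 2 ∧ p ≠ 2 ∧ (Even d ∨ Even m ∨ q % 8 ≠ 7)) ∨
     (r ≠ p ∧ 2 < r ∧ Odd i ∧ i ≤ m ∧ ((2 * d) % c = 0 ∨ 2 * (m % i) < (2 * d) % c)) ∨
     (r ≠ p ∧ 2 < r ∧ Even i ∧ i ≤ m ∧ (r - 1) / i + 2 * (m / i) ≤ (2 * d) / i ∧
       ((2 * (m % i) ≤ i ∧ (2 * d) % c = 0 ∧ Even ((2 * d) / i) ∧ (r - 1) / i + 2 * (m / i) < (2 * d) / i) ∨
        (2 * (m % i) ≤ (2 * d) % c ∧ Odd ((2 * d) / i)) ∨
        (2 * (m % i) < (2 * d) % c ∧ Even ((2 * d) / i))))) := by
  subst hq
  subst hk
  set Q := Cfsg.Agent.LieClassical.QuadForms.minusForm k F a b with hQdef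
  have hQc : Cfsg.quadFormMinus k F a b = ⇑Q :=
    (Cfsg.Agent.LieClassical.QuadForms.coe_minusForm k a b).symm
  rw [hQc] at hrΩ ⊢
  have hQ : Cfsg.Agent.LieClassical.OrthCore.Nondeg Q := Cfsg.Agent.H955.nondeg_minus k hab
  have hP : ¬ Cfsg.Agent.H955.IsPlus Q := Cfsg.Agent.H955.not_isPlus_minus k hab
  have hdim : Module.finrank F ((Fin k ⊕ Fin k) ⊕ Fin 2 → F) = 2 * (k + 1) := Cfsg.Agent.H955.finrank_minus k
  have hG : Cfsg.Agent.LieClassical.OrthTrans.Good Q :=
    Cfsg.Agent.LieClassical.OrthFinite.good_of_finite hQ (by rw [hdim]; omega)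
  have hcardeq : Nat.card {W : Submodule F ((Fin k ⊕ Fin k) ⊕ Fin 2 → F) // Module.finrank F ↥W = m ∧
      Cfsg.Geo.IsTotallySingularQuad (⇑Q) W} = Nat.card (Cfsg.Agent.H954.TSing.TSm Q m) := rfl
  rw [hcardeq] at hrΩ
  have hrp : r.Prime := Fact.out
  have hpp : p.Prime := Fact.out
  have hrp' : r ≠ p := by
    rintro rfl
    obtain ⟨W, hW⟩ := Cfsg.Agent.H957.TSMinus.exists_ts_of_lt hQ hdim (m := m) (by omega)
    have h1 := Cfsg.Agent.H954.TSing.card_TSm_modEq_one (p := r) m hQ (by rw [hdim]; omega) ⟨W, hW⟩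
    have h2 := (Nat.modEq_zero_iff_dvd.2 hrΩ).symm.trans h1
    have h3 : r ∣ 1 := Nat.modEq_zero_iff_dvd.1 h2.symm
    exact hrp.one_lt.ne' (Nat.dvd_one.1 h3)
  by_cases hr2 : r = 2
  · subst hr2
    have h2 : (2 : F) ≠ 0 := by
      intro h0
      have h1 : p ∣ 2 := (CharP.cast_eq_zero_iff F p 2).1 (by exact_mod_cast h0)
      exact hrp' ((Nat.prime_dvd_prime_iff_eq hpp hrp).1 h1).symm
    refine (Cfsg.Agent.H957.TwoNeg.two_minus h2 hQ hdim hd hP (m := m) hmd).trans ?_
    constructor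
    · intro h
      exact Or.inl ⟨rfl, Ne.symm hrp', h⟩
    · rintro (h | h | h)
      · exact h.2.2
      · exact absurd h.2.1 (lt_irrefl 2)
      · exact absurd h.2.1 (lt_irrefl 2)
  · have h2r : 2 < r := lt_of_le_of_ne hrp.two_le (Ne.symm hr2)
    have hr : (r : F) ≠ 0 := by
      rw [Ne, CharP.cast_eq_zero_iff F p r]
      intro h
      exact hrp' ((Nat.prime_dvd_prime_iff_eq hpp hrp).1 h).symm
    refine (Cfsg.Agent.H958.transfer_odd hG (hrp.odd_of_ne_two hr2)
      (fun W => Module.finrank F ↥W = m ∧ Cfsg.Geo.IsTotallySingularQuad (⇑Q) W)).trans ?_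
    refine (Cfsg.Agent.H957.TSMinus.main_minus h2r hr hQ hdim hP hmd hrΩ hi hc).trans ?_
    constructor
    · rintro (h | h)
      · exact Or.inr (Or.inl ⟨hrp', h2r, h⟩)
      · exact Or.inr (Or.inr ⟨hrp', h2r, h⟩)
    · rintro (h | h | h)
      · exact absurd h.1 hr2
      · exact Or.inl h.2.2
      · exact Or.inr h.2.2

/-- Elements of prime order of PΩ⁻_n(q) with no fixed totally singular `m`-space. Here `T = PΩ⁻_n(F)`, `n = 2d ≥ 8`, realised through `Ω⁻_n(q)`, the commutator subgroup of the isometry group of `Q = Σ_{i<d−1} xᵢyᵢ + z₁² + a z₁z₂ + b z₂²` with `z₁² + a z₁z₂ + b z₂²` anisotropic, over the field `F` with `q` elements; an element of `T` of prime order `r` is an element `x` of `Ω⁻_n(q)` with `x^r` scalar and `x` not scalar. Let `1 ≤ m ≤ d − 1` and let `r` be a prime dividing the number of totally singular `m`-spaces (subspaces of dimension `m` on which `Q` vanishes); for `r ≠ p` let `i` be the multiplicative order of `q` modulo `r`, `c = i`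 for `i` even and `c = 2i` for `i` odd, and write `k = n mod c`, `ℓ = m mod i`, `n' = ⌊n/i⌋`, `m' = ⌊m/i⌋`, `t = (r−1)/i`. Then every element of `T` of order `r` fixes some totally singular `m`-space if and only if one of: (i) `r = 2 ≠ p` and (`n ≡ 0 (mod 4)`, or `m` is even, or `q ≢ 7 (mod 8)`); (ii) `r ≠ p` odd, `i` odd, `i ≤ m` and (`k = 0` or `k > 2ℓ`); (iii) `r ≠ p` odd, `i` even, `i ≤ m`, `n' − 2m' ≥ t`, and one of: (a) `i ≥ 2ℓ`, `k = 0`, `n/i` even and `n' − 2m' > t` (all four); (b) `k ≥ 2ℓ` and `n'` odd; (c) `k > 2ℓ` and `n'` even. -/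
theorem result {F : Type*} [Field F] [Fintype F] {p : ℕ} [Fact p.Prime] [CharP F p] {q : ℕ} (hq : Fintype.card F = q)
    (d m : ℕ) (hd : 4 ≤ d) (hm : 1 ≤ m) (hmd : m + 1 ≤ d) (a b : F) (hab : ∀ x y : F, x ^ 2 + a * x * y + b * y ^ 2 = 0 → x = 0 ∧ y = 0)
    (r : ℕ) [Fact r.Prime]
    (hrΩ : r ∣ Nat.card {W : Submodule F ((Fin (d - 1) ⊕ Fin (d - 1)) ⊕ Fin 2 → F) // Module.finrank F ↥W = m ∧ Cfsg.Geo.IsTotallySingularQuad (Cfsg.quadFormMinus (d - 1) F a b) W})
    (i c : ℕ) (hi : i = orderOf (q : ZMod r)) (hc : c = if Even i then i else 2 * i) :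
    (∀ x : GL ((Fin (d - 1) ⊕ Fin (d - 1)) ⊕ Fin 2) F, x ∈ Cfsg.Geo.omegaGL (Cfsg.quadFormMinus (d - 1) F a b) →
      (∃ z : F, ((x ^ r : GL ((Fin (d - 1) ⊕ Fin (d - 1)) ⊕ Fin 2) F) : Matrix ((Fin (d - 1) ⊕ Fin (d - 1)) ⊕ Fin 2) ((Fin (d - 1) ⊕ Fin (d - 1)) ⊕ Fin 2) F) = z • (1 : Matrix ((Fin (d - 1) ⊕ Fin (d - 1)) ⊕ Fin 2) ((Fin (d - 1) ⊕ Fin (d - 1)) ⊕ Fin 2) F)) →
      (∀ z : F, (x : Matrix ((Fin (d - 1) ⊕ Fin (d - 1)) ⊕ Fin 2) ((Fin (d - 1) ⊕ Fin (d - 1)) ⊕ Fin 2) F) ≠ z • (1 : Matrix ((Fin (d - 1) ⊕ Fin (d - 1)) ⊕ Fin 2) ((Fin (d - 1) ⊕ Fin (d - 1)) ⊕ Fin 2) F)) →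
      ∃ W : Submodule F ((Fin (d - 1) ⊕ Fin (d - 1)) ⊕ Fin 2 → F), (Module.finrank F ↥W = m ∧ Cfsg.Geo.IsTotallySingularQuad (Cfsg.quadFormMinus (d - 1) F a b) W) ∧ W.map (Matrix.toLin' (x : Matrix ((Fin (d - 1) ⊕ Fin (d - 1)) ⊕ Fin 2) ((Fin (d - 1) ⊕ Fin (d - 1)) ⊕ Fin 2) F)) ≤ W) ↔
    ((r = 2 ∧ p ≠ 2 ∧ (Even d ∨ Even m ∨ q % 8 ≠ 7)) ∨
     (r ≠ p ∧ 2 < r ∧ Odd i ∧ i ≤ m ∧ ((2 * d) % c = 0 ∨ 2 * (m % i) < (2 * d) % c)) ∨
     (r ≠ p ∧ 2 < r ∧ Even i ∧ i ≤ m ∧ (r - 1) / i + 2 * (m / i) ≤ (2 * d) / i ∧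
       ((2 * (m % i) ≤ i ∧ (2 * d) % c = 0 ∧ Even ((2 * d) / i) ∧ (r - 1) / i + 2 * (m / i) < (2 * d) / i) ∨
        (2 * (m % i) ≤ (2 * d) % c ∧ Odd ((2 * d) / i)) ∨
        (2 * (m % i) < (2 * d) % c ∧ Even ((2 * d) / i))))) := by
  exact aux hq d m (d - 1) (by omega) hd hm hmd a b hab r hrΩ i c hi hc

end Cfsg.Agent.S5987
end
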