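import Cfsg.Statements.S5991
import Cfsg.Agent.H958.NoP
import Cfsg.Agent.LieClassical.QuadForms
set_option linter.all false

set_option autoImplicit false
open scoped MatrixGroups
open Cfsg

namespace Cfsg.Agent.S5991

open Cfsg.Agent.H958 Cfsg.Agent.H955 Cfsg.Agent.LieClassical.OrthCore Cfsg.Agent.LieClassical.OrthTrans
  Cfsg.Agent.LieClassical.OrthFinite Cfsg.Agent.LieClassical.QuadForms

/-- Elements of prime order of PΩ⁻_n(q), q odd, with no fixed nondegenerate `m`-space of odd dimension. Here `T = PΩ⁻_n(F)`, `n = 2d ≥ 8`, realised through `Ω⁻_n(q)`, the commutator subgroup of the isometry group of `Q = Σ_{i<d−1} xᵢyᵢ + z₁² + a z₁z₂ + b z₂²` with `z₁² + a z₁z₂ + b z₂²` anisotropic, over the field `F` with `q` elements; an element of `T` of prime order `r` is an element `x` of `Ω⁻_n(q)` with `x^r` scalar and `x` not scalar; `q` and `m` are odd, `1 ≤ m < n/2`. The nondegenerate `m`-spaces fall into two isometry classes,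 each an orbit of `T`, with equivalent actions; fix one such space `W₀` and let Ω be the set of nondegenerate `m`-spaces isometric to `W₀`. Let `r` be a prime dividing the size of Ω; for `r ≠ p` let `i` be the multiplicative order of `q` modulo `r`, `c = i` for `i` even and `c = 2i` for `i` odd, and write `k = n mod c`, `ℓ = m mod i`, `ℓ' = m mod c`, `n' = ⌊n/i⌋`, `m' = ⌊m/i⌋`, `t = (r−1)/i`. Then every element of `T` of order `r` fixes a member of Ω if and only if one of: (i) `r = 2` and (`n ≡ 0 (mod 4)` or `q ≢ 7 (mod 8)`); (ii) `r ≠ p` odd, `i` odd, and `k = 0` or (`c ≤ m` and `k > ℓ' > 0`); (iii) `r ≠ p` odd, `i` even, and either `k = 0` and `n/i` even, or `k > 0`, `i ≤ m` and `k > ℓ' > 0`. (For `r = p` there is always an element of order `p` fixing no member of Ω.) -/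
theorem result {F : Type*} [Field F] [Fintype F] {p : ℕ} [Fact p.Prime] [CharP F p] {q : ℕ} (hq : Fintype.card F = q)
    (hodd : Odd q) (d m : ℕ) (hd : 4 ≤ d) (hm : Odd m) (hmd : m < d) (a b : F) (hab : ∀ x y : F, x ^ 2 + a * x * y + b * y ^ 2 = 0 → x = 0 ∧ y = 0)
    (W₀ : Submodule F ((Fin (d - 1) ⊕ Fin (d - 1)) ⊕ Fin 2 → F)) (hW₀ : Module.finrank F ↥W₀ = m ∧ Cfsg.Geo.IsNondegenerateOn (QuadraticMap.polar (Cfsg.quadFormMinus (d - 1) F a b)) W₀)
    (r : ℕ) [Fact r.Prime]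
    (hrΩ : r ∣ Nat.card {W : Submodule F ((Fin (d - 1) ⊕ Fin (d - 1)) ⊕ Fin 2 → F) // Module.finrank F ↥W = m ∧ Cfsg.Geo.IsNondegenerateOn (QuadraticMap.polar (Cfsg.quadFormMinus (d - 1) F a b)) W ∧ Cfsg.Geo.AreIsometricFor (Cfsg.quadFormMinus (d - 1) F a b) W W₀})
    (i c : ℕ) (hi : i = orderOf (q : ZMod r)) (hc : c = if Even i then i else 2 * i) :
    (∀ x : GL ((Fin (d - 1) ⊕ Fin (d - 1)) ⊕ Fin 2) F, x ∈ Cfsg.Geo.omegaGL (Cfsg.quadFormMinus (d - 1) F a b) →
      (∃ z : F, ((x ^ r : GL ((Fin (d - 1) ⊕ Fin (d - 1)) ⊕ Fin 2) F) : Matrix ((Fin (d - 1) ⊕ Fin (d - 1)) ⊕ Fin 2) ((Fin (d - 1) ⊕ Fin (d - 1)) ⊕ Fin 2) F) = z • (1 : Matrix ((Fin (d - 1) ⊕ Fin (d - 1)) ⊕ Fin 2) ((Fin (d - 1) ⊕ Fin (d - 1)) ⊕ Fin 2) F)) →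
      (∀ z : F, (x : Matrix ((Fin (d - 1) ⊕ Fin (d - 1)) ⊕ Fin 2) ((Fin (d - 1) ⊕ Fin (d - 1)) ⊕ Fin 2) F) ≠ z • (1 : Matrix ((Fin (d - 1) ⊕ Fin (d - 1)) ⊕ Fin 2) ((Fin (d - 1) ⊕ Fin (d - 1)) ⊕ Fin 2) F)) →
      ∃ W : Submodule F ((Fin (d - 1) ⊕ Fin (d - 1)) ⊕ Fin 2 → F), (Module.finrank F ↥W = m ∧ Cfsg.Geo.IsNondegenerateOn (QuadraticMap.polar (Cfsg.quadFormMinus (d - 1) F a b)) W ∧ Cfsg.Geo.AreIsometricFor (Cfsg.quadFormMinus (d - 1) F a b) W W₀) ∧ W.map (Matrix.toLin' (x : Matrix ((Fin (d - 1) ⊕ Fin (d - 1)) ⊕ Fin 2) ((Fin (d - 1) ⊕ Fin (d - 1)) ⊕ Fin 2) F)) ≤ W) ↔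
    ((r = 2 ∧ (Even d ∨ q % 8 ≠ 7)) ∨
     (r ≠ p ∧ 2 < r ∧ Odd i ∧ ((2 * d) % c = 0 ∨ (c ≤ m ∧ 0 < m % c ∧ m % c < (2 * d) % c))) ∨
     (r ≠ p ∧ 2 < r ∧ Even i ∧ (((2 * d) % c = 0 ∧ Even ((2 * d) / i)) ∨ (0 < (2 * d) % c ∧ i ≤ m ∧ 0 < m % c ∧ m % c < (2 * d) % c)))) := by
  rw [← coe_minusForm] at hrΩ hW₀ ⊢
  have hQ : Nondeg (minusForm (d - 1) F a b) := nondeg_minus (d - 1) hab
  have hdim : Module.finrank F ((Fin (d - 1) ⊕ Fin (d - 1)) ⊕ Fin 2 → F) = 2 * d := by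
    rw [finrank_minus]; omega
  have hQp : IsPlus (minusForm (d - 1) F a b) ↔ False := iff_of_false (not_isPlus_minus (d - 1) hab) id
  set Q := minusForm (d - 1) F a b with hQdef
  have hG : Good Q := good_of_finite hQ (by rw [hdim]; omega)
  have h2 : (2 : F) ≠ 0 := two_ne_zero_of_odd hq hodd
  have hp2 : p ≠ 2 := p_ne_two_of_odd hq hodd
  simp only [nondegOn_iff] at hrΩ hW₀ ⊢
  obtain ⟨hW₀d, hW₀n⟩ := hW₀
  have hC : ∀ W' : Submodule F ((Fin (d - 1) ⊕ Fin (d - 1)) ⊕ Fin 2 → F), (Module.finrank F W' = m ∧ Nondeg (res Q W') ∧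
      Cfsg.Geo.AreIsometricFor (⇑Q) W' W₀) ↔ ∃ g ∈ O Q, W₀.map (g : ((Fin (d - 1) ⊕ Fin (d - 1)) ⊕ Fin 2 → F) →ₗ[F] ((Fin (d - 1) ⊕ Fin (d - 1)) ⊕ Fin 2 → F)) = W' := by
    intro W'
    rw [← class_isom hQ hW₀n, hW₀d]
  have hm0 : 0 < m := hm.pos
  by_cases hrp : r = p
  · refine iff_of_false ?_ ?_
    · obtain ⟨T, hT, hTp, hTs, hTW⟩ := exists_noP (p := p) h2 hG hdim hd hm hW₀n hW₀d (by omega)
      refine not_of_elt hG _ hT (by rw [hrp]; exact hTp) hTs ?_
      intro W' hCW hWT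
      obtain ⟨g, hg, rfl⟩ := (hC W').1 hCW
      exact hTW g hg hWT
    · rintro (⟨h, -⟩ | ⟨h, -⟩ | ⟨h, -⟩)
      · exact hp2 (hrp ▸ h)
      · exact h hrp
      · exact h hrp
  by_cases hr2 : r = 2
  · subst hr2
    rw [transfer_two (W₀ := W₀) hG _ hC, two_main h2 hG hdim hW₀n hW₀d (by omega) (by omega),
      FiniteField.isSquare_neg_one_iff, FiniteField.isSquare_two_iff, hq]
    have hqo : q % 2 = 1 := Nat.odd_iff.1 hodd
    rw [Nat.odd_iff] at hm
    have hme : ¬ (m % 2 = 0) := by omega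
    simp only [hQp, true_iff, false_iff, Nat.even_iff, Nat.odd_iff, lt_irrefl, false_and, hme,
      and_false, or_false, false_or, true_and, ne_eq, hp2, not_false_eq_true]
    omega
  · have hr3 : 2 < r := lt_of_le_of_ne (Fact.out : r.Prime).two_le (Ne.symm hr2)
    have hrF : (r : F) ≠ 0 := cast_ne_zero hrp
    have hbk := bk_eq' hq hi hc
    obtain ⟨h1, h3⟩ := odd_main hG h2 hr3 hrF hdim (even_two_mul d) hm (by omega) hW₀n hW₀d hrΩ hbk
    rw [h1]
    simp only [hQp, true_iff, false_iff, not_not] at h3 ⊢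
    rcases Nat.even_or_odd i with hie | hio
    · have hci : c = i := by rw [hc, if_pos hie]
      simp only [dl_even hq hi hie, Nat.not_even_iff_odd] at h3 ⊢
      simp only [hr2, hrp, hr3, hie, Nat.not_odd_iff_even.2 hie, false_and, and_false, false_or,
        true_and, ne_eq, not_false_eq_true]
      rw [← hci]
      constructor
      · intro h
        have h4 := (h3 h).1
        rcases h with h | h
        · exact Or.inl h
        · exact Or.inr (by first | exact ⟨h4, h⟩ | exact ⟨by omega, h4, h⟩)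
      · rintro (h | h)
        · exact Or.inl h
        · exact Or.inr (by first | exact h.2 | exact h.2.2)
    · simp only [dl_odd hq hi hio, not_true_eq_false, and_false, false_or, and_true] at h3 ⊢
      simp only [hr2, hrp, hr3, hio, Nat.not_even_iff_odd.2 hio, false_and, and_false, false_or,
        or_false, true_and, ne_eq, not_false_eq_true]
      constructor
      · intro h
        have h4 := (h3 h).1
        first
          | exact ⟨h4, h⟩
          | (rcases h with h | h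
             · exact Or.inl h
             · exact Or.inr ⟨h4, h⟩)
      · intro h
        first
          | exact h.2
          | (rcases h with h | h
             · exact Or.inl h
             · exact Or.inr h.2)

end Cfsg.Agent.S5991
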