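import Cfsg.Statements.S5994
import Cfsg.Agent.H959.JordanApp
import Cfsg.Agent.LieClassical.QuadForms
set_option linter.all false

set_option autoImplicit false
open scoped MatrixGroups
open Cfsg

namespace Cfsg.Agent.S5994

open Module QuadraticMap Cfsg.Agent.H959 Cfsg.Agent.LieClassical.QuadForms

/-- A necessary condition for every element of order p of PΩ⁻_n(q), q odd, to fix an elliptic `m`-space. Here `T = PΩ⁻_n(F)`, `n = 2d ≥ 8`, realised through `Ω⁻_n(q)`, the commutator subgroup of the isometry group of `Q = Σ_{i<d−1} xᵢyᵢ + z₁² + a z₁z₂ + b z₂²` with `z₁² + a z₁z₂ + b z₂²` anisotropic, over the field `F` with `q` elements; an element of `T` of prime order `r` is an element `x` of `Ω⁻_n(q)` with `x^r` scalar and `x` not scalar; `q` is odd; a nondegenerate `m`-space (even `m`) is a subspace on which the polar form of `Q` is nondegenerate; it is hyperbolic if it contains an `m/2`-dimensional subspace on which `Q` vanishes, elliptic otherwise. Let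 `m` be even with `2 ≤ m ≤ n − 2` and suppose `p` divides the number of elliptic `m`-spaces. If every element of `T` of order `p` fixes some elliptic `m`-space, then `n ≡ m (mod 4)` and every partition of `n` into parts of size at most `p` in which every even part has even multiplicity contains (as a sub-multiset) a partition of `m` in which every even part has even multiplicity. -/
theorem result {F : Type*} [Field F] [Fintype F] {p : ℕ} [Fact p.Prime] [CharP F p] {q : ℕ} (hq : Fintype.card F = q) (hqodd : Odd q)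
    (d m : ℕ) (hd : 4 ≤ d) (hm : 2 ≤ m) (hme : Even m) (hmn : m + 2 ≤ 2 * d) (a b : F) (hab : ∀ x y : F, x ^ 2 + a * x * y + b * y ^ 2 = 0 → x = 0 ∧ y = 0)
    (hpΩ : p ∣ Nat.card {W : Submodule F ((Fin (d - 1) ⊕ Fin (d - 1)) ⊕ Fin 2 → F) // Module.finrank F ↥W = m ∧ Cfsg.Geo.IsNondegenerateOn (QuadraticMap.polar (Cfsg.quadFormMinus (d - 1) F a b)) W ∧ ¬ Cfsg.Geo.IsPlusTypeOn (Cfsg.quadFormMinus (d - 1) F a b) W}) :
    (∀ x : GL ((Fin (d - 1) ⊕ Fin (d - 1)) ⊕ Fin 2) F, x ∈ Cfsg.Geo.omegaGL (Cfsg.quadFormMinus (d - 1) F a b) →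
      (∃ z : F, ((x ^ p : GL ((Fin (d - 1) ⊕ Fin (d - 1)) ⊕ Fin 2) F) : Matrix ((Fin (d - 1) ⊕ Fin (d - 1)) ⊕ Fin 2) ((Fin (d - 1) ⊕ Fin (d - 1)) ⊕ Fin 2) F) = z • (1 : Matrix ((Fin (d - 1) ⊕ Fin (d - 1)) ⊕ Fin 2) ((Fin (d - 1) ⊕ Fin (d - 1)) ⊕ Fin 2) F)) →
      (∀ z : F, (x : Matrix ((Fin (d - 1) ⊕ Fin (d - 1)) ⊕ Fin 2) ((Fin (d - 1) ⊕ Fin (d - 1)) ⊕ Fin 2) F) ≠ z • (1 : Matrix ((Fin (d - 1) ⊕ Fin (d - 1)) ⊕ Fin 2) ((Fin (d - 1) ⊕ Fin (d - 1)) ⊕ Fin 2) F)) →
      ∃ W : Submodule F ((Fin (d - 1) ⊕ Fin (d - 1)) ⊕ Fin 2 → F), (Module.finrank F ↥W = m ∧ Cfsg.Geo.IsNondegenerateOn (QuadraticMap.polar (Cfsg.quadFormMinus (d - 1) F a b)) W ∧ ¬ Cfsg.Geo.IsPlusTypeOn (Cfsg.quadFormMinus (d - 1) F a b) W) ∧ W.map (Matrix.toLin' (x : Matrix ((Fin (d - 1) ⊕ Fin (d - 1)) ⊕ Fin 2) ((Fin (d - 1) ⊕ Fin (d - 1)) ⊕ Fin 2) F)) ≤ W) →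
    ((2 * d) % 4 = m % 4 ∧ (∀ μ : Multiset ℕ, (∀ e ∈ μ, 0 < e ∧ e ≤ p) → (∀ e : ℕ, Even e → Even (μ.count e)) → μ.sum = 2 * d →
        ∃ ν : Multiset ℕ, ν ≤ μ ∧ ν.sum = m ∧ ∀ e : ℕ, Even e → Even (ν.count e))) := by
  have hp : p.Prime := Fact.out
  have hp2 : p ≠ 2 := by
    rintro rfl
    have h1 : ringChar F = 2 := ringChar.eq F 2
    have h3 := FiniteField.even_card_of_char_two h1
    rw [hq] at h3
    rw [Nat.odd_iff] at hqodd
    omega
  have hpodd : Odd p := hp.odd_of_ne_two hp2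
  have h2 : (2 : F) ≠ 0 := by
    intro h
    have h1 : ((2 : ℕ) : F) = 0 := by exact_mod_cast h
    rw [CharP.cast_eq_zero_iff F p] at h1
    exact hp2 ((Nat.prime_dvd_prime_iff_eq hp Nat.prime_two).mp h1)
  have hp3 : 3 ≤ p := by
    have := hp.two_le
    omega
  set Q := minusForm (d - 1) F a b with hQdef
  have hQ : (polarBilin Q).Nondegenerate := nondeg_of_rad h2 _ (minusForm_nondeg (d - 1) a b hab)
  have hcard : Fintype.card ((Fin (d - 1) ⊕ Fin (d - 1)) ⊕ Fin 2) = 2 * d := by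
    rw [Fintype.card_sum, Fintype.card_sum, Fintype.card_fin, Fintype.card_fin]; omega
  have hne : Nonempty ((Fin (d - 1) ⊕ Fin (d - 1)) ⊕ Fin 2) := ⟨Sum.inr 0⟩
  rw [← coe_minusForm]
  intro H
  have H'' : ∀ x : GL ((Fin (d - 1) ⊕ Fin (d - 1)) ⊕ Fin 2) F, x ∈ Cfsg.Geo.omegaGL (⇑Q) → x ^ p = 1 → x ≠ 1 →
      ∃ W : Submodule F ((Fin (d - 1) ⊕ Fin (d - 1)) ⊕ Fin 2 → F), (finrank F W = m ∧
        Cfsg.Geo.IsNondegenerateOn (polar (⇑Q)) W ∧ ¬ Cfsg.Geo.IsPlusTypeOn (⇑Q) W) ∧
        W.map (Matrix.toLin' (x : Matrix ((Fin (d - 1) ⊕ Fin (d - 1)) ⊕ Fin 2) ((Fin (d - 1) ⊕ Fin (d - 1)) ⊕ Fin 2) F)) ≤ W := by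
    intro x hx hxp hx1
    exact H x hx ⟨1, by rw [hxp, one_smul]; rfl⟩ (fun z hz => hx1 (eq_one_of_scalar p x hxp z hz))
  have H' : ∀ x : GL ((Fin (d - 1) ⊕ Fin (d - 1)) ⊕ Fin 2) F, x ∈ Cfsg.Geo.omegaGL (⇑Q) → x ^ p = 1 → x ≠ 1 →
      ∃ W : Submodule F ((Fin (d - 1) ⊕ Fin (d - 1)) ⊕ Fin 2 → F), finrank F W = m ∧
        Cfsg.Geo.IsNondegenerateOn (polar (⇑Q)) W ∧
        W.map (Matrix.toLin' (x : Matrix ((Fin (d - 1) ⊕ Fin (d - 1)) ⊕ Fin 2) ((Fin (d - 1) ⊕ Fin (d - 1)) ⊕ Fin 2) F)) ≤ W := by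
    intro x hx hxp hx1
    obtain ⟨W, ⟨h1, h3, -⟩, h4⟩ := H'' x hx hxp hx1
    exact ⟨W, h1, h3, h4⟩
  have key := fun μ hle heven hsum => partition_of_fixed' h2 p hpodd Q hQ m (by omega) hme (by omega) H' μ hle
    heven hsum
  rw [hcard] at key
  refine ⟨?_, key⟩
  have hm2 := Nat.even_iff.mp hme
  rcases Nat.even_or_odd d with hd' | hd'
  · obtain ⟨ν, h1, h3, h4⟩ := key (Multiset.replicate (d - 2) 2 + ({3} + {1}))
      (by
        intro e he
        rw [Multiset.mem_add, Multiset.mem_add, Multiset.mem_singleton, Multiset.mem_singleton] at he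
        rcases he with he | rfl | rfl
        · rw [Multiset.eq_of_mem_replicate he]; omega
        · omega
        · omega)
      (even_count_two (by rw [Nat.even_iff] at hd' ⊢; omega) (by
        intro e he
        rw [Multiset.mem_add, Multiset.mem_singleton, Multiset.mem_singleton] at he
        rcases he with rfl | rfl <;> decide))
      (by rw [Multiset.sum_add, Multiset.sum_replicate, Multiset.sum_add, Multiset.sum_singleton,
        Multiset.sum_singleton, smul_eq_mul]; omega)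
    obtain ⟨j, O, hj, rfl, hO, hOc⟩ := split_two (O₀ := {3} + {1}) (by
      intro e he
      rw [Multiset.mem_add, Multiset.mem_singleton, Multiset.mem_singleton] at he
      rcases he with rfl | rfl <;> decide) h1 (by rw [h3]; exact hm2) (h4 2 even_two)
    have hc : O.card ≤ 2 := by simpa using Multiset.card_le_card hO
    have hO' : O.sum = 0 ∨ O.sum = 4 := by
      rcases (show O.card = 0 ∨ O.card = 2 by omega) with h | h
      · left; rw [Multiset.card_eq_zero.mp h]; rfl
      · right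
        rw [Multiset.eq_of_le_of_card_le hO (by rw [h]; rfl)]
        rfl
    rw [Multiset.sum_add, Multiset.sum_replicate, smul_eq_mul] at h3
    rw [Nat.even_iff] at hj hd'
    omega
  · by_contra hmod
    have hm4 : m % 4 = 0 := by rw [Nat.odd_iff] at hd'; omega
    have hμodd : ∀ e ∈ ({1} + {1} : Multiset ℕ), Odd e := by
      intro e he
      rw [Multiset.mem_add, Multiset.mem_singleton, or_self] at he
      rw [he]; exact odd_one
    obtain ⟨x, N, hxO, hxp, hx1, hNt, hNs, hNW⟩ := exists_unipotent h2 p hpodd Q hQ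
      (Multiset.replicate (d - 1) 2 + ({1} + {1}))
      (by
        intro e he
        rw [Multiset.mem_add, Multiset.mem_add, Multiset.mem_singleton, or_self] at he
        rcases he with he | rfl
        · rw [Multiset.eq_of_mem_replicate he]; omega
        · omega)
      (even_count_two (by rw [Nat.even_iff]; rw [Nat.odd_iff] at hd'; omega) hμodd)
      ⟨1, by simp, odd_one⟩
      (by rw [Multiset.sum_add, Multiset.sum_replicate, Multiset.sum_add, Multiset.sum_singleton, smul_eq_mul,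
        hcard]; omega)
    have hNN : N ^ 2 = 0 := by
      have h1 := hNt 2
      have h3 : (Multiset.map (fun e => e - 2) (Multiset.replicate (d - 1) 2 + ({1} + {1}))).sum = 0 := by
        simp
      rw [h3, Submodule.finrank_eq_zero] at h1
      exact LinearMap.range_eq_bot.mp h1
    have hx1' : x ≠ 1 := by
      intro h
      have h1 := hNt 1
      rw [hx1 h, pow_one, LinearMap.range_zero, finrank_bot] at h1
      simp at h1
      omega
    obtain ⟨W, ⟨hWm, hWn, hWt⟩, hWx⟩ := H'' x hxO hxp hx1'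
    have hWN := hNW W hWx
    obtain ⟨ν, h1, h3, h4, h5⟩ := exists_sub h2 (polarBilin Q)
      (fun x y => by simp only [polarBilin_apply_apply]; exact polar_comm (⇑Q) x y) N hNs _ hNt W hWN
      (nondeg_of_on hWn)
    obtain ⟨j, O, hj, rfl, hO, hOc⟩ := split_two (O₀ := {1} + {1}) hμodd h1 (by rw [h3, hWm]; exact hm2)
      (h4 2 even_two)
    have hc : O.card ≤ 2 := by simpa using Multiset.card_le_card hO
    have hO0 : O = 0 := by
      rcases (show O.card = 0 ∨ O.card = 2 by omega) with h | h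
      · exact Multiset.card_eq_zero.mp h
      · exfalso
        rw [Multiset.eq_of_le_of_card_le hO (by rw [h]; rfl)] at h3
        rw [Multiset.sum_add, Multiset.sum_replicate, smul_eq_mul, Multiset.sum_add, Multiset.sum_singleton] at h3
        rw [Nat.even_iff] at hj
        omega
    rw [hO0, add_zero, hNN, Submodule.map_zero, finrank_bot, Multiset.count_replicate] at h5
    simp only [OfNat.ofNat_ne_one, if_false, add_zero] at h5
    apply hWt
    refine ⟨W.map N, hWN, ?_, by omega⟩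
    rintro _ ⟨w, hw, rfl⟩
    have h6 := hNs w (N w)
    have h7 : N (N w) = 0 := by
      have := congrArg (fun f : Module.End F _ => f w) hNN
      rw [pow_two] at this
      exact this
    rw [h7, map_zero, neg_zero, polarBilin_apply_apply, polar_self] at h6
    have h8 : (2 : F) * Q (N w) = 0 := by simpa using h6
    exact (mul_eq_zero.mp h8).resolve_left h2


end Cfsg.Agent.S5994
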