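import Cfsg.Statements.S5995
import Cfsg.Agent.H959.JordanApp
import Cfsg.Agent.LieClassical.QuadForms
set_option linter.all false

set_option autoImplicit false
open scoped MatrixGroups
open Cfsg

namespace Cfsg.Agent.S5995

open Module QuadraticMap Cfsg.Agent.H959 Cfsg.Agent.LieClassical.QuadForms

/-- A necessary condition for every element of order p of Ω_n(q), nq odd, to fix a hyperbolic `m`-space. Here `T = Ω_n(F)`, `n = 2d+1 ≥ 7`, `q` odd, realised as the commutator subgroup of the isometry group of `Q = x₀² + Σ xᵢyᵢ` over the field `F` with `q` elements (trivial centre, so its elements of prime order `r` are used directly); a nondegenerate `m`-space (even `m`) is a subspace on which the polar form of `Q` is nondegenerate; it is hyperbolic if it contains an `m/2`-dimensional subspace on which `Q` vanishes, elliptic otherwise. Let `m` be even with `2 ≤ m ≤ n − 1` and suppose `p` divides the number of hyperbolic `m`-spaces. If every element of `T` of order `p` fixes some hyperbolic `m`-space, then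 `m ≡ 0 (mod 4)` and every partition of `n` into parts of size at most `p` in which every even part has even multiplicity contains (as a sub-multiset) a partition of `m` in which every even part has even multiplicity. -/
theorem result {F : Type*} [Field F] [Fintype F] {p : ℕ} [Fact p.Prime] [CharP F p] {q : ℕ} (hq : Fintype.card F = q) (hqodd : Odd q)
    (d m : ℕ) (hd : 3 ≤ d) (hm : 2 ≤ m) (hme : Even m) (hmn : m ≤ 2 * d)
    (hpΩ : p ∣ Nat.card {W : Submodule F (Unit ⊕ (Fin d ⊕ Fin d) → F) // Module.finrank F ↥W = m ∧ Cfsg.Geo.IsNondegenerateOn (QuadraticMap.polar (Cfsg.quadFormOdd d F)) W ∧ Cfsg.Geo.IsPlusTypeOn (Cfsg.quadFormOdd d F) W}) :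
    (∀ x : GL (Unit ⊕ (Fin d ⊕ Fin d)) F, x ∈ Cfsg.Geo.omegaGL (Cfsg.quadFormOdd d F) → orderOf x = p →
      ∃ W : Submodule F (Unit ⊕ (Fin d ⊕ Fin d) → F), (Module.finrank F ↥W = m ∧ Cfsg.Geo.IsNondegenerateOn (QuadraticMap.polar (Cfsg.quadFormOdd d F)) W ∧ Cfsg.Geo.IsPlusTypeOn (Cfsg.quadFormOdd d F) W) ∧ W.map (Matrix.toLin' (x : Matrix (Unit ⊕ (Fin d ⊕ Fin d)) (Unit ⊕ (Fin d ⊕ Fin d)) F)) ≤ W) →
    (m % 4 = 0 ∧ (∀ μ : Multiset ℕ, (∀ e ∈ μ, 0 < e ∧ e ≤ p) → (∀ e : ℕ, Even e → Even (μ.count e)) → μ.sum = 2 * d + 1 →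
        ∃ ν : Multiset ℕ, ν ≤ μ ∧ ν.sum = m ∧ ∀ e : ℕ, Even e → Even (ν.count e))) := by
  have hp : p.Prime := Fact.out
  have hp2 : p ≠ 2 := by
    rintro rfl
    have h1 : ringChar F = 2 := ringChar.eq F 2
    have h3 := FiniteField.even_card_of_char_two h1
    rw [hq] at h3
    rw [Nat.odd_iff] at hqodd
    omega
  have hpodd : Odd p := hp.odd_of_ne_two hp2
  have h2 : (2 : F) ≠ 0 := by
    intro h
    have h1 : ((2 : ℕ) : F) = 0 := by exact_mod_cast h
    rw [CharP.cast_eq_zero_iff F p] at h1
    exact hp2 ((Nat.prime_dvd_prime_iff_eq hp Nat.prime_two).mp h1)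
  have hp3 : 3 ≤ p := by
    have := hp.two_le
    omega
  have hQ : (polarBilin (oddForm d F)).Nondegenerate := nondeg_of_rad h2 _ (oddForm_nondeg d)
  have hcard : Fintype.card (Unit ⊕ (Fin d ⊕ Fin d)) = 2 * d + 1 := by
    rw [Fintype.card_sum, Fintype.card_sum, Fintype.card_fin, Fintype.card_unit]; ring
  intro H
  have H' : ∀ x : GL (Unit ⊕ (Fin d ⊕ Fin d)) F, x ∈ Cfsg.Geo.omegaGL (⇑(oddForm d F)) → x ^ p = 1 → x ≠ 1 →
      ∃ W : Submodule F (Unit ⊕ (Fin d ⊕ Fin d) → F), finrank F W = m ∧
        Cfsg.Geo.IsNondegenerateOn (polar (⇑(oddForm d F))) W ∧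
        W.map (Matrix.toLin' (x : Matrix (Unit ⊕ (Fin d ⊕ Fin d)) (Unit ⊕ (Fin d ⊕ Fin d)) F)) ≤ W := by
    rw [coe_oddForm]
    intro x hx hxp hx1
    obtain ⟨W, ⟨h1, h3, -⟩, h4⟩ := H x hx (orderOf_eq_prime hxp hx1)
    exact ⟨W, h1, h3, h4⟩
  have key := fun μ hle heven hsum => partition_of_fixed' h2 p hpodd (oddForm d F) hQ m (by omega) hme (by omega) H' μ hle
    heven hsum
  rw [hcard] at key
  refine ⟨?_, key⟩
  have hm2 := Nat.even_iff.mp hme
  rcases Nat.even_or_odd d with hd' | hd'
  · obtain ⟨ν, h1, h3, h4⟩ := key (Multiset.replicate d 2 + {1})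
      (by
        intro e he
        rw [Multiset.mem_add, Multiset.mem_singleton] at he
        rcases he with he | rfl
        · rw [Multiset.eq_of_mem_replicate he]; omega
        · omega)
      (even_count_two hd' (by
        intro e he
        rw [Multiset.mem_singleton.mp he]; exact odd_one))
      (by rw [Multiset.sum_add, Multiset.sum_replicate, Multiset.sum_singleton, smul_eq_mul]; ring)
    obtain ⟨j, O, hj, rfl, hO, hOc⟩ := split_two (O₀ := {1}) (by
      intro e he
      rw [Multiset.mem_singleton.mp he]; exact odd_one) h1 (by rw [h3]; exact hm2) (h4 2 even_two)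
    have hc : O.card ≤ 1 := by simpa using Multiset.card_le_card hO
    have hO0 : O = 0 := Multiset.card_eq_zero.mp (by omega)
    rw [hO0, add_zero, Multiset.sum_replicate, smul_eq_mul] at h3
    rw [Nat.even_iff] at hj
    omega
  · obtain ⟨ν, h1, h3, h4⟩ := key (Multiset.replicate (d - 1) 2 + {3})
      (by
        intro e he
        rw [Multiset.mem_add, Multiset.mem_singleton] at he
        rcases he with he | rfl
        · rw [Multiset.eq_of_mem_replicate he]; omega
        · omega)
      (even_count_two (by rw [Nat.even_iff]; rw [Nat.odd_iff] at hd'; omega) (by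
        intro e he
        rw [Multiset.mem_singleton.mp he]; decide))
      (by rw [Multiset.sum_add, Multiset.sum_replicate, Multiset.sum_singleton, smul_eq_mul]; omega)
    obtain ⟨j, O, hj, rfl, hO, hOc⟩ := split_two (O₀ := {3}) (by
      intro e he
      rw [Multiset.mem_singleton.mp he]; decide) h1 (by rw [h3]; exact hm2) (h4 2 even_two)
    have hc : O.card ≤ 1 := by simpa using Multiset.card_le_card hO
    have hO0 : O = 0 := Multiset.card_eq_zero.mp (by omega)
    rw [hO0, add_zero, Multiset.sum_replicate, smul_eq_mul] at h3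
    rw [Nat.even_iff] at hj
    omega


end Cfsg.Agent.S5995
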