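import Cfsg.Statements.S5997
set_option linter.all false

set_option autoImplicit false
open scoped MatrixGroups
open Cfsg

namespace Cfsg.Agent.S5997

variable {F : Type*} [Field F]

lemma comm_form (x y : Matrix (Fin 2) (Fin 2) F) (hx : ∀ z : F, x ≠ z • (1 : Matrix (Fin 2) (Fin 2) F))
    (h : y * x = x * y) : ∃ a b : F, y = a • (1 : Matrix (Fin 2) (Fin 2) F) + b • x := by
  obtain ⟨p, q, r, s, rfl⟩ : ∃ p q r s : F, x = !![p, q; r, s] := ⟨x 0 0, x 0 1, x 1 0, x 1 1, Matrix.eta_fin_two x⟩
  obtain ⟨t, u, v, w, rfl⟩ : ∃ p q r s : F, y = !![p, q; r, s] := ⟨y 0 0, y 0 1, y 1 0, y 1 1, Matrix.eta_fin_two y⟩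
  have h00 := congrFun (congrFun h 0) 0
  have h01 := congrFun (congrFun h 0) 1
  have h10 := congrFun (congrFun h 1) 0
  simp [Matrix.mul_apply, Fin.sum_univ_two] at h00 h01 h10
  by_cases hq : q = 0
  · by_cases hr : r = 0
    · have hps : p - s ≠ 0 := by
        intro hps
        apply hx s
        ext i j
        fin_cases i <;> fin_cases j <;> simp [hq, hr, sub_eq_zero.mp hps]
      subst hq hr
      have hu : u = 0 := by
        have : u * (p - s) = 0 := by linear_combination -h01
        exact (mul_eq_zero.mp this).resolve_right hps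
      have hv : v = 0 := by
        have : v * (p - s) = 0 := by linear_combination h10
        exact (mul_eq_zero.mp this).resolve_right hps
      subst hu hv
      refine ⟨t - (t - w) / (p - s) * p, (t - w) / (p - s), ?_⟩
      ext i j
      fin_cases i <;> fin_cases j <;> simp
      field_simp
      ring
    · refine ⟨t - v / r * p, v / r, ?_⟩
      subst hq
      have hu : u = 0 := by
        have : u * r = 0 := by linear_combination h00
        exact (mul_eq_zero.mp this).resolve_right hr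
      subst hu
      ext i j
      fin_cases i <;> fin_cases j <;> simp
      · field_simp
      · field_simp
        linear_combination h10
  · refine ⟨t - u / q * p, u / q, ?_⟩
    ext i j
    fin_cases i <;> fin_cases j <;> simp
    · field_simp
    · field_simp
      linear_combination -h00
    · field_simp
      linear_combination -h01

lemma companion (x : Matrix (Fin 2) (Fin 2) F) (hx : ∀ z : F, x ≠ z • (1 : Matrix (Fin 2) (Fin 2) F)) :
    ∃ P : Matrix (Fin 2) (Fin 2) F, P.det ≠ 0 ∧ x * P = P * !![0, -x.det; 1, x.trace] := by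
  obtain ⟨a, b, c, d, rfl⟩ : ∃ p q r s : F, x = !![p, q; r, s] := ⟨x 0 0, x 0 1, x 1 0, x 1 1, Matrix.eta_fin_two x⟩
  by_cases hc : c = 0
  · by_cases hb : b = 0
    · have had : d - a ≠ 0 := by
        intro hps
        apply hx d
        ext i j
        fin_cases i <;> fin_cases j <;> simp [hb, hc, (sub_eq_zero.mp hps).symm]
      refine ⟨!![1, a; 1, d], by simpa [Matrix.det_fin_two] using had, ?_⟩
      ext i j
      fin_cases i <;> fin_cases j <;>
        simp [Matrix.mul_apply, Fin.sum_univ_two, Matrix.det_fin_two, Matrix.trace_fin_two, hb, hc] <;> ring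
    · refine ⟨!![0, b; 1, d], by simpa [Matrix.det_fin_two] using hb, ?_⟩
      ext i j
      fin_cases i <;> fin_cases j <;>
        simp [Matrix.mul_apply, Fin.sum_univ_two, Matrix.det_fin_two, Matrix.trace_fin_two, hc] <;> ring
  · refine ⟨!![1, a; 0, c], by simpa [Matrix.det_fin_two] using hc, ?_⟩
    ext i j
    fin_cases i <;> fin_cases j <;>
      simp [Matrix.mul_apply, Fin.sum_univ_two, Matrix.det_fin_two, Matrix.trace_fin_two] <;> ring

lemma det_add_smul (x : Matrix (Fin 2) (Fin 2) F) (a b : F) :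
    (a • (1 : Matrix (Fin 2) (Fin 2) F) + b • x).det = a ^ 2 + a * b * x.trace + b ^ 2 * x.det := by
  simp [Matrix.det_fin_two, Matrix.trace_fin_two]
  ring

/-- The norm form `a² + tab + b²` is universal. -/
lemma universal [Fintype F] (h2 : (2 : F) ≠ 0) (t : F) (ht : t ^ 2 - 4 ≠ 0) (δ : F) :
    ∃ a b : F, a ^ 2 + a * b * t + b ^ 2 = δ := by
  have hodd : Fintype.card F % 2 = 1 := by
    apply FiniteField.odd_card_of_char_ne_two
    intro h
    apply h2
    have := CharP.cast_eq_zero F (ringChar F)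
    rw [h] at this
    exact_mod_cast this
  have hc : (1 - t ^ 2 / 4 : F) ≠ 0 := by
    intro h
    apply ht
    have h4 : (4 : F) ≠ 0 := by
      have : (4 : F) = 2 * 2 := by norm_num
      rw [this]; exact mul_ne_zero h2 h2
    field_simp at h
    linear_combination -h
  obtain ⟨a, b, hab⟩ := FiniteField.exists_root_sum_quadratic (R := F)
    (f := Polynomial.X ^ 2 - Polynomial.C δ) (g := Polynomial.C (1 - t ^ 2 / 4) * Polynomial.X ^ 2)
    (by exact Polynomial.degree_X_pow_sub_C (by norm_num) _)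
    (by exact Polynomial.degree_C_mul_X_pow 2 hc) hodd
  simp at hab
  refine ⟨a - b * t / 2, b, ?_⟩
  have h4 : (4 : F) ≠ 0 := by
    have : (4 : F) = 2 * 2 := by norm_num
    rw [this]; exact mul_ne_zero h2 h2
  field_simp
  field_simp at hab
  linear_combination hab

lemma conj_SL [Fintype F] (h2 : (2 : F) ≠ 0) (x y : GL (Fin 2) F)
    (hx1 : (x : Matrix (Fin 2) (Fin 2) F).det = 1) (hy1 : (y : Matrix (Fin 2) (Fin 2) F).det = 1)
    (hx : ∀ z : F, (x : Matrix (Fin 2) (Fin 2) F) ≠ z • (1 : Matrix (Fin 2) (Fin 2) F))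
    (hy : ∀ z : F, (y : Matrix (Fin 2) (Fin 2) F) ≠ z • (1 : Matrix (Fin 2) (Fin 2) F))
    (htr : (x : Matrix (Fin 2) (Fin 2) F).trace = (y : Matrix (Fin 2) (Fin 2) F).trace)
    (ht : (x : Matrix (Fin 2) (Fin 2) F).trace ^ 2 - 4 ≠ 0) :
    ∃ g ∈ Cfsg.Geo.specialLinear (Fin 2) F, g⁻¹ * x * g = y := by
  obtain ⟨P, hP, hPx⟩ := companion _ hx
  obtain ⟨Q, hQ, hQy⟩ := companion _ hy
  rw [hy1, ← htr] at hQy
  rw [hx1] at hPx
  obtain ⟨a, b, hab⟩ := universal h2 _ ht (Q.det / P.det)
  have hdet := det_add_smul (x : Matrix (Fin 2) (Fin 2) F) a b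
  rw [hx1, mul_one, hab] at hdet
  have hQu : IsUnit Q.det := isUnit_iff_ne_zero.mpr hQ
  set A : Matrix (Fin 2) (Fin 2) F := (a • (1 : Matrix (Fin 2) (Fin 2) F) + b • (x : Matrix (Fin 2) (Fin 2) F)) with hA
  have hAx : (x : Matrix (Fin 2) (Fin 2) F) * A = A * x := by
    simp [hA, mul_add, add_mul]
  set g : Matrix (Fin 2) (Fin 2) F := A * P * Q⁻¹ with hg
  have hgdet : g.det = 1 := by
    rw [hg, Matrix.det_mul, Matrix.det_mul, hdet, Matrix.det_nonsing_inv, Ring.inverse_eq_inv']
    field_simp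
  have hxg : (x : Matrix (Fin 2) (Fin 2) F) * g = g * y := by
    have hyQ : Q⁻¹ * (y : Matrix (Fin 2) (Fin 2) F) = !![0, -1; 1, (x : Matrix (Fin 2) (Fin 2) F).trace] * Q⁻¹ := by
      have h1 : Q⁻¹ * ((y : Matrix (Fin 2) (Fin 2) F) * Q) * Q⁻¹
          = Q⁻¹ * (Q * !![0, -1; 1, (x : Matrix (Fin 2) (Fin 2) F).trace]) * Q⁻¹ := by rw [hQy]
      rw [← mul_assoc, ← mul_assoc, Matrix.nonsing_inv_mul _ hQu, one_mul, mul_assoc, mul_assoc,
        Matrix.mul_nonsing_inv _ hQu, mul_one] at h1
      exact h1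
    rw [hg, mul_assoc (A * P), hyQ, ← mul_assoc, ← mul_assoc, hAx, mul_assoc A, hPx]
    simp only [mul_assoc]
  let γ : GL (Fin 2) F := Matrix.GeneralLinearGroup.mkOfDetNeZero g (by rw [hgdet]; exact one_ne_zero)
  refine ⟨γ, ?_, ?_⟩
  · rw [Cfsg.Geo.specialLinear, MonoidHom.mem_ker]
    ext
    simpa [γ] using hgdet
  · rw [mul_assoc, inv_mul_eq_iff_eq_mul]
    ext1
    exact hxg

lemma ch (x : Matrix (Fin 2) (Fin 2) F) : x * x = x.trace • x - x.det • (1 : Matrix (Fin 2) (Fin 2) F) := by
  obtain ⟨a, b, c, d, rfl⟩ : ∃ p q r s : F, x = !![p, q; r, s] := ⟨x 0 0, x 0 1, x 1 0, x 1 1, Matrix.eta_fin_two x⟩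
  ext i j
  fin_cases i <;> fin_cases j <;>
    simp [Matrix.mul_apply, Fin.sum_univ_two, Matrix.det_fin_two, Matrix.trace_fin_two] <;> ring

/-- A nonscalar matrix `x` with `t x = s` scalar has `t = 0` and `s = 0`. -/
lemma smul_eq_zero_of_nonscalar (x : Matrix (Fin 2) (Fin 2) F)
    (hx : ∀ z : F, x ≠ z • (1 : Matrix (Fin 2) (Fin 2) F)) (t s : F)
    (h : t • x = s • (1 : Matrix (Fin 2) (Fin 2) F)) : t = 0 ∧ s = 0 := by
  have ht : t = 0 := by
    by_contra ht
    apply hx (t⁻¹ * s)
    rw [mul_smul, ← h, smul_smul, inv_mul_cancel₀ ht, one_smul]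
  refine ⟨ht, ?_⟩
  rw [ht, zero_smul] at h
  have := congrFun (congrFun h 0) 0
  simpa using this.symm

lemma qdata (R : Subgroup (GL (Fin 2) F)) (e : ↥R ≃* QuaternionGroup 2) :
    ∃ I J : GL (Fin 2) F, I ∈ R ∧ J ∈ R ∧ R ≤ Subgroup.closure {I, J} ∧
      (I : Matrix (Fin 2) (Fin 2) F) * I = -1 ∧ (J : Matrix (Fin 2) (Fin 2) F) * J = -1 ∧
      (J : Matrix (Fin 2) (Fin 2) F) * I = -(I * J) := by
  set I : GL (Fin 2) F := (e.symm (QuaternionGroup.a 1)).1 with hI
  set J : GL (Fin 2) F := (e.symm (QuaternionGroup.xa 0)).1 with hJ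
  set Z : GL (Fin 2) F := (e.symm (QuaternionGroup.a 2)).1 with hZ
  have hII : I * I = Z := by
    rw [hI, hZ, ← Subgroup.coe_mul, ← map_mul]
    congr 2
  have hJJ : J * J = Z := by
    rw [hJ, hZ, ← Subgroup.coe_mul, ← map_mul]
    congr 2
  have hZZ : Z * Z = 1 := by
    rw [hZ, ← Subgroup.coe_mul, ← map_mul]
    have : (QuaternionGroup.a 2 * QuaternionGroup.a 2 : QuaternionGroup 2) = 1 := by decide
    rw [this, map_one, Subgroup.coe_one]
  have hJI : J * I = Z * (I * J) := by
    rw [hI, hJ, hZ, ← Subgroup.coe_mul, ← map_mul, ← Subgroup.coe_mul, ← map_mul, ← Subgroup.coe_mul, ← map_mul]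
    congr 2
  have hZ1 : Z ≠ 1 := by
    intro h
    rw [hZ] at h
    have h1 : e.symm (QuaternionGroup.a 2) = 1 := Subtype.ext h
    rw [← map_one e.symm] at h1
    exact absurd (e.symm.injective h1) (by decide)
  have hZI : Z * I = I * Z := by rw [← hII, mul_assoc]
  have hZJ : Z * J = J * Z := by rw [← hJJ, mul_assoc]
  -- `Z = -1`
  have hZm : (Z : Matrix (Fin 2) (Fin 2) F) = -1 := by
    have hsc : ∃ z : F, (Z : Matrix (Fin 2) (Fin 2) F) = z • (1 : Matrix (Fin 2) (Fin 2) F) := by
      by_contra hns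
      push Not at hns
      obtain ⟨a, b, hab⟩ := comm_form _ (I : Matrix (Fin 2) (Fin 2) F) hns
        (by rw [← Units.val_mul, ← Units.val_mul, hZI])
      obtain ⟨c, d, hcd⟩ := comm_form _ (J : Matrix (Fin 2) (Fin 2) F) hns
        (by rw [← Units.val_mul, ← Units.val_mul, hZJ])
      have hcomm : J * I = I * J := by
        ext1
        rw [Units.val_mul, Units.val_mul, hab, hcd]
        simp only [mul_add, add_mul, smul_mul_assoc, mul_smul_comm, one_mul, mul_one, smul_add, smul_smul]
        module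
      rw [hcomm] at hJI
      exact hZ1 (mul_eq_right.mp hJI.symm)
    obtain ⟨z, hz⟩ := hsc
    have hz2 : z * z = 1 := by
      have := congrArg (fun g : GL (Fin 2) F => (g : Matrix (Fin 2) (Fin 2) F) 0 0) hZZ
      simpa [hz] using this
    have hz1 : z = -1 := by
      have : (z - 1) * (z + 1) = 0 := by linear_combination hz2
      rcases mul_eq_zero.mp this with h | h
      · exfalso
        apply hZ1
        ext1
        rw [hz, sub_eq_zero.mp h, one_smul, Units.val_one]
      · exact eq_neg_of_add_eq_zero_left h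
    rw [hz, hz1, neg_smul, one_smul]
  refine ⟨I, J, (e.symm _).2, (e.symm _).2, ?_, ?_, ?_, ?_⟩
  · intro r hr
    have hIc : I ∈ Subgroup.closure {I, J} := Subgroup.subset_closure (by simp)
    have hJc : J ∈ Subgroup.closure {I, J} := Subgroup.subset_closure (by simp)
    have ha : ∀ i : ZMod (2 * 2), ((e.symm (QuaternionGroup.a i)).1 : GL (Fin 2) F) = I ^ i.val := by
      intro i
      rw [hI, ← Subgroup.coe_pow, ← map_pow, QuaternionGroup.a_one_pow, ZMod.natCast_zmod_val]
    have key : ∀ g : QuaternionGroup 2, ((e.symm g).1 : GL (Fin 2) F) ∈ Subgroup.closure {I, J} := by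
      intro g
      rcases g with i | i
      · rw [ha]; exact Subgroup.pow_mem _ hIc _
      · have : (QuaternionGroup.xa i : QuaternionGroup 2) = QuaternionGroup.xa 0 * QuaternionGroup.a i := by
          rw [QuaternionGroup.xa_mul_a, zero_add]
        rw [this, map_mul, Subgroup.coe_mul, ha]
        exact Subgroup.mul_mem _ hJc (Subgroup.pow_mem _ hIc _)
    have := key (e ⟨r, hr⟩)
    simpa using this
  · rw [← Units.val_mul, hII, hZm]
  · rw [← Units.val_mul, hJJ, hZm]
  · rw [← Units.val_mul, hJI, Units.val_mul, hZm, Units.val_mul, neg_one_mul]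

section quat

variable (I J : Matrix (Fin 2) (Fin 2) F) (hI : I * I = -1) (hJ : J * J = -1) (hJI : J * I = -(I * J))
include hI hJ hJI

lemma nonscalar_of (h2 : (2 : F) ≠ 0) : ∀ z : F, I ≠ z • (1 : Matrix (Fin 2) (Fin 2) F) := by
  intro z hz
  rw [hz] at hJI hI
  have h1 : (2 * z) • J = 0 := by
    have : z • J = -(z • J) := by simpa using hJI
    rw [mul_smul, two_smul]
    nth_rewrite 1 [this]
    simp
  have h3 : (2 * z) • (J * J) = 0 := by rw [← smul_mul_assoc, h1, zero_mul]
  rw [hJ] at h3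
  have h4 := congrFun (congrFun h3 0) 0
  simp [h2] at h4
  rw [h4] at hI
  have := congrFun (congrFun hI 0) 0
  simp at this

lemma nonscalar_of' (h2 : (2 : F) ≠ 0) : ∀ z : F, J ≠ z • (1 : Matrix (Fin 2) (Fin 2) F) :=
  nonscalar_of J I hJ hI (by rw [hJI, neg_neg]) h2

lemma trace_det_of (h2 : (2 : F) ≠ 0) : I.trace = 0 ∧ I.det = 1 := by
  have h := ch I
  rw [hI] at h
  have := smul_eq_zero_of_nonscalar I (nonscalar_of I J hI hJ hJI h2) I.trace (I.det - 1) (by
    rw [sub_smul, one_smul, sub_eq_add_neg, h]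
    abel)
  exact ⟨this.1, by linear_combination this.2⟩

/-- The relations among `I`, `J`, `K = IJ`. -/
lemma krel : I * (I * J) = -J ∧ J * (I * J) = I ∧ (I * J) * I = J ∧ (I * J) * J = -I ∧ (I * J) * (I * J) = -1 := by
  have h1 : I * (I * J) = -J := by rw [← mul_assoc, hI, neg_one_mul]
  have h2 : J * (I * J) = I := by rw [← mul_assoc, hJI, neg_mul, mul_assoc, hJ, mul_neg, mul_one, neg_neg]
  have h3 : (I * J) * I = J := by rw [mul_assoc, hJI, mul_neg, h1, neg_neg]
  have h4 : (I * J) * J = -I := by rw [mul_assoc, hJ, mul_neg, mul_one]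
  refine ⟨h1, h2, h3, h4, ?_⟩
  rw [mul_assoc, h2, hI]

end quat

section quat

variable (I J : Matrix (Fin 2) (Fin 2) F) (hI : I * I = -1) (hJ : J * J = -1) (hJI : J * I = -(I * J))
include hI hJ hJI

lemma trace_det_K (h2 : (2 : F) ≠ 0) : (I * J).trace = 0 := by
  have h := Matrix.trace_mul_comm I J
  rw [hJI, Matrix.trace_neg] at h
  have : 2 * (I * J).trace = 0 := by linear_combination h
  exact (mul_eq_zero.mp this).resolve_left h2

/-- The determinant of `1 + I + J + IJ` is `4`. -/
lemma det_W (h2 : (2 : F) ≠ 0) : (1 + I + J + I * J).trace = 2 ∧ (1 + I + J + I * J).det = 4 := by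
  obtain ⟨r1, r2, r3, r4, r5⟩ := krel I J hI hJ hJI
  have htI := (trace_det_of I J hI hJ hJI h2).1
  have htJ := (trace_det_of J I hJ hI (by rw [hJI, neg_neg]) h2).1
  have htK := trace_det_K I J hI hJ hJI h2
  have htr : (1 + I + J + I * J).trace = 2 := by
    simp only [Matrix.trace_add, htI, htJ, htK, Matrix.trace_one, add_zero]
    simp
  refine ⟨htr, ?_⟩
  have h := ch (1 + I + J + I * J)
  rw [htr] at h
  have hsq : (1 + I + J + I * J) * (1 + I + J + I * J) = (2 : F) • (1 + I + J + I * J) - (4 : F) • 1 := by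
    simp only [mul_add, add_mul, one_mul, mul_one, hI, hJ, hJI, r1, r2, r3, r4, r5]
    module
  rw [hsq] at h
  have h4 := congrFun (congrFun h 0) 0
  simp at h4
  exact h4.symm

lemma W_conj : (1 + I + J + I * J) * I = J * (1 + I + J + I * J) ∧
    (1 + I + J + I * J) * J = (I * J) * (1 + I + J + I * J) := by
  obtain ⟨r1, r2, r3, r4, r5⟩ := krel I J hI hJ hJI
  constructor
  · simp only [mul_add, add_mul, one_mul, mul_one, hI, hJ, hJI, r1, r2, r3, r4, r5]
    abel
  · simp only [mul_add, add_mul, one_mul, mul_one, hI, hJ, hJI, r1, r2, r3, r4, r5]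
    abel

end quat

/-- An element of the normaliser with determinant one, given trace `±1`. -/
lemma exists_W (h2 : (2 : F) ≠ 0) (R : Subgroup (GL (Fin 2) F)) (e : ↥R ≃* QuaternionGroup 2) (s : F) (hs : s ^ 2 = 1) :
    ∃ w : GL (Fin 2) F, w ∈ Cfsg.Geo.subgroupNormalizer R ∧ (w : Matrix (Fin 2) (Fin 2) F).det = 1 ∧
      (w : Matrix (Fin 2) (Fin 2) F).trace = s := by
  obtain ⟨I, J, hIR, hJR, hcl, hI, hJ, hJI⟩ := qdata R e
  obtain ⟨htr, hdet⟩ := det_W _ _ hI hJ hJI h2
  obtain ⟨hc1, hc2⟩ := W_conj _ _ hI hJ hJI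
  set M : Matrix (Fin 2) (Fin 2) F := (1 + (I : Matrix (Fin 2) (Fin 2) F) + J + I * J) with hM
  have hdet1 : ((s / 2) • M).det = 1 := by
    rw [Matrix.det_smul, hdet]
    simp
    field_simp
    linear_combination 4 * hs
  set w : GL (Fin 2) F := Matrix.GeneralLinearGroup.mkOfDetNeZero ((s / 2) • M) (by rw [hdet1]; exact one_ne_zero) with hw
  have hwM : (w : Matrix (Fin 2) (Fin 2) F) = (s / 2) • M := rfl
  have hwI : w * I = J * w := by
    ext1
    rw [Units.val_mul, Units.val_mul, hwM, smul_mul_assoc, hc1, mul_smul_comm]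
  have hwJ : w * J = I * J * w := by
    ext1
    rw [Units.val_mul, Units.val_mul, Units.val_mul, hwM, smul_mul_assoc, hc2, mul_smul_comm]
  refine ⟨w, ?_, ?_, ?_⟩
  · have hfin : Finite (R : Set (GL (Fin 2) F)) := Finite.of_equiv _ e.symm.toEquiv
    have hle : R ≤ (R.comap (MulAut.conj w).toMonoidHom) := by
      refine hcl.trans ?_
      rw [Subgroup.closure_le]
      intro y hy
      rcases hy with rfl | hy
      · change w * y * w⁻¹ ∈ R
        rw [hwI, mul_assoc, mul_inv_cancel, mul_one]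
        exact hJR
      · rw [Set.mem_singleton_iff.mp hy]
        change w * J * w⁻¹ ∈ R
        rw [hwJ, mul_assoc, mul_inv_cancel, mul_one]
        exact R.mul_mem hIR hJR
    apply Subgroup.mem_normalizer_fintype
    intro n hn
    exact hle hn
  · rw [hwM, hdet1]
  · rw [hwM, Matrix.trace_smul, htr, smul_eq_mul]
    field_simp

lemma exists_I (h2 : (2 : F) ≠ 0) (R : Subgroup (GL (Fin 2) F)) (e : ↥R ≃* QuaternionGroup 2) :
    ∃ w : GL (Fin 2) F, w ∈ Cfsg.Geo.subgroupNormalizer R ∧ (w : Matrix (Fin 2) (Fin 2) F).det = 1 ∧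
      (w : Matrix (Fin 2) (Fin 2) F).trace = 0 := by
  obtain ⟨I, J, hIR, hJR, hcl, hI, hJ, hJI⟩ := qdata R e
  obtain ⟨h0, h1⟩ := trace_det_of _ _ hI hJ hJI h2
  exact ⟨I, Subgroup.le_normalizer hIR, h1, h0⟩

/-- The centraliser of `R` consists of scalars. -/
lemma scalar_of_comm (h2 : (2 : F) ≠ 0) (R : Subgroup (GL (Fin 2) F)) (e : ↥R ≃* QuaternionGroup 2) (y : GL (Fin 2) F)
    (hy : ∀ r ∈ R, y * r = r * y) : ∃ z : F, (y : Matrix (Fin 2) (Fin 2) F) = z • (1 : Matrix (Fin 2) (Fin 2) F) := by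
  obtain ⟨I, J, hIR, hJR, hcl, hI, hJ, hJI⟩ := qdata R e
  obtain ⟨a, b, hab⟩ := comm_form _ (y : Matrix (Fin 2) (Fin 2) F) (nonscalar_of _ _ hI hJ hJI h2)
    (by rw [← Units.val_mul, ← Units.val_mul, hy _ hIR])
  have h := congrArg (fun g : GL (Fin 2) F => (g : Matrix (Fin 2) (Fin 2) F)) (hy _ hJR)
  simp only [Units.val_mul] at h
  rw [hab, add_mul, mul_add, smul_mul_assoc, one_mul, mul_smul_comm, mul_one, add_left_cancel_iff,
    smul_mul_assoc, mul_smul_comm, hJI, smul_neg] at h
  have hb : b = 0 := by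
    by_contra hb
    have h3 : (2 * b) • ((I : Matrix (Fin 2) (Fin 2) F) * J) = 0 := by
      rw [mul_smul, two_smul]
      nth_rewrite 1 [h]
      simp
    rw [smul_eq_zero] at h3
    rcases h3 with h3 | h3
    · exact (mul_ne_zero h2 hb) h3
    · rw [← Units.val_mul] at h3
      exact (I * J).ne_zero h3
  exact ⟨a, by rw [hab, hb, zero_smul, add_zero]⟩

lemma nonscalar_of_disc (w : Matrix (Fin 2) (Fin 2) F) (hd : w.det = 1) (ht : w.trace ^ 2 - 4 ≠ 0) :
    ∀ z : F, w ≠ z • (1 : Matrix (Fin 2) (Fin 2) F) := by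
  intro z hz
  apply ht
  rw [hz] at hd ⊢
  rw [Matrix.det_smul, Matrix.det_one, Fintype.card_fin] at hd
  rw [Matrix.trace_smul, Matrix.trace_one, Fintype.card_fin, smul_eq_mul]
  push_cast
  linear_combination 4 * hd

/-- A normalising element of prime order `r ≥ 5` of `R ≅ Q₈` centralises `R`. -/
lemma comm_of_order (R : Subgroup (GL (Fin 2) F)) (e : ↥R ≃* QuaternionGroup 2) (r : ℕ) [Fact r.Prime] (hr : 5 ≤ r)
    (y : GL (Fin 2) F) (hyN : y ∈ Cfsg.Geo.subgroupNormalizer R) (hyr : y ^ r = 1) :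
    ∀ z ∈ R, y * z = z * y := by
  have hfin : Finite R := Finite.of_equiv _ e.symm.toEquiv
  have hcard : Nat.card R = 8 := by
    rw [Nat.card_congr e.toEquiv, Nat.card_eq_fintype_card, QuaternionGroup.card]
  let φ : MulAut R := R.normalizerMonoidHom ⟨y, hyN⟩
  have hφ : ∀ z : R, ((φ z : R) : GL (Fin 2) F) = y * z * y⁻¹ := fun z => rfl
  have hφr : φ ^ r = 1 := by
    rw [← map_pow]
    have : (⟨y, hyN⟩ : Subgroup.normalizer (R : Set (GL (Fin 2) F))) ^ r = 1 := Subtype.ext hyr
    rw [this, map_one]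
  have hpg : IsPGroup r (Subgroup.zpowers φ) := by
    apply IsPGroup.of_card (n := (Nat.card (Subgroup.zpowers φ)).factorization r)
    rw [Nat.card_zpowers]
    rcases (Nat.dvd_prime (Fact.out : r.Prime)).mp (orderOf_dvd_of_pow_eq_one hφr) with h | h
    · rw [h]; simp
    · rw [h, (Fact.out : r.Prime).factorization_self, pow_one]
  have hmod := hpg.card_modEq_card_fixedPoints R
  -- fixed points form a subgroup
  let C : Subgroup R := (FixedPoints.subgroup (Subgroup.zpowers φ) R)
  have hC : Nat.card (MulAction.fixedPoints (Subgroup.zpowers φ) R) = Nat.card C := rfl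
  have hCd : Nat.card C ∣ 8 := hcard ▸ Subgroup.card_subgroup_dvd_card C
  rw [hC, hcard] at hmod
  -- the central involution is fixed
  have hC1 : Nat.card C ≠ 1 := by
    intro h1
    rw [Subgroup.card_eq_one] at h1
    set Z : R := e.symm (QuaternionGroup.a 2)
    have hZC : Z ∈ C := by
      intro g
      obtain ⟨k, hk⟩ := Subgroup.mem_zpowers_iff.mp g.2
      have hall : ∀ ψ : MulAut R, ψ Z = Z := by
        intro ψ
        have hsq : ∀ g : QuaternionGroup 2, g ≠ 1 → g * g = 1 → g = QuaternionGroup.a 2 := by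
          intro g
          rcases g with i | i <;> revert i <;> decide
        have h2 : e (ψ Z) = QuaternionGroup.a 2 := by
          apply hsq
          · intro h
            have : ψ Z = 1 := by simpa using h
            have : Z = 1 := by simpa using this
            rw [← map_one e.symm] at this
            exact absurd (e.symm.injective this) (by decide)
          · rw [← map_mul, ← map_mul]
            have : Z * Z = 1 := by
              rw [← map_mul]
              have : (QuaternionGroup.a 2 * QuaternionGroup.a 2 : QuaternionGroup 2) = 1 := by decide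
              rw [this, map_one]
            rw [this, map_one, map_one]
        rw [← e.apply_eq_iff_eq, h2]
        simp [Z]
      have : (g : MulAut R) Z = Z := hall _
      exact this
    rw [h1, Subgroup.mem_bot] at hZC
    rw [← map_one e.symm] at hZC
    exact absurd (e.symm.injective hZC) (by decide)
  have hC8 : Nat.card C = 8 := by
    have hle : Nat.card C ≤ 8 := Nat.le_of_dvd (by norm_num) hCd
    have hdvd : r ∣ 8 - Nat.card C := (Nat.modEq_iff_dvd' hle).mp hmod.symm
    have hpr : r.Prime := Fact.out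
    have hcases : Nat.card C = 2 ∨ Nat.card C = 4 ∨ Nat.card C = 8 := by
      generalize Nat.card C = c at *
      interval_cases c <;> omega
    rcases hcases with h | h | h
    · rw [h] at hdvd
      have : r ≤ 6 := Nat.le_of_dvd (by norm_num) hdvd
      interval_cases r
      · norm_num at hdvd
      · norm_num at hpr
    · rw [h] at hdvd
      have : r ≤ 4 := Nat.le_of_dvd (by norm_num) hdvd
      omega
    · exact h
  have hCtop : C = ⊤ := by
    apply Subgroup.eq_top_of_card_eq
    rw [hC8, hcard]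
  intro z hz
  have hzC : (⟨z, hz⟩ : R) ∈ C := by rw [hCtop]; exact Subgroup.mem_top _
  have h1 : φ ⟨z, hz⟩ = ⟨z, hz⟩ := hzC ⟨φ, Subgroup.mem_zpowers φ⟩
  have h2 := congrArg (fun w : R => (w : GL (Fin 2) F)) h1
  simp only [hφ] at h2
  exact mul_inv_eq_iff_eq_mul.mp h2

/-- Elements of prime order of PSL_2(p) and the normalizer of a quaternion subgroup. Here `T = PSL_2(F)` for the field `F` with `p` elements, `p ≥ 5` prime; `R` is a subgroup of GL_2(F) isomorphic to the quaternion group of order 8 (an absolutely irreducible 2-group of symplectic type), and `H` is the subgroup of matrices of determinant 1 normalizing `R` — a subgroup of type 2^{1+2}.O₂⁻(2), isomorphic modulo scalars to A₄ or S₄ (maximality is not assumed). Ω is the set of cosets of `H` in `T`, so an element of `T` of prime order `r` (a matrix `x` of determinant 1 with `x^r` scalar, `x` not scalar) fixes a point of Ω exactly when some conjugate of `x` by a matrix of determinant 1 normalizes `R`. Let `r` be a prime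 dividing the index of `H`. Then every element of `T` of order `r` fixes a point of Ω if and only if `r = 2` or `r = 3`. -/
theorem result {F : Type*} [Field F] [Fintype F] {p : ℕ} [Fact p.Prime] [CharP F p] (hF : Fintype.card F = p) (hp : 5 ≤ p)
    (R : Subgroup (GL (Fin 2) F)) (hR : Nonempty (↥R ≃* QuaternionGroup 2))
    (r : ℕ) [Fact r.Prime]
    (hΩ : r ∣ (Cfsg.Geo.subgroupNormalizer R).relIndex (Cfsg.Geo.specialLinear (Fin 2) F)) :
    (∀ x ∈ Cfsg.Geo.specialLinear (Fin 2) F, (∃ z : F, ((x ^ r : GL (Fin 2) F) : Matrix (Fin 2) (Fin 2) F) = z • (1 : Matrix (Fin 2) (Fin 2) F)) →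
      (∀ z : F, (x : Matrix (Fin 2) (Fin 2) F) ≠ z • (1 : Matrix (Fin 2) (Fin 2) F)) →
      ∃ g ∈ Cfsg.Geo.specialLinear (Fin 2) F, g⁻¹ * x * g ∈ Cfsg.Geo.subgroupNormalizer R) ↔ (r = 2 ∨ r = 3) := by
  obtain ⟨e⟩ := hR
  have hnat : ∀ n : ℕ, 0 < n → n < p → (n : F) ≠ 0 := by
    intro n hn hnp h
    rw [CharP.cast_eq_zero_iff F p] at h
    exact absurd (Nat.le_of_dvd hn h) (by omega)
  have h2 : (2 : F) ≠ 0 := by exact_mod_cast hnat 2 (by norm_num) (by omega)
  have h3 : (3 : F) ≠ 0 := by exact_mod_cast hnat 3 (by norm_num) (by omega)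
  have h4 : (4 : F) ≠ 0 := by exact_mod_cast hnat 4 (by norm_num) (by omega)
  have hdet : ∀ x ∈ Cfsg.Geo.specialLinear (Fin 2) F, (x : Matrix (Fin 2) (Fin 2) F).det = 1 := by
    intro x hx
    have := congrArg (fun u : Fˣ => (u : F)) (MonoidHom.mem_ker.mp hx)
    simpa using this
  constructor
  · intro H
    by_contra hne
    push Not at hne
    have hrp : r.Prime := Fact.out
    have hr5 : 5 ≤ r := by
      have := hrp.two_le
      by_contra hlt
      have : r = 4 := by omega
      rw [this] at hrp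
      exact absurd hrp (by norm_num)
    have hrc : r ∣ Nat.card (Cfsg.Geo.specialLinear (Fin 2) F) := by
      refine hΩ.trans ?_
      rw [Subgroup.relIndex]
      exact Subgroup.index_dvd_card _
    obtain ⟨x, hx⟩ := exists_prime_orderOf_dvd_card' r hrc
    have hxr : (x : GL (Fin 2) F) ^ r = 1 := by
      rw [← Subgroup.coe_pow, ← hx, pow_orderOf_eq_one, Subgroup.coe_one]
    have hxns : ∀ z : F, ((x : GL (Fin 2) F) : Matrix (Fin 2) (Fin 2) F) ≠ z • (1 : Matrix (Fin 2) (Fin 2) F) := by
      intro z hz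
      have hd := hdet _ x.2
      rw [hz, Matrix.det_smul, Matrix.det_one, Fintype.card_fin, mul_one] at hd
      have hx2 : x ^ 2 = 1 := by
        apply Subtype.ext
        ext1
        rw [Subgroup.coe_pow, Units.val_pow_eq_pow_val, hz, smul_pow, one_pow, hd, one_smul]
        rfl
      have := orderOf_dvd_of_pow_eq_one hx2
      rw [hx] at this
      exact absurd (Nat.le_of_dvd (by norm_num) this) (by omega)
    obtain ⟨g, hg, hgN⟩ := H x x.2 ⟨1, by rw [hxr, one_smul]; rfl⟩ hxns
    have hyr : (g⁻¹ * (x : GL (Fin 2) F) * g) ^ r = 1 := by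
      have : (g⁻¹ * (x : GL (Fin 2) F) * g) = g⁻¹ * (x : GL (Fin 2) F) * g⁻¹⁻¹ := by rw [inv_inv]
      rw [this, conj_pow, hxr]
      simp
    obtain ⟨z, hz⟩ := scalar_of_comm h2 R e _ (comm_of_order R e r hr5 _ hgN hyr)
    apply hxns z
    have hxz : (x : GL (Fin 2) F) = g * (g⁻¹ * (x : GL (Fin 2) F) * g) * g⁻¹ := by group
    rw [hxz, Units.val_mul, Units.val_mul, hz, mul_smul_comm, mul_one, smul_mul_assoc, ← Units.val_mul,
      mul_inv_cancel, Units.val_one]
  · intro hr x hx hz hns
    obtain ⟨z, hz⟩ := hz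
    have hxd := hdet x hx
    have hch := ch (x : Matrix (Fin 2) (Fin 2) F)
    rw [hxd, one_smul] at hch
    rcases hr with rfl | rfl
    · obtain ⟨w, hwN, hwd, hwt⟩ := exists_I h2 R e
      have ht : (x : Matrix (Fin 2) (Fin 2) F).trace = 0 := by
        refine (smul_eq_zero_of_nonscalar _ hns _ (z + 1) ?_).1
        rw [Units.val_pow_eq_pow_val, pow_two, hch] at hz
        rw [add_smul, one_smul, ← hz]
        abel
      have hdisc : (x : Matrix (Fin 2) (Fin 2) F).trace ^ 2 - 4 ≠ 0 := by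
        rw [ht]; simpa using h4
      obtain ⟨g, hg, hgw⟩ := conj_SL h2 x w hxd hwd hns
        (nonscalar_of_disc _ hwd (by rw [hwt]; simpa using h4)) (by rw [ht, hwt]) hdisc
      exact ⟨g, hg, by rw [hgw]; exact hwN⟩
    · have ht : (x : Matrix (Fin 2) (Fin 2) F).trace ^ 2 = 1 := by
        have := (smul_eq_zero_of_nonscalar _ hns ((x : Matrix (Fin 2) (Fin 2) F).trace ^ 2 - 1)
          (z + (x : Matrix (Fin 2) (Fin 2) F).trace) ?_).1
        · linear_combination this
        · rw [Units.val_pow_eq_pow_val, pow_succ, pow_two, hch, sub_mul, smul_mul_assoc, hch, one_mul] at hz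
          rw [add_smul, ← hz]
          module
      obtain ⟨w, hwN, hwd, hwt⟩ := exists_W h2 R e _ ht
      have hdisc : (x : Matrix (Fin 2) (Fin 2) F).trace ^ 2 - 4 ≠ 0 := by
        rw [ht]
        intro h
        apply h3
        linear_combination -h
      obtain ⟨g, hg, hgw⟩ := conj_SL h2 x w hxd hwd hns
        (nonscalar_of_disc _ hwd (by rw [hwt]; exact hdisc)) (by rw [hwt]) hdisc
      exact ⟨g, hg, by rw [hgw]; exact hwN⟩

end Cfsg.Agent.S5997
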