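import Cfsg.Statements.S5998
import Cfsg.Agent.H960.Nine
set_option linter.all false

set_option autoImplicit false
open scoped MatrixGroups
open Cfsg

namespace Cfsg.Agent.S5998

open Cfsg.Geo Matrix Cfsg.Agent.H960 Cfsg.Agent.LieClassical.HermBasic

/-- Elements of prime order of PSL_3(p), p ≡ 1 (mod 3), and the normalizer of an extraspecial subgroup of order 27. Here `T = PSL_3(F)` for the field `F` with `p` elements, `p` a prime with `p ≡ 1 (mod 3)`; `R` is a non-abelian subgroup of GL_3(F) of order 27 and exponent 3 (an extraspecial group 3^{1+2}, acting absolutely irreducibly), and `H` is the subgroup of matrices of determinant 1 normalizing `R` — a subgroup of type 3^{1+2}.Sp₂(3) (maximality is not assumed). Ω is the set of cosets of `H` in `T`, so an element of `T` of prime order `r` (a matrix `x` of determinant 1 with `x^r` scalar, `x` not scalar) fixes a point of Ω exactly when some conjugate of `x` by a matrix of determinant 1 normalizes `R`. Let `r` be a prime dividing the index of `H`. Then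 every element of `T` of order `r` fixes a point of Ω if and only if `r = 2`, or `r = 3` and `p ≡ 1 (mod 9)`. -/
theorem result {F : Type*} [Field F] [Fintype F] {p : ℕ} [Fact p.Prime] [CharP F p] (hF : Fintype.card F = p) (hp3 : p % 3 = 1)
    (R : Subgroup (GL (Fin 3) F)) (hR : Nat.card R = 27) (hRe : Monoid.exponent R = 3) (hRna : ¬ IsMulCommutative R)
    (r : ℕ) [Fact r.Prime]
    (hΩ : r ∣ (Cfsg.Geo.subgroupNormalizer R).relIndex (Cfsg.Geo.specialLinear (Fin 3) F)) :
    (∀ x ∈ Cfsg.Geo.specialLinear (Fin 3) F, (∃ z : F, ((x ^ r : GL (Fin 3) F) : Matrix (Fin 3) (Fin 3) F) = z • (1 : Matrix (Fin 3) (Fin 3) F)) →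
      (∀ z : F, (x : Matrix (Fin 3) (Fin 3) F) ≠ z • (1 : Matrix (Fin 3) (Fin 3) F)) →
      ∃ g ∈ Cfsg.Geo.specialLinear (Fin 3) F, g⁻¹ * x * g ∈ Cfsg.Geo.subgroupNormalizer R) ↔ (r = 2 ∨ (r = 3 ∧ p % 9 = 1)) := by
  refine Iff.trans (lhs_iff _ _ _) ?_
  have hG : specialLinear (Fin 3) F = ⊤ ⊓ specialLinear (Fin 3) F := (top_inf_eq _).symm
  have hp : p.Prime := Fact.out
  have hr : r.Prime := Fact.out
  have hcast : ∀ q : ℕ, q.Prime → q ≠ p → (q : F) ≠ 0 := by
    intro q hq hqp h
    rw [CharP.cast_eq_zero_iff F p] at h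
    exact hqp ((Nat.prime_dvd_prime_iff_eq hp hq).1 h).symm
  have h2 : (2 : F) ≠ 0 := by
    have := hcast 2 Nat.prime_two (by rintro rfl; omega)
    exact_mod_cast this
  have h3 : (3 : F) ≠ 0 := by
    have := hcast 3 Nat.prime_three (by rintro rfl; omega)
    exact_mod_cast this
  have hRfin : Finite R := Nat.finite_of_card_ne_zero (by rw [hR]; norm_num)
  have hRe' : ∀ g ∈ R, g ^ 3 = 1 := by
    intro g hg
    have h1 : (⟨g, hg⟩ : R) ^ 3 = 1 := by
      have := Monoid.pow_exponent_eq_one (⟨g, hg⟩ : R)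
      rwa [hRe] at this
    exact congrArg Subtype.val h1
  have hna : ∃ a ∈ R, ∃ b ∈ R, a * b ≠ b * a := by
    by_contra hcon
    push Not at hcon
    apply hRna
    exact ⟨⟨fun a b => Subtype.ext (hcon a a.2 b b.2)⟩⟩
  obtain ⟨ω₀, hω₀⟩ : ∃ ω : F, ω * ω + ω + 1 = 0 := by
    apply exists_omega
    rw [hF]
    omega
  obtain ⟨Q, a, b, ω, H⟩ := exists_heis h3 hω₀ hR hRe' hna
  have hA := Amb.top (F := F) 3
  constructor
  · intro L
    by_contra hcon
    push Not at hcon
    obtain ⟨hr2, hr3⟩ := hcon
    by_cases hr3' : r = 3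
    · subst hr3'
      have hp9 : p % 9 = 4 ∨ p % 9 = 7 := by
        have := hr3 rfl
        omega
      have h81 := dvd_81 hR (le_normalizer R) H.le_sl hΩ
      rw [card_SL3 hF hp.two_le] at h81
      refine not_81 ?_ (pow3_sub hp9) (pow3_sub' hp9) h81
      intro h
      have := Nat.prime_three.dvd_of_dvd_pow h
      omega
    · rw [hG] at hΩ L
      exact heis_five h3 hR H hr2 hr3' hΩ L
  · rw [hG]
    rintro (rfl | ⟨rfl, hmod⟩)
    · refine heis_two h2 hA (neg_ne_zero.2 one_ne_zero) H (Subgroup.mem_top _) ?_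
      intro y _ hyy
      have hprim : IsPrimitiveRoot (-1 : F) 2 := by
        rw [IsPrimitiveRoot.iff (by norm_num)]
        refine ⟨by norm_num, fun l h0 hl => ?_⟩
        have : l = 1 := by omega
        rw [this, pow_one]
        intro h
        exact h2 (by linear_combination -h)
      obtain ⟨B, w, hw, hB⟩ := exists_diag_GL hprim (by norm_num) (by exact_mod_cast h2)
        (M := (y : Matrix (Fin 3) (Fin 3) F)) (by
          rw [pow_two, ← Units.val_mul, hyy, Units.val_one])
      refine ⟨B, Subgroup.mem_top _, w, fun i => ?_, hB⟩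
      exact mul_self_eq_one_iff.1 (by rw [← pow_two]; exact hw i)
    · refine heis_three h3 hA H (Subgroup.mem_top _) ?_ ?_ ?_
      · rintro c hc rfl
        rw [zero_pow (by norm_num)] at hc
        exact zero_ne_one hc
      · intro y _ hyy
        obtain ⟨B, w, hw, hB⟩ := exists_diag_GL (prim_omega h3 hω₀) (by norm_num) (by exact_mod_cast h3)
          (M := (y : Matrix (Fin 3) (Fin 3) F)) (by
            rw [← Units.val_pow_eq_pow_val, hyy, Units.val_one])
        exact ⟨B, Subgroup.mem_top _, w, hw, hB⟩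
      · -- ninth roots of unity
        intro c hc
        obtain ⟨ζ₀, h9, h93⟩ := exists_nine (F := F) (by rw [hF]; omega)
        obtain ⟨ζ, hζ9, hζ⟩ := cube_of_nine h9 h93 hc
        refine ⟨ζ, ?_, hζ⟩
        rintro rfl
        rw [zero_pow (by norm_num)] at hζ9
        exact zero_ne_one hζ9

end Cfsg.Agent.S5998
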