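import Cfsg.Statements.S6001
import Cfsg.Agent.H960.GUMisc
set_option linter.all false

set_option autoImplicit false
open scoped MatrixGroups
open Cfsg

namespace Cfsg.Agent.S6001

open Cfsg.Geo Matrix Cfsg.Agent.H960 Cfsg.Agent.LieClassical.HermBasic

/-- Elements of prime order of PSU_4(p), p ≡ 3 (mod 4), and the normalizer of a 2-group of symplectic type of order 2⁶. Here `T = PSU_4(p)` for a prime `p ≡ 3 (mod 4)`, realised through `SU_4(p)`, the matrices of determinant 1 over the field `F` with `p²` elements preserving the hermitian form `f = Σ uᵢvᵢ^p`; `R` is an absolutely irreducible subgroup of the full unitary group of `f` of order 2⁶ that is a 2-group of symplectic type of exponent 4 with centre of order 4, and `H` is the subgroup of `SU_4(p)` normalizing `R` — a subgroup of type 2⁴.Sp₄(2) (maximality is not assumed). Ω is the set of cosets of `H`, so an element of `T` of prime order `r` (`x ∈ SU_4(p)` with `x^r` scalar, `x` not scalar) fixes a point of Ω exactly when some `SU_4(p)`-conjugate of `x` normalizes `R`. Let `r` be a prime dividing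 the index of `H`. Then every element of `T` of order `r` fixes a point of Ω if and only if `r = 2`, or `r = 3` and `p ≡ 1 (mod 3)`, or `r = 5` and `p ≡ ±2 (mod 5)` (`p` has multiplicative order 4 modulo 5). -/
theorem result {F : Type*} [Field F] [Fintype F] {p : ℕ} [Fact p.Prime] [CharP F p] (hF : Fintype.card F = p ^ 2) (hp4 : p % 4 = 3)
    (R : Subgroup (GL (Fin 4) F)) (hRs : Cfsg.Geo.IsSymplecticTypeGroup 2 R) (hRi : Cfsg.Geo.ActsAbsolutelyIrreducibly (Cfsg.Geo.matrixSet R))
    (hRU : R ≤ Cfsg.GU 4 F p) (hR6 : Nat.card R = 2 ^ 6) (hRZ : Nat.card (Subgroup.center R) = 4)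
    (r : ℕ) [Fact r.Prime]
    (hΩ : r ∣ (Cfsg.Geo.subgroupNormalizer R).relIndex (Cfsg.GU 4 F p ⊓ Cfsg.Geo.specialLinear (Fin 4) F)) :
    (∀ x ∈ Cfsg.GU 4 F p ⊓ Cfsg.Geo.specialLinear (Fin 4) F, (∃ z : F, ((x ^ r : GL (Fin 4) F) : Matrix (Fin 4) (Fin 4) F) = z • (1 : Matrix (Fin 4) (Fin 4) F)) →
      (∀ z : F, (x : Matrix (Fin 4) (Fin 4) F) ≠ z • (1 : Matrix (Fin 4) (Fin 4) F)) →
      ∃ g ∈ Cfsg.GU 4 F p ⊓ Cfsg.Geo.specialLinear (Fin 4) F, g⁻¹ * x * g ∈ Cfsg.Geo.subgroupNormalizer R) ↔ (r = 2 ∨ (r = 3 ∧ p % 3 = 1) ∨ (r = 5 ∧ orderOf (p : ZMod 5) = 4)) := by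
  refine Iff.trans (lhs_iff _ _ _) ?_
  have hp : p.Prime := Fact.out
  have hr : r.Prime := Fact.out
  have hcast : ∀ q : ℕ, q.Prime → q ≠ p → (q : F) ≠ 0 := by
    intro q hq hqp h
    rw [CharP.cast_eq_zero_iff F p] at h
    exact hqp ((Nat.prime_dvd_prime_iff_eq hp hq).1 h).symm
  have h2 : (2 : F) ≠ 0 := by
    have := hcast 2 Nat.prime_two (by rintro rfl; omega)
    exact_mod_cast this
  have h11 : (1 : F) ≠ -1 := fun h => h2 (by linear_combination h)
  have hRfin : Finite R := Nat.finite_of_card_ne_zero (by rw [hR6]; norm_num)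
  have E : Ext R := ext_of_symplectic h2 hRs hRi (by rw [hR6, hRZ]; norm_num) (by rw [hRZ]; norm_num)
  have hZ : Nat.card (R ⊓ scalars (Fin 4) F : Subgroup (GL (Fin 4) F)) = 4 := by rw [← card_center_eq E.c1, hRZ]
  have hA := Amb.gu hF 4
  have hS : Adm (GU 4 F p) := adm_of_star (stU_star hF)
  constructor
  · intro L
    by_cases hr2 : r = 2
    · exact Or.inl hr2
    right
    by_cases hrp : r = p
    · exfalso
      subst hrp
      -- transvections
      obtain ⟨x, a, b, hx, hxm, hNN, hN0⟩ := exists_transv hF
      have hpow : ∀ k : ℕ, (1 + Matrix.vecMulVec a b) ^ k = 1 + (k : F) • Matrix.vecMulVec a b := by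
        intro k
        induction k with
        | zero => rw [pow_zero, Nat.cast_zero, zero_smul, add_zero]
        | succ k ih =>
          rw [pow_succ, ih, mul_add, mul_one, add_mul, one_mul, smul_mul_assoc, hNN, smul_zero, add_zero,
            Nat.cast_succ, add_smul, one_smul, add_assoc]
      refine L.transv E hr2 hx ?_ ?_ hxm hNN
      · apply m_ext
        rw [Units.val_pow_eq_pow_val, hxm, hpow, CharP.cast_eq_zero, zero_smul, add_zero, Units.val_one]
      · intro h
        rw [h, Units.val_one] at hxm
        exact hN0 (left_eq_add.1 hxm)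
    · rcases L.three_or_five E hZ hr2 hΩ with h5 | h3'
      · -- `r = 5`
        right
        subst h5
        refine ⟨rfl, ?_⟩
        by_contra hord
        have h5F : ((5 : ℕ) : F) ≠ 0 := hcast 5 Nat.prime_five hrp
        have hp5 : ¬ 5 ∣ p := fun h => hrp ((Nat.prime_dvd_prime_iff_eq Nat.prime_five hp).1 h)
        have hmod : p % 5 = 1 ∨ p % 5 = 4 := mod5_of_order hp5 hord
        have hdvd : 5 ∣ Nat.card (SU 2 F p) := by
          rw [card_SU2 hF]
          apply Dvd.dvd.mul_left
          have h1 : 1 ≤ p ^ 2 := Nat.one_le_pow _ _ hp.pos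
          rw [← Nat.modEq_iff_dvd' h1]
          rw [Nat.ModEq, Nat.pow_mod]
          rcases hmod with h | h <;> rw [h]
        have hfinSL : Finite (Matrix.SpecialLinearGroup (Fin 2) F) := inferInstance
        obtain ⟨C, hC⟩ := exists_prime_orderOf_dvd_card' (G := SU 2 F p) 5 hdvd
        have hC5 : (C : Matrix.SpecialLinearGroup (Fin 2) F) ^ 5 = 1 := by
          have : C ^ 5 = 1 := orderOf_dvd_iff_pow_eq_one.1 (by rw [hC])
          exact congrArg Subtype.val this
        have hC1 : (C : Matrix.SpecialLinearGroup (Fin 2) F) ≠ 1 := by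
          intro h
          have h1 : C = 1 := Subtype.ext h
          rw [h1, orderOf_one] at hC
          norm_num at hC
        exact L.no_five E hZ (by exact_mod_cast h5F) C (emb4_mem C.2) hC5 hC1
      · -- `r = 3`
        left
        subst h3'
        refine ⟨rfl, ?_⟩
        by_contra hmod
        have h3 : (3 : F) ≠ 0 := by
          have := hcast 3 Nat.prime_three hrp
          exact_mod_cast this
        have hp3 : p % 3 = 2 := by
          have h4 : p % 3 ≠ 0 := fun h => hrp ((Nat.prime_dvd_prime_iff_eq Nat.prime_three hp).1 (Nat.dvd_of_mod_eq_zero h))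
          have := Nat.mod_lt p (show 0 < 3 by norm_num)
          omega
        obtain ⟨ω, hω⟩ : ∃ ω : F, ω * ω + ω + 1 = 0 := by
          apply exists_omega
          rw [hF]
          have h1 : 1 ≤ p ^ 2 := Nat.one_le_pow _ _ hp.pos
          rw [← Nat.modEq_iff_dvd' h1, Nat.ModEq, Nat.pow_mod, hp3]
        have hωU : ω ^ (p + 1) = 1 := by
          obtain ⟨k, hk⟩ : 3 ∣ p + 1 := by omega
          rw [hk, pow_mul]
          have : ω ^ 3 = 1 := by linear_combination (ω - 1) * hω
          rw [this, one_pow]
        exact L.no_three hA E hZ h2 h3 hω hωU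
  · obtain ⟨j, hj, hjs, hjj⟩ := exists_j E hZ
    obtain ⟨u, v, s, t, P⟩ := E.exists_pauli_of_four hj hjs hjj
    rintro (rfl | ⟨rfl, hmod⟩ | ⟨rfl, hord⟩)
    · have hprim : IsPrimitiveRoot (-1 : F) 2 := by
        rw [IsPrimitiveRoot.iff (by norm_num)]
        refine ⟨by norm_num, fun l h0 hl => ?_⟩
        have : l = 1 := by omega
        rw [this, pow_one]
        intro h
        exact h2 (by linear_combination -h)
      apply two_case h2 E hA hS hRU P hj hjs hjj
      · intro y hy hyy
        obtain ⟨B, hB, w, hw, hyB⟩ := exists_diag_U hF hprim (by norm_num) (by omega) (by exact_mod_cast h2) 4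
          (y : Matrix (Fin 4) (Fin 4) F) (iso_of_mem hy) (by
            rw [pow_two, ← Units.val_mul, hyy, Units.val_one])
        obtain ⟨B', hB', hBB, hBB'⟩ := hB.exists_inv hF
        refine ⟨⟨B, B', hBB, hBB'⟩, (mem_GU_iff _).2 hB, w, fun i => ?_, hyB⟩
        exact mul_self_eq_one_iff.1 (by rw [← pow_two]; exact hw i)
      · intro x hx hxs hxx
        obtain ⟨c, hc⟩ := (mem_scalars_iff' _).1 hxs
        have hcc : c * c = -1 := by
          have h1 := congrArg (fun g : GL (Fin 4) F => (g : Matrix (Fin 4) (Fin 4) F) 0 0) hxx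
          simp only [Units.val_mul (x * x), hc, Matrix.smul_mul, Matrix.one_mul, Units.val_neg, Units.val_one,
            Matrix.smul_apply, Matrix.one_apply_eq, Matrix.neg_apply, smul_eq_mul, mul_one] at h1
          exact h1
        have hc0 : c ≠ 0 := by
          rintro rfl
          rw [mul_zero] at hcc
          exact one_ne_zero (α := F) (by linear_combination hcc)
        have hc4 : c ^ 4 = 1 := by linear_combination (c * c - 1) * hcc
        have hp8 : 8 ∣ p ^ 2 - 1 := by
          have h1 : 1 ≤ p ^ 2 := Nat.one_le_pow _ _ hp.pos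
          rw [← Nat.modEq_iff_dvd' h1, Nat.ModEq, Nat.pow_mod]
          have h8 : p % 8 = 3 ∨ p % 8 = 7 := by omega
          rcases h8 with h | h <;> rw [h]
        obtain ⟨d, hd⟩ : IsSquare c := by
          rw [FiniteField.isSquare_iff (F := F) (by
            intro h
            apply h2
            have h3 : ((ringChar F : ℕ) : F) = 0 := ringChar.Nat.cast_ringChar
            rw [h] at h3
            exact_mod_cast h3) hc0, hF]
          obtain ⟨k, hk⟩ := hp8
          have h3 : p ^ 2 / 2 = 4 * k := by omega
          rw [h3, pow_mul, hc4, one_pow]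
        have hd0 : d ≠ 0 := by
          rintro rfl
          exact hc0 (by rw [hd, mul_zero])
        have hdp : d ^ (p + 1) = 1 ∨ d ^ (p + 1) = -1 := by
          apply mul_self_eq_one_iff.1
          obtain ⟨k, hk⟩ : 4 ∣ p + 1 := by omega
          rw [← mul_pow, ← hd, hk, pow_mul, hc4, one_pow]
        rcases hdp with hdp | hdp
        · obtain ⟨ζ, hζG, hζ⟩ := hA.diag (fun _ => d) (fun _ => hdp)
          rw [← Matrix.smul_one_eq_diagonal] at hζ
          refine ⟨ζ, hζG, (mem_scalars_iff' _).2 ⟨d, hζ⟩, ?_⟩
          apply m_ext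
          rw [hc, Units.val_mul, hζ, Matrix.smul_mul, Matrix.one_mul, smul_smul, hd]
        · exfalso
          obtain ⟨z, -, hz⟩ := (Amb.top (F := F) 4).diag (fun _ => d) (fun _ => hd0)
          rw [← Matrix.smul_one_eq_diagonal] at hz
          have hzs : z ∈ scalars (Fin 4) F := (mem_scalars_iff' _).2 ⟨d, hz⟩
          have hzz : z * z = x * x := by
            apply m_ext
            rw [hc, Units.val_mul, hz, Matrix.smul_mul, Matrix.one_mul, smul_smul, hd]
          obtain ⟨y, hy⟩ : ∃ y, y = z⁻¹ * x := ⟨_, rfl⟩
          have hzx : z * y = x := by rw [hy, mul_inv_cancel_left]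
          have hyy : y * y = 1 := by
            have h1 : z * z * (y * y) = x * x := by
              have h3 : y * z = z * y := (comm_of_scalar hzs y).symm
              calc z * z * (y * y) = z * (z * y) * y := by simp only [mul_assoc]
                _ = z * (y * z) * y := by rw [h3]
                _ = (z * y) * (z * y) := by simp only [mul_assoc]
                _ = x * x := by rw [hzx]
            rw [hzz] at h1
            exact mul_eq_left.1 h1
          obtain ⟨B, w, hw, hB⟩ := exists_diag_GL hprim (by norm_num) (by exact_mod_cast h2)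
            (M := (y : Matrix (Fin 4) (Fin 4) F)) (by
              rw [pow_two, ← Units.val_mul, hyy, Units.val_one])
          have hw' : ∀ i, w i = 1 ∨ w i = -1 := fun i => mul_self_eq_one_iff.1 (by rw [← pow_two]; exact hw i)
          have hxm : (x : Matrix (Fin 4) (Fin 4) F) = d • (y : Matrix (Fin 4) (Fin 4) F) := by
            rw [← hzx, Units.val_mul, hz, Matrix.smul_mul, Matrix.one_mul]
          -- the trace
          have htr := trace_of_diag hB
          have hyp : (y : Matrix (Fin 4) (Fin 4) F).trace ^ p = (y : Matrix (Fin 4) (Fin 4) F).trace := by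
            rw [htr, sum_pow_q hF]
            refine Finset.sum_congr rfl fun i _ => ?_
            rcases hw' i with h | h
            · rw [h, one_pow]
            · rw [h, neg_pow_q hF, one_pow]
          have hxinv : stU hF (x : Matrix (Fin 4) (Fin 4) F) * x = 1 := (stU_star hF).mem x |>.1 hx.1
          have hst : stU hF (y : Matrix (Fin 4) (Fin 4) F) = -(y : Matrix (Fin 4) (Fin 4) F) := by
            have hym : (y : Matrix (Fin 4) (Fin 4) F) * y = 1 := by rw [← Units.val_mul, hyy, Units.val_one]
            have h1 : stU hF (x : Matrix (Fin 4) (Fin 4) F) = d ^ p • stU hF (y : Matrix (Fin 4) (Fin 4) F) := by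
              ext i k
              rw [stU_apply, hxm, Matrix.smul_apply, Matrix.smul_apply, stU_apply, smul_eq_mul, smul_eq_mul, mul_pow]
            rw [h1, hxm, smul_mul_smul_comm, ← pow_succ, hdp, neg_smul, one_smul] at hxinv
            calc stU hF (y : Matrix (Fin 4) (Fin 4) F) = stU hF (y : Matrix (Fin 4) (Fin 4) F) *
                  ((y : Matrix (Fin 4) (Fin 4) F) * y) := by rw [hym, Matrix.mul_one]
              _ = -(-(stU hF (y : Matrix (Fin 4) (Fin 4) F) * (y : Matrix (Fin 4) (Fin 4) F))) * y := by
                  rw [neg_neg, Matrix.mul_assoc]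
              _ = _ := by rw [hxinv, neg_mul, Matrix.one_mul]
          have h0 : (y : Matrix (Fin 4) (Fin 4) F).trace = 0 := by
            have h1 : (stU hF (y : Matrix (Fin 4) (Fin 4) F)).trace = (y : Matrix (Fin 4) (Fin 4) F).trace ^ p := by
              rw [Matrix.trace, Matrix.trace, sum_pow_q hF]
              refine Finset.sum_congr rfl fun i _ => ?_
              rw [Matrix.diag_apply, Matrix.diag_apply, stU_apply]
            rw [hyp, hst, Matrix.trace_neg] at h1
            have h3 : (2 : F) * (y : Matrix (Fin 4) (Fin 4) F).trace = 0 := by linear_combination -h1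
            exact (mul_eq_zero.1 h3).resolve_left h2
          rw [htr, sign_sum hw'] at h0
          have hcw : cnt w = 2 := by
            have h3 : (cnt w : F) = 2 := by
              apply mul_left_cancel₀ h2
              push_cast at h0
              linear_combination -h0
            have h7 := cnt_le w
            interval_cases h8 : cnt w
            · push_cast at h3
              exact absurd h3.symm h2
            · push_cast at h3
              exact absurd (by linear_combination -h3 : (1 : F) = 0) one_ne_zero
            · rfl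
            · push_cast at h3
              exact absurd (by linear_combination h3 : (1 : F) = 0) one_ne_zero
            · push_cast at h3
              exact absurd (by linear_combination h3 : (2 : F) = 0) h2
          have hdety : (y : Matrix (Fin 4) (Fin 4) F).det = 1 := by
            rw [det_of_diag hB, sign_prod hw', hcw]; norm_num
          have hdetx := (mem_sl x).1 hx.2
          rw [hxm, Matrix.det_smul, hdety, Fintype.card_fin, mul_one] at hdetx
          apply h11
          rw [hd] at hcc
          linear_combination hcc - hdetx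
    · have hp3 : p ≠ 3 := by rintro rfl; omega
      have h3 : (3 : F) ≠ 0 := by
        have := hcast 3 Nat.prime_three (Ne.symm hp3)
        exact_mod_cast this
      have hp5 : 5 ≤ p := by
        have := hp.two_le
        have h4 : p ≠ 2 := by rintro rfl; omega
        have h5 : p ≠ 4 := by rintro rfl; omega
        omega
      obtain ⟨ω, hω⟩ : ∃ ω : F, ω * ω + ω + 1 = 0 := by
        apply exists_omega
        rw [hF]
        have h1 : 1 ≤ p ^ 2 := Nat.one_le_pow _ _ hp.pos
        rw [← Nat.modEq_iff_dvd' h1, Nat.ModEq, Nat.pow_mod, hmod]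
      have hωp : ω ^ p = ω := by
        have h1 : p = 3 * (p / 3) + 1 := by omega
        have h4 : ω ^ 3 = 1 := by linear_combination (ω - 1) * hω
        rw [h1, pow_succ, pow_mul, h4, one_pow, one_mul]
      exact three_case h2 h3 E hS hRU P hj hjs hjj
        (fun x hxG y hyG hx hy => conj_typeA_GU hF hp5 h3 hω hωp hxG hyG hx hy)
        (fun x hxG y hyG hx3 hx1 hx hy3 hy1 hy => conj_typeB_GU hF hp5 h3 hω hωp hxG hyG hx3 hx1 hx hy3 hy1 hy)
    · have h5p : p ≠ 5 := fun h => ne_five_of_order hord (by rw [h])
      have h5F : ((5 : ℕ) : F) ≠ 0 := hcast 5 Nat.prime_five (Ne.symm h5p)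
      have hnd : ¬ 5 ∣ Nat.card (GU 3 F p) := by
        have hmod : p % 5 = 2 ∨ p % 5 = 3 := by
          have h0 : p % 5 ≠ 0 := fun h => ne_five_of_order hord (Nat.dvd_of_mod_eq_zero h)
          have hsq : p ^ 2 % 5 ≠ 1 := by
            intro h
            have h1 : (p : ZMod 5) ^ 2 = 1 := by
              have h3 : ((p ^ 2 : ℕ) : ZMod 5) = ((1 : ℕ) : ZMod 5) := by
                rw [ZMod.natCast_eq_natCast_iff]; exact h
              push_cast at h3
              exact h3
            have h3 := orderOf_dvd_of_pow_eq_one h1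
            rw [hord] at h3
            exact absurd (Nat.le_of_dvd (by norm_num) h3) (by norm_num)
          rw [Nat.pow_mod] at hsq
          have hlt : p % 5 < 5 := Nat.mod_lt _ (by norm_num)
          generalize p % 5 = m at *
          interval_cases m
          · exact absurd rfl h0
          · exact absurd rfl hsq
          · exact Or.inl rfl
          · exact Or.inr rfl
          · exact absurd rfl hsq
        rw [Cfsg.Agent.S0277.result hF 3, Finset.prod_range_succ, Finset.prod_range_succ, Finset.prod_range_one,
          if_pos (by decide), if_neg (by decide), if_pos (by decide)]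
        have h1 : 1 ≤ p ^ (1 + 1) := Nat.one_le_pow _ _ hp.pos
        have a1 : ¬ 5 ∣ p := fun h => ne_five_of_order hord h
        have a2 : ¬ 5 ∣ p ^ (0 + 1) + 1 := by rw [zero_add, pow_one]; omega
        have a3 : ¬ 5 ∣ p ^ (1 + 1) - 1 := by
          intro h
          rw [← Nat.modEq_iff_dvd' h1, Nat.ModEq, Nat.pow_mod] at h
          rcases hmod with h5 | h5 <;> rw [h5] at h <;> norm_num at h
        have a4 : ¬ 5 ∣ p ^ (2 + 1) + 1 := by
          intro h
          have h3 := Nat.mod_eq_zero_of_dvd h
          rw [Nat.add_mod, Nat.pow_mod] at h3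
          rcases hmod with h5 | h5 <;> rw [h5] at h3 <;> norm_num at h3
        rw [Nat.prime_five.dvd_mul, Nat.prime_five.dvd_mul, Nat.prime_five.dvd_mul]
        rintro (h | (h | h) | h)
        · exact a1 (Nat.prime_five.dvd_of_dvd_pow h)
        · exact a2 h
        · exact a3 h
        · exact a4 h
      exact five_case h2 (by exact_mod_cast h5F) E hA hS hRU P
        (fun x hx hx5 hx1 => norms_of_not_dvd hF h5F hnd hx.1 hx5 hx1)

end Cfsg.Agent.S6001
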