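import Cfsg.Agent.H960.Cases
import Cfsg.Agent.ClassicalGeometry.SympBasic
import Cfsg.Agent.ClassicalGeometry.SymmNormalForm
import Cfsg.Statements.S6002
import Cfsg.Agent.H960.Five
import Cfsg.Agent.H960.Trace5
import Cfsg.Agent.ClassicalGeometry.PSL2Basic
set_option linter.all false

-- part: H960/Minus
section
/-!
Minus type (H960): no two commuting involutions independent modulo scalars, and no fixed-point-free element of
order three.
-/

set_option autoImplicit false
open Cfsg Cfsg.Geo Matrix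
open scoped MatrixGroups

namespace Cfsg.Agent.H960

variable {ι : Type} [Fintype ι] [DecidableEq ι] {F : Type*} [Field F] {R : Subgroup (GL ι F)}

theorem minus_false (E : Ext R) (hm : IsOfMinusType 2 R) {a b : GL ι F} (ha : a ∈ R) (hb : b ∈ R)
    (haa : a * a = 1) (hbb : b * b = 1) (hab : a * b = b * a) (has : a ∉ scalars ι F) (hbs : b ∉ scalars ι F)
    (habs : a * b ∉ scalars ι F) : False := by
  have hne := E.ne
  have hfin := E.fin
  have hneg1 : (-1 : GL ι F) ≠ 1 := by
    have := neg_ne E.two (1 : GL ι F)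
    simpa using this
  have hcomm : ∀ x ∈ ({a, b, -1} : Set (GL ι F)), ∀ y ∈ ({a, b, -1} : Set (GL ι F)), x * y = y * x := by
    intro x hx y hy
    simp only [Set.mem_insert_iff, Set.mem_singleton_iff] at hx hy
    rcases hx with rfl | rfl | rfl <;> rcases hy with rfl | rfl | rfl <;>
      first | rfl | exact hab | exact hab.symm | simp
  set A0 := Subgroup.closure ({a, b, -1} : Set (GL ι F)) with hA0
  have hA0R : A0 ≤ R := by
    rw [hA0, Subgroup.closure_le]
    intro x hx
    simp only [Set.mem_insert_iff, Set.mem_singleton_iff] at hx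
    rcases hx with rfl | rfl | rfl
    · exact ha
    · exact hb
    · exact E.neg
  have hA0c : ∀ x ∈ A0, ∀ y ∈ A0, x * y = y * x := by
    have h1 : IsMulCommutative A0 := Subgroup.isMulCommutative_closure (fun a ha b hb => hcomm a ha b hb)
    intro a ha b hb
    have := h1.is_comm.comm ⟨a, ha⟩ ⟨b, hb⟩
    exact congrArg Subtype.val this
  have hA0sq : ∀ x ∈ A0, x * x = 1 := by
    intro x hx
    induction hx using Subgroup.closure_induction with
    | mem a ha =>
      simp only [Set.mem_insert_iff, Set.mem_singleton_iff] at ha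
      rcases ha with rfl | rfl | rfl
      · exact haa
      · exact hbb
      · simp
    | one => simp
    | mul a b ha hb iha ihb =>
      rw [mul_assoc, ← mul_assoc b, hA0c b hb a ha]
      calc a * (a * b * b) = (a * a) * (b * b) := by group
        _ = 1 := by rw [iha, ihb, one_mul]
    | inv a ha iha =>
      rw [← _root_.mul_inv_rev, iha, inv_one]
  have h8 := hm (A0.subgroupOf R)
    ⟨⟨fun a b => Subtype.ext (Subtype.ext (hA0c _ (Subgroup.mem_subgroupOf.1 a.2) _ (Subgroup.mem_subgroupOf.1 b.2)))⟩⟩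
    (fun a ha => Subtype.ext (hA0sq _ (Subgroup.mem_subgroupOf.1 ha)))
  rw [Nat.card_congr (Subgroup.subgroupOfEquivOfLe hA0R).toEquiv] at h8
  have hf : Finite A0 := Finite.of_injective _ (Subgroup.inclusion_injective hA0R)
  have ha0 : a ∈ A0 := Subgroup.subset_closure (by simp)
  have hb0 : b ∈ A0 := Subgroup.subset_closure (by simp)
  have hn0 : (-1 : GL ι F) ∈ A0 := Subgroup.subset_closure (by simp)
  obtain ⟨h, hh, hha⟩ := E.exists_anti ha has
  have hfv := card_two_mul (K := A0) (g := h) (fun k hk => E.comm k (hA0R hk) h hh) ha0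
    (fun hc => E.anti_ne hha hc.symm)
  obtain ⟨b', hb'0, hb's, hb'h⟩ : ∃ b' ∈ A0, b' ∉ scalars ι F ∧ b' * h = h * b' := by
    rcases E.comm b hb h hh with h1 | h1
    · exact ⟨b, hb0, hbs, h1⟩
    · refine ⟨a * b, A0.mul_mem ha0 hb0, habs, ?_⟩
      rw [mul_assoc, h1, mul_neg, ← mul_assoc, ← mul_assoc, hha, neg_mul]
  have hf' : Finite (CR A0 h) := Finite.of_injective _ (Subgroup.inclusion_injective (CR_le (R := A0) (y := h)))
  obtain ⟨k, hk, hkb⟩ := E.exists_anti (hA0R hb'0) hb's
  have hfv2 := card_two_mul (K := CR A0 h) (g := k)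
    (fun x hx => E.comm x (hA0R (CR_le hx)) k hk) (k0 := b')
    (mem_CR.2 ⟨hb'0, hb'h⟩) (fun hc => E.anti_ne hkb hc.symm)
  have hn : (-1 : GL ι F) ∈ CR (CR A0 h) k := mem_CR.2 ⟨mem_CR.2 ⟨hn0, by simp⟩, by simp⟩
  have hf'' : Finite (CR (CR A0 h) k) :=
    Finite.of_injective _ (Subgroup.inclusion_injective (CR_le (R := CR A0 h) (y := k)))
  have h9 : 1 < Nat.card (CR (CR A0 h) k) := by
    rw [Finite.one_lt_card_iff_nontrivial]
    exact ⟨⟨⟨1, Subgroup.one_mem _⟩, ⟨-1, hn⟩, fun h => hneg1 (congrArg Subtype.val h).symm⟩⟩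
  omega

/-- In minus type no element of order three acts without fixed points on `R/Z`. -/
theorem no_fpf_of_minus (E : Ext R) (hm : IsOfMinusType 2 R)
    (hZ2 : Nat.card (R ⊓ scalars ι F : Subgroup (GL ι F)) = 2) {y : GL ι F} (hy : y ∈ subgroupNormalizer R)
    (hy3 : y ^ 3 ∈ scalars ι F)
    (hC : Nat.card (CR R y) = Nat.card (R ⊓ scalars ι F : Subgroup (GL ι F))) : False := by
  have hne := E.ne
  have hfin := E.fin
  have hneg1 : (-1 : GL ι F) ≠ 1 := by
    have := neg_ne E.two (1 : GL ι F)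
    simpa using this
  obtain ⟨u, hu, hus, huu⟩ := E.exists_involution
  -- `C_R(y) = Z`
  have hCZ : ∀ c ∈ R, c * y = y * c → c ∈ scalars ι F := by
    have h1 : R ⊓ scalars ι F ≤ CR R y := fun z hz => mem_CR.2 ⟨hz.1, comm_of_scalar hz.2 y⟩
    have hf : Finite (CR R y) := Finite.of_injective _ (Subgroup.inclusion_injective (CR_le (R := R) (y := y)))
    have h2 : R ⊓ scalars ι F = CR R y := Subgroup.eq_of_le_of_card_ge h1 hC.le
    intro c hc hcy
    have h3 : c ∈ CR R y := mem_CR.2 ⟨hc, hcy⟩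
    rw [← h2] at h3
    exact h3.2
  have hy3c : ∀ x : GL ι F, y ^ 3 * x = x * y ^ 3 := comm_of_scalar hy3
  -- sign argument
  have sign : ∀ c ∈ R, (y * c * y⁻¹ = c ∨ y * c * y⁻¹ = -c) → c ∈ scalars ι F := by
    intro c hc h
    rcases h with h | h
    · apply hCZ c hc
      rw [mul_inv_eq_iff_eq_mul] at h
      exact h.symm
    · exfalso
      have h1 : y * c = -(c * y) := by
        rw [mul_inv_eq_iff_eq_mul] at h
        rw [h, neg_mul]
      have h2 : y ^ 3 * c = -(c * y ^ 3) := by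
        have h1' : ∀ x, y * (c * x) = -(c * (y * x)) := fun x => by rw [← mul_assoc, h1, neg_mul, mul_assoc]
        simp only [pow_succ, pow_zero, one_mul, mul_assoc, h1, h1', mul_neg, neg_neg]
      rw [hy3c] at h2
      exact neg_ne E.two _ h2.symm
  set u1 := y * u * y⁻¹ with hu1
  set u2 := y * u1 * y⁻¹ with hu2
  have hu1R : u1 ∈ R := mem_normalizer hy hu
  have hu2R : u2 ∈ R := mem_normalizer hy hu1R
  have hu3 : y * u2 * y⁻¹ = u := by
    have h1 : y * u2 * y⁻¹ = y ^ 3 * u * (y ^ 3)⁻¹ := by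
      rw [hu2, hu1, pow_succ, pow_succ, pow_one, _root_.mul_inv_rev, _root_.mul_inv_rev]
      simp only [mul_assoc]
    rw [h1, hy3c, mul_inv_cancel_right]
  have hu1u1 : u1 * u1 = 1 := by
    rw [hu1]
    calc y * u * y⁻¹ * (y * u * y⁻¹) = y * (u * u) * y⁻¹ := by group
      _ = 1 := by rw [huu]; group
  have hu2u2 : u2 * u2 = 1 := by
    rw [hu2]
    calc y * u1 * y⁻¹ * (y * u1 * y⁻¹) = y * (u1 * u1) * y⁻¹ := by group
      _ = 1 := by rw [hu1u1]; group
  obtain ⟨c, hc⟩ : ∃ c, c = u * u1 * u2 := ⟨_, rfl⟩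
  have hcR : c ∈ R := by rw [hc]; exact R.mul_mem (R.mul_mem hu hu1R) hu2R
  have hcy : y * c * y⁻¹ = u1 * u2 * u := by
    calc y * c * y⁻¹ = (y * u * y⁻¹) * (y * u1 * y⁻¹) * (y * u2 * y⁻¹) := by rw [hc]; group
      _ = u1 * u2 * u := by rw [hu3]
  have hcy2 : y * c * y⁻¹ = c ∨ y * c * y⁻¹ = -c := by
    have h1 : u * (y * c * y⁻¹) = c * u := by rw [hcy, hc]; simp only [mul_assoc]
    have h2 : y * c * y⁻¹ = u * (c * u) := by rw [← h1, ← mul_assoc u, huu, one_mul]
    rcases E.comm c hcR u hu with h | h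
    · left
      rw [h2, h, ← mul_assoc, huu, one_mul]
    · right
      rw [h2, h, mul_neg, ← mul_assoc, huu, one_mul]
  have hcs := sign c hcR hcy2
  have hcc : ∀ x, c * x = x * c := comm_of_scalar hcs
  have huu1 : u * u1 = c * u2 := by
    rw [hc, mul_assoc, mul_assoc, hu2u2, mul_one]
  have hsq : (u * u1) * (u * u1) = c * c := by
    rw [huu1]
    calc c * u2 * (c * u2) = c * (u2 * c) * u2 := by simp only [mul_assoc]
      _ = c * (c * u2) * u2 := by rw [← hcc u2]
      _ = c * c * (u2 * u2) := by simp only [mul_assoc]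
      _ = c * c := by rw [hu2u2, mul_one]
  have hu1s : u1 ∉ scalars ι F := by
    intro h
    apply hus
    have h1 : u = y⁻¹ * u1 * y := by rw [hu1]; group
    rw [h1, mul_assoc, comm_of_scalar h, ← mul_assoc, inv_mul_cancel, one_mul]
    exact h
  -- `c² = 1`
  have hcc1 : c * c = 1 := by
    have h1 : (⟨c, hcR, hcs⟩ : (R ⊓ scalars ι F : Subgroup (GL ι F))) ^ 2 = 1 := by
      rw [← hZ2]; exact pow_card_eq_one'
    have h2 := congrArg Subtype.val h1
    rw [← pow_two]; exact h2
  rw [hcc1] at hsq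
  -- `u` and `u₁` commute
  have hcomm : u * u1 = u1 * u := by
    rcases E.comm u hu u1 hu1R with h | h
    · exact h
    · exfalso
      have h1 : (u * u1) * (u * u1) = -1 := by
        calc (u * u1) * (u * u1) = u * (u1 * u) * u1 := by group
          _ = -(u * u * (u1 * u1)) := by rw [Ext.anti_symm h]; simp only [mul_neg, neg_mul, mul_assoc]
          _ = -1 := by rw [huu, hu1u1, mul_one]
      rw [hsq] at h1
      exact hneg1 h1.symm
  refine minus_false E hm hu hu1R huu hu1u1 hcomm hus hu1s (fun h => ?_)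
  -- `u u₁` scalar: then `u₁ = ± u`
  have h1 : (⟨u * u1, R.mul_mem hu hu1R, h⟩ : (R ⊓ scalars ι F : Subgroup (GL ι F))) = 1 ∨
      (⟨u * u1, R.mul_mem hu hu1R, h⟩ : (R ⊓ scalars ι F : Subgroup (GL ι F))) =
        ⟨-1, E.neg, (mem_scalars_iff' _).2 ⟨-1, by simp⟩⟩ := by
    have h2 := (Nat.card_eq_two_iff' (1 : (R ⊓ scalars ι F : Subgroup (GL ι F)))).1 hZ2
    by_cases h3 : (⟨u * u1, R.mul_mem hu hu1R, h⟩ : (R ⊓ scalars ι F : Subgroup (GL ι F))) = 1
    · exact Or.inl h3
    · right
      exact h2.unique h3 (fun h4 => hneg1 (congrArg Subtype.val h4))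
  apply hus
  apply sign u hu
  rcases h1 with h1 | h1
  · left
    have h2 : u * u1 = 1 := congrArg Subtype.val h1
    calc u1 = u * (u * u1) := by rw [← mul_assoc, huu, one_mul]
      _ = u := by rw [h2, mul_one]
  · right
    have h2 : u * u1 = -1 := congrArg Subtype.val h1
    calc u1 = u * (u * u1) := by rw [← mul_assoc, huu, one_mul]
      _ = -u := by rw [h2, mul_neg, mul_one]

end Cfsg.Agent.H960
end

-- part: H960/SpFrame
section
/-!
`Sp₄(F)` (H960): frames; elements `x` with `x² = 1`, `x ≠ ± 1`, are conjugate, and so are those with `x² = -1`.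
-/

set_option autoImplicit false
open Cfsg Cfsg.Geo Matrix
open scoped MatrixGroups
open Cfsg.Agent.ClassicalGeometry.SympBasic

namespace Cfsg.Agent.H960

variable {F : Type*} [Field F]

local notation "I4" => (Fin 2 ⊕ Fin 2)

theorem mem_spGL (g : GL I4 F) : g ∈ spGL 2 F ↔
    ∀ u v, sympForm 2 F ((g : Matrix I4 I4 F) *ᵥ u) ((g : Matrix I4 I4 F) *ᵥ v) = sympForm 2 F u v := Iff.rfl

theorem mem_spGL_iff (g : GL I4 F) : g ∈ spGL 2 F ↔
    (g : Matrix I4 I4 F)ᵀ * Matrix.J (Fin 2) F * (g : Matrix I4 I4 F) = Matrix.J (Fin 2) F := by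
  rw [mem_spGL, ← mem_symplecticGroup_iff]
  exact SymplecticGroup.mem_iff'

/-- the adjoint for the symplectic form -/
def spStar (a : Matrix I4 I4 F) : Matrix I4 I4 F := -(Matrix.J (Fin 2) F) * aᵀ * Matrix.J (Fin 2) F

theorem spStarG : StarG (spGL 2 F) (spStar (F := F)) where
  add a b := by simp only [spStar, Matrix.transpose_add, Matrix.mul_add, Matrix.add_mul]
  mul a b := by
    have hJ := Matrix.J_squared (Fin 2) F
    simp only [spStar, Matrix.transpose_mul]
    calc -Matrix.J (Fin 2) F * (bᵀ * aᵀ) * Matrix.J (Fin 2) F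
        = -Matrix.J (Fin 2) F * bᵀ * (-(Matrix.J (Fin 2) F * Matrix.J (Fin 2) F)) * aᵀ * Matrix.J (Fin 2) F := by
          rw [hJ]; simp [Matrix.mul_assoc]
      _ = _ := by simp [Matrix.mul_assoc]
  one := by
    simp only [spStar, Matrix.transpose_one, Matrix.mul_one]
    rw [neg_mul, Matrix.J_squared, neg_neg]
  mem g := by
    rw [mem_spGL_iff, spStar]
    have hJ := Matrix.J_squared (Fin 2) F
    constructor
    · intro h
      rw [Matrix.mul_assoc, Matrix.mul_assoc, ← Matrix.mul_assoc _ (Matrix.J (Fin 2) F), h, neg_mul, hJ, neg_neg]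
    · intro h
      have h1 := congrArg (fun X => Matrix.J (Fin 2) F * X) h
      simp only [Matrix.mul_one] at h1
      calc (g : Matrix I4 I4 F)ᵀ * Matrix.J (Fin 2) F * (g : Matrix I4 I4 F)
          = -(Matrix.J (Fin 2) F * Matrix.J (Fin 2) F) * ((g : Matrix I4 I4 F)ᵀ * Matrix.J (Fin 2) F *
            (g : Matrix I4 I4 F)) := by rw [hJ]; simp
        _ = Matrix.J (Fin 2) F * (-Matrix.J (Fin 2) F * (g : Matrix I4 I4 F)ᵀ * Matrix.J (Fin 2) F *
            (g : Matrix I4 I4 F)) := by simp [Matrix.mul_assoc]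
        _ = Matrix.J (Fin 2) F := h1

/-- A frame: four vectors with the standard Gram matrix give an element of `Sp₄`. -/
theorem exists_sp_of_gram (b : I4 → I4 → F)
    (hb : ∀ i j, sympForm 2 F (b i) (b j) = Matrix.J (Fin 2) F i j) :
    ∃ B ∈ spGL 2 F, ∀ j, (B : Matrix I4 I4 F) *ᵥ (Pi.single j 1) = b j := by
  set M : Matrix I4 I4 F := Matrix.of fun i j => b j i with hM
  have hMc : ∀ j, M *ᵥ (Pi.single j 1) = b j := by
    intro j
    ext i
    simp [hM]
  have hMJ : Mᵀ * Matrix.J (Fin 2) F * M = Matrix.J (Fin 2) F := by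
    ext i j
    rw [← hb i j, sympForm_def, Matrix.mul_assoc, Matrix.mul_apply]
    simp only [dotProduct, Matrix.transpose_apply, hM, Matrix.of_apply]
    refine Finset.sum_congr rfl (fun k _ => ?_)
    congr 1
  have hsymp : M ∈ Matrix.symplecticGroup (Fin 2) F := SymplecticGroup.mem_iff'.2 hMJ
  have hdet := SymplecticGroup.symplectic_det hsymp
  refine ⟨Matrix.GeneralLinearGroup.mk'' M hdet, ?_, ?_⟩
  · rw [mem_spGL_iff]; exact hMJ
  · intro j; exact hMc j

/-- Two elements with the same action on standard frames are conjugate. -/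
theorem conj_of_frames {x y : GL I4 F} (M : Matrix I4 I4 F)
    (hx : ∃ B ∈ spGL 2 F, (x : Matrix I4 I4 F) * (B : Matrix I4 I4 F) = (B : Matrix I4 I4 F) * M)
    (hy : ∃ B ∈ spGL 2 F, (y : Matrix I4 I4 F) * (B : Matrix I4 I4 F) = (B : Matrix I4 I4 F) * M) :
    ∃ g ∈ spGL 2 F, g⁻¹ * x * g = y := by
  obtain ⟨B, hB, hxB⟩ := hx
  obtain ⟨C, hC, hyC⟩ := hy
  refine ⟨B * C⁻¹, (spGL 2 F).mul_mem hB ((spGL 2 F).inv_mem hC), ?_⟩
  have h1 : (((B⁻¹ * x * B : GL I4 F)) : Matrix I4 I4 F) = M := by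
    rw [mul_assoc, Units.val_mul, Units.val_mul, hxB, ← Matrix.mul_assoc, ← Units.val_mul, inv_mul_cancel,
      Units.val_one, Matrix.one_mul]
  have h2 : (((C⁻¹ * y * C : GL I4 F)) : Matrix I4 I4 F) = M := by
    rw [mul_assoc, Units.val_mul, Units.val_mul, hyC, ← Matrix.mul_assoc, ← Units.val_mul, inv_mul_cancel,
      Units.val_one, Matrix.one_mul]
  have h3 : B⁻¹ * x * B = C⁻¹ * y * C := Units.ext (h1.trans h2.symm)
  calc (B * C⁻¹)⁻¹ * x * (B * C⁻¹) = C * (B⁻¹ * x * B) * C⁻¹ := by group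
    _ = y := by rw [h3]; group

/-- the frame of four vectors `e₁, e₂, f₁, f₂` -/
def fr (e1 e2 f1 f2 : I4 → F) : I4 → I4 → F := Sum.elim ![e1, e2] ![f1, f2]

theorem gram_fr {e1 e2 f1 f2 : I4 → F} (h1 : sympForm 2 F f1 e1 = 1) (h2 : sympForm 2 F f2 e2 = 1)
    (h12 : sympForm 2 F e1 e2 = 0) (h13 : sympForm 2 F f2 e1 = 0) (h23 : sympForm 2 F f1 e2 = 0)
    (h34 : sympForm 2 F f1 f2 = 0) (i j : I4) :
    sympForm 2 F (fr e1 e2 f1 f2 i) (fr e1 e2 f1 f2 j) = Matrix.J (Fin 2) F i j := by
  have s1 := sympForm_swap e1 f1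
  have s2 := sympForm_swap e2 f2
  have s12 := sympForm_swap e2 e1
  have s13 := sympForm_swap e1 f2
  have s23 := sympForm_swap e2 f1
  have s34 := sympForm_swap f2 f1
  rw [h1] at s1
  rw [h2] at s2
  rw [h12, neg_zero] at s12
  rw [h13, neg_zero] at s13
  rw [h23, neg_zero] at s23
  rw [h34, neg_zero] at s34
  rcases i with i | i <;> rcases j with j | j <;> fin_cases i <;> fin_cases j <;>
    simp [fr, Matrix.J, h1, h2, h12, h13, h23, h34, s1, s2, s12, s13, s23, s34]

/-- conjugacy of involutions in `Sp₄` -/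
theorem frame_of_invol (h2 : (2 : F) ≠ 0) {x : GL I4 F} (hx : x ∈ spGL 2 F) (hxx : x * x = 1) (h1 : x ≠ 1)
    (hm1 : x ≠ -1) : ∃ B ∈ spGL 2 F, (x : Matrix I4 I4 F) * (B : Matrix I4 I4 F) =
      (B : Matrix I4 I4 F) * Matrix.diagonal (Sum.elim ![1, -1] ![1, -1]) := by
  set X : Matrix I4 I4 F := (x : Matrix I4 I4 F) with hX
  have hXX : ∀ v, X *ᵥ (X *ᵥ v) = v := by
    intro v
    rw [Matrix.mulVec_mulVec, hX, ← Units.val_mul, hxx, Units.val_one, Matrix.one_mulVec]
  have hf : ∀ u v, sympForm 2 F (X *ᵥ u) (X *ᵥ v) = sympForm 2 F u v := hx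
  have hp : ∃ w, w + X *ᵥ w ≠ 0 := by
    by_contra hcon
    push Not at hcon
    apply hm1
    apply Units.ext
    ext i j
    have h3 := congrFun (hcon (Pi.single j 1)) i
    simp only [Pi.add_apply, Matrix.mulVec_single_one, Matrix.col_apply, Pi.zero_apply] at h3
    rw [Units.val_neg, Units.val_one, Matrix.neg_apply, Matrix.one_apply]
    rw [Pi.single_apply] at h3
    exact eq_neg_of_add_eq_zero_right h3
  have hm : ∃ w, w - X *ᵥ w ≠ 0 := by
    by_contra hcon
    push Not at hcon
    apply h1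
    apply Units.ext
    ext i j
    have h3 := congrFun (hcon (Pi.single j 1)) i
    simp only [Pi.sub_apply, Matrix.mulVec_single_one, Matrix.col_apply, Pi.zero_apply] at h3
    rw [Units.val_one, Matrix.one_apply]
    rw [Pi.single_apply] at h3
    exact (sub_eq_zero.1 h3).symm
  -- the eigenspaces
  have pair : ∀ (ε : F), ε * ε = 1 → (∃ w, w + ε • X *ᵥ w ≠ 0) → ∃ e g : I4 → F, X *ᵥ e = ε • e ∧ X *ᵥ g = ε • g ∧
      sympForm 2 F g e = 1 := by
    intro ε hε hw
    obtain ⟨w, hw⟩ := hw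
    have eig : ∀ w, X *ᵥ (w + ε • X *ᵥ w) = ε • (w + ε • X *ᵥ w) := by
      intro w
      rw [Matrix.mulVec_add, Matrix.mulVec_smul, hXX, smul_add, smul_smul, hε, one_smul, add_comm]
    obtain ⟨v, hv⟩ : ∃ v, sympForm 2 F v (w + ε • X *ᵥ w) ≠ 0 := by
      by_contra hcon
      push Not at hcon
      exact hw (eq_zero_of_forall_sympForm_left hcon)
    have h3 : sympForm 2 F (v + ε • X *ᵥ v) (w + ε • X *ᵥ w) = 2 * sympForm 2 F v (w + ε • X *ᵥ w) := by
      rw [sympForm_add_left, sympForm_smul_left]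
      have h4 : sympForm 2 F (X *ᵥ v) (w + ε • X *ᵥ w) = ε * sympForm 2 F v (w + ε • X *ᵥ w) := by
        rw [← hf v, eig w, sympForm_smul_right, ← mul_assoc, hε, one_mul]
      rw [h4, ← mul_assoc, hε]; ring
    refine ⟨w + ε • X *ᵥ w, (2 * sympForm 2 F v (w + ε • X *ᵥ w))⁻¹ • (v + ε • X *ᵥ v), eig w, ?_, ?_⟩
    · rw [Matrix.mulVec_smul, eig v, smul_comm]
    · rw [sympForm_smul_left, h3, inv_mul_cancel₀ (mul_ne_zero h2 hv)]
  obtain ⟨e1, f1, he1, hf1, hfe1⟩ := pair 1 (by ring) (by simpa using hp)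
  obtain ⟨e2, f2, he2, hf2, hfe2⟩ := pair (-1) (by ring) (by
    obtain ⟨w, hw⟩ := hm
    exact ⟨w, by simpa [sub_eq_add_neg] using hw⟩)
  have orth : ∀ u v, X *ᵥ u = (1 : F) • u → X *ᵥ v = (-1 : F) • v → sympForm 2 F u v = 0 := by
    intro u v hu hv
    have h3 := hf u v
    rw [hu, hv, sympForm_smul_left, sympForm_smul_right] at h3
    have h4 : 2 * sympForm 2 F u v = 0 := by linear_combination -h3
    exact (mul_eq_zero.1 h4).resolve_left h2
  have orth' : ∀ u v, X *ᵥ u = (1 : F) • u → X *ᵥ v = (-1 : F) • v → sympForm 2 F v u = 0 := by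
    intro u v hu hv
    rw [sympForm_swap, orth u v hu hv, neg_zero]
  obtain ⟨B, hB, hBc⟩ := exists_sp_of_gram (fr e1 e2 f1 f2)
    (gram_fr hfe1 hfe2 (orth _ _ he1 he2) (orth' _ _ he1 hf2) (orth _ _ hf1 he2) (orth _ _ hf1 hf2))
  refine ⟨B, hB, ?_⟩
  apply Matrix.ext_of_mulVec_single
  intro j
  rw [← Matrix.mulVec_mulVec, hBc, ← Matrix.mulVec_mulVec]
  have hd : (Matrix.diagonal (Sum.elim ![1, -1] ![1, -1]) : Matrix I4 I4 F) *ᵥ (Pi.single j 1) =
      (Sum.elim ![(1 : F), -1] ![1, -1] j) • (Pi.single j 1 : I4 → F) := by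
    ext i
    rw [Matrix.mulVec_diagonal, Pi.smul_apply, smul_eq_mul]
    by_cases hij : i = j
    · rw [hij]
    · rw [Pi.single_eq_of_ne hij, mul_zero, mul_zero]
  rw [hd, Matrix.mulVec_smul, hBc]
  rcases j with j | j <;> fin_cases j
  · exact he1
  · exact he2
  · exact hf1
  · exact hf2

/-- conjugacy of elements with `x² = -1` in `Sp₄` -/
theorem frame_of_quart [Finite F] (h2 : (2 : F) ≠ 0) {x : GL I4 F} (hx : x ∈ spGL 2 F) (hxx : x * x = -1) :
    ∃ B ∈ spGL 2 F, (x : Matrix I4 I4 F) * (B : Matrix I4 I4 F) =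
      (B : Matrix I4 I4 F) * Matrix.J (Fin 2) F := by
  set X : Matrix I4 I4 F := (x : Matrix I4 I4 F) with hX
  have hXX : ∀ v, X *ᵥ (X *ᵥ v) = -v := by
    intro v
    rw [Matrix.mulVec_mulVec, hX, ← Units.val_mul, hxx, Units.val_neg, Units.val_one, Matrix.neg_mulVec,
      Matrix.one_mulVec]
  have hf : ∀ u v, sympForm 2 F (X *ᵥ u) (X *ᵥ v) = sympForm 2 F u v := hx
  -- the symmetric form `g(u,v) = f(Xu, v)`
  have hsym : ∀ u v, sympForm 2 F (X *ᵥ u) v = sympForm 2 F (X *ᵥ v) u := by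
    intro u v
    rw [← hf (X *ᵥ u) v, hXX, sympForm_neg_left, sympForm_swap, neg_neg]
  have hgX : ∀ u v, sympForm 2 F (X *ᵥ (X *ᵥ u)) (X *ᵥ v) = sympForm 2 F (X *ᵥ u) v := fun u v => hf _ _
  -- inside an invariant set closed under addition
  have pick : ∀ W : Submodule F (I4 → F), (∀ w ∈ W, X *ᵥ w ∈ W) →
      (∀ w ∈ W, (∀ w' ∈ W, sympForm 2 F (X *ᵥ w) w' = 0) → w = 0) → W ≠ ⊥ →
      ∃ v ∈ W, sympForm 2 F (X *ᵥ v) v = 1 := by
    intro W hW hnd hne
    obtain ⟨v, hv, hvv⟩ : ∃ v ∈ W, sympForm 2 F (X *ᵥ v) v ≠ 0 := by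
      by_contra hcon
      push Not at hcon
      obtain ⟨w, hw, hw0⟩ := (Submodule.ne_bot_iff _).1 hne
      apply hw0
      apply hnd w hw
      intro w' hw'
      have h3 := hcon (w + w') (W.add_mem hw hw')
      rw [Matrix.mulVec_add, sympForm_add_left, sympForm_add_right, sympForm_add_right, hcon w hw, hcon w' hw',
        hsym w' w] at h3
      have h4 : 2 * sympForm 2 F (X *ᵥ w) w' = 0 := by linear_combination h3
      exact (mul_eq_zero.1 h4).resolve_left h2
    obtain ⟨a, b, hab⟩ := Cfsg.Agent.ClassicalGeometry.SymmNormalForm.exists_diag_two_eq h2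
      (a := sympForm 2 F (X *ᵥ v) v) (b := sympForm 2 F (X *ᵥ v) v) hvv hvv 1
    refine ⟨a • v + b • X *ᵥ v, W.add_mem (W.smul_mem _ hv) (W.smul_mem _ (hW v hv)), ?_⟩
    rw [Matrix.mulVec_add, Matrix.mulVec_smul, Matrix.mulVec_smul, hXX, sympForm_add_left, sympForm_add_right,
      sympForm_add_right]
    simp only [sympForm_smul_left, sympForm_smul_right, sympForm_neg_left, sympForm_self]
    rw [sympForm_swap v (X *ᵥ v)]
    linear_combination hab
  obtain ⟨v, -, hv⟩ := pick ⊤ (fun w _ => trivial)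
    (fun w _ h => by
      have h3 : X *ᵥ w = 0 := eq_zero_of_forall_sympForm_right (fun w' => h w' trivial)
      have h4 := hXX w
      rw [h3, Matrix.mulVec_zero] at h4
      exact neg_eq_zero.1 h4.symm) (by
      intro h
      have h3 : (Pi.single (Sum.inl 0) 1 : I4 → F) ∈ (⊤ : Submodule F (I4 → F)) := trivial
      rw [h, Submodule.mem_bot] at h3
      have := congrFun h3 (Sum.inl 0)
      simp at this)
  -- the orthogonal complement of `⟨v, Xv⟩`
  set W : Submodule F (I4 → F) :=
    LinearMap.ker (sympBilin 2 F v) ⊓ LinearMap.ker (sympBilin 2 F (X *ᵥ v)) with hWdef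
  have memW : ∀ w, w ∈ W ↔ sympForm 2 F v w = 0 ∧ sympForm 2 F (X *ᵥ v) w = 0 := by
    intro w
    rw [hWdef, Submodule.mem_inf, LinearMap.mem_ker, LinearMap.mem_ker, sympBilin_apply, sympBilin_apply]
  have hvXv : sympForm 2 F v (X *ᵥ v) = -1 := by rw [sympForm_swap, hv]
  obtain ⟨w, hw, hww⟩ := pick W
    (by
      intro w hw
      rw [memW] at hw ⊢
      constructor
      · rw [← hf v, hXX, sympForm_neg_right, hw.2, neg_zero]
      · rw [hf, hw.1])
    (by
      intro w hw h
      rw [memW] at hw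
      have h3 : X *ᵥ w = 0 := by
        apply eq_zero_of_forall_sympForm_right
        intro u
        -- projection of `u`
        set u' := u - (sympForm 2 F (X *ᵥ v) u) • v + (sympForm 2 F v u) • X *ᵥ v with hu'
        have hu'W : u' ∈ W := by
          rw [memW, hu']
          constructor
          · rw [sympForm_add_right, sympForm_sub_right, sympForm_smul_right, sympForm_smul_right, sympForm_self,
              hvXv]; ring
          · rw [sympForm_add_right, sympForm_sub_right, sympForm_smul_right, sympForm_smul_right, sympForm_self,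
              hv]; ring
        have h5 := h u' hu'W
        have h6 : sympForm 2 F (X *ᵥ w) v = 0 := by
          rw [hsym, hw.2]
        have h7 : sympForm 2 F (X *ᵥ w) (X *ᵥ v) = 0 := by
          rw [hf, sympForm_swap, hw.1, neg_zero]
        rw [hu', sympForm_add_right, sympForm_sub_right, sympForm_smul_right, sympForm_smul_right, h6, h7] at h5
        linear_combination h5
      have h4 := hXX w
      rw [h3, Matrix.mulVec_zero] at h4
      exact neg_eq_zero.1 h4.symm)
    (by
      let φ : (I4 → F) →ₗ[F] (Fin 2 → F) :=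
        { toFun := fun u => ![sympForm 2 F v u, sympForm 2 F (X *ᵥ v) u]
          map_add' := fun a b => by
            ext i
            fin_cases i <;> simp [sympForm_add_right]
          map_smul' := fun c a => by
            ext i
            fin_cases i <;> simp [sympForm_smul_right] }
      have h1 : LinearMap.ker φ ≠ ⊥ := LinearMap.ker_ne_bot_of_finrank_lt (by simp)
      obtain ⟨u, hu, hu0⟩ := (Submodule.ne_bot_iff _).1 h1
      rw [Submodule.ne_bot_iff]
      refine ⟨u, ?_, hu0⟩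
      rw [memW]
      constructor
      · have := congrFun (LinearMap.mem_ker.1 hu) 0
        simpa [φ] using this
      · have := congrFun (LinearMap.mem_ker.1 hu) 1
        simpa [φ] using this)
  rw [memW] at hw
  have hvXw : sympForm 2 F v (X *ᵥ w) = 0 := by rw [← hf v, hXX, sympForm_neg_right, hw.2, neg_zero]
  obtain ⟨B, hB, hBc⟩ := exists_sp_of_gram (fr v w (X *ᵥ v) (X *ᵥ w))
    (gram_fr hv hww hw.1 (by rw [sympForm_swap, hvXw, neg_zero]) hw.2 (by rw [hf, hw.1]))
  refine ⟨B, hB, ?_⟩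
  apply Matrix.ext_of_mulVec_single
  intro j
  rw [← Matrix.mulVec_mulVec, hBc, ← Matrix.mulVec_mulVec]
  have hJ : ∀ j : Fin 2, Matrix.J (Fin 2) F *ᵥ (Pi.single (Sum.inl j) 1) = Pi.single (Sum.inr j) 1 := by
    intro j
    ext i
    rcases i with i | i <;> simp [Matrix.J, Pi.single_apply, Matrix.one_apply]
  have hJ' : ∀ j : Fin 2, Matrix.J (Fin 2) F *ᵥ (Pi.single (Sum.inr j) 1) = -Pi.single (Sum.inl j) 1 := by
    intro j
    ext i
    rcases i with i | i <;> simp [Matrix.J, Pi.single_apply, Matrix.one_apply]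
  rcases j with j | j
  · rw [hJ, hBc]
    fin_cases j
    · rfl
    · rfl
  · rw [hJ', Matrix.mulVec_neg, hBc]
    fin_cases j
    · exact hXX v
    · exact hXX w

end Cfsg.Agent.H960
end

-- part: S6002
section
set_option autoImplicit false
set_option linter.unusedSimpArgs false
open scoped MatrixGroups
open Cfsg

namespace Cfsg.Agent.S6002

open Cfsg.Geo Matrix Cfsg.Agent.H960
open Cfsg.Agent.ClassicalGeometry.SympBasic

local notation "I4" => (Fin 2 ⊕ Fin 2)

/-- the embedding of `SL₂` -/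
def emb {F : Type*} [Field F] (C : Matrix (Fin 2) (Fin 2) F) : Matrix I4 I4 F :=
  Matrix.fromBlocks (Matrix.diagonal ![C 0 0, 1]) (Matrix.diagonal ![C 0 1, 0])
    (Matrix.diagonal ![C 1 0, 0]) (Matrix.diagonal ![C 1 1, 1])

theorem emb_mul {F : Type*} [Field F] (C D : Matrix (Fin 2) (Fin 2) F) : emb (C * D) = emb C * emb D := by
  rw [emb, emb, emb, Matrix.fromBlocks_multiply]
  congr 1 <;> ext i j <;> fin_cases i <;> fin_cases j <;>
    simp [Matrix.mul_apply, Fin.sum_univ_two, Matrix.diagonal]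

theorem emb_one {F : Type*} [Field F] : emb (1 : Matrix (Fin 2) (Fin 2) F) = 1 := by
  rw [emb, ← Matrix.fromBlocks_one]
  congr 1 <;> ext i j <;> fin_cases i <;> fin_cases j <;> simp [Matrix.diagonal]

theorem emb_trace {F : Type*} [Field F] (C : Matrix (Fin 2) (Fin 2) F) : (emb C).trace = C.trace + 2 := by
  simp [emb, Matrix.trace, Fin.sum_univ_two]
  ring

/-- as a homomorphism -/
def embHom {F : Type*} [Field F] : Matrix.SpecialLinearGroup (Fin 2) F →* GL I4 F where
  toFun C := ⟨emb C, emb (C⁻¹ : Matrix.SpecialLinearGroup (Fin 2) F), by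
      rw [← emb_mul, ← Matrix.SpecialLinearGroup.coe_mul, mul_inv_cancel, Matrix.SpecialLinearGroup.coe_one, emb_one],
    by rw [← emb_mul, ← Matrix.SpecialLinearGroup.coe_mul, inv_mul_cancel, Matrix.SpecialLinearGroup.coe_one, emb_one]⟩
  map_one' := Units.ext (by
    change emb _ = 1
    rw [Matrix.SpecialLinearGroup.coe_one, emb_one])
  map_mul' C D := Units.ext (by
    change emb _ = emb _ * emb _
    rw [Matrix.SpecialLinearGroup.coe_mul, emb_mul])

theorem embHom_coe {F : Type*} [Field F] (C : Matrix.SpecialLinearGroup (Fin 2) F) :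
    ((embHom C : GL I4 F) : Matrix I4 I4 F) = emb C := rfl

theorem embHom_mem {F : Type*} [Field F] (C : Matrix.SpecialLinearGroup (Fin 2) F) : embHom C ∈ spGL 2 F := by
  rw [mem_spGL, ← mem_symplecticGroup_iff, embHom_coe, emb, SymplecticGroup.fromBlocks_mem_iff]
  have hdet := C.2
  rw [Matrix.det_fin_two] at hdet
  refine ⟨?_, ?_, ?_⟩
  · ext i j
    fin_cases i <;> fin_cases j <;> simp [Matrix.mul_apply, Fin.sum_univ_two, Matrix.diagonal, mul_comm]
  · ext i j
    fin_cases i <;> fin_cases j <;> simp [Matrix.mul_apply, Fin.sum_univ_two, Matrix.diagonal, mul_comm]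
  · ext i j
    fin_cases i <;> fin_cases j <;> simp [Matrix.mul_apply, Fin.sum_univ_two, Matrix.diagonal]
    linear_combination hdet

theorem scalar_sp {F : Type*} [Field F] {z : GL I4 F} (hz : z ∈ spGL 2 F) (hzs : z ∈ scalars I4 F) :
    z = 1 ∨ z = -1 := by
  obtain ⟨c, hc⟩ := (mem_scalars_iff' z).1 hzs
  have h1 := hz (Pi.single (Sum.inr 0) 1) (Pi.single (Sum.inl 0) 1)
  change sympForm 2 F ((z : Matrix I4 I4 F) *ᵥ _) ((z : Matrix I4 I4 F) *ᵥ _) = _ at h1
  rw [hc, Matrix.smul_mulVec, Matrix.smul_mulVec, Matrix.one_mulVec, Matrix.one_mulVec, sympForm_smul_left,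
    sympForm_smul_right, sympForm_single_inr_left, Pi.single_eq_same, mul_one] at h1
  rcases mul_self_eq_one_iff.1 h1 with h | h
  · left
    exact Units.ext (by rw [hc, h, one_smul]; rfl)
  · right
    exact Units.ext (by rw [hc, h, neg_smul, one_smul]; rfl)

theorem sp_trans {F : Type*} [Field F] (v : I4 → F) : ∃ T ∈ spGL 2 F, (T : Matrix I4 I4 F) = sympTransvection 2 v 1 ∧
    ∀ k : ℕ, ((T ^ k : GL I4 F) : Matrix I4 I4 F) = sympTransvection 2 v (k : F) := by
  have hmem := sympTransvection_mem v (1 : F)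
  have hdet := SymplecticGroup.symplectic_det hmem
  refine ⟨Matrix.GeneralLinearGroup.mk'' _ hdet, ?_, rfl, ?_⟩
  · rw [mem_spGL, ← mem_symplecticGroup_iff]
    exact hmem
  · intro k
    induction k with
    | zero => rw [pow_zero, Nat.cast_zero, sympTransvection_zero]; rfl
    | succ k ih =>
      rw [pow_succ, Units.val_mul, ih, Nat.cast_succ, ← sympTransvection_mul]
      rfl

/-- Elements of prime order of PSp_4(p), p odd, and the normalizer of an extraspecial 2-group of order 2⁵ of minus type. Here `T = PSp_4(F)` for the field `F` with `p` elements, `p` an odd prime, realised through the matrices preserving the standard alternating form `f`; `R` is an absolutely irreducible subgroup of `T` (it preserves `f`) that is a 2-group of symplectic type of exponent 4, order 2⁵ and centre of order 2, of minus type (no elementary abelian subgroup of order 2³), and `H` is the subgroup of `T` normalizing `R` — a subgroup of type 2^{1+4}.O₄⁻(2) (maximality is not assumed). Ω is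 the set of cosets of `H` in `T`, so an element of `T` of prime order `r` (`x ∈ T` with `x^r` scalar, `x` not scalar) fixes a point of Ω exactly when some `T`-conjugate of `x` normalizes `R`. Let `r` be a prime dividing the index of `H`. Then every element of `T` of order `r` fixes a point of Ω if and only if `r = 2`, or `r = 5` and `p` has multiplicative order 4 modulo 5. -/
theorem result {F : Type*} [Field F] [Fintype F] {p : ℕ} [Fact p.Prime] [CharP F p] (hF : Fintype.card F = p) (hodd : Odd p)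
    (R : Subgroup (GL (Fin 2 ⊕ Fin 2) F)) (hRs : Cfsg.Geo.IsSymplecticTypeGroup 2 R) (hRi : Cfsg.Geo.ActsAbsolutelyIrreducibly (Cfsg.Geo.matrixSet R))
    (hRf : R ≤ Cfsg.spGL 2 F) (hR5 : Nat.card R = 2 ^ 5) (hRZ : Nat.card (Subgroup.center R) = 2) (hRm : Cfsg.Geo.IsOfMinusType 2 R)
    (r : ℕ) [Fact r.Prime]
    (hΩ : r ∣ (Cfsg.Geo.subgroupNormalizer R).relIndex (Cfsg.spGL 2 F)) :
    (∀ x ∈ Cfsg.spGL 2 F, (∃ z : F, ((x ^ r : GL (Fin 2 ⊕ Fin 2) F) : Matrix (Fin 2 ⊕ Fin 2) (Fin 2 ⊕ Fin 2) F) = z • (1 : Matrix (Fin 2 ⊕ Fin 2) (Fin 2 ⊕ Fin 2) F)) →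
      (∀ z : F, (x : Matrix (Fin 2 ⊕ Fin 2) (Fin 2 ⊕ Fin 2) F) ≠ z • (1 : Matrix (Fin 2 ⊕ Fin 2) (Fin 2 ⊕ Fin 2) F)) →
      ∃ g ∈ Cfsg.spGL 2 F, g⁻¹ * x * g ∈ Cfsg.Geo.subgroupNormalizer R) ↔ (r = 2 ∨ (r = 5 ∧ orderOf (p : ZMod 5) = 4)) := by
  refine Iff.trans (lhs_iff _ _ _) ?_
  have hp : p.Prime := Fact.out
  have hr : r.Prime := Fact.out
  have h2 : (2 : F) ≠ 0 := by
    intro h
    have h1 : ((2 : ℕ) : F) = 0 := by simpa using h
    rw [CharP.cast_eq_zero_iff F p] at h1
    have h3 := (Nat.prime_dvd_prime_iff_eq hp Nat.prime_two).1 h1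
    rw [h3] at hodd
    exact absurd hodd (by decide)
  have hcast : ∀ q : ℕ, q.Prime → q ≠ p → (q : F) ≠ 0 := by
    intro q hq hqp h
    rw [CharP.cast_eq_zero_iff F p] at h
    exact hqp ((Nat.prime_dvd_prime_iff_eq hp hq).1 h).symm
  have E : Ext R := ext_of_symplectic h2 hRs hRi (by rw [hR5, hRZ]; norm_num) (by rw [hRZ])
  have hZ2 : Nat.card (R ⊓ scalars I4 F : Subgroup (GL I4 F)) = 2 := by rw [← card_center_eq E.c1, hRZ]
  have hn : Fintype.card I4 = 4 := by simp
  have hfinG : Finite (spGL 2 F) := inferInstance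
  constructor
  · intro L
    by_contra hcon
    push Not at hcon
    obtain ⟨hr2, hr5⟩ := hcon
    -- the general use of `L`
    have use : ∀ x ∈ spGL 2 F, x ^ r = 1 → x ∉ scalars I4 F → ∃ g ∈ spGL 2 F,
        g⁻¹ * x * g ∈ subgroupNormalizer R ∧ (g⁻¹ * x * g) ^ r = 1 ∧ g⁻¹ * x * g ∉ scalars I4 F := by
      intro x hx hxr hxs
      obtain ⟨g, hg, hgN⟩ := L x hx (by rw [hxr]; exact (scalars I4 F).one_mem) hxs
      refine ⟨g, hg, hgN, ?_, ?_⟩
      · have := conj_pow (i := r) (a := g⁻¹) (b := x)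
        rw [inv_inv] at this
        rw [this, hxr]; simp
      · intro h
        apply hxs
        have h1 : x = g * (g⁻¹ * x * g) * g⁻¹ := by group
        rw [h1, ← comm_of_scalar h, mul_inv_cancel_right]
        exact h
    by_cases hrp : r = p
    · -- transvections
      subst hrp
      set e : I4 → F := Pi.single (Sum.inl 0) 1 with he
      obtain ⟨T, hT, hTm, hTk⟩ := sp_trans e
      have hTr : T ^ r = 1 := by
        apply Units.ext
        rw [hTk, CharP.cast_eq_zero, sympTransvection_zero]; rfl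
      have hTs : T ∉ scalars I4 F := by
        intro h
        obtain ⟨c, hc⟩ := (mem_scalars_iff' T).1 h
        rw [hTm, sympTransvection] at hc
        have h1 := congrFun (congrFun hc (Sum.inl 0)) (Sum.inr 0)
        simp [he, Matrix.vecMulVec_apply, Matrix.J] at h1
      obtain ⟨g, hg, hgN, -, hgs⟩ := use T hT hTr hTs
      have hginv : ((g⁻¹ : GL I4 F) : Matrix I4 I4 F) ∈ Matrix.symplecticGroup (Fin 2) F := by
        rw [mem_symplecticGroup_iff]
        exact (mem_spGL _).1 ((spGL 2 F).inv_mem hg)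
      have hm : ((g⁻¹ * T * g : GL I4 F) : Matrix I4 I4 F) =
          sympTransvection 2 (((g⁻¹ : GL I4 F) : Matrix I4 I4 F) *ᵥ e) 1 := by
        rw [Units.val_mul, Units.val_mul, hTm, mul_sympTransvection hginv, Matrix.mul_assoc, ← Units.val_mul,
          inv_mul_cancel, Units.val_one, Matrix.mul_one]
      set e' := ((g⁻¹ : GL I4 F) : Matrix I4 I4 F) *ᵥ e with he'
      have hself : Matrix.vecMulVec e' (Matrix.J (Fin 2) F *ᵥ e') * Matrix.vecMulVec e' (Matrix.J (Fin 2) F *ᵥ e') = 0 := by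
        have h1 := sympTransvection_mul e' (1 : F) (-1)
        rw [add_neg_cancel, sympTransvection_zero, sympTransvection, sympTransvection] at h1
        have h3 : (1 + (1 : F) • Matrix.vecMulVec e' (Matrix.J (Fin 2) F *ᵥ e')) *
          (1 + (-1 : F) • Matrix.vecMulVec e' (Matrix.J (Fin 2) F *ᵥ e')) =
            1 - Matrix.vecMulVec e' (Matrix.J (Fin 2) F *ᵥ e') * Matrix.vecMulVec e' (Matrix.J (Fin 2) F *ᵥ e') := by
          rw [one_smul, neg_smul, one_smul]; noncomm_ring
        rw [h3] at h1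
        simpa using h1
      have h0 := no_transvection E (by rw [hn]; norm_num) hgN (a := e') (b := Matrix.J (Fin 2) F *ᵥ e')
        (by rw [hm, sympTransvection, one_smul]) hself
      apply hgs
      have h1 : g⁻¹ * T * g = 1 := by
        apply Units.ext
        rw [hm, sympTransvection, h0, smul_zero, add_zero]; rfl
      rw [h1]
      exact (scalars I4 F).one_mem
    · -- an element of order `r`
      have hrG : r ∣ Nat.card (spGL 2 F) := hΩ.trans (Subgroup.relIndex_dvd_card _ _)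
      have nonscalar : ∀ x ∈ spGL 2 F, x ^ r = 1 → x ≠ 1 → x ∉ scalars I4 F := by
        intro x hx hxr hx1 hs
        rcases scalar_sp hx hs with h | h
        · exact hx1 h
        · have h4 : x ^ 4 = 1 := by rw [h]; exact Even.neg_one_pow (by decide)
          exact hx1 (pow_eq_one_of_coprime h4 hxr (coprime_four hr hr2))
      obtain ⟨x0, hx0⟩ := exists_prime_orderOf_dvd_card' (G := spGL 2 F) r hrG
      have hx0r : (x0 : GL I4 F) ^ r = 1 := by
        have : x0 ^ r = 1 := orderOf_dvd_iff_pow_eq_one.1 (by rw [hx0])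
        exact congrArg Subtype.val this
      have hx01 : (x0 : GL I4 F) ≠ 1 := by
        intro h
        have h1 : x0 = 1 := Subtype.ext h
        rw [h1, orderOf_one] at hx0
        exact hr.one_lt.ne hx0
      obtain ⟨g, hg, hgN, hgr, hgs⟩ := use x0 x0.2 hx0r (nonscalar _ x0.2 hx0r hx01)
      have hcases := trace_cases E hn (by rw [hZ2]; norm_num) hr2 hgN
        (by rw [hgr]; exact (scalars I4 F).one_mem) hgs
      have h35 : r = 5 ∨ r = 3 := by
        rcases hcases with h | h
        · exact Or.inl h.1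
        · exact Or.inr h.1
      rcases h35 with h5 | h3
      · -- `r = 5`
        subst h5
        have h5F : ((5 : ℕ) : F) ≠ 0 := hcast 5 Nat.prime_five hrp
        have hord := hr5 rfl
        have hp5 : ¬ 5 ∣ p := fun h => hrp ((Nat.prime_dvd_prime_iff_eq Nat.prime_five hp).1 h)
        have hmod : p % 5 = 1 ∨ p % 5 = 4 := mod5_of_order hp5 hord
        have hdvd : 5 ∣ Nat.card (Matrix.SpecialLinearGroup (Fin 2) F) := by
          rw [Cfsg.Agent.ClassicalGeometry.PSL2Basic.card_SL2, hF]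
          apply Dvd.dvd.mul_left
          have h1 : 1 ≤ p ^ 2 := Nat.one_le_pow _ _ hp.pos
          rw [← Nat.modEq_iff_dvd' h1]
          rw [Nat.ModEq, Nat.pow_mod]
          rcases hmod with h | h <;> rw [h]
        obtain ⟨C, hC⟩ := exists_prime_orderOf_dvd_card' (G := Matrix.SpecialLinearGroup (Fin 2) F) 5 hdvd
        have hC5 : C ^ 5 = 1 := orderOf_dvd_iff_pow_eq_one.1 (by rw [hC])
        have hC1 : C ≠ 1 := by
          intro h
          rw [h, orderOf_one] at hC
          norm_num at hC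
        have hCm : (C : Matrix (Fin 2) (Fin 2) F) ≠ 1 := fun h => hC1 (Subtype.ext h)
        have hC5m : (C : Matrix (Fin 2) (Fin 2) F) ^ 5 = 1 := by
          rw [← Matrix.SpecialLinearGroup.coe_pow, hC5, Matrix.SpecialLinearGroup.coe_one]
        have htr := trace5 C.2 hC5m hCm
        have hx5 : (embHom C) ^ 5 = 1 := by rw [← map_pow, hC5, map_one]
        have hx1 : embHom C ≠ 1 := by
          intro h
          have h1 := congrArg (fun g : GL I4 F => (g : Matrix I4 I4 F)) h
          change emb (C : Matrix (Fin 2) (Fin 2) F) = 1 at h1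
          apply hCm
          rw [← emb_one, emb, emb, Matrix.fromBlocks_inj] at h1
          obtain ⟨a1, a2, a3, a4⟩ := h1
          have b1 := congrFun (congrFun a1 0) 0
          have b2 := congrFun (congrFun a2 0) 0
          have b3 := congrFun (congrFun a3 0) 0
          have b4 := congrFun (congrFun a4 0) 0
          simp only [Matrix.diagonal_apply_eq, Matrix.cons_val_zero] at b1 b2 b3 b4
          ext i j
          fin_cases i <;> fin_cases j
          · exact b1
          · exact b2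
          · exact b3
          · exact b4
        obtain ⟨g, hg, hgN, hgr, hgs⟩ := use _ (embHom_mem C) hx5 (nonscalar _ (embHom_mem C) hx5 hx1)
        have hcases := trace_cases E hn (by rw [hZ2]; norm_num) hr2 hgN
          (by rw [hgr]; exact (scalars I4 F).one_mem) hgs
        rcases hcases with ⟨-, -, h⟩ | ⟨h, -⟩
        · have e1 : (g⁻¹ * embHom C * g)⁻¹ = g⁻¹ * embHom C⁻¹ * g := by rw [map_inv]; group
          rw [e1, conj_trace, conj_trace, embHom_coe, embHom_coe, emb_trace, emb_trace] at h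
          have e2 : ((C⁻¹ : Matrix.SpecialLinearGroup (Fin 2) F) : Matrix (Fin 2) (Fin 2) F).trace =
              (C : Matrix (Fin 2) (Fin 2) F).trace := by
            rw [Matrix.SpecialLinearGroup.coe_inv, Matrix.adjugate_fin_two]
            simp [Matrix.trace, Fin.sum_univ_two, add_comm]
          rw [e2] at h
          exact trace5_ne (by exact_mod_cast h5F) htr h
        · norm_num at h
      · -- `r = 3`
        subst h3
        have h3F : ((3 : ℕ) : F) ≠ 0 := hcast 3 Nat.prime_three hrp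
        set C : Matrix.SpecialLinearGroup (Fin 2) F := ⟨!![0, -1; 1, -1], by rw [Matrix.det_fin_two]; simp⟩ with hC
        have hC3 : C ^ 3 = 1 := by
          apply Subtype.ext
          rw [Matrix.SpecialLinearGroup.coe_pow, Matrix.SpecialLinearGroup.coe_one, pow_succ, pow_succ, pow_one]
          ext i j
          fin_cases i <;> fin_cases j <;> simp [hC, Matrix.mul_apply, Fin.sum_univ_two]
        have hx3 : (embHom C) ^ 3 = 1 := by rw [← map_pow, hC3, map_one]
        have hx1 : embHom C ≠ 1 := by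
          intro h
          have h1 := congrArg (fun g : GL I4 F => (g : Matrix I4 I4 F)) h
          change emb (C : Matrix (Fin 2) (Fin 2) F) = 1 at h1
          rw [← emb_one, emb, emb, Matrix.fromBlocks_inj] at h1
          have b1 := congrFun (congrFun h1.1 0) 0
          simp [hC] at b1
        obtain ⟨g, hg, hgN, hgr, hgs⟩ := use _ (embHom_mem C) hx3 (nonscalar _ (embHom_mem C) hx3 hx1)
        have hcases := trace_cases E hn (by rw [hZ2]; norm_num) hr2 hgN
          (by rw [hgr]; exact (scalars I4 F).one_mem) hgs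
        have e1 : (g⁻¹ * embHom C * g)⁻¹ = g⁻¹ * embHom C⁻¹ * g := by rw [map_inv]; group
        have e2 : ((C⁻¹ : Matrix.SpecialLinearGroup (Fin 2) F) : Matrix (Fin 2) (Fin 2) F).trace =
            (C : Matrix (Fin 2) (Fin 2) F).trace := by
          rw [Matrix.SpecialLinearGroup.coe_inv, Matrix.adjugate_fin_two]
          simp [Matrix.trace, Fin.sum_univ_two, add_comm]
        have e3 : (C : Matrix (Fin 2) (Fin 2) F).trace = -1 := by
          simp [hC, Matrix.trace, Fin.sum_univ_two]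
        rcases hcases with ⟨h, -⟩ | ⟨-, ⟨h, -⟩ | ⟨-, h⟩⟩
        · norm_num at h
        · exact no_fpf_of_minus E hRm hZ2 hgN (by rw [hgr]; exact (scalars I4 F).one_mem) h
        · rw [e1, conj_trace, conj_trace, embHom_coe, embHom_coe, emb_trace, emb_trace, e2, e3] at h
          apply h3F
          push_cast
          linear_combination -h
  · have hsp2 : ∀ x ∈ spGL 2 F, ∀ k, x ^ k ∈ scalars I4 F → x ^ k = 1 ∨ x ^ k = -1 := fun x hx k hk =>
      scalar_sp ((spGL 2 F).pow_mem hx k) hk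
    obtain ⟨u, v, s, t, P⟩ := E.exists_pauli_of_minus hRm
    rintro (rfl | ⟨rfl, hord⟩)
    · intro x hx hxr hxs
      have hus : u ∉ scalars I4 F := E.not_scalar_of_anti P.vu
      have key : ∃ y ∈ R, ∃ g ∈ spGL 2 F, g⁻¹ * x * g = y := by
        rcases hsp2 x hx 2 hxr with h | h
        · rw [pow_two] at h
          refine ⟨u, P.hu, ?_⟩
          have hnn : ∀ w : GL I4 F, w ∉ scalars I4 F → w ≠ 1 ∧ w ≠ -1 := by
            intro w hw
            constructor
            · rintro rfl; exact hw (scalars I4 F).one_mem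
            · rintro rfl; exact hw ((mem_scalars_iff' _).2 ⟨-1, by simp⟩)
          exact conj_of_frames _ (frame_of_invol h2 hx h (hnn x hxs).1 (hnn x hxs).2)
            (frame_of_invol h2 (hRf P.hu) P.uu (hnn u hus).1 (hnn u hus).2)
        · rw [pow_two] at h
          exact ⟨s, P.hs, conj_of_frames _ (frame_of_quart h2 hx h) (frame_of_quart h2 (hRf P.hs) P.ss)⟩
      obtain ⟨y, hy, g, hg, hgy⟩ := key
      exact ⟨g, hg, by rw [hgy]; exact le_normalizer R hy⟩
    · intro x hx hxr hxs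
      have h5p : p ≠ 5 := fun h => ne_five_of_order hord (by rw [h])
      have h5F : ((5 : ℕ) : F) ≠ 0 := hcast 5 Nat.prime_five (Ne.symm h5p)
      have hneg : (-1 : GL I4 F) ∈ spGL 2 F := hRf E.neg
      have hnegs : (-1 : GL I4 F) ∈ scalars I4 F := (mem_scalars_iff' _).2 ⟨-1, by simp⟩
      -- normalise
      have norm5 : ∀ w ∈ spGL 2 F, w ^ 5 ∈ scalars I4 F → ∃ ε : GL I4 F, (ε = 1 ∨ ε = -1) ∧ (ε * w) ^ 5 = 1 := by
        intro w hw hw5
        rcases hsp2 w hw 5 hw5 with h | h
        · exact ⟨1, Or.inl rfl, by rw [one_mul, h]⟩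
        · refine ⟨-1, Or.inr rfl, ?_⟩
          rw [neg_one_mul, Odd.neg_pow (by decide), h, neg_neg]
      obtain ⟨ε, hε, hεw⟩ := norm5 (w5 h2 P) (w5_mem spStarG hRf h2 P) (w5_pow_scalar E.c1 h2 P)
      obtain ⟨δ, hδ, hδx⟩ := norm5 x hx hxr
      have hsg : ∀ ε : GL I4 F, (ε = 1 ∨ ε = -1) → ε ∈ spGL 2 F ∧ ε ∈ scalars I4 F := by
        rintro ε (rfl | rfl)
        · exact ⟨(spGL 2 F).one_mem, (scalars I4 F).one_mem⟩
        · exact ⟨hneg, hnegs⟩
      have hw1 : ε * w5 h2 P ≠ 1 := by
        intro h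
        apply w5_not_scalar h2 P
        have h1 : w5 h2 P = ε⁻¹ := (inv_eq_of_mul_eq_one_right h).symm
        rw [h1]
        exact (scalars I4 F).inv_mem (hsg ε hε).2
      obtain ⟨g, hg, hgN⟩ := conj_into (G := spGL 2 F) (N := subgroupNormalizer R) (r := 5) (by exact_mod_cast h5F)
        (fun x _ hx hx1 => norms_of_order4 hF hord hn hx hx1)
        (y := ε * w5 h2 P) ((spGL 2 F).mul_mem (hsg ε hε).1 (w5_mem spStarG hRf h2 P))
        ((subgroupNormalizer R).mul_mem (scalars_le_normalizer R (hsg ε hε).2) (w5_mem_normalizer h2 P))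
        hεw hw1 (x := δ * x) ((spGL 2 F).mul_mem (hsg δ hδ).1 hx) hδx
      refine ⟨g, hg, ?_⟩
      have h1 : g⁻¹ * x * g = δ⁻¹ * (g⁻¹ * (δ * x) * g) := by
        have h3 : δ⁻¹ * g⁻¹ = g⁻¹ * δ⁻¹ := comm_of_scalar ((scalars I4 F).inv_mem (hsg δ hδ).2) _
        calc g⁻¹ * x * g = g⁻¹ * δ⁻¹ * (δ * x) * g := by group
          _ = δ⁻¹ * g⁻¹ * (δ * x) * g := by rw [h3]
          _ = _ := by group
      rw [h1]
      exact (subgroupNormalizer R).mul_mem
        (scalars_le_normalizer R ((scalars I4 F).inv_mem (hsg δ hδ).2)) hgN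

end Cfsg.Agent.S6002
end
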